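import Cfsg.Agent.H4.As9

/-! Aschbacher's theorem, part 10: adjoints and commutative algebras relative to a form. -/

set_option autoImplicit false
set_option linter.unusedSectionVars false

namespace Cfsg.Agent.H4.As

open Matrix Module Cfsg.Geo
open scoped MatrixGroups Kronecker commutatorElement

variable {ι κ : Type} [Fintype ι] [DecidableEq ι] [Fintype κ] [DecidableEq κ] {F : Type*} [Field F]
  {G H N R : Subgroup (GL ι F)} {σ : F →+* F} {J : Matrix ι ι F} {ε : F}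

/-- a non-degenerate reflexive form given by its Gram matrix -/
structure Rf (σ : F →+* F) (J : Matrix ι ι F) (ε : F) : Prop where
  inv : ∀ a, σ (σ a) = a
  unit : IsUnit J
  swap : (J.map σ)ᵀ = ε • J
  eps : ε = 1 ∨ ε = -1

/-- the adjoint -/
noncomputable def ad (σ : F →+* F) (J a : Matrix ι ι F) : Matrix ι ι F := (J⁻¹ * aᵀ * J).map σ

/-- closed under adjoints -/
def AdC (σ : F →+* F) (J : Matrix ι ι F) (K : Subalgebra F (Matrix ι ι F)) : Prop :=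
  ∀ a ∈ K, ad σ J a ∈ K

theorem ad_add (a b : Matrix ι ι F) : ad σ J (a + b) = ad σ J a + ad σ J b := by
  simp only [ad, transpose_add, mul_add, add_mul, Matrix.map_add _ (map_add σ)]

theorem ad_smul (c : F) (a : Matrix ι ι F) : ad σ J (c • a) = σ c • ad σ J a := by
  ext; simp [ad, -Matrix.map_mul]

theorem ad_zero : ad σ J 0 = 0 := by ext; simp [ad]

theorem ad_neg (a : Matrix ι ι F) : ad σ J (-a) = -ad σ J a := by
  ext; simp [ad, -Matrix.map_mul]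

theorem ad_sub (a b : Matrix ι ι F) : ad σ J (a - b) = ad σ J a - ad σ J b := by
  rw [sub_eq_add_neg, ad_add, ad_neg, sub_eq_add_neg]

theorem fm_zero_left (v : ι → F) : fm σ J 0 v = 0 := by simp [fm]

theorem fm_zero_right (v : ι → F) : fm σ J v 0 = 0 := by
  simpa using fm_smul_right (σ := σ) (J := J) 0 v 0

theorem mem_isoG {g : GL ι F} : g ∈ isoG σ J ↔ Sm σ J (g : Matrix ι ι F) 1 := Iff.rfl

theorem iso_fm {g : GL ι F} (h : g ∈ isoG σ J) (u v : ι → F) :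
    fm σ J ((g : Matrix ι ι F) *ᵥ u) ((g : Matrix ι ι F) *ᵥ v) = fm σ J u v :=
  (sm_iff.1 h u v).trans (one_mul _)

namespace Rf

variable (h : Rf σ J ε)
include h

theorem map_map (a : Matrix κ κ F) : (a.map σ).map σ = a := by ext; simp [h.inv]

theorem surj : Function.Surjective σ := fun a => ⟨σ a, h.inv a⟩

theorem eps_mul : ε * ε = 1 := by rcases h.eps with h | h <;> simp [h]

theorem eps_ne : ε ≠ 0 := left_ne_zero_of_mul_eq_one h.eps_mul

theorem map_eps : σ ε = ε := by rcases h.eps with h | h <;> simp [h]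

theorem symm (u v : ι → F) : fm σ J v u = ε * σ (fm σ J u v) := by
  rw [fm_swap h.inv, h.swap, fm_smul, ← mul_assoc, h.eps_mul, one_mul]

theorem zero_symm {u v : ι → F} (h1 : fm σ J u v = 0) : fm σ J v u = 0 := by
  rw [h.symm, h1, map_zero, mul_zero]

theorem nondeg : IsNondegenerateForm (fm σ J) := nondeg_fm h.surj h.unit

theorem eq_zero {v : ι → F} (h1 : ∀ u, fm σ J u v = 0) : v = 0 :=
  by_contra fun h0 => let ⟨u, hu⟩ := (h.nondeg v h0).1; hu (h1 u)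

theorem ad_spec (a : Matrix ι ι F) : aᵀ * J = J * (ad σ J a).map σ := by
  rw [ad, h.map_map, ← mul_assoc, ← mul_assoc,
    mul_nonsing_inv _ ((isUnit_iff_isUnit_det _).1 h.unit), one_mul]

theorem fm_ad (a : Matrix ι ι F) (u v : ι → F) :
    fm σ J (a *ᵥ u) v = fm σ J u (ad σ J a *ᵥ v) := by rw [fm_left, fm_right, h.ad_spec]

theorem ad_eq' {a b : Matrix ι ι F} (h1 : aᵀ * J = J * b.map σ) : ad σ J a = b := by
  rw [h.ad_spec, h.unit.mul_right_inj] at h1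
  rw [← h.map_map (ad σ J a), h1, h.map_map]

theorem ad_eq {a b : Matrix ι ι F} (h1 : ∀ u v, fm σ J (a *ᵥ u) v = fm σ J u (b *ᵥ v)) :
    ad σ J a = b := h.ad_eq' (fm_inj fun u v => by rw [← fm_left, ← fm_right, h1])

theorem fm_ad' (a : Matrix ι ι F) (u v : ι → F) :
    fm σ J (ad σ J a *ᵥ u) v = fm σ J u (a *ᵥ v) := by rw [h.symm v, ← h.fm_ad, ← h.symm]

@[simp] theorem ad_ad (a : Matrix ι ι F) : ad σ J (ad σ J a) = a := h.ad_eq (h.fm_ad' a)

theorem ad_inj {a b : Matrix ι ι F} (h1 : ad σ J a = ad σ J b) : a = b := by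
  rw [← h.ad_ad a, h1, h.ad_ad]

theorem ad_mul (a b : Matrix ι ι F) : ad σ J (a * b) = ad σ J b * ad σ J a :=
  h.ad_eq fun u v => by rw [← mulVec_mulVec, h.fm_ad, h.fm_ad, mulVec_mulVec]

theorem ad_one : ad σ J 1 = 1 := h.ad_eq fun u v => by rw [one_mulVec, one_mulVec]

theorem ad_pow (a : Matrix ι ι F) (n : ℕ) : ad σ J (a ^ n) = ad σ J a ^ n := by
  induction n with
  | zero => simp [h.ad_one]
  | succ n ih => rw [pow_succ, h.ad_mul, ih, pow_succ']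

theorem ad_ne {a : Matrix ι ι F} (h0 : a ≠ 0) : ad σ J a ≠ 0 := fun h1 =>
  h0 (h.ad_inj (h1.trans ad_zero.symm))

theorem ad_sm {g : GL ι F} {c : F} (hg : Sm σ J g c) :
    ad σ J g = σ c • ((g⁻¹ : GL ι F) : Matrix ι ι F) :=
  h.ad_eq fun u v => by
    rw [smul_mulVec, fm_smul_right, h.inv, ← sm_iff.1 hg, mulVec_inv]

theorem ad_val {g : GL ι F} (hg : g ∈ isoG σ J) : ad σ J g = ((g⁻¹ : GL ι F) : Matrix ι ι F) := by
  rw [h.ad_sm hg, map_one, one_smul]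

theorem ad_cj_sm [Nonempty ι] {g : GL ι F} {c : F} (hg : Sm σ J g c) (a : Matrix ι ι F) :
    ad σ J (cj g a) = cj g (ad σ J a) := by
  have h0 := hg.ne_zero h.unit
  rw [cj_apply, h.ad_mul, h.ad_mul, h.ad_sm hg, h.ad_sm (hg.inv h0), inv_inv, cj_apply, mul_smul_comm,
    mul_smul_comm, smul_mul_assoc, smul_smul, ← map_mul, mul_inv_cancel₀ h0, map_one, one_smul, mul_assoc]

theorem ad_cj {g : GL ι F} (hg : g ∈ isoG σ J) (a : Matrix ι ι F) :
    ad σ J (cj g a) = cj g (ad σ J a) := by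
  rw [cj_apply, h.ad_mul, h.ad_mul, h.ad_val hg, h.ad_val (inv_mem hg), inv_inv, cj_apply, mul_assoc]

theorem adC_alg (hN : N ≤ isoG σ J) : AdC σ J (alg N) := fun _ ha =>
  alg_induction (p := fun a => ad σ J a ∈ alg N)
    (fun g hg => by rw [h.ad_val (hN hg)]; exact val_mem_alg (inv_mem hg))
    (by rw [ad_zero]; exact zero_mem _) (fun a b ha hb => by rw [ad_add]; exact add_mem ha hb)
    (fun c a ha => by rw [ad_smul]; exact Subalgebra.smul_mem _ ha _) ha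

theorem adC_ctr [Nonempty ι] {A : Subalgebra F (Matrix ι ι F)} (hA : AdC σ J A) : AdC σ J (ctr A) :=
  fun a ha => mem_ctr.2 ⟨hA a (mem_ctr.1 ha).1, fun b hb => h.ad_inj (by
    rw [h.ad_mul, h.ad_mul, h.ad_ad, (mem_ctr.1 ha).2 _ (hA b hb)])⟩

theorem adC_iff {K : Subalgebra F (Matrix ι ι F)} : IsAdjointClosedFor (fm σ J) K ↔ AdC σ J K :=
  ⟨fun h1 a ha => let ⟨_, hb, h2⟩ := h1 a ha; h.ad_eq h2 ▸ hb, fun h1 a ha => ⟨_, h1 a ha, h.fm_ad a⟩⟩

theorem sa_iff {K : Subalgebra F (Matrix ι ι F)} :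
    IsSelfAdjointFor (fm σ J) K ↔ ∀ a ∈ K, ad σ J a = a :=
  ⟨fun h1 a ha => h.ad_eq (h1 a ha), fun h1 a ha u v => by rw [h.fm_ad, h1 a ha]⟩

theorem smul_herm {c : F} (hc : c ≠ 0) (h1 : σ c = c) : Rf σ (c • J) ε :=
  ⟨h.inv, isUnit_smul hc h.unit, by
    rw [smul_comm, ← h.swap]; ext; simp [h1], h.eps⟩

theorem cong (P : GL ι F) : Rf σ ((P : Matrix ι ι F)ᵀ * J * (P : Matrix ι ι F).map σ) ε :=
  ⟨h.inv, ((isUnit_transpose _).2 P.isUnit |>.mul h.unit).mul (isUnit_map P.isUnit), by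
    rw [Matrix.map_mul, Matrix.map_mul, h.map_map, transpose_mul, transpose_mul, h.swap, transpose_map,
      transpose_transpose, smul_mul_assoc, mul_smul_comm, mul_assoc], h.eps⟩

end Rf

/-- a non-degenerate decomposition permuted transitively -/
def ND (σ : F →+* F) (J : Matrix ι ι F) (H : Subgroup (GL ι F)) (m : ℕ) : Prop :=
  ∃ (t : ℕ) (D : Fin t → Submodule F (ι → F)), IsNondegenerateMDecomposition (fm σ J) m D ∧
    H ≤ decompositionStabilizer D ∧ ∀ i j, ∃ g ∈ H, (D i).map (toLin' (g : Matrix ι ι F)) = D j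

/-- a decomposition into two totally isotropic subspaces -/
def TI (σ : F →+* F) (J : Matrix ι ι F) (H : Subgroup (GL ι F)) : Prop :=
  ∃ (m : ℕ) (D : Fin 2 → Submodule F (ι → F)), 2 * m = Fintype.card ι ∧ IsMDecomposition m D ∧
    (∀ i, IsTotallySingularFor (fm σ J) (D i)) ∧ H ≤ decompositionStabilizer D

/-- an element of trace one -/
def Hf (σ : F →+* F) (J : Matrix ι ι F) (H : Subgroup (GL ι F)) : Prop :=
  ∃ k, k + ad σ J k = 1 ∧ ∀ g ∈ H, cj g k = k ∨ cj g k = ad σ J k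

variable [Fintype F]

theorem Rf.nd_of_idS (h : Rf σ J ε) (hI : Irr H) {E : Set (Matrix ι ι F)} (hE : IdS H E) (h1 : E ≠ {1})
    (hs : ∀ e ∈ E, ad σ J e = e) : ∃ m, ND σ J H m ∧ ∀ e ∈ E, finrank F (rg e) = m := by
  obtain ⟨t, m, e, hi, hr, -, h2, h3⟩ := hE.decomp hI h1
  have he : ∀ i, e i ∈ E := fun i => hr ▸ ⟨i, rfl⟩
  refine ⟨m, ⟨t, _, ⟨h2, fun i w hw h0 => ?_, fun i j hij => ?_⟩, h3, fun i j => ?_⟩, fun d hd => ?_⟩
  · obtain ⟨x, hx⟩ := (h.nondeg w h0).1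
    have : fm σ J (e i *ᵥ x) w ≠ 0 := by
      rwa [h.fm_ad, hs _ (he i), (mem_rg_idem (hE.idem _ (he i))).1 hw]
    exact ⟨⟨_, ⟨x, rfl⟩, this⟩, _, ⟨x, rfl⟩, fun h4 => this (h.zero_symm h4)⟩
  · rintro _ ⟨u, rfl⟩ _ ⟨v, rfl⟩
    rw [toLin'_apply, toLin'_apply, h.fm_ad, hs _ (he i), mulVec_mulVec,
      hE.orth _ (he i) _ (he j) (hi.ne hij), zero_mulVec, fm_zero_right]
  · obtain ⟨g, hg, h4⟩ := hE.trans hI (he i) (he j)
    exact ⟨g, hg, by rw [map_rg, h4]⟩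
  · rw [← hr] at hd
    obtain ⟨i, rfl⟩ := hd
    exact h2.finrank_eq i

theorem Rf.ti_of [Nonempty ι] (h : Rf σ J ε) (hH : H ≤ isoG σ J) (hI : Irr H) {e : Matrix ι ι F}
    (h1 : e * e = e) (h2 : e + ad σ J e = 1) (h3 : ∀ g ∈ H, cj g e = e ∨ cj g e = ad σ J e) :
    TI σ J H := by
  have h4 : ad σ J e = 1 - e := eq_sub_of_add_eq' h2
  have h5 : e * ad σ J e = 0 := by rw [h4, mul_sub, mul_one, h1, sub_self]
  have h6 : ad σ J e * e = 0 := by rw [h4, sub_mul, one_mul, h1, sub_self]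
  have h0 : e ≠ 0 := by rintro rfl; simp [ad_zero] at h2
  have hne : e ≠ ad σ J e := fun h7 => h0 (by rw [← h1]; nth_rw 2 [h7]; exact h5)
  have hE : IdS H {e, ad σ J e} := by
    refine ⟨?_, ?_, ?_, fun g hg => ?_, ⟨e, .inl rfl⟩⟩
    · rintro _ (rfl | rfl)
      exacts [h1, by rw [← h.ad_mul, h1]]
    · rintro _ (rfl | rfl)
      exacts [h0, h.ad_ne h0]
    · rintro _ (rfl | rfl) _ (rfl | rfl) h7
      exacts [absurd rfl h7, h5, h6, absurd rfl h7]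
    · rintro _ (rfl | rfl)
      · exact h3 g hg
      · rw [← h.ad_cj (hH hg)]
        rcases h3 g hg with h7 | h7 <;> rw [h7]
        exacts [.inr rfl, .inl (h.ad_ad e)]
  obtain ⟨t, m, d, hi, hr, -, h7, h8⟩ := hE.decomp hI fun h7 => hne (by
    rw [(h7.le (.inl rfl) : e = 1), h.ad_one])
  obtain rfl : t = 2 := by
    have := Set.ncard_range_of_injective hi
    rw [hr, Set.ncard_pair hne] at this
    simpa using this.symm
  refine ⟨m, _, h7.as_card, h7, fun i => ?_, h8⟩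
  rintro _ ⟨u, rfl⟩ _ ⟨v, rfl⟩
  rw [toLin'_apply, toLin'_apply, h.fm_ad, mulVec_mulVec]
  rcases (hr.le ⟨i, rfl⟩ : d i = e ∨ d i = _) with h9 | h9 <;> rw [h9]
  · rw [h6, zero_mulVec, fm_zero_right]
  · rw [h.ad_ad, h5, zero_mulVec, fm_zero_right]

/-- the commutative black box -/
theorem Rf.comm [Nonempty ι] (h : Rf σ J ε) (hH : H ≤ isoG σ J) (hI : Irr H)
    {K : Subalgebra F (Matrix ι ι F)} (hK : Nrm H K) (hc : ∀ a ∈ K, ∀ b ∈ K, a * b = b * a)
    (ha : AdC σ J K) (h0 : K ≠ ⊥) : (∃ m, ND σ J H m) ∨ (TI σ J H ∧ Hf σ J H) ∨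
    ∃ r K', r.Prime ∧ K' ≤ K ∧ IsFieldSubalgebra r K' ∧ Nrm H K' ∧ AdC σ J K' := by
  rcases comm_cases hI hK hc with h1 | h1
  swap
  · obtain ⟨r, hr, h2⟩ := Nat.exists_prime_and_dvd (one_lt_finrank h0).ne'
    obtain ⟨K', h2, h3⟩ := exists_subfield hc h1 h2
    exact .inr (.inr ⟨r, K', hr, fun x hx => ((h3 x).1 hx).1, h2, nrm_subfield hK h3, fun x hx =>
      (h3 _).2 ⟨ha x ((h3 x).1 hx).1, by rw [← h.ad_pow, ((h3 x).1 hx).2]⟩⟩)
  have hE := idS_PI hK hc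
  have hP : ∀ e ∈ PI K, ad σ J e ∈ PI K := fun e he => ⟨ha e he.1, by rw [← h.ad_mul, he.2.1],
    h.ad_ne he.2.2.1, fun d hd h2 => (he.2.2.2 _ (ha d hd) (by rw [← h.ad_mul, h2])).imp
      (fun h3 => by rw [hc d hd _ (ha e he.1), ← h.ad_ad d, ← h.ad_mul, h3, ad_zero])
      fun h3 => by rw [hc d hd _ (ha e he.1), ← h.ad_ad d, ← h.ad_mul, h3]⟩
  by_cases h2 : ∀ e ∈ PI K, ad σ J e = e
  · exact .inl ((h.nd_of_idS hI hE h1 h2).imp fun _ h => h.1)
  push Not at h2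
  obtain ⟨e, he, h2⟩ := h2
  have h3 : ∀ d ∈ PI K, d ≠ ad σ J d := fun d hd h3 => by
    obtain ⟨g, hg, rfl⟩ := hE.trans hI hd he
    exact h2 (by rw [h.ad_cj (hH hg), ← h3])
  have h4 : ∀ d ∈ PI K, d * (d + ad σ J d) = d := fun d hd => by
    rw [mul_add, hE.idem d hd, hE.orth d hd _ (hP d hd) (h3 d hd), add_zero]
  have h5 : ∀ d ∈ PI K, ∀ d' ∈ PI K, d * (d' + ad σ J d') ≠ 0 → d = d' ∨ d = ad σ J d' :=
    fun d hd d' hd' h5 => by
      by_contra! h6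
      exact h5 (by rw [mul_add, hE.orth d hd _ hd' h6.1, hE.orth d hd _ (hP _ hd') h6.2, add_zero])
  have hE' : IdS H ((fun d => d + ad σ J d) '' PI K) := by
    refine ⟨?_, ?_, ?_, fun g hg => ?_, ⟨_, e, he, rfl⟩⟩
    · rintro _ ⟨d, hd, rfl⟩
      have := h4 _ (hP d hd)
      rw [h.ad_ad, add_comm] at this
      simp only
      rw [add_mul, h4 d hd, this]
    · rintro _ ⟨d, hd, rfl⟩ h6
      exact hE.ne d hd (by rw [← h4 d hd]; simp only at h6; rw [h6, mul_zero])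
    · rintro _ ⟨d, hd, rfl⟩ _ ⟨d', hd', rfl⟩ h6
      simp only at h6 ⊢
      have h7 : ∀ x ∈ PI K, x + ad σ J x = d + ad σ J d → x * (d' + ad σ J d') = 0 := fun x hx h7 => by
        by_contra h8
        rcases h5 x hx d' hd' h8 with rfl | rfl
        · exact h6 h7.symm
        · exact h6 (by rw [← h7, h.ad_ad, add_comm])
      rw [add_mul, h7 d hd rfl, h7 _ (hP d hd) (by rw [h.ad_ad, add_comm]), add_zero]
    · rintro _ ⟨d, hd, rfl⟩
      exact ⟨_, hE.nrm g hg d hd, by simp only [map_add, h.ad_cj (hH hg)]⟩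
  by_cases h6 : (fun d => d + ad σ J d) '' PI K = {1}
  · have h7 : e + ad σ J e = 1 := h6.le ⟨e, he, rfl⟩
    have h8 : ∀ g ∈ H, cj g e = e ∨ cj g e = ad σ J e := fun g hg =>
      h5 _ (hE.nrm g hg e he) e he (by rw [h7, mul_one]; exact hE.ne _ (hE.nrm g hg e he))
    exact .inr (.inl ⟨h.ti_of hH hI (hE.idem e he) h7 h8, e, h7, h8⟩)
  · refine .inl ((h.nd_of_idS hI hE' h6 ?_).imp fun _ h => h.1)
    rintro _ ⟨d, -, rfl⟩
    rw [ad_add, h.ad_ad, add_comm]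

end Cfsg.Agent.H4.As
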