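import Cfsg.Agent.H4.As10

/-! Aschbacher's theorem, part 11: fields and tensor decompositions relative to a form. -/

set_option autoImplicit false
set_option linter.unusedSectionVars false

namespace Cfsg.Agent.H4.As

open Matrix Module Cfsg.Geo
open scoped MatrixGroups Kronecker commutatorElement

variable {ι κ : Type} [Fintype ι] [DecidableEq ι] [Fintype κ] [DecidableEq κ] {F : Type*} [Field F]
  [Fintype F] {G H N R : Subgroup (GL ι F)} {σ : F →+* F} {J : Matrix ι ι F} {ε : F}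

section field

variable [Nonempty ι] {K : Subalgebra F (Matrix ι ι F)} {r : ℕ}

theorem isSc_of_pow (hK : IsFieldSubalgebra r K) {y : Matrix ι ι F} (hy : y ∈ K)
    (h : y ^ Fintype.card F = y) : IsSc y := by
  obtain ⟨K', h1, h2⟩ := exists_subfield hK.comm hK.inv (one_dvd _)
  rw [isSc_iff_bot, ← Subalgebra.eq_bot_of_finrank_one h1.finrank_eq]
  exact (h2 y).2 ⟨hy, by rwa [pow_one]⟩

/-- the adjoint as an automorphism of a commutative algebra -/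
noncomputable def Rf.adK (h : Rf σ J ε) (hc : ∀ a ∈ K, ∀ b ∈ K, a * b = b * a) (ha : AdC σ J K) :
    K ≃+* K where
  toFun x := ⟨_, ha _ x.2⟩
  invFun x := ⟨_, ha _ x.2⟩
  left_inv x := Subtype.ext (h.ad_ad _)
  right_inv x := Subtype.ext (h.ad_ad _)
  map_mul' x y := Subtype.ext ((h.ad_mul _ _).trans (hc _ (ha _ y.2) _ (ha _ x.2)))
  map_add' _ _ := Subtype.ext (ad_add _ _)

theorem Rf.sc_of_two (h : Rf σ J ε) (hK : IsFieldSubalgebra 2 K) (ha : AdC σ J K)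
    (h1 : ∃ x ∈ K, ad σ J x ≠ x) {y : Matrix ι ι F} (hy : y ∈ K) (h2 : ad σ J y = y) : IsSc y := by
  let _ := (isField_of hK.comm hK.inv).toField
  have : Finite K := Module.finite_of_finite F
  have := Fintype.ofFinite K
  let α := h.adK hK.comm ha
  have h3 : orderOf α = 2 := orderOf_eq_prime (RingEquiv.ext fun x => Subtype.ext (h.ad_ad _)) fun h3 =>
    let ⟨x, hx, h4⟩ := h1; h4 (congrArg Subtype.val (RingEquiv.congr_fun h3 ⟨x, hx⟩))
  have h4 := card_fx α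
  rw [h3, Module.card_eq_pow_finrank (K := F), hK.finrank_eq] at h4
  have h5 := Nat.pow_left_injective two_ne_zero h4
  have hy' : (⟨y, hy⟩ : K) ∈ fx α := fun g =>
    (Subgroup.zpowers_le (g := α) (H := MulAction.stabilizer _ (⟨y, hy⟩ : K))).2 (Subtype.ext h2) g.2
  have := Fintype.ofFinite (fx α)
  have h6 := FiniteField.pow_card (⟨_, hy'⟩ : fx α)
  rw [← Nat.card_eq_fintype_card, ← h5] at h6
  exact isSc_of_pow hK hy (congrArg (fun z : fx α => ((z : K) : Matrix ι ι F)) h6)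

theorem Rf.odd_deg (h : Rf σ J ε) (hσ : σ ≠ RingHom.id F) (hr : r.Prime) (hK : IsFieldSubalgebra r K)
    (ha : AdC σ J K) : Odd r := by
  refine hr.eq_two_or_odd'.resolve_left ?_
  rintro rfl
  obtain ⟨c, hc⟩ := not_forall.1 fun h => hσ (RingHom.ext h)
  have h1 : ∃ x ∈ K, ad σ J x ≠ x := ⟨c • 1, K.smul_mem K.one_mem c, fun h1 => hc (by
    rw [ad_smul, h.ad_one] at h1
    exact smul_left_injective F one_ne_zero h1)⟩
  have : K = ⊥ := eq_bot_iff.2 fun x hx => by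
    obtain ⟨a, h2⟩ := h.sc_of_two hK ha h1 (K.add_mem hx (ha x hx)) (by rw [ad_add, h.ad_ad, add_comm])
    obtain ⟨b, h3⟩ := h.sc_of_two hK ha h1 (K.add_mem (K.smul_mem hx c) (ha _ (K.smul_mem hx c)))
      (by rw [ad_add, h.ad_ad, add_comm])
    have h4 : c - σ c ≠ 0 := sub_ne_zero.2 (Ne.symm hc)
    refine isSc_iff_bot.1 ⟨(c - σ c)⁻¹ * (b - σ c * a), ?_⟩
    rw [ad_smul] at h3
    rw [mul_smul, eq_inv_smul_iff₀ h4, sub_smul, sub_smul, mul_smul, ← h2, ← h3, smul_add]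
    abel
  have h2 := hK.finrank_eq
  rw [this, Subalgebra.finrank_bot] at h2
  omega

theorem Rf.sa_or_two (h : Rf (RingHom.id F) J ε) (hr : r.Prime) (hK : IsFieldSubalgebra r K)
    (ha : AdC (RingHom.id F) J K) : (∀ x ∈ K, ad (RingHom.id F) J x = x) ∨
      (r = 2 ∧ ∃ x ∈ K, ad (RingHom.id F) J x ≠ x) := by
  refine or_iff_not_imp_left.2 fun h1 => ?_
  push Not at h1
  refine ⟨?_, h1⟩
  let _ := (isField_of hK.comm hK.inv).toField
  have : Finite K := Module.finite_of_finite F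
  let α : K ≃ₐ[F] K := AlgEquiv.ofRingEquiv (f := h.adK hK.comm ha) fun c => Subtype.ext (by
    change ad _ J (algebraMap F _ c) = algebraMap F _ c
    rw [Algebra.algebraMap_eq_smul_one, ad_smul, h.ad_one]; rfl)
  have h3 : orderOf α = 2 := orderOf_eq_prime (AlgEquiv.ext fun x => Subtype.ext (h.ad_ad _)) fun h3 =>
    let ⟨x, hx, h4⟩ := h1; h4 (congrArg Subtype.val (AlgEquiv.congr_fun h3 ⟨x, hx⟩))
  have := orderOf_dvd_natCard α
  rw [h3, IsGalois.card_aut_eq_finrank, hK.finrank_eq] at this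
  exact ((Nat.prime_dvd_prime_iff_eq Nat.prime_two hr).1 this).symm

theorem field_mul_eq_zero (hK : IsFieldSubalgebra r K) {x y : Matrix ι ι F} (hx : x ∈ K)
    (h : x * y = 0) : x = 0 ∨ y = 0 := or_iff_not_imp_left.2 fun h0 => by
  obtain ⟨z, hz, h1⟩ := hK.inv x hx h0
  rw [← one_mul y, ← h1, hK.comm x hx z hz, mul_assoc, h, mul_zero]

theorem Rf.cj_of_two (h : Rf σ J ε) (hK : IsFieldSubalgebra 2 K) (ha : AdC σ J K)
    (h1 : ∃ x ∈ K, ad σ J x ≠ x) (hn : Nrm H K) {g : GL ι F} (hg : g ∈ H) {k : Matrix ι ι F}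
    (hk : k ∈ K) : cj g k = k ∨ cj g k = ad σ J k := by
  obtain ⟨a, h2⟩ := h.sc_of_two hK ha h1 (K.add_mem hk (ha k hk)) (by rw [ad_add, h.ad_ad, add_comm])
  obtain ⟨b, h3⟩ := h.sc_of_two hK ha h1 (K.mul_mem hk (ha k hk)) (by rw [h.ad_mul, h.ad_ad])
  have h4 : k * k - a • k + b • 1 = 0 := by
    rw [← h3, ← mul_one k, ← mul_smul_comm, ← h2]; noncomm_ring
  have h5 := congrArg (cj g) h4
  rw [map_add, map_sub, map_mul, map_smul, map_smul, map_one, map_zero] at h5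
  refine (field_mul_eq_zero hK (K.sub_mem (hn g hg k hk) hk) (y := cj g k - ad σ J k) ?_).imp
    sub_eq_zero.1 sub_eq_zero.1
  rw [← h5, ← h3, ← mul_one (cj g k), ← mul_smul_comm, ← h2, mul_one, sub_mul, mul_sub, mul_sub,
    hK.comm k hk _ (hn g hg k hk)]
  noncomm_ring

theorem Rf.hf_of_two (h : Rf (RingHom.id F) J ε) (h2 : (2 : F) = 0) (hK : IsFieldSubalgebra 2 K)
    (ha : AdC (RingHom.id F) J K) (h1 : ∃ x ∈ K, ad (RingHom.id F) J x ≠ x) (hn : Nrm H K) :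
    Hf (RingHom.id F) J H := by
  obtain ⟨x, hx, h3⟩ := id h1
  obtain ⟨a, h4⟩ := h.sc_of_two hK ha h1 (K.add_mem hx (ha x hx)) (by rw [ad_add, h.ad_ad, add_comm])
  have h0 : a ≠ 0 := by
    rintro rfl
    rw [zero_smul] at h4
    exact h3 (by rw [eq_neg_of_add_eq_zero_right h4, neg_eq_iff_add_eq_zero, ← two_smul F, h2, zero_smul])
  exact ⟨a⁻¹ • x, by rw [ad_smul, RingHom.id_apply, ← smul_add, h4, smul_smul, inv_mul_cancel₀ h0, one_smul],
    fun g hg => h.cj_of_two hK ha h1 hn hg (K.smul_mem hx _)⟩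

theorem Rf.sa_alt (h : Rf (RingHom.id F) J (-1)) (hH : H ≤ isoG (RingHom.id F) J) (hI : Irr H)
    (hK : IsFieldSubalgebra r K) (hn : Nrm H K) (hr : r < Fintype.card ι)
    (hs : ∀ x ∈ K, ad (RingHom.id F) J x = x) {k : Matrix ι ι F} (hk : k ∈ K) (v : ι → F) :
    fm (RingHom.id F) J (k *ᵥ v) v = 0 := by
  have h1 : ∀ k ∈ K, ∀ u v, fm (RingHom.id F) J (k *ᵥ u) v = -fm (RingHom.id F) J (k *ᵥ v) u :=
    fun k hk u v => by rw [h.fm_ad, hs k hk, h.symm]; simp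
  by_cases h2 : (2 : F) = 0
  swap
  · exact (mul_eq_zero.1 (by linear_combination h1 k hk v v)).resolve_left h2
  have h3 : ∀ k ∈ K, ∀ u v, fm (RingHom.id F) J (k *ᵥ (u + v)) (u + v) =
      fm (RingHom.id F) J (k *ᵥ u) u + fm (RingHom.id F) J (k *ᵥ v) v := fun k hk u v => by
    rw [mulVec_add, fm_add_left, fm_add_right, fm_add_right, h1 k hk u v]; ring
  let W : Submodule F (ι → F) :=
    { carrier := {v | ∀ k ∈ K, fm (RingHom.id F) J (k *ᵥ v) v = 0}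
      add_mem' := fun {u v} hu hv k hk => by rw [h3 k hk, hu k hk, hv k hk, add_zero]
      zero_mem' := fun _ _ => fm_zero_right _
      smul_mem' := fun c v hv k hk => by
        rw [mulVec_smul, fm_smul_left, fm_smul_right, hv k hk, mul_zero, mul_zero] }
  rcases hI W fun g hg u hu k hk => by
    rw [← cj_cj_inv g k, cj_mulVec, iso_fm (hH hg)]
    exact hu _ (hn _ (inv_mem hg) k hk) with h4 | h4
  swap
  · exact h4.ge (Submodule.mem_top (x := v)) k hk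
  let b := Module.finBasisOfFinrankEq F K hK.finrank_eq
  let d : (ι → F) →+ (Fin r → F) := AddMonoidHom.mk'
    (fun v i => fm (RingHom.id F) J ((b i : Matrix ι ι F) *ᵥ v) v) fun u v => funext fun i => h3 _ (b i).2 u v
  have := Fintype.card_le_of_injective d ((injective_iff_map_eq_zero d).2 fun v hv => h4.le
    (show v ∈ W from fun k hk => by
      have := congrArg Subtype.val (b.sum_repr ⟨k, hk⟩)
      rw [AddSubmonoidClass.coe_finset_sum] at this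
      simp only at this
      rw [← this]
      refine Finset.sum_induction _ (fun x => fm _ J (x *ᵥ v) v = 0) (fun x y hx hy => ?_) ?_ fun i _ => ?_
      · rw [add_mulVec, fm_add_left, hx, hy, add_zero]
      · rw [zero_mulVec, fm_zero_left]
      · rw [Subalgebra.coe_smul, smul_mulVec, fm_smul_left, 
          show fm (RingHom.id F) J ((b i : Matrix ι ι F) *ᵥ v) v = 0 from congrFun hv i, mul_zero]))
  rw [Fintype.card_fun, Fintype.card_fun, Fintype.card_fin] at this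
  exact absurd (Nat.pow_lt_pow_right (Fintype.one_lt_card (α := F)) hr) this.not_gt

end field

/-- an invariant quadratic form polarising to the given form -/
def QI (J : Matrix ι ι F) (H : Subgroup (GL ι F)) : Prop :=
  ∃ U, U + Uᵀ = J ∧ ∀ g ∈ H, ∀ v, fm (RingHom.id F) U ((g : Matrix ι ι F) *ᵥ v)
    ((g : Matrix ι ι F) *ᵥ v) = fm (RingHom.id F) U v v

theorem Rf.qi_of_hf (h : Rf (RingHom.id F) J ε) (h2 : (2 : F) = 0) (hH : H ≤ isoG (RingHom.id F) J)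
    (h0 : ∀ v, fm (RingHom.id F) J v v = 0) (h1 : Hf (RingHom.id F) J H) : QI J H := by
  obtain ⟨k, h1, h3⟩ := h1
  have h4 : Jᵀ = J := by
    have := h.swap
    rw [map_id'] at this
    rcases h.eps with rfl | rfl
    · rwa [one_smul] at this
    · rw [this, show (-1 : F) = 1 by linear_combination -h2, one_smul]
  refine ⟨kᵀ * J, ?_, fun g hg v => ?_⟩
  · rw [transpose_mul, transpose_transpose, h4, h.ad_spec, map_id', ← mul_add, add_comm, h1, mul_one]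
  · rw [← fm_left, ← fm_left, ← cj_cj_inv g k, cj_mulVec, iso_fm (hH hg), cj_cj_inv]
    rcases h3 _ (inv_mem hg) with h5 | h5 <;> rw [h5]
    rw [eq_sub_of_add_eq' h1, sub_eq_add_neg, add_mulVec, one_mulVec, fm_add_left, h0, zero_add,
      ← neg_one_smul F k, smul_mulVec, fm_smul_left]
    linear_combination (-fm (RingHom.id F) J (k *ᵥ v) v) * h2

section tensor

variable {ν : Type} [Fintype ν] [DecidableEq ν]

theorem kron_unique {A A' : Matrix κ κ F} {B B' : Matrix ν ν F} (hA : A ≠ 0) (hB : B ≠ 0)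
    (h : A' ⊗ₖ B' = A ⊗ₖ B) : ∃ c : F, c ≠ 0 ∧ A' = c • A ∧ B' = c⁻¹ • B := by
  obtain ⟨i, j, h1⟩ : ∃ i j, A i j ≠ 0 := by
    by_contra! h1; exact hA (Matrix.ext h1)
  obtain ⟨k, l, h2⟩ : ∃ i j, B i j ≠ 0 := by
    by_contra! h1; exact hB (Matrix.ext h1)
  have h3 : ∀ x y u v, A' x y * B' u v = A x y * B u v := fun x y u v => congrFun₂ h (x, u) (y, v)
  have h4 := h3 i j k l
  have h5 : B' k l ≠ 0 := fun h5 => mul_ne_zero h1 h2 (by rw [← h4, h5, mul_zero])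
  have h6 : A' = (B k l / B' k l) • A := by
    ext x y; rw [Matrix.smul_apply, smul_eq_mul]; field_simp; linear_combination h3 x y k l
  refine ⟨_, div_ne_zero h2 h5, h6, ?_⟩
  ext u v
  have := h3 i j u v
  rw [h6, Matrix.smul_apply, smul_eq_mul] at this
  rw [Matrix.smul_apply, smul_eq_mul]
  field_simp at this ⊢
  exact this

theorem kron_left_inj [Nonempty ν] {A A' : Matrix κ κ F} {B : Matrix ν ν F} (hB : IsUnit B)
    (h : A ⊗ₖ B = A' ⊗ₖ B) : A = A' := by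
  obtain ⟨k, l, h2⟩ : ∃ i j, B i j ≠ 0 := by
    by_contra! h1; exact hB.ne_zero (Matrix.ext h1)
  ext x y
  exact mul_right_cancel₀ h2 (congrFun₂ h (x, k) (y, l))

theorem kron_map (σ : F →+* F) (a : Matrix κ κ F) (b : Matrix ν ν F) :
    (a ⊗ₖ b).map σ = a.map σ ⊗ₖ b.map σ := by ext; simp

theorem kron_transpose (a : Matrix κ κ F) (b : Matrix ν ν F) : (a ⊗ₖ b)ᵀ = aᵀ ⊗ₖ bᵀ :=
  (kroneckerMap_transpose _ _ _).symm

theorem sm_kron_iff {J₁ a : Matrix κ κ F} {J₂ b : Matrix ν ν F} {c : F} :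
    Sm σ (J₁ ⊗ₖ J₂) (a ⊗ₖ b) c ↔ (aᵀ * J₁ * a.map σ) ⊗ₖ (bᵀ * J₂ * b.map σ) = c • J₁ ⊗ₖ J₂ := by
  rw [Sm, kron_map, kron_transpose, ← mul_kronecker_mul, ← mul_kronecker_mul]

/-- the Kronecker product as a homomorphism -/
def kH : GL κ F × GL ν F →* GL (κ × ν) F where
  toFun x := kG x.1 x.2
  map_one' := Units.ext (by simp)
  map_mul' x y := Units.ext (by simp [mul_kronecker_mul])

theorem kG_inv (a : GL κ F) (b : GL ν F) : (kG a b)⁻¹ = kG a⁻¹ b⁻¹ := (kH.map_inv (a, b)).symm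

theorem kG_mul (a a' : GL κ F) (b b' : GL ν F) : kG (a * a') (b * b') = kG a b * kG a' b' :=
  kH.map_mul (a, b) (a', b')

theorem kl_inj [Nonempty κ] [Nonempty ν] :
    Function.Injective (kl ν : Matrix κ κ F → Matrix (κ × ν) (κ × ν) F) :=
  (kl (F := F) (κ := κ) ν).toRingHom.injective

theorem cj_mem_range {μ : Type} [Fintype μ] [DecidableEq μ] (φ : Matrix κ κ F →ₐ[F] Matrix μ μ F)
    (h1 : ∀ x, φ xᵀ = (φ x)ᵀ) (h2 : ∀ x, φ (x.map σ) = (φ x).map σ) {L : Subgroup (GL κ F)}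
    (hL : alg L = ⊤) {J : GL μ F} (h : ∀ l ∈ L, Sm σ (J : Matrix μ μ F) (φ l) 1) (x : Matrix κ κ F) :
    cj J⁻¹ (φ x) ∈ φ.range := by
  rw [← transpose_transpose x]
  refine alg_induction (p := fun x => cj J⁻¹ (φ xᵀ) ∈ φ.range) (fun l hl => ?_) (by simp)
    (fun a b ha hb => by simpa using add_mem ha hb)
    (fun c a ha => by simpa using Subalgebra.smul_mem _ ha c) (hL.ge Algebra.mem_top)
  refine ⟨((l⁻¹ : GL κ F) : Matrix κ κ F).map σ, ?_⟩
  have := h l hl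
  rw [Sm, one_smul, ← h1, ← h2] at this
  change φ _ = _
  rw [cj_apply, inv_inv, mul_assoc, Units.eq_inv_mul_iff_mul_eq]
  nth_rw 1 [← this]
  rw [mul_assoc, ← map_mul, ← Matrix.map_mul, Units.mul_inv, Matrix.map_one _ (map_zero σ) (map_one σ),
    map_one, mul_one]

end tensor

theorem exists_rf [Nonempty ι] (hσ : ∀ a, σ (σ a) = a) (hJ : IsUnit J) {δ : F}
    (h : (J.map σ)ᵀ = δ • J) : ∃ (a δ : F), a ≠ 0 ∧ Rf σ (a • J) δ ∧ (σ ≠ RingHom.id F → δ = 1) := by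
  have h1 : δ * σ δ = 1 := by
    have h1 : (((J.map σ)ᵀ).map σ)ᵀ = J := by ext; simp [hσ]
    have h2 : ((δ • J).map σ)ᵀ = σ δ • (J.map σ)ᵀ := by ext; simp
    rw [h, h2, h, smul_smul] at h1
    rw [mul_comm]
    exact smul_left_injective F hJ.ne_zero (h1.trans (one_smul _ _).symm)
  by_cases h2 : σ = RingHom.id F
  · subst h2
    exact ⟨1, δ, one_ne_zero, ⟨hσ, by simpa, by simpa using h, mul_self_eq_one_iff.1 h1⟩, fun h => absurd rfl h⟩
  · obtain ⟨a, h3, h4⟩ := exists_h90 h2 hσ h1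
    refine ⟨a, 1, h3, ⟨hσ, isUnit_smul h3 hJ, ?_, .inl rfl⟩, fun _ => rfl⟩
    have h2 : ((a • J).map σ)ᵀ = σ a • (J.map σ)ᵀ := by ext; simp
    rw [h2, h, smul_smul, h4, one_smul]

/-- a tensor decomposition of the form, preserved by `H` -/
structure TF (σ : F →+* F) (J : Matrix ι ι F) (H : Subgroup (GL ι F)) {k l : ℕ} (e : ι ≃ Fin k × Fin l)
    (P : GL ι F) (J₁ : Matrix (Fin k) (Fin k) F) (J₂ : Matrix (Fin l) (Fin l) F) (δ₁ δ₂ : F) : Prop where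
  twok : 2 ≤ k
  twol : 2 ≤ l
  rf1 : Rf σ J₁ δ₁
  rf2 : Rf σ J₂ δ₂
  eq : ∃ c : F, c ≠ 0 ∧ J = trJ σ e P (c • J₁ ⊗ₖ J₂)
  le : ∀ g ∈ H, ∃ a b c, g = trG (tr e P) (kG a b) ∧ Sm σ J₁ a c ∧ Sm σ J₂ b c⁻¹

theorem Tens.tf [Nonempty ι] {k l : ℕ} {e : ι ≃ Fin k × Fin l} {P : GL ι F} {L : Subgroup (GL (Fin k) F)}
    (hT : Tens H N (tr e P) L) (h : Rf σ J ε) (hH : H ≤ isoG σ J) (hN : N ≤ H) :
    ∃ J₁ J₂ δ₁ δ₂, TF σ J H e P J₁ J₂ δ₁ δ₂ ∧ L ≤ isoG σ J₁ ∧ (σ ≠ RingHom.id F → δ₁ = 1 ∧ δ₂ = 1) ∧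
      (σ = RingHom.id F → δ₁ * δ₂ = ε) := by
  have : NeZero k := ⟨by have := hT.twok; omega⟩
  have : NeZero l := ⟨by have := hT.twol; omega⟩
  obtain ⟨_, ⟨J', rfl⟩, rfl⟩ := exists_trJ σ e P h.unit
  have h1 : ∀ x ∈ L, Sm σ J'.1 (kl (Fin l) x.1) 1 := fun x hx => by
    have := mem_isoG.1 (hH (hN (hT.gen.le (Subgroup.mem_map_of_mem _ hx))))
    rw [uG_val] at this
    exact (sm_trJ (e := e) (P := P)).1 this
  obtain ⟨a, b, h2⟩ := exists_kG (cj_mem_range (kl (Fin l)) (fun x => by simp [kl_apply, kron_transpose])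
    (fun x => by simp [kl_apply, kron_map]) hT.top h1)
  obtain ⟨A, B, hA, hB, h3⟩ : ∃ A B, IsUnit A ∧ IsUnit B ∧ J'.1 = A ⊗ₖ B :=
    ⟨_, _, a⁻¹.isUnit, b⁻¹.isUnit, by
      rw [← kG_val, ← kG_inv, ← h2, inv_inv]⟩
  rw [h3] at h hH h1 ⊢
  have h4 := h.swap
  rw [trJ_swap h.inv, ← trJ_smul, kron_map, kron_transpose, ← smul_kronecker] at h4
  obtain ⟨c, h5, h6, h7⟩ := kron_unique (isUnit_smul h.eps_ne hA).ne_zero hB.ne_zero (trJ_inj h4)
  rw [smul_smul] at h6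
  obtain ⟨a₁, δ₁, h8, h9, h10⟩ := exists_rf h.inv hA h6
  obtain ⟨a₂, δ₂, h11, h12, h13⟩ := exists_rf h.inv hB h7
  refine ⟨_, _, δ₁, δ₂, ⟨hT.twok, hT.twol, h9, h12, ⟨(a₁ * a₂)⁻¹, by simp [h8, h11], ?_⟩, fun g hg => ?_⟩,
    fun x hx => mem_isoG.2 (Sm.smul ?_ _), fun h => ⟨h10 h, h13 h⟩, ?_⟩
  · rw [smul_kronecker, kronecker_smul, smul_smul, smul_smul, mul_assoc,
      inv_mul_cancel₀ (mul_ne_zero h8 h11), one_smul]
  · obtain ⟨x, y, rfl⟩ := hT.le g hg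
    have := mem_isoG.1 (hH hg)
    rw [trG_val, sm_trJ, kG_val, sm_kron_iff, one_smul] at this
    obtain ⟨d, -, h14, h15⟩ := kron_unique hA.ne_zero hB.ne_zero this
    exact ⟨x, y, d, rfl, Sm.smul h14 _, Sm.smul h15 _⟩
  · have := h1 x hx
    rw [kl_apply, sm_kron_iff, one_smul, transpose_one, one_mul,
      Matrix.map_one _ (map_zero σ) (map_one σ), mul_one] at this
    exact (kron_left_inj hB this).trans (one_smul _ _).symm
  · rintro rfl
    have h14 := h9.swap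
    have h15 := h12.swap
    rw [map_id'] at h6 h7 h14 h15
    rw [transpose_smul, h6, smul_comm] at h14
    rw [transpose_smul, h7, smul_comm] at h15
    rw [← smul_left_injective F h9.unit.ne_zero h14, ← smul_left_injective F h12.unit.ne_zero h15]
    field_simp

namespace TF

variable {k l : ℕ} {e : ι ≃ Fin k × Fin l} {P : GL ι F} {J₁ : Matrix (Fin k) (Fin k) F}
  {J₂ : Matrix (Fin l) (Fin l) F} {δ₁ δ₂ : F} (hT : TF σ J H e P J₁ J₂ δ₁ δ₂)
include hT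

theorem card : Fintype.card ι = k * l := by simpa using Fintype.card_congr e

theorem swap [Nonempty ι] : TF σ J H (e.trans (Equiv.prodComm _ _)) P J₂ J₁ δ₂ δ₁ := by
  obtain ⟨c, h1, h2⟩ := hT.eq
  refine ⟨hT.twol, hT.twok, hT.rf2, hT.rf1, ⟨c, h1, h2.trans ?_⟩, fun g hg => ?_⟩
  · unfold trJ
    congr 2
    ext; simp [mul_comm]
  · obtain ⟨a, b, c, h1, h2, h3⟩ := hT.le g hg
    exact ⟨b, a, c⁻¹, h1.trans (trG_swap e P a b), h3, by rwa [inv_inv]⟩

theorem le_tensor [Nonempty ι] : H ≤ tensorProductSubgroup k l e P := fun g hg => by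
  obtain ⟨a, b, -, rfl, -⟩ := hT.le g hg
  exact mem_tensor a b

theorem struct : IsTensorFormStructure σ (fm σ J) (fm σ J₁) (fm σ J₂) e P := by
  obtain ⟨c, h1, rfl⟩ := hT.eq
  exact ⟨c, h1, fun x y => by rw [fm_trJ, fm_smul, gram_fm, gram_fm, formOfGram_eq]⟩

theorem smul {c δ : F} (hc : c ≠ 0) (h : Rf σ (c • J₁) δ) : TF σ J H e P (c • J₁) J₂ δ δ₂ := by
  obtain ⟨d, h1, h2⟩ := hT.eq
  refine ⟨hT.twok, hT.twol, h, hT.rf2, ⟨d * c⁻¹, by simp [h1, hc], ?_⟩, fun g hg => ?_⟩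
  · rw [h2, smul_kronecker, smul_smul, inv_mul_cancel_right₀ hc]
  · obtain ⟨a, b, c, h1, h2, h3⟩ := hT.le g hg
    exact ⟨a, b, c, h1, h2.smul _, h3⟩

theorem cong (A : GL (Fin k) F) : TF σ J H e (trG (tr e P) (kG A 1) * P)
    ((A : Matrix _ _ F)ᵀ * J₁ * (A : Matrix _ _ F).map σ) J₂ δ₁ δ₂ := by
  obtain ⟨d, h1, h2⟩ := hT.eq
  have h3 : ∀ x, ((trG (tr e P) (kG A 1) * P : GL ι F) : Matrix ι ι F) *ᵥ (x ∘ e) =
      (P : Matrix ι ι F) *ᵥ ((((kG A 1 : GL (Fin k × Fin l) F) : Matrix _ _ F) *ᵥ x) ∘ e) := fun x => by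
    rw [Units.val_mul, ← mulVec_mulVec, trG_val, tr_mulVec]
  refine ⟨hT.twok, hT.twol, hT.rf1.cong A, hT.rf2, ⟨d, h1, fm_inj (σ := σ) fun u v => ?_⟩, fun g hg => ?_⟩
  · obtain ⟨x, rfl⟩ := exists_coord e (trG (tr e P) (kG A 1) * P) u
    obtain ⟨y, rfl⟩ := exists_coord e (trG (tr e P) (kG A 1) * P) v
    rw [fm_trJ, h3, h3, h2, fm_trJ, fm_smul, fm_smul, fm_mulVec, kG_val, kron_map, kron_transpose,
      ← mul_kronecker_mul, ← mul_kronecker_mul]
    simp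
  · obtain ⟨a, b, c, rfl, h4, h5⟩ := hT.le g hg
    refine ⟨A⁻¹ * a * A, b, c, Units.ext (eq_of_mulVec fun v => ?_), ?_, h5⟩
    · obtain ⟨x, rfl⟩ := exists_coord e (trG (tr e P) (kG A 1) * P) v
      rw [trG_val, trG_val, tr_mulVec, h3, h3, tr_mulVec, mulVec_mulVec, mulVec_mulVec, kG_val, kG_val,
        kG_val, ← mul_kronecker_mul, ← mul_kronecker_mul]
      simp [mul_assoc]
    · have := h4.cj A
      rwa [cj_val, inv_inv] at this

end TF

/-- the projection to the first tensor factor -/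
def pr1 {k l : ℕ} (e : ι ≃ Fin k × Fin l) (P : GL ι F) (H : Subgroup (GL ι F)) : Subgroup (GL (Fin k) F) :=
  (H.comap ((trG (tr e P)).toMonoidHom.comp kH)).map (MonoidHom.fst _ _)

theorem mem_pr1 {k l : ℕ} {e : ι ≃ Fin k × Fin l} {P : GL ι F} {a : GL (Fin k) F} {b : GL (Fin l) F}
    (h : trG (tr e P) (kG a b) ∈ H) : a ∈ pr1 e P H := ⟨(a, b), h, rfl⟩

/-- an adjoint-closed commutative algebra normalised by `H` -/
def CA (σ : F →+* F) (J : Matrix ι ι F) (H : Subgroup (GL ι F)) : Prop :=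
  ∃ K : Subalgebra F (Matrix ι ι F), Nrm H K ∧ (∀ a ∈ K, ∀ b ∈ K, a * b = b * a) ∧ AdC σ J K ∧ K ≠ ⊥

namespace TF

variable {k l : ℕ} {e : ι ≃ Fin k × Fin l} {P : GL ι F} {J₁ : Matrix (Fin k) (Fin k) F}
  {J₂ : Matrix (Fin l) (Fin l) F} {δ₁ δ₂ : F} (hT : TF σ J H e P J₁ J₂ δ₁ δ₂)
include hT

theorem sm1 {a : GL (Fin k) F} (ha : a ∈ pr1 e P H) : ∃ c, Sm σ J₁ a c := by
  have : NeZero k := ⟨by have := hT.twok; omega⟩
  have : NeZero l := ⟨by have := hT.twol; omega⟩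
  obtain ⟨⟨a, b⟩, h, rfl⟩ := ha
  obtain ⟨a', b', c, h1, h2, -⟩ := hT.le _ h
  have h3 := congrArg Units.val ((trG (tr e P)).injective h1)
  obtain ⟨d, -, h4, -⟩ := kron_unique a'.ne_zero b'.ne_zero ((kG_val a b).symm.trans (h3.trans (kG_val _ _)))
  have h5 := (sm_smul d).mul h2
  rw [smul_mul_assoc, one_mul, ← h4] at h5
  exact ⟨_, h5⟩

theorem irr1 (hI : Irr H) : Irr (pr1 e P H) := fun W hW => by
  have : NeZero k := ⟨by have := hT.twok; omega⟩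
  have : NeZero l := ⟨by have := hT.twol; omega⟩
  refine or_iff_not_imp_left.2 fun h0 => by_contra fun h1 => ?_
  obtain ⟨w, hw, h0⟩ := Submodule.exists_mem_ne_zero_of_ne_bot h0
  obtain ⟨f, hf, h1⟩ := W.exists_le_ker_of_lt_top (Ne.lt_top h1)
  let x : Matrix (Fin k) (Fin k) F := LinearMap.toMatrix' (f.smulRight w)
  have hx : ∀ v, x *ᵥ v = f v • w := fun v => by rw [← toLin'_apply, toLin'_toMatrix']; rfl
  have := hI.eq_zero (S := {y | ∃ x : Matrix (Fin k) (Fin k) F, (∀ w ∈ W, x *ᵥ w = 0) ∧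
    y = tr e P (kl (Fin l) x)}) (v := (P : Matrix ι ι F) *ᵥ ((fun i => w i.1) ∘ e))
    (a := tr e P (kl (Fin l) x)) ?_ (mulVec_ne_zero _ fun h => h0 (funext fun i => by
      simpa using congrFun h (e.symm (i, 0)))) ?_ ⟨x, fun v hv => by rw [hx, h1 hv, zero_smul], rfl⟩
  · rw [map_eq_zero_iff _ (tr e P).injective, map_eq_zero_iff _ kl_inj] at this
    exact hf (LinearMap.ext fun v => by simpa [this, h0] using (hx v).symm)
  · rintro g hg _ ⟨y, hy, rfl⟩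
    obtain ⟨a, b, -, rfl, -⟩ := hT.le g hg
    refine ⟨cj a y, fun v hv => ?_, by rw [← map_cj, cj_kG_kl]⟩
    rw [← mulVec_inv a v, cj_mulVec, hy _ (hW _ (inv_mem (mem_pr1 hg)) v hv), mulVec_zero]
  · rintro _ ⟨y, hy, rfl⟩
    rw [tr_mulVec, ← mulVec_zero (P : Matrix ι ι F)]
    congr 1
    funext i
    simpa [kl_apply, mulVec, dotProduct, Fintype.sum_prod_type, one_apply] using congrFun (hy w hw) (e i).1

theorem ad_kl (h : Rf σ J ε) (x : Matrix (Fin k) (Fin k) F) :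
    ad σ J (tr e P (kl (Fin l) x)) = tr e P (kl (Fin l) (ad σ J₁ x)) := by
  obtain ⟨c, -, h1⟩ := hT.eq
  refine h.ad_eq fun u v => ?_
  obtain ⟨u, rfl⟩ := exists_coord e P u
  obtain ⟨v, rfl⟩ := exists_coord e P v
  rw [tr_mulVec, tr_mulVec, h1, fm_trJ, fm_trJ, fm_smul, fm_smul, fm_left, fm_right, kl_apply, kl_apply,
    kron_map, kron_transpose, ← mul_kronecker_mul, ← mul_kronecker_mul, hT.rf1.ad_spec]
  simp

theorem ca [Nonempty ι] (h : Rf σ J ε) (h1 : CA σ J₁ (pr1 e P H)) : CA σ J H := by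
  have : NeZero k := ⟨by have := hT.twok; omega⟩
  have : NeZero l := ⟨by have := hT.twol; omega⟩
  obtain ⟨K, h1, h2, h3, h4⟩ := h1
  refine ⟨K.map ((tr e P).toAlgHom.comp (kl (Fin l))), ?_, ?_, ?_, fun h5 => h4 (eq_bot_iff.2 fun x hx => ?_)⟩
  · rintro g hg _ ⟨x, hx, rfl⟩
    obtain ⟨a, b, -, rfl, -⟩ := hT.le g hg
    exact ⟨cj a x, h1 a (mem_pr1 hg) x hx, by
      change tr e P (kl _ _) = cj _ (tr e P (kl _ x)); rw [← map_cj, cj_kG_kl]⟩
  · rintro _ ⟨x, hx, rfl⟩ _ ⟨y, hy, rfl⟩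
    rw [← map_mul, h2 x hx y hy, map_mul]
  · rintro _ ⟨x, hx, rfl⟩
    exact ⟨_, h3 x hx, (hT.ad_kl h x).symm⟩
  · obtain ⟨c, hc⟩ := isSc_iff_bot.2 (h5.le ⟨x, hx, rfl⟩)
    exact isSc_iff_bot.1 ⟨c, RingHom.injective ((tr e P).toAlgHom.comp (kl (Fin l))).toRingHom
      (hc.trans (by simp))⟩

end TF

end Cfsg.Agent.H4.As
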