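import Cfsg.Agent.H4.As11

/-! Aschbacher's theorem, part 12: tensor powers, reducible subgroups and subfields relative to a form. -/

set_option autoImplicit false
set_option linter.unusedSectionVars false

namespace Cfsg.Agent.H4.As

open Matrix Module Cfsg.Geo
open scoped MatrixGroups Kronecker commutatorElement

variable {ι κ : Type} [Fintype ι] [DecidableEq ι] [Fintype κ] [DecidableEq κ] {F : Type*} [Field F]
  [Fintype F] {G H N R L : Subgroup (GL ι F)} {σ : F →+* F} {J : Matrix ι ι F} {ε : F}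

theorem Rf.comm' [Nonempty ι] (h : Rf σ J ε) (hH : H ≤ isoG σ J) (hI : Irr H) (h1 : CA σ J H) :
    (∃ m, ND σ J H m) ∨ (TI σ J H ∧ Hf σ J H) ∨
    ∃ r K, r.Prime ∧ IsFieldSubalgebra r K ∧ Nrm H K ∧ AdC σ J K :=
  let ⟨_, h1, h2, h3, h4⟩ := h1
  (h.comm hH hI h1 h2 h3 h4).imp_right <| Or.imp_right fun ⟨r, K, h1, _, h2⟩ => ⟨r, K, h1, h2⟩

section power

variable {τ : Type} [Fintype τ] [DecidableEq τ]

theorem emb_transpose (i : τ) (x : Matrix κ κ F) : emb i xᵀ = (emb i x)ᵀ := by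
  rw [emb_apply, emb_apply, pt_transpose]
  exact congrArg pt (funext fun j => (Pi.apply_mulSingle (fun _ x => xᵀ) (fun _ => transpose_one) i x j).symm)

theorem emb_map (i : τ) (x : Matrix κ κ F) : emb i (x.map σ) = (emb i x).map σ := by
  rw [emb_apply, emb_apply, pt_map]
  exact congrArg pt (funext fun j => (Pi.apply_mulSingle (fun _ (x : Matrix κ κ F) => x.map σ)
    (fun _ => Matrix.map_one _ (map_zero σ) (map_one σ)) i x j).symm)

theorem emb_inj [Nonempty κ] (i : τ) :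
    Function.Injective (emb i : Matrix κ κ F → Matrix (τ → κ) (τ → κ) F) :=
  (emb (F := F) (κ := κ) i).toRingHom.injective

theorem sm_of_emb [Nonempty κ] {A : τ → Matrix κ κ F} (hA : ∀ i, IsUnit (A i)) {i : τ} {l : Matrix κ κ F}
    (h : Sm σ (pt A) (emb i l) 1) : Sm σ (A i) l 1 := by
  obtain ⟨a, ha⟩ := hA i
  rw [Sm, one_smul, ← emb_transpose, ← emb_map, mul_assoc, pt_mul_emb A i _ (A i * l.map σ * a⁻¹.1)
    (by rw [← ha, Units.inv_mul_cancel_right]), ← mul_assoc, ← map_mul, (isUnit_pt hA).mul_eq_right,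
    ← map_one (emb i)] at h
  have := congrArg (· * A i) (emb_inj i h)
  rw [← ha] at this
  simpa [Sm, ← ha, mul_assoc] using this

theorem pmG_one : (pmG 1 : GL (τ → κ) F) = 1 := Units.ext (by
  ext x y; simp [pmG, pm, one_apply, eq_comm])

end power

/-- a tensor power decomposition of the form, preserved by `H` -/
structure PF (σ : F →+* F) (J : Matrix ι ι F) (H : Subgroup (GL ι F)) {t k : ℕ} (e : ι ≃ (Fin t → Fin k))
    (P : GL ι F) (J₀ : Matrix (Fin k) (Fin k) F) (δ : F) : Prop where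
  twot : 2 ≤ t
  twok : 2 ≤ k
  rf : Rf σ J₀ δ
  eq : ∃ c : F, c ≠ 0 ∧ J = trJ σ e P (c • pt fun _ => J₀)
  le : H ≤ tensorWreathSubgroup k t e P

theorem PF.struct {t k : ℕ} {e : ι ≃ (Fin t → Fin k)} {P : GL ι F} {J₀ : Matrix (Fin k) (Fin k) F} {δ : F}
    (h : PF σ J H e P J₀ δ) : IsTensorPowerFormStructure σ (fm σ J) (fm σ J₀) e P := by
  obtain ⟨c, h1, rfl⟩ := h.eq
  exact ⟨c, h1, fun x y => by rw [fm_trJ, fm_smul, gram_fm, fm_eq_sum]; rfl⟩

theorem PF.card {t k : ℕ} {e : ι ≃ (Fin t → Fin k)} {P : GL ι F} {J₀ : Matrix (Fin k) (Fin k) F} {δ : F}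
    (_ : PF σ J H e P J₀ δ) : Fintype.card ι = k ^ t := by simpa using Fintype.card_congr e

theorem TF.pf [Nonempty ι] {k : ℕ} {e : ι ≃ Fin k × Fin k} {P : GL ι F} {J₁ : Matrix (Fin k) (Fin k) F}
    {δ δ' : F} (h : TF σ J H e P J₁ J₁ δ δ') : PF σ J H (e.trans (finTwoArrowEquiv _).symm) P J₁ δ := by
  obtain ⟨c, h1, h2⟩ := h.eq
  refine ⟨le_rfl, h.twok, h.rf1, ⟨c, h1, h2.trans ?_⟩, fun g hg => ?_⟩
  · unfold trJ
    congr 2
    ext; simp [pt]
  · obtain ⟨a, b, -, rfl, -⟩ := h.le g hg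
    exact mem_two a b

theorem Pow.pf [Nonempty ι] {t k : ℕ} {e : ι ≃ (Fin t → Fin k)} {P : GL ι F} {L : Subgroup (GL (Fin k) F)}
    (hT : Pow H N (tr e P) L) (h : Rf σ J ε) (hN : N ≤ isoG σ J) :
    ∃ J₀ δ, PF σ J H e P J₀ δ ∧ L ≤ isoG σ J₀ ∧ (σ ≠ RingHom.id F → δ = 1) ∧
      (σ = RingHom.id F → δ ^ t = ε) := by
  have : NeZero k := ⟨by have := hT.twok; omega⟩
  have : NeZero t := ⟨by have := hT.twot; omega⟩
  obtain ⟨_, ⟨J', rfl⟩, rfl⟩ := exists_trJ σ e P h.unit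
  have h1 : ∀ i, ∀ x ∈ L, Sm σ J'.1 (emb i x.1) 1 := fun i x hx => by
    have := mem_isoG.1 (hN (hT.gen.le (Subgroup.mem_iSup_of_mem i (Subgroup.mem_map_of_mem _ hx))))
    rw [uG_val] at this
    exact (sm_trJ (e := e) (P := P)).1 this
  obtain ⟨c, a, h2⟩ := exists_ptG 1 fun i =>
    cj_mem_range (emb i) (emb_transpose i) (emb_map i) hT.top (h1 i)
  obtain ⟨A, hA, h3⟩ : ∃ A : Fin t → Matrix (Fin k) (Fin k) F, (∀ i, IsUnit (A i)) ∧
      J'.1 = (c⁻¹ : Fˣ).1 • pt A := ⟨_, fun i => (a i)⁻¹.isUnit, by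
    rw [← inv_inv J', h2, pmG_one, mul_one, _root_.mul_inv_rev, ← sc_inv, ← sc_comm, Units.val_mul, sc_val,
      smul_mul_assoc, one_mul]; rfl⟩
  have h4 : ∀ i, ∀ x ∈ L, Sm σ (A i) x.1 1 := fun i x hx => sm_of_emb hA (by
    have := (h1 i x hx).smul c
    rwa [h3, smul_smul, Units.mul_inv, one_smul] at this)
  choose d hd using fun i => gram_unique hT.top (hA 0) fun x hx => ⟨1, h4 0 x hx, h4 i x hx⟩
  obtain ⟨δ, h5⟩ := gram_unique hT.top (hA 0) fun x hx => ⟨1, h4 0 x hx, by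
    simpa using (h4 0 x hx).swap h.inv⟩
  obtain ⟨b, δ, h6, h7, h8⟩ := exists_rf h.inv (hA 0) h5
  have h9 : J'.1 = ((c⁻¹ : Fˣ).1 * (∏ i, d i) * (b ^ t)⁻¹) • pt fun _ => b • A 0 := by
    rw [pt_smul (fun _ => b), smul_smul, Finset.prod_const, Finset.card_univ, Fintype.card_fin,
      inv_mul_cancel_right₀ (pow_ne_zero t h6), mul_smul, ← pt_smul, ← funext hd, h3]
  refine ⟨_, δ, ⟨hT.twot, hT.twok, h7, ⟨_, fun h0 => J'.ne_zero (h9.trans (by rw [h0, zero_smul])), congrArg _ h9⟩,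
    fun g hg => mem_map_tr.2 (hT.le g hg)⟩, fun x hx => mem_isoG.2 ((h4 0 x hx).smul b), h8, ?_⟩
  rintro rfl
  have h10 := h.swap
  have h11 := h7.swap
  rw [map_id'] at h10 h11
  rw [trJ_transpose, ← trJ_smul] at h10
  have h12 := trJ_inj h10
  nth_rw 1 [h9] at h12
  rw [transpose_smul, pt_transpose, h11, pt_smul (fun _ => δ), smul_comm, ← h9, Finset.prod_const,
    Finset.card_univ, Fintype.card_fin] at h12
  exact smul_left_injective F J'.ne_zero h12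

section red

variable {T : FType F} {f : CForm T (ι → F)}

/-- the Gram matrix -/
def gr (f : CForm T (ι → F)) : Matrix ι ι F := gramMatrix fun x y => f.B x y

theorem fm_gr (x y : ι → F) : fm T.σ (gr f) x y = f.B x y :=
  (eq_fm f.B_add_left f.B_smul_left f.B_add_right (fun c v x => f.B_smul_right c v x) x y).symm

theorem fm_gr' : fm T.σ (gr f) = fun x y => f.B x y := by funext x y; exact fm_gr x y

theorem rf_gr (hf : f.Nondeg) : Rf T.σ (gr f) T.ε :=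
  ⟨T.σσ, isUnit_of_fm fun u hu => hf u fun v => by rw [← fm_gr, hu], fm_inj (σ := T.σ) fun u v => by
    rw [← fm_swap T.σσ, fm_smul, fm_gr, fm_gr, f.symm v u, T.ε_mul_ε_mul], T.ε_eq⟩

theorem mem_isoG_gr {g : GL ι F} (h : glE g ∈ f.iso) : g ∈ isoG T.σ (gr f) :=
  sm_iff.2 fun u v => by rw [fm_gr, fm_gr, one_mul]; exact h.1 u v

theorem Inv.perp (hH : H ≤ isoG T.σ (gr f)) {W : Submodule F (ι → F)} (hW : Inv H W) :
    Inv H (f.perp W) := fun g hg v hv u hu => by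
  rw [← mulVec_inv g u, ← fm_gr, iso_fm (hH hg), fm_gr]
  exact hv _ (hW _ (inv_mem hg) u hu)

theorem Inv.inf {W U : Submodule F (ι → F)} (hW : Inv H W) (hU : Inv H U) : Inv H (W ⊓ U) :=
  fun g hg v hv => ⟨hW g hg v hv.1, hU g hg v hv.2⟩

theorem Inv.map_eq {W : Submodule F (ι → F)} (hW : Inv H W) {g : GL ι F} (hg : g ∈ H) :
    W.map (toLin' (g : Matrix ι ι F)) = W :=
  le_antisymm (by rintro _ ⟨v, hv, rfl⟩; exact hW g hg v hv) fun v hv =>
    ⟨_, hW _ (inv_mem hg) v hv, mulVec_inv g v⟩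

theorem le_decomp_of_inv {t : ℕ} {D : Fin t → Submodule F (ι → F)} (h : ∀ i, Inv H (D i)) :
    H ≤ decompositionStabilizer D := fun _ hg => ⟨1, fun i => (h i).map_eq hg⟩

theorem nondeg_pair (hf : f.Nondeg) {W : Submodule F (ι → F)} (h0 : W ≠ ⊥) (h : W ⊓ f.perp W = ⊥)
    (h1 : 2 * finrank F W = Fintype.card ι) :
    IsNondegenerateMDecomposition (fm T.σ (gr f)) (finrank F W) ![W, f.perp W] := by
  have h2 := hf.finrank_perp W
  rw [finrank_fintype_fun_eq_card] at h2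
  have h3 := hf.isCompl_perp h
  rw [fm_gr']
  refine ⟨⟨le_rfl, Nat.pos_of_ne_zero fun h => h0 (Submodule.finrank_eq_zero.1 h), ?_, ?_, ?_⟩, ?_, ?_⟩
  · exact Fin.forall_fin_two.2 ⟨rfl, show finrank F (f.perp W) = _ by omega⟩
  · exact (iSupIndep_pair (i := 0) (j := 1) (by decide) (by decide)).2 h3.disjoint
  · exact eq_top_iff.2 (h3.sup_eq_top.ge.trans (sup_le (le_iSup ![W, f.perp W] 0) (le_iSup ![W, f.perp W] 1)))
  · exact Fin.forall_fin_two.2 ⟨geo_of_nondeg h, geo_of_nondeg (hf.perp_inf_perp_perp h)⟩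
  · exact Fin.forall_fin_two.2 ⟨Fin.forall_fin_two.2 ⟨fun h => absurd rfl h, fun _ u hu v hv =>
      f.mem_perp'.1 hv u hu⟩, Fin.forall_fin_two.2 ⟨fun _ u hu v hv => hu v hv, fun h => absurd rfl h⟩⟩

theorem red_cases (hf : f.Nondeg) (hH : H ≤ isoG T.σ (gr f)) {W : Submodule F (ι → F)} (h0 : W ≠ ⊥)
    (h1 : W ≠ ⊤) (hW : Inv H W) : (∃ U, U ≠ ⊥ ∧ IsTotallySingularFor (fm T.σ (gr f)) U ∧ Inv H U) ∨
    (∃ U, U ≠ ⊥ ∧ IsNondegenerateOn (fm T.σ (gr f)) U ∧ 2 * finrank F U < Fintype.card ι ∧ Inv H U) ∨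
    ∃ (m : ℕ) (D : Fin 2 → Submodule F (ι → F)), IsNondegenerateMDecomposition (fm T.σ (gr f)) m D ∧
      ∀ i, Inv H (D i) := by
  by_cases h2 : W ⊓ f.perp W = ⊥
  swap
  · exact .inl ⟨_, h2, fun u hu v hv => (fm_gr u v).trans (hu.2 v hv.1), hW.inf (hW.perp hH)⟩
  have h3 := hf.finrank_perp W
  rw [finrank_fintype_fun_eq_card] at h3
  rcases lt_trichotomy (2 * finrank F W) (Fintype.card ι) with h4 | h4 | h4
  · exact .inr (.inl ⟨W, h0, fm_gr' (f := f) ▸ geo_of_nondeg h2, h4, hW⟩)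
  · exact .inr (.inr ⟨_, _, nondeg_pair hf h0 h2 h4, Fin.forall_fin_two.2 ⟨hW, hW.perp hH⟩⟩)
  · exact .inr (.inl ⟨_, fun h => h1 (by rw [← hf.perp_perp W, h, f.perp_bot]),
      fm_gr' (f := f) ▸ geo_of_nondeg (hf.perp_inf_perp_perp h2), by omega, hW.perp hH⟩)

end red

section subfield

/-- the Gram matrix in the basis `P` -/
def cJ (σ : F →+* F) (J : Matrix ι ι F) (P : GL ι F) : Matrix ι ι F :=
  (P : Matrix ι ι F)ᵀ * J * (P : Matrix ι ι F).map σ

theorem fm_cJ (P : GL ι F) (u v : ι → F) :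
    fm σ J ((P : Matrix ι ι F) *ᵥ u) ((P : Matrix ι ι F) *ᵥ v) = fm σ (cJ σ J P) u v := fm_mulVec _ _ u v

theorem cJ_sc (c : Fˣ) (P : GL ι F) : cJ σ J (sc c * P) = ((c : F) * σ c) • cJ σ J P :=
  fm_inj (σ := σ) fun u v => by
    rw [← fm_cJ, fm_smul, ← fm_cJ, Units.val_mul, sc_val, smul_mul_assoc, one_mul, smul_mulVec, smul_mulVec,
      fm_smul_left, fm_smul_right, mul_assoc]

/-- realised over the fixed field up to scalars -/
def SR (φ : F ≃+* F) (P : GL ι F) (H : Subgroup (GL ι F)) : Prop :=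
  ∀ g ∈ H, ∃ c : F, (cj P⁻¹ (g : Matrix ι ι F)).map φ = c • cj P⁻¹ g

theorem SR.le [Nonempty ι] {φ : F ≃+* F} {P : GL ι F} (h : SR φ P H) : H ≤ subfieldSubgroup (fx φ) P :=
  fun g hg => let ⟨_, hc⟩ := h g hg; mem_subfield hc

theorem SR.sc {φ : F ≃+* F} {P : GL ι F} (h : SR φ P H) (c : Fˣ) : SR φ (sc c * P) H := fun g hg => by
  rw [_root_.mul_inv_rev, cj_mul, cj_sc (inv_mem (sc_mem c))]; exact h g hg

/-- the raw subfield class -/
def SF (σ : F →+* F) (J : Matrix ι ι F) (H : Subgroup (GL ι F)) (φ : F ≃+* F) (P : GL ι F) (b : F) : Prop :=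
  (orderOf φ).Prime ∧ SR φ P H ∧ b ≠ 0 ∧ (b • cJ σ J P).map φ = b • cJ σ J P

theorem hom_comm (φ ψ : F →+* F) (a : F) : φ (ψ a) = ψ (φ a) := by
  have h : ∀ φ : F →+* F, ∃ k : ℕ, ∀ a : F, a ≠ 0 → φ a = a ^ k := fun φ => by
    obtain ⟨g, hg⟩ := IsCyclic.exists_monoid_generator (α := Fˣ)
    obtain ⟨k, hk⟩ := hg (Units.map φ.toMonoidHom g)
    refine ⟨k, fun a ha => ?_⟩
    obtain ⟨j, hj⟩ := hg (Units.mk0 a ha)
    rw [show a = g ^ j from (congrArg Units.val hj).symm, map_pow,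
      show φ g = g ^ k from (congrArg Units.val hk).symm, pow_right_comm]
  obtain ⟨k, hk⟩ := h ψ
  rcases eq_or_ne a 0 with rfl | ha
  · simp
  · rw [hk a ha, hk _ ((map_ne_zero φ).2 ha), map_pow]

theorem Real.sf [Nonempty ι] {φ : F ≃+* F} {P : GL ι F} (h : Real φ P L) (hp : (orderOf φ).Prime)
    (hL : alg L = ⊤) (hn : Nm H L) (hJ : IsUnit J)
    (hs : ∀ l ∈ L, ∃ c, Sm σ J (l : Matrix ι ι F) c ∧ φ c = c) : ∃ b, SF σ J H φ P b :=
  let ⟨b, h1, h2⟩ := h.gram hL (hom_comm (φ : F →+* F) σ) hJ hs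
  ⟨b, hp, fun _ hg => h.exists_map hL hn hg, h1, h2⟩

theorem rat_of_map {φ : F ≃+* F} {P : GL ι F} {b : F} (h : (b • cJ σ J P).map φ = b • cJ σ J P) :
    IsFormRationalStructure (fm σ J) (fx φ) b P := fun u v hu hv => mem_fixed_subfield.2 (by
  rw [fm_cJ, ← fm_smul]
  have h1 : ∀ u : ι → F, (∀ i, u i ∈ fx φ) → (φ : F →+* F) ∘ u = u := fun u hu =>
    funext fun i => mem_fixed_subfield.1 (hu i)
  have := map_fm (φ := (φ : F →+* F)) (J := b • cJ σ J P) (hom_comm _ σ) u v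
  rw [h1 u hu, h1 v hv] at this
  exact this.trans (congrFun₂ (congrArg (fm σ) h) u v))

theorem Irr.cg (hI : Irr H) (P : GL ι F) : Irr (cg P⁻¹ H) := fun W hW => by
  refine (hI (W.map (toLin' (P : Matrix ι ι F))) ?_).imp (fun h => ?_) fun h => ?_
  · rintro g hg _ ⟨v, hv, rfl⟩
    refine ⟨_, hW (P⁻¹ * g * P) (mem_cg.2 (by simpa [mul_assoc])) v hv, ?_⟩
    simp [mul_assoc]
  · exact Submodule.finrank_eq_zero.1 (by rw [← finrank_map_gl P, h, finrank_bot])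
  · exact Submodule.eq_top_of_finrank_eq (by rw [← finrank_map_gl P, h, finrank_top])

theorem sm_cg {P g : GL ι F} (hH : H ≤ isoG σ J) (hg : g ∈ cg P⁻¹ H) : Sm σ (cJ σ J P) g 1 := by
  obtain ⟨g, hg, rfl⟩ := hg
  exact (mem_isoG.1 (hH hg)).cj P

theorem map_eq_transpose (h : Rf σ J 1) : J.map σ = Jᵀ := by
  rw [← transpose_transpose (J.map σ), h.swap, one_smul]

/-- the two subfield classes of index two in the unitary case -/
def U2 (σ : F →+* F) (J : Matrix ι ι F) (H : Subgroup (GL ι F)) : Prop :=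
  (∃ (F₀ : Subfield F) (P : GL ι F), Odd (Fintype.card F) ∧ Fintype.card F = Nat.card F₀ ^ 2 ∧
    IsFormRationalStructure (fm σ J) F₀ 1 P ∧ H ≤ subfieldSubgroup F₀ P) ∨
  ∃ (F₀ : Subfield F) (P : GL ι F) (ζ : F), Even (Fintype.card ι) ∧ Fintype.card F = Nat.card F₀ ^ 2 ∧
    ζ ≠ 0 ∧ ζ + σ ζ = 0 ∧ IsFormRationalStructure (fm σ J) F₀ ζ P ∧
    (∀ u : ι → F, (∀ i, u i ∈ F₀) → fm σ J ((P : Matrix ι ι F) *ᵥ u) ((P : Matrix ι ι F) *ᵥ u) = 0) ∧
    H ≤ subfieldSubgroup F₀ P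

theorem SR.u2 [Nonempty ι] {φ : F ≃+* F} (h2 : orderOf φ = 2) {P : GL ι F} (h : Rf (φ : F →+* F) J 1)
    (hH : H ≤ isoG (φ : F →+* F) J) (hI : Irr H) (hn : 2 ≤ Fintype.card ι) (hS : SR φ P H)
    (hs : (cJ (φ : F →+* F) J P)ᵀ = cJ φ J P ∨ (cJ (φ : F →+* F) J P)ᵀ = -cJ φ J P) :
    U2 (φ : F →+* F) J H := by
  have h' : Rf (φ : F →+* F) (cJ φ J P) 1 := h.cong P
  have h3 := map_eq_transpose h'
  have hc := h2 ▸ card_fx φ
  rcases bilin_cases (hI.cg P) hn h'.unit hs fun g hg => by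
    have h4 := sm_cg hH hg
    obtain ⟨g, hg, rfl⟩ := hg
    obtain ⟨c, hc⟩ := hS g hg
    have h0 : c ≠ 0 := by
      rintro rfl
      exact (isUnit_map (σ := (φ : F →+* F)) (P⁻¹ * g * P⁻¹⁻¹).isUnit).ne_zero (hc.trans (zero_smul _ _))
    refine ⟨c⁻¹, ?_⟩
    rw [Sm, map_id', eq_inv_smul_iff₀ h0, ← mul_smul_comm]
    exact (congrArg _ hc).symm.trans (h4.trans (one_smul _ _)) with h4 | h4
  · obtain ⟨ζ, h5, h6⟩ := exists_trace_zero (coe_ne_id (σ := φ) (by rintro rfl; simp at h2)) h.inv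
    refine .inr ⟨_, P, ζ, even_of_symp h4, hc, h5, h6, rat_of_map ?_, fun u hu => ?_, hS.le⟩
    · have h7 : (cJ (φ : F →+* F) J P)ᵀ = -cJ φ J P := fm_inj (σ := RingHom.id F) fun u v => by
        rw [← fm_transpose, h4.skew, ← neg_one_smul F (cJ _ J P), fm_smul, neg_one_mul]
      have : (ζ • cJ (φ : F →+* F) J P).map φ = (φ : F →+* F) ζ • (cJ (φ : F →+* F) J P).map (φ : F →+* F) := by
        ext; simp
      rw [this, h3, h7, eq_neg_of_add_eq_zero_right h6, smul_neg, neg_smul, neg_neg]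
    · rw [fm_cJ, ← h4.alternating u]
      unfold fm
      congr 2
      exact funext fun i => mem_fixed_subfield.1 (hu i)
  · exact .inl ⟨_, P, h4.1, hc, rat_of_map (by rw [one_smul]; exact h3.trans h4.2), hS.le⟩

theorem eq_of_order_two {φ : F ≃+* F} (h2 : orderOf φ = 2) (h1 : σ ≠ RingHom.id F) (hσ : ∀ a, σ (σ a) = a) :
    σ = φ := by
  obtain ⟨q, hF, rfl⟩ := exists_eq_frobq h1 hσ
  obtain ⟨q', hF', h⟩ := exists_eq_frobq (coe_ne_id (σ := φ) (by rintro rfl; simp at h2)) fun a => by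
    have := pow_orderOf_eq_one φ
    rw [h2, sq] at this
    exact RingEquiv.congr_fun this a
  obtain rfl := Nat.pow_left_injective two_ne_zero (hF.symm.trans hF')
  exact h.symm

theorem SF.unit [Nonempty ι] {φ : F ≃+* F} {P : GL ι F} {b : F} (hS : SF σ J H φ P b) (h : Rf σ J 1)
    (h1 : σ ≠ RingHom.id F) (hH : H ≤ isoG σ J) (hI : Irr H) (hn : 2 ≤ Fintype.card ι) :
    (∃ (F₀ : Subfield F) (r : ℕ) (P : GL ι F), r.Prime ∧ Odd r ∧ Fintype.card F = Nat.card F₀ ^ r ∧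
      IsFormRationalStructure (fm σ J) F₀ 1 P ∧ H ≤ subfieldSubgroup F₀ P) ∨ U2 σ J H := by
  obtain ⟨h2, h3, h4, h5⟩ := hS
  have h' : Rf σ (cJ σ J P) 1 := h.cong P
  have h6 := map_eq_transpose h'
  rcases h2.eq_two_or_odd' with h7 | h7
  · obtain rfl := eq_of_order_two h7 h1 h.inv
    refine .inr (h3.u2 h7 h hH hI hn ?_)
    have h8 : (b • cJ (φ : F →+* F) J P).map φ = φ b • (cJ (φ : F →+* F) J P).map (φ : F →+* F) := by
      ext; simp
    have h0 : φ b ≠ 0 := (map_ne_zero φ).2 h4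
    rw [h8, h6, ← eq_inv_smul_iff₀ h0, smul_smul] at h5
    have h9 := congrArg transpose h5
    rw [transpose_transpose, transpose_smul, h5, smul_smul] at h9
    rcases mul_self_eq_one_iff.1 (smul_left_injective F h'.unit.ne_zero
      (h9.symm.trans (one_smul _ _).symm)) with h10 | h10 <;> rw [h5, h10] <;> simp
  have h8 : ∃ x, φ x = x ∧ x * b + σ (x * b) ≠ 0 := by
    by_contra! h8
    have h9 : fx φ ≤ σ.eqLocusField (RingHom.id F) := fun x hx => by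
      have h9 := h8 1 (map_one φ)
      have h10 := h8 x (mem_fixed_subfield.1 hx)
      rw [one_mul] at h9
      rw [map_mul, eq_neg_of_add_eq_zero_right h9] at h10
      exact mul_right_cancel₀ h4 (show σ x * b = x * b by linear_combination -h10)
    obtain ⟨ψ, h10, h11, h12⟩ := exists_inv_of_sq (exists_eq_frobq h1 h.inv).choose_spec.1
    have h13 : orderOf ψ = 2 := orderOf_eq_prime (RingEquiv.ext h11) h10
    obtain rfl := eq_of_order_two h13 h1 h.inv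
    have h14 : fx φ ≤ fx ψ := fun x hx => mem_fixed_subfield.2 (h9 hx)
    let _ := (Subfield.inclusion h14).toAlgebra
    have h15 := Module.natCard_eq_pow_finrank (K := fx φ) (V := fx ψ)
    have h16 := (card_fx φ).symm.trans (card_fx ψ)
    rw [h15, ← pow_mul, h13] at h16
    have := Nat.pow_right_injective Finite.one_lt_card h16
    rw [this] at h7
    exact Nat.not_even_iff_odd.2 h7 (even_two.mul_left _)
  obtain ⟨x, h9, h10⟩ := h8
  obtain ⟨y, h11⟩ := exists_norm_eq' h1 h.inv (μ := x * b + σ (x * b)) (by rw [map_add, h.inv, add_comm])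
  have h12 : y ≠ 0 := by rintro rfl; exact h10 (by rw [← h11, zero_mul])
  refine .inl ⟨_, _, sc (Units.mk0 y h12) * P, h2, h7, card_fx φ, rat_of_map ?_, (h3.sc _).le⟩
  rw [one_smul, cJ_sc, Units.val_mk0, h11]
  ext i j
  have h13 : ∀ i j, φ (b * cJ σ J P i j) = b * cJ σ J P i j := fun i j => congrFun₂ h5 i j
  have h14 : ∀ i j, σ (cJ σ J P i j) = cJ σ J P j i := fun i j => congrFun₂ h6 i j
  have h15 := congrArg σ (h13 j i)
  rw [← show φ (σ _) = σ (φ _) from hom_comm (φ : F →+* F) σ _, map_mul σ, h14] at h15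
  have h16 : φ (σ x) = σ x := (hom_comm (φ : F →+* F) σ x).trans (congrArg σ h9)
  rw [map_apply, Matrix.smul_apply, smul_eq_mul, map_mul σ, add_mul, mul_assoc, mul_assoc, map_add,
    map_mul φ x, map_mul φ (σ x), h13, h15, h9, h16]

theorem SF.odd [Nonempty ι] {φ : F ≃+* F} {P : GL ι F} {b : F} (hS : SF (RingHom.id F) J H φ P b)
    (hJ : IsUnit J) (h1 : φ J.det = J.det) (hn : Odd (Fintype.card ι)) :
    ∃ P, SF (RingHom.id F) J H φ P 1 := by
  obtain ⟨h2, h3, h4, h5⟩ := hS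
  obtain ⟨m, hm⟩ := hn
  have h6 := congrArg det h5
  rw [show (b • cJ _ J P).map φ = (φ : F →+* F).mapMatrix (b • cJ _ J P) from rfl, ← RingHom.map_det,
    det_smul, cJ, map_id', det_mul, det_mul, det_transpose, hm] at h6
  have h7 : φ (b ^ (2 * m + 1) * (P.1.det * P.1.det)) = b ^ (2 * m + 1) * (P.1.det * P.1.det) :=
    mul_right_cancel₀ ((isUnit_iff_isUnit_det _).1 hJ).ne_zero (by
      nth_rw 1 [← h1]
      rw [← map_mul]
      exact (congrArg φ (by ring)).trans (h6.trans (by ring)))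
  refine ⟨sc (Units.mk0 (b ^ (m + 1) * P.1.det) (mul_ne_zero (pow_ne_zero _ h4) P.det_ne_zero)) * P, h2,
    h3.sc _, one_ne_zero, ?_⟩
  rw [one_smul, cJ_sc, Units.val_mk0, RingHom.id_apply, show b ^ (m + 1) * P.1.det * (b ^ (m + 1) * P.1.det) =
    b ^ (2 * m + 1) * (P.1.det * P.1.det) * b by ring, mul_smul]
  ext i j
  rw [map_apply, Matrix.smul_apply, smul_eq_mul, map_mul φ, h7]
  exact congrArg _ (congrFun₂ h5 i j)

theorem real_of_two [Nonempty ι] {φ : F ≃+* F} (hL : alg L = ⊤) {B : Matrix ι ι F} (hB : IsUnit B)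
    (hJ : IsUnit J) (h1 : ∀ l ∈ L, Sm (RingHom.id F) B (l : Matrix ι ι F) 1)
    (h2 : ∀ l ∈ L, Sm (φ : F →+* F) J (l : Matrix ι ι F) 1) : ∃ P, Real φ P L := by
  obtain ⟨B, rfl⟩ := hB
  obtain ⟨J, rfl⟩ := hJ
  exact exists_real hL fun l hl => by simpa using twist_of_grams (h1 l hl) (h2 l hl) one_ne_zero

end subfield

end Cfsg.Agent.H4.As
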