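import Cfsg.Agent.H4.As12
import Cfsg.Agent.H3.Mackey

/-! Aschbacher's theorem, part 13: small factors, extraspecial groups and quadratic forms. -/

set_option autoImplicit false
set_option linter.unusedSectionVars false

namespace Cfsg.Agent.H4.As

open Matrix Module Cfsg.Geo
open scoped MatrixGroups Kronecker commutatorElement

variable {ι κ : Type} [Fintype ι] [DecidableEq ι] [Fintype κ] [DecidableEq κ] {F : Type*} [Field F]
  [Fintype F] {G H N R L : Subgroup (GL ι F)} {σ : F →+* F} {J : Matrix ι ι F} {ε : F}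

section bases

/-- the unitary space of a hermitian Gram matrix -/
def Rf.cU (h : Rf σ J 1) (h1 : σ ≠ RingHom.id F) : CForm (FType.unit σ h.inv) (ι → F) :=
  CForm.mkHerm σ h.inv h1 (fm σ J) fm_add_left fm_smul_left fun x y => by rw [h.symm, one_mul]

/-- the orthogonal space of a symmetric Gram matrix -/
def Rf.cO (h : Rf (RingHom.id F) J 1) (h2 : (2 : F) ≠ 0) : CForm (FType.orth F) (ι → F) :=
  CForm.mkSymm h2 (fm (RingHom.id F) J) fm_add_left fm_smul_left fun x y => by rw [h.symm, one_mul]; rfl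

theorem Rf.cU_nondeg (h : Rf σ J 1) (h1 : σ ≠ RingHom.id F) : (h.cU h1).Nondeg := fun _ hx =>
  h.eq_zero fun y => h.zero_symm (hx y)

theorem Rf.cO_nondeg (h : Rf (RingHom.id F) J 1) (h2 : (2 : F) ≠ 0) : (h.cO h2).Nondeg := fun _ hx =>
  h.eq_zero fun y => h.zero_symm (hx y)

theorem Rf.mem_cU (h : Rf σ J 1) (h1 : σ ≠ RingHom.id F) (g : GL ι F) :
    g ∈ isoG σ J ↔ glE g ∈ (h.cU h1).iso :=
  ⟨fun hg => CForm.unit_mem_iso.2 (iso_fm hg), fun hg => sm_iff.2 fun u v => (hg.1 u v).trans (one_mul _).symm⟩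

theorem Rf.mem_cO (h : Rf (RingHom.id F) J 1) (h2 : (2 : F) ≠ 0) (g : GL ι F) :
    g ∈ isoG (RingHom.id F) J ↔ glE g ∈ (h.cO h2).iso :=
  ⟨fun hg => CForm.orth_mem_iso.2 fun x => congrArg (· / 2) (iso_fm hg x x),
    fun hg => sm_iff.2 fun u v => (hg.1 u v).trans (one_mul _).symm⟩

theorem exists_gl_of_basis {n : ℕ} (b : Basis (Fin n) F (ι → F)) : ∃ (e : ι ≃ Fin n) (A : GL ι F),
    ∀ (σ : F →+* F) (J : Matrix ι ι F) i j, cJ σ J A i j = fm σ J (b (e i)) (b (e j)) := by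
  let e : ι ≃ Fin n := Fintype.equivFinOfCardEq (by simpa using finrank_eq_card_basis b)
  refine ⟨e, glE.symm (b.reindex e.symm).equivFun.symm, fun σ J i j => ?_⟩
  rw [← fm_single (σ := σ) (J := cJ σ J _), ← fm_cJ, glE_symm_mulVec, glE_symm_mulVec]
  simp [Pi.single_apply]

theorem Rf.exists_on (h : Rf σ J 1) (h1 : σ ≠ RingHom.id F) : ∃ A, cJ σ J A = 1 := by
  obtain ⟨b, hb⟩ := (h.cU_nondeg h1).unit_basis h1
  obtain ⟨e, A, hA⟩ := exists_gl_of_basis b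
  exact ⟨A, by ext i j; rw [hA]; exact (hb _ _).trans (by simp [one_apply])⟩

theorem Rf.exists_on_odd (h : Rf (RingHom.id F) J 1) (h2 : (2 : F) ≠ 0) (hn : Odd (Fintype.card ι)) :
    ∃ c : F, c ≠ 0 ∧ ∃ A, cJ (RingHom.id F) (c • J) A = 1 := by
  obtain ⟨m, hm⟩ := hn
  have h0 := (h.cO_nondeg h2).disc_ne
  obtain ⟨b, h3, h4, h5⟩ := ((h.cO_nondeg h2).osmul h0).orth_diag h2 (n := 2 * m) (by simpa using hm)
    one_ne_zero ⟨(h.cO h2).disc ^ (m + 1), by rw [CForm.disc_osmul]; simp [hm]; ring⟩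
  obtain ⟨e, A, hA⟩ := exists_gl_of_basis b
  refine ⟨_, h0, A, ?_⟩
  ext i j
  rw [hA, fm_smul]
  by_cases hij : i = j
  · subst hij
    rw [one_apply_eq]
    by_cases h6 : e i = Fin.last _
    · rw [h6]; exact h5
    · exact h4 _ h6
  · rw [one_apply_ne hij]
    exact h3 _ _ (e.injective.ne hij)

theorem rf_one (hσ : ∀ a, σ (σ a) = a) : Rf σ (1 : Matrix ι ι F) 1 :=
  ⟨hσ, isUnit_one, by simp [Matrix.map_one _ (map_zero σ) (map_one σ)], .inl rfl⟩

variable {k l : ℕ} {e : ι ≃ Fin k × Fin l} {P : GL ι F} {J₁ : Matrix (Fin k) (Fin k) F}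
  {J₂ : Matrix (Fin l) (Fin l) F} {δ₂ : F}

theorem TF.on (hT : TF σ J H e P J₁ J₂ 1 δ₂) (h1 : σ ≠ RingHom.id F) : ∃ P, TF σ J H e P 1 J₂ 1 δ₂ :=
  let ⟨A, hA⟩ := hT.rf1.exists_on h1
  ⟨_, (show A.1ᵀ * J₁ * _ = 1 from hA) ▸ hT.cong A⟩

theorem TF.on_odd (hT : TF (RingHom.id F) J H e P J₁ J₂ 1 δ₂) (h2 : (2 : F) ≠ 0) (hk : Odd k) :
    ∃ P, TF (RingHom.id F) J H e P 1 J₂ 1 δ₂ :=
  let ⟨c, hc, A, hA⟩ := hT.rf1.exists_on_odd h2 (by simpa)
  ⟨_, (show A.1ᵀ * (c • J₁) * _ = 1 from hA) ▸ (hT.smul hc (hT.rf1.smul_herm hc rfl)).cong A⟩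

end bases

section small

theorem not_perfect [Nonempty ι] (hp : ⁅L, L⁆ = L) (h0 : ¬ L ≤ scalars ι F) (hL : L ≤ G) {a b : ℕ}
    (h : Nat.card G = 2 ^ a * 3 ^ b) : False := by
  have := H3.burnside_pq (G := L) Nat.prime_two Nat.prime_three fun r hr h1 => by
    have := h1.trans (Subgroup.card_dvd_of_le hL)
    rw [h, hr.dvd_mul] at this
    exact this.imp (fun h => (Nat.prime_dvd_prime_iff_eq hr Nat.prime_two).1 (hr.dvd_of_dvd_pow h))
      fun h => (Nat.prime_dvd_prime_iff_eq hr Nat.prime_three).1 (hr.dvd_of_dvd_pow h)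
  rcases subsingleton_or_nontrivial L with _ | _
  · exact h0 fun g hg => (show g = 1 from congrArg Subtype.val (Subsingleton.elim (⟨g, hg⟩ : L) 1)) ▸ one_mem _
  · exact (Group.IsSolvable.commutator_lt_top_of_nontrivial L).ne ((commutator_eq_top_iff L).2 hp.ge)

theorem Rf.card_u32 (h : Rf σ J 1) (h1 : σ ≠ RingHom.id F) (hF : Fintype.card F = 2 ^ 2)
    (hn : Fintype.card ι = 3) : Nat.card (isoG σ J) = 2 ^ 3 * 3 ^ 4 := by
  obtain ⟨q, hq, rfl⟩ := exists_eq_frobq h1 h.inv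
  obtain rfl := Nat.pow_left_injective two_ne_zero (hF.symm.trans hq)
  rw [Nat.card_congr (glSub (h.mem_cU h1)).toEquiv, (h.cU_nondeg h1).unit_card_iso hq (n := 3) (by simpa)]
  decide

theorem Rf.card_o33 (h : Rf (RingHom.id F) J 1) (hF : Fintype.card F = 3) (hn : Fintype.card ι = 3) :
    Nat.card (isoG (RingHom.id F) J) = 2 ^ 4 * 3 ^ 1 := by
  have h2 := two_ne_zero_of_odd (F := F) (by rw [hF]; decide)
  rw [Nat.card_congr (glSub (h.mem_cO h2)).toEquiv, (h.cO_nondeg h2).orth_card_odd (m := 1) (by simpa), hF]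
  decide

theorem card_gl23 (hF : Fintype.card F = 3) : Nat.card (⊤ : Subgroup (GL (Fin 2) F)) = 2 ^ 4 * 3 ^ 1 := by
  rw [Subgroup.card_top, card_GL_field, hF]; decide

theorem not_le_of_alg [Nonempty ι] (ht : alg L = ⊤) (hn : 2 ≤ Fintype.card ι) : ¬ L ≤ scalars ι F :=
  (irr_of_alg ht).not_le hn

theorem ca_mono (hσ : ∀ a, σ (σ a) = a) (hn : 2 ≤ Fintype.card ι) (hH : H ≤ isoG σ 1)
    (h : ∀ x : ι → F, fm σ 1 x x = 1 → ∀ i j, i ≠ j → x i * σ (x j) = 0) : CA σ 1 H := by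
  have h1 : ∀ a : Matrix ι ι F, ad σ 1 a = aᵀ.map σ := fun a => by simp [ad]
  refine ⟨(diagonalAlgHom F).range, ?_, ?_, ?_, fun h0 => ?_⟩
  · rintro g hg _ ⟨d, rfl⟩
    refine ⟨_, (isDiag_iff_diagonal_diag _).1 fun i j hij => ?_⟩
    change cj g _ i j = 0
    rw [cj_apply, ← (rf_one hσ).ad_val (hH hg), h1, mul_apply]
    refine Finset.sum_eq_zero fun k _ => ?_
    have := h _ ((iso_fm (hH hg) _ _).trans ((fm_single k k).trans (one_apply_eq k))) i j hij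
    simp only [mulVec_single_one, col_apply] at this
    simp only [AlgHom.toRingHom_eq_coe, RingHom.coe_coe, diagonalAlgHom_apply, mul_diagonal, map_apply,
      transpose_apply]
    rw [mul_right_comm, this, zero_mul]
  · rintro _ ⟨a, rfl⟩ _ ⟨b, rfl⟩
    rw [← map_mul, mul_comm, map_mul]
  · rintro _ ⟨a, rfl⟩
    exact ⟨σ ∘ a, by simp [h1, diagonal_map (map_zero σ), Function.comp_def]⟩
  · obtain ⟨i, j, hij⟩ := Fintype.exists_pair_of_one_lt_card (α := ι) hn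
    obtain ⟨c, hc⟩ := isSc_iff_bot.2 (h0.le ⟨Pi.single i 1, rfl⟩)
    have h2 := congrFun₂ hc i i
    have h3 := congrFun₂ hc j j
    simp [hij.symm] at h2 h3
    exact one_ne_zero (h2.trans h3.symm)

theorem ca_elt (h : Rf σ J ε) {s : Matrix ι ι F} (h0 : ¬ IsSc s) (h1 : ∀ g ∈ H, ∃ c : F, cj g s = c • s)
    {d : F} (h2 : ad σ J s = d • s) : CA σ J H := by
  have hs : s ∈ Algebra.adjoin F {s} := Algebra.self_mem_adjoin_singleton F s
  refine ⟨Algebra.adjoin F {s}, fun g hg x hx => ?_, fun a ha b hb => ?_, fun x hx => ?_,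
    fun h => h0 (isSc_iff_bot.2 (h ▸ hs))⟩
  · refine (Algebra.adjoin_le (S := (Algebra.adjoin F {s}).comap (cj g).toAlgHom) ?_) hx
    obtain ⟨c, hc⟩ := h1 g hg
    exact Set.singleton_subset_iff.2
      (show cj g s ∈ Algebra.adjoin F {s} from hc ▸ Subalgebra.smul_mem _ hs c)
  · exact (Algebra.commute_of_mem_adjoin_singleton_of_commute hb
      (Algebra.commute_of_mem_adjoin_self ha).symm).eq
  · induction hx using Algebra.adjoin_induction with
    | mem x hx => rw [hx, h2]; exact Subalgebra.smul_mem _ hs d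
    | algebraMap c =>
      rw [Algebra.algebraMap_eq_smul_one, ad_smul, h.ad_one]; exact Subalgebra.smul_mem _ (one_mem _) _
    | add x y _ _ hx hy => rw [ad_add]; exact add_mem hx hy
    | mul x y _ _ hx hy => rw [h.ad_mul]; exact mul_mem hy hx

theorem ca_two [Nonempty ι] (h : Rf (RingHom.id F) J ε) (h2 : (2 : F) ≠ 0) {B : Matrix ι ι F}
    (hB : Rf (RingHom.id F) B (-ε)) (h1 : ∀ g ∈ H, ∃ c, Sm (RingHom.id F) J g c)
    (h3 : ∀ g ∈ H, ∃ c, Sm (RingHom.id F) B g c) : CA (RingHom.id F) J H := by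
  obtain ⟨J, rfl⟩ := h.unit
  have h4 := h.swap
  have h5 := hB.swap
  rw [map_id'] at h4 h5
  refine ca_elt h (s := J⁻¹.1 * B) (d := -1) ?_ (fun g hg => ?_) (h.ad_eq' ?_)
  · rintro ⟨c, hc⟩
    rw [Units.inv_mul_eq_iff_eq_mul, mul_smul_comm, mul_one] at hc
    rw [hc, transpose_smul, h4, smul_comm, ← hc, neg_smul, eq_neg_iff_add_eq_zero, ← two_smul F, smul_smul,
      smul_eq_zero] at h5
    exact h5.elim (mul_ne_zero h2 h.eps_ne) hB.unit.ne_zero
  · obtain ⟨c, hc⟩ := h1 g hg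
    obtain ⟨d, hd⟩ := h3 g hg
    have h6 := hd.ne_zero hB.unit
    rw [Sm, map_id'] at hc hd
    refine ⟨c * d⁻¹, cj_eq_iff.2 ?_⟩
    rw [← (((isUnit_transpose _).2 g.isUnit).mul J.isUnit).mul_right_inj, ← mul_assoc, hc, smul_mul_assoc,
      smul_mul_assoc, mul_smul_comm, Units.mul_inv_cancel_left, ← mul_assoc, mul_assoc _ J.1,
      Units.mul_inv_cancel_left, hd, smul_smul, inv_mul_cancel_right₀ h6]
  · rw [map_id', transpose_mul, mul_assoc, ← h.eps_mul, ← one_smul F J.1, ← h.eps_mul, mul_smul, ← h4,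
      mul_smul_comm, ← transpose_mul, Units.mul_inv, transpose_one, h5, h4, smul_smul, h.eps_mul]
    simp [smul_smul, h.eps_mul]

theorem rf_J2 : Rf (RingHom.id F) (J2 F) (-1) :=
  ⟨fun _ => rfl, isUnit_J2, by rw [map_id', J2_transpose, neg_one_smul], .inr rfl⟩

theorem u2_of_twist [Nonempty ι] {φ : F ≃+* F} (h2 : orderOf φ = 2) (h : Rf (φ : F →+* F) J 1)
    (hH : H ≤ isoG (φ : F →+* F) J) (hI : Irr H) (hn : 2 ≤ Fintype.card ι) {B : GL ι F}
    (hB : B.1ᵀ = B ∨ B.1ᵀ = -B) (h1 : ∀ g ∈ H, ∃ c, Sm (RingHom.id F) B.1 g c) {c : Fˣ}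
    (h3 : B⁻¹.1 * J * (B⁻¹.1 * J).map φ = (c : F) • 1) : U2 (φ : F →+* F) J H := by
  obtain ⟨J, rfl⟩ := h.unit
  have h4 : gam φ (B⁻¹ * J) ^ orderOf φ ∈ Zs F (ι → F) := by
    refine ⟨c, Gam.ext' (fun v => ?_) (by rw [Gam.pow_ρ, gam_ρ, pow_orderOf_eq_one]; rfl)⟩
    rw [h2, sq, Gam.mul_s, gam_s, gam_s, Gam.sc_s]
    erw [comp_mulVec (φ : F →+* F)]
    rw [mulVec_mulVec, Units.val_mul]
    erw [h3]
    rw [smul_mulVec, one_mulVec]
    exact congrArg _ (funext fun i => (h.inv (v i)).symm)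
  obtain ⟨d, P, hP⟩ := exists_fixed_basis h4
  refine SR.u2 (P := P) h2 h hH hI hn (fun g hg => ?_) ?_
  · obtain ⟨a, ha⟩ := h1 g hg
    exact ⟨_, map_cj_of (φ := (φ : F →+* F)) hP (twist_of_grams ha (hH hg) one_ne_zero)⟩
  · have : cJ (φ : F →+* F) J P = (d⁻¹ : Fˣ).1 • (P.1ᵀ * B * P) := by
      nth_rw 2 [← hP]
      simp [cJ, mul_assoc, smul_smul]
    rw [this]
    exact hB.imp (fun h => by simp [h, mul_assoc]) fun h => by simp [h, mul_assoc]

theorem TF.u2 [Nonempty ι] {e : ι ≃ Fin 2 × Fin 2} {P : GL ι F} (hT : TF σ J H e P 1 1 1 1) (h : Rf σ J 1)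
    (h1 : σ ≠ RingHom.id F) (hH : H ≤ isoG σ J) (hI : Irr H) : U2 σ J H := by
  obtain ⟨φ, h10, h11, -⟩ := exists_inv_of_sq (exists_eq_frobq h1 h.inv).choose_spec.1
  have h2 : orderOf φ = 2 := orderOf_eq_prime (RingEquiv.ext h11) h10
  obtain rfl := eq_of_order_two h2 h1 h.inv
  obtain ⟨c, hc, h3⟩ := hT.eq
  let E : Matrix ι ι F := (J2 F ⊗ₖ J2 F).submatrix e e
  have hE : E * E = 1 := by
    rw [submatrix_mul_equiv, ← mul_kronecker_mul, show J2 F * J2 F = (-1 : F) • 1 by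
      ext i j; fin_cases i <;> fin_cases j <;> simp [J2]]
    rw [smul_kronecker, kronecker_smul, smul_smul, one_kronecker_one]
    simp
  have hE' : E.map φ = E := by
    have : (J2 F).map (φ : F →+* F) = J2 F := by ext i j; fin_cases i <;> fin_cases j <;> simp [J2]
    exact congrArg (fun x => submatrix x e e) ((kron_map (φ : F →+* F) _ _).trans (by rw [this]))
  have h4 : P.1ᵀ * P⁻¹.1ᵀ = 1 := by rw [← transpose_mul, Units.inv_mul, transpose_one]
  have h5 : P⁻¹.1ᵀ * P.1ᵀ = 1 := mul_eq_one_comm.1 h4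
  let B : GL ι F := ⟨P⁻¹.1ᵀ * E * P⁻¹.1, P.1 * E * P.1ᵀ, by
    rw [mul_assoc, mul_assoc P.1, ← mul_assoc P⁻¹.1, Units.inv_mul, one_mul, mul_assoc,
      ← mul_assoc E, hE, one_mul, h5], by
    rw [mul_assoc, mul_assoc P⁻¹.1ᵀ, ← mul_assoc P.1ᵀ, h4, one_mul, mul_assoc, ← mul_assoc E, hE, one_mul,
      Units.mul_inv]⟩
  have hB : B.1 = trJ (RingHom.id F) e P (J2 F ⊗ₖ J2 F) := by rw [trJ, map_id']
  refine u2_of_twist h2 h hH hI (by simp [hT.card]) (B := B) (.inl ?_) (fun g hg => ?_)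
    (c := Units.mk0 (c * φ c) (by simpa)) ?_
  · rw [hB, trJ_transpose, kron_transpose, J2_transpose, ← neg_one_smul F (J2 F), smul_kronecker,
      kronecker_smul, smul_smul, neg_mul_neg, one_mul, one_smul]
  · obtain ⟨a, b, -, rfl, -⟩ := hT.le g hg
    exact ⟨_, by rw [hB, trG_val, sm_trJ, kG_val]; exact (sm_J2 _).kron (sm_J2 _)⟩
  · have : B⁻¹.1 * J = c • (P.1 * E * P⁻¹.1.map φ) := by
      rw [h3, trJ_smul, one_kronecker_one, trJ, submatrix_one_equiv, mul_one, mul_smul_comm, ← mul_assoc]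
      congr 2
      exact (mul_assoc _ _ _).trans (by rw [h4, mul_one])
    have h6 : (c • (P.1 * E * P⁻¹.1.map φ)).map φ = φ c • (P.1.map φ * E * P⁻¹.1) := by
      have h7 : ∀ a : Matrix ι ι F, (c • a).map φ = φ c • a.map (φ : F →+* F) := fun a => by ext; simp
      rw [h7, Matrix.map_mul, Matrix.map_mul]
      erw [h.map_map, hE']
      rfl
    rw [this, h6, smul_mul_smul_comm, mul_assoc, mul_assoc (P.1.map φ), ← mul_assoc (P⁻¹.1.map φ)]
    erw [← Matrix.map_mul (f := (φ : F →+* F))]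
    rw [Units.inv_mul, Matrix.map_one _ (map_zero _) (map_one _), one_mul, mul_assoc, ← mul_assoc E, hE,
      one_mul, Units.mul_inv, Units.val_mk0]

end small

end Cfsg.Agent.H4.As
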