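import Cfsg.Agent.H4.As13

/-! Aschbacher's theorem, part 14: extraspecial groups and invariant quadratic forms. -/

set_option autoImplicit false
set_option linter.unusedSectionVars false

namespace Cfsg.Agent.H4.As

open Matrix Module Cfsg.Geo
open scoped MatrixGroups Kronecker commutatorElement

variable {ι κ : Type} [Fintype ι] [DecidableEq ι] [Fintype κ] [DecidableEq κ] {F : Type*} [Field F]
  [Fintype F] {G H N R L : Subgroup (GL ι F)} {σ : F →+* F} {J : Matrix ι ι F} {ε : F} {r : ℕ}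

section es

variable [Nonempty ι]

theorem ES.sc_mem (h : ES R r) {c : Fˣ} (hc : c ^ r = 1) : sc c ∈ R := by
  obtain ⟨x, hx, h0⟩ := SetLike.not_le_iff_exists.1 h.nsc
  obtain ⟨y, hy, d, h1, h2⟩ := h.exists_ne hx h0
  have := h.prime.ne_zero
  have : NeZero r := ⟨this⟩
  obtain ⟨i, -, rfl⟩ := (h1 ▸ IsPrimitiveRoot.orderOf d).eq_pow_of_mem_rootsOfUnity hc
  rw [sc_pow, ← mul_inv_eq_iff_eq_mul.2 h2]
  exact pow_mem (mul_mem (mul_mem (mul_mem hy hx) (inv_mem hy)) (inv_mem hx)) _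

theorem ES.card_center (h : ES R r) {s : ℕ} (hs : s ≠ 0) {c : Fˣ} (hc : orderOf c = s)
    (hp : ∀ c : Fˣ, sc c ∈ R ↔ c ^ s = 1) : Nat.card (Subgroup.center R) = s := by
  have : NeZero s := ⟨hs⟩
  rw [h.center_eq, card_sc R (rootsOfUnity s F) hp]
  exact (IsPrimitiveRoot.coe_units_iff.2 (hc ▸ IsPrimitiveRoot.orderOf c)).card_rootsOfUnity

theorem ES.card_center' (h : ES R r) (hp : ∀ y ∈ R, y ^ r = 1) : Nat.card (Subgroup.center R) = r :=
  let ⟨_, hc⟩ := h.exists_root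
  h.card_center h.prime.ne_zero hc fun _ =>
    ⟨fun h => sc_inj (ι := ι) (by rw [sc_pow, hp _ h, sc_one]), h.sc_mem⟩

theorem ES.minN_of (h : ES R r) (h1 : ∀ y ∈ R, ∀ x ∈ R, x * y ≠ y * x → ∀ M ≤ R, x ∈ M →
    Nm (Subgroup.normalizer (R : Set (GL ι F))) M → y ∈ M) :
    MinN (scalars ι F) (Subgroup.normalizer (R : Set (GL ι F))) R :=
  ⟨Subgroup.le_normalizer, nm_iff.2 le_rfl, h.nsc, fun M hM hn => or_iff_not_imp_left.2 fun h0 => by
    obtain ⟨x, hx, h0⟩ := SetLike.not_le_iff_exists.1 h0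
    obtain ⟨y, hy⟩ := not_forall.1 fun h2 => h0 (h.ctr x (hM hx) h2)
    obtain ⟨hy, h2⟩ := _root_.not_imp.1 hy
    refine le_antisymm hM fun z hz => ?_
    by_cases h3 : x * z = z * x
    · exact (mul_mem_cancel_right (h1 y hy x (hM hx) h2 M hM hx hn)).1 (h1 _ (mul_mem hz hy) x (hM hx)
        (fun h4 => h2 (by rwa [← mul_assoc, h3, mul_assoc, mul_assoc, mul_right_inj] at h4)) M hM hx hn)
    · exact h1 z hz x (hM hx) h3 M hM hx hn⟩

theorem ES.symp_of (h : ES R r) (hp : ∀ y ∈ R, y ^ (r * Nat.gcd 2 r) = 1)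
    (h1 : MinN (scalars ι F) (Subgroup.normalizer (R : Set (GL ι F))) R) : IsSymplecticTypeGroup r R :=
  RS.sympType ⟨le_sup_left, le_sup_left, hp, h1.nm⟩ h h1

theorem ES.symp3 (h : ES R 3) (hp : ∀ y ∈ R, y ^ 3 = 1) : IsSymplecticTypeGroup 3 R := by
  refine h.symp_of hp (h.minN_of fun y hy x hx hxy M hM hxM hn => ?_)
  obtain ⟨w, hw⟩ := h.exists_root
  have h1 : (w : F) ^ 3 = 1 := by rw [← hw]; exact congrArg Units.val (pow_orderOf_eq_one w)
  have h2 : (w : F) ^ 2 + w + 1 = 0 := (mul_eq_zero.1 (by linear_combination h1)).resolve_left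
    (sub_ne_zero.2 fun h : (w : F) = 1 => by simp [show w = 1 from Units.ext h] at hw)
  have h3 : (3 : F) ≠ 0 := fun h3 => by
    have := ((CharP.cast_eq_zero_iff F (ringChar F) 3).1 h3)
    exact h.ne_char ((Nat.prime_dvd_prime_iff_eq (CharP.char_is_prime F _) Nat.prime_three).1 this).symm
  have h4 : y.1 ^ 3 = 1 := congrArg Units.val (hp y hy)
  have e1 : y.1 * y.1 ^ 2 = 1 := by rw [← pow_succ', h4]
  have e2 : y.1 ^ 2 * y.1 = 1 := by rw [← pow_succ, h4]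
  have e3 : y.1 ^ 2 * y.1 ^ 2 = y.1 := by rw [← pow_add, pow_succ, h4, one_mul]
  let p (a b : F) : Matrix ι ι F := 1 + a • y.1 + b • y.1 ^ 2
  have h5 : ∀ a b c d, p a b * p c d = (1 + a * d + b * c) • 1 + (a + c + b * d) • y.1 +
      (b + d + a * c) • y.1 ^ 2 := fun a b c d => by
    simp only [p, add_mul, mul_add, smul_mul_assoc, mul_smul_comm, one_mul, mul_one, e1, e2, e3,
      ← sq y.1]
    module
  have h6 : p (w ^ 2) 1 * ((3 : F)⁻¹ • p 1 w) = 1 := by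
    rw [mul_smul_comm, h5, inv_smul_eq_iff₀ h3, show 1 + (w : F) ^ 2 * w + 1 * 1 = 3 by linear_combination h1,
      show (w : F) ^ 2 + 1 + 1 * w = 0 by linear_combination h2,
      show 1 + (w : F) + w ^ 2 * 1 = 0 by linear_combination h2]
    simp
  let u : GL ι F := ⟨_, _, h6, mul_eq_one_comm.1 h6⟩
  have h7 : ∀ x ∈ R, ∀ c : Fˣ, y * x * y⁻¹ = sc c * x → (c = 1 ∧ u * x * u⁻¹ = x) ∨
      (u * x * u⁻¹ = x * y) ∨ (u * x * u⁻¹ = sc w * x * y ^ 2) := fun x hx c hc => by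
    have h7 : (c : F) ^ 3 = 1 := congrArg Units.val (h.pow_eq hx hc)
    have h8 : y.1 * x.1 = (c : F) • (x.1 * y.1) := by
      simpa using congrArg Units.val (mul_inv_eq_iff_eq_mul.1 hc)
    have h9 : u.1 * x.1 = x.1 * p (w ^ 2 * c) (c ^ 2) := by
      simp only [u, p, add_mul, mul_add, smul_mul_assoc, mul_smul_comm, one_mul, mul_one, sq, mul_assoc, h8,
        smul_smul, one_smul]
      rw [← mul_assoc y.1, h8, smul_mul_assoc, smul_smul, mul_assoc]
    have : ((c : F) - 1) * ((c - w) * (c - w ^ 2)) = 0 := by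
      linear_combination h7 + (c - 1) * h1 + (c - c ^ 2) * h2
    simp only [mul_eq_zero, sub_eq_zero] at this
    simp only [mul_inv_eq_iff_eq_mul, Units.ext_iff, Units.val_mul, h9, sc_val, Units.val_pow_eq_pow_val]
    have h10 : y.1 = p 1 0 - p 0 0 := by simp [p]
    have h11 : y.1 ^ 2 = p 0 1 - p 0 0 := by simp [p]
    rcases this with h | h | h <;> rw [h]
    · exact .inl ⟨rfl, by simp [u]⟩
    · refine .inr (.inl ?_)
      rw [mul_assoc]; congr 1
      nth_rw 1 [h10]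
      simp only [u, sub_mul, h5]
      simp only [p]
      match_scalars <;> first | ring1 | linear_combination h1
    · refine .inr (.inr ?_)
      rw [smul_mul_assoc, one_mul, smul_mul_assoc, smul_mul_assoc, mul_assoc, ← mul_smul_comm]; congr 1
      nth_rw 1 [h11]
      simp only [u, sub_mul, h5]
      simp only [p]
      match_scalars <;> first | ring1 | linear_combination -h1 | linear_combination (w : F) * h1
  have hw' : sc w ∈ R := h.sc_mem (by rw [← hw, pow_orderOf_eq_one])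
  have h8 : u ∈ Subgroup.normalizer (R : Set (GL ι F)) := Subgroup.mem_normalizer_fintype fun x hx => by
    obtain ⟨c, hc⟩ := h.comm x hx y hy
    rcases h7 x hx c hc with ⟨-, h⟩ | h | h <;> rw [h]
    exacts [hx, mul_mem hx hy, mul_mem (mul_mem hw' hx) (pow_mem hy 2)]
  obtain ⟨c, hc⟩ := h.comm x hx y hy
  have h9 := hn u h8 x hxM
  have h10 : sc c ∈ M := (mul_mem_cancel_right hxM).1 (hc ▸ hn y (Subgroup.le_normalizer hy) x hxM)
  rcases h7 x hx c hc with ⟨rfl, -⟩ | h' | h' 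
  · exact absurd (by rw [sc_one, one_mul, mul_inv_eq_iff_eq_mul] at hc; exact hc.symm) hxy
  · exact (mul_mem_cancel_left hxM).1 (h' ▸ h9)
  · have h11 : sc w ∈ M := by
      have hc1 : c ≠ 1 := by rintro rfl; exact hxy (by rw [sc_one, one_mul, mul_inv_eq_iff_eq_mul] at hc; exact hc.symm)
      have : Fact (Nat.Prime 3) := ⟨Nat.prime_three⟩
      obtain ⟨i, -, rfl⟩ := (orderOf_eq_prime (h.pow_eq hx hc) hc1 ▸
        IsPrimitiveRoot.orderOf c).eq_pow_of_mem_rootsOfUnity (ξ := w) (by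
          rw [mem_rootsOfUnity, ← hw, pow_orderOf_eq_one])
      rw [sc_pow]; exact pow_mem h10 _
    have := pow_mem ((mul_mem_cancel_left (mul_mem h11 hxM)).1 (h' ▸ h9)) 2
    rwa [← pow_mul, show 2 * 2 = 3 + 1 from rfl, pow_succ, hp y hy, one_mul] at this

theorem sc_mem_isoG {c : Fˣ} (h : (c : F) * σ c = 1) : (sc c : GL ι F) ∈ isoG σ J :=
  mem_isoG.2 (by rw [sc_val, ← h]; exact sm_smul _)

theorem eq_one_of_sc_mem (hJ : IsUnit J) {c : Fˣ} (h : (sc c : GL ι F) ∈ isoG σ J) : (c : F) * σ c = 1 :=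
  Sm.unique hJ (sm_smul (c : F)) (by rw [← sc_val]; exact h)

theorem norm_of_four (hF : Fintype.card F = 2 ^ 2) (h1 : σ ≠ RingHom.id F) (hσ : ∀ a, σ (σ a) = a) {a : F}
    (ha : a ≠ 0) : a * σ a = 1 := by
  obtain ⟨q, hq, rfl⟩ := exists_eq_frobq h1 hσ
  obtain rfl := Nat.pow_left_injective two_ne_zero (hF.symm.trans hq)
  rw [frobq_apply, ← pow_succ']
  exact pow_eq_one_of_dvd ha (by rw [hF]; rfl)

theorem Rf.u32 (h : Rf σ J 1) (h1 : σ ≠ RingHom.id F) (hF : Fintype.card F = 2 ^ 2)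
    (hn : Fintype.card ι = 3) (hH : H ≤ isoG σ J) (hI : Irr H) : CA σ J H ∨
    ∃ R, ES R 3 ∧ (∀ y ∈ R, y ^ 3 = 1) ∧ alg R = ⊤ ∧ Nm H R ∧ R ≤ isoG σ J := by
  obtain ⟨N, hm⟩ := exists_minN' hI (by omega)
  rcases hm.raw hI with h2 | ⟨k, l, Ψ, L, h2⟩ | ⟨ht, ⟨r, h2⟩ | ⟨hp, -⟩⟩
  · exact .inl ⟨_, (nrm_alg hm.nm).ctr, ctr_comm, h.adC_ctr (h.adC_alg (hm.le.trans hH)), h2⟩
  · have := Nat.mul_le_mul h2.twok h2.twol
    rw [← h2.card] at this; omega
  · have hR := h2.rs hm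
    have ht' := hR.alg_eq.trans ht
    obtain ⟨m, -, h3, -⟩ := (hR.es h2).card_eq ht'
    obtain rfl := eq_of_pow h2.prime (hn.symm.trans h3) Nat.prime_three dvd_rfl
    exact .inr ⟨_, hR.es h2, hR.pow, ht', hR.nm, hR.le.trans (sup_le (hm.le.trans hH) (by
      rintro _ ⟨c, rfl⟩; exact sc_mem_isoG (norm_of_four hF h1 h.inv c.ne_zero)))⟩
  · exact (not_perfect hp hm.nsc (hm.le.trans hH) (h.card_u32 h1 hF hn)).elim

theorem es_of_alg (hr : r.Prime) (ht : alg R = ⊤) (hn : 2 ≤ Fintype.card ι)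
    (h1 : ∀ x ∈ R, ∀ y ∈ R, ∃ c : Fˣ, y * x * y⁻¹ = sc c * x) (h2 : ∀ x ∈ R, x ^ r ∈ scalars ι F) : ES R r :=
  ⟨hr, h1, h2, fun _ _ h => mem_sc.2 (isSc_of_alg ht fun y hy => congrArg Units.val (h y hy)),
    not_le_of_alg ht hn⟩

theorem kG_sc {ν : Type} [Fintype ν] [DecidableEq ν] (c d : Fˣ) :
    (kG (sc c) (sc d) : GL (κ × ν) F) = sc (c * d) :=
  Units.ext (by simp [smul_kronecker, kronecker_smul, smul_smul, mul_comm])

theorem trG_sc (Ψ : Matrix κ κ F ≃ₐ[F] Matrix ι ι F) (c : Fˣ) : trG Ψ (sc c) = sc c :=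
  Units.ext (by simp)

theorem TF.es {k l : ℕ} {e : ι ≃ Fin k × Fin l} {P : GL ι F} {J₁ : Matrix (Fin k) (Fin k) F}
    {J₂ : Matrix (Fin l) (Fin l) F} {δ₁ δ₂ : F} (hT : TF σ J H e P J₁ J₂ δ₁ δ₂) {R₁ R₂} (h1 : ES R₁ r)
    (h2 : ES R₂ r) {s : ℕ} (h3 : ∀ y ∈ R₁, y ^ s = 1) (h4 : ∀ y ∈ R₂, y ^ s = 1) (h5 : alg R₁ = ⊤)
    (h6 : alg R₂ = ⊤) (h7 : Nm (pr1 e P H) R₁) (h8 : Nm (pr1 (e.trans (Equiv.prodComm _ _)) P H) R₂) :
    ∃ R, ES R r ∧ (∀ y ∈ R, y ^ s = 1) ∧ alg R = ⊤ ∧ Nm H R ∧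
      ∀ y ∈ R, ∃ a ∈ R₁, ∃ b ∈ R₂, y = trG (tr e P) (kG a b) := by
  have : NeZero k := ⟨by have := hT.twok; omega⟩
  have : NeZero l := ⟨by have := hT.twol; omega⟩
  let φ := (trG (tr e P)).toMonoidHom.comp kH
  have hφ : ∀ c d : Fˣ, φ (sc c, sc d) = sc (c * d) := fun c d =>
    (congrArg (trG (tr e P)) (kG_sc c d)).trans (trG_sc _ _)
  have ht : alg ((R₁.prod R₂).map φ) = ⊤ := eq_top_iff.2 fun x hx => by
    clear hx
    obtain ⟨x, rfl⟩ := (tr e P).surjective x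
    have h9 : ∀ a b, tr e P (a ⊗ₖ b) ∈ alg ((R₁.prod R₂).map φ) := fun a b => by
      rw [← kl_mul_kr, map_mul]
      refine mul_mem (alg_le (A := Subalgebra.comap ((tr e P).toAlgHom.comp (kl _))
        (alg ((R₁.prod R₂).map φ))) (fun g hg => ?_) (h5.ge (Algebra.mem_top (x := a))))
        (alg_le (A := Subalgebra.comap ((tr e P).toAlgHom.comp (kr _)) (alg ((R₁.prod R₂).map φ)))
        (fun g hg => ?_) (h6.ge (Algebra.mem_top (x := b))))
      · have := val_mem_alg (L := (R₁.prod R₂).map φ) ⟨(g, 1), ⟨hg, one_mem _⟩, rfl⟩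
        simpa [φ, kH, kl_apply] using this
      · have := val_mem_alg (L := (R₁.prod R₂).map φ) ⟨(1, g), ⟨one_mem _, hg⟩, rfl⟩
        simpa [φ, kH, kr_apply] using this
    induction x using Matrix.induction_on' with
    | h_zero => simp
    | h_add p q hp hq => rw [map_add]; exact add_mem hp hq
    | h_std_basis i j c =>
      have := h9 (single i.1 j.1 c) (single i.2 j.2 1)
      rwa [single_kronecker_single, mul_one] at this
  refine ⟨(R₁.prod R₂).map φ, es_of_alg h1.prime ht (by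
    have := Nat.mul_le_mul hT.twok hT.twol; rw [hT.card]; omega) ?_ ?_, ?_, ht, ?_, ?_⟩
  · rintro _ ⟨⟨a, b⟩, ⟨ha, hb⟩, rfl⟩ _ ⟨⟨a', b'⟩, ⟨ha', hb'⟩, rfl⟩
    obtain ⟨c, hc⟩ := h1.comm a ha a' ha'
    obtain ⟨d, hd⟩ := h2.comm b hb b' hb'
    exact ⟨c * d, by rw [← map_inv, ← map_mul, ← map_mul, ← hφ, ← map_mul]; exact congrArg φ (Prod.ext hc hd)⟩
  · rintro _ ⟨⟨a, b⟩, ⟨ha, hb⟩, rfl⟩
    obtain ⟨c, hc⟩ := h1.pow a ha
    obtain ⟨d, hd⟩ := h2.pow b hb
    rw [← map_pow, show (a, b) ^ r = (sc c, sc d) from Prod.ext hc.symm hd.symm, hφ]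
    exact sc_mem _
  · rintro _ ⟨⟨a, b⟩, ⟨ha, hb⟩, rfl⟩
    rw [← map_pow, show (a, b) ^ s = 1 from Prod.ext (h3 a ha) (h4 b hb), map_one]
  · rintro g hg _ ⟨⟨a, b⟩, ⟨ha, hb⟩, rfl⟩
    obtain ⟨x, y, -, rfl, -⟩ := hT.le g hg
    exact ⟨(x, y) * (a, b) * (x, y)⁻¹, ⟨h7 x (mem_pr1 hg) a ha, h8 y (mem_pr1 (trG_swap e P x y ▸ hg)) b hb⟩,
      by rw [map_mul, map_mul, map_inv]; rfl⟩
  · rintro _ ⟨⟨a, b⟩, ⟨ha, hb⟩, rfl⟩
    exact ⟨a, ha, b, hb, rfl⟩

theorem sq_of_conj (hJ : IsUnit J) (hN : N ≤ isoG (RingHom.id F) J) {x y : GL ι F} (hx : x ∈ N) (hy : y ∈ N)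
    {c : Fˣ} (h : y * x * y⁻¹ = sc c * x) : c * c = 1 :=
  Units.ext (eq_one_of_sc_mem hJ (hN (mul_inv_eq_iff_eq_mul.2 h ▸
    mul_mem (mul_mem (mul_mem hy hx) (inv_mem hy)) (inv_mem hx))))

theorem ES.bilin (h : ES N r) (hJ : IsUnit J) (hN : N ≤ isoG (RingHom.id F) J) :
    r = 2 ∧ (2 : F) ≠ 0 ∧ (∀ y ∈ N, y ^ 4 = 1) ∧ Nat.card (Subgroup.center N) = 2 := by
  obtain ⟨x, hx, h0⟩ := SetLike.not_le_iff_exists.1 h.nsc
  obtain ⟨y, hy, c, h1, h2⟩ := h.exists_ne hx h0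
  have h3 := sq_of_conj hJ hN hx hy h2
  obtain rfl : r = 2 := (Nat.prime_dvd_prime_iff_eq h.prime Nat.prime_two).1
    (h1 ▸ orderOf_dvd_of_pow_eq_one (by rwa [sq]))
  have h4 : ∀ d : Fˣ, sc d ∈ N ↔ d ∈ rootsOfUnity 2 F := fun d =>
    ⟨fun h => by rw [mem_rootsOfUnity, sq]; exact Units.ext (eq_one_of_sc_mem hJ (hN h)), h.sc_mem⟩
  refine ⟨rfl, fun h5 => h.ne_char (ringChar_eq_two h5).symm, fun y hy => ?_, ?_⟩
  · obtain ⟨d, hd⟩ := h.pow y hy
    have hd : sc d = y ^ 2 := hd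
    rw [show 4 = 2 * 2 from rfl, pow_mul, ← hd, ← sc_pow, (h4 d).1 (hd ▸ pow_mem hy 2), sc_one]
  · rw [h.center_eq, card_sc N _ h4]
    exact (IsPrimitiveRoot.coe_units_iff.2 (h1 ▸ IsPrimitiveRoot.orderOf c)).card_rootsOfUnity

theorem exists_eigen (h2 : (2 : F) ≠ 0) {α : Type*} (S : Finset α) (a : α → Matrix ι ι F)
    (hc : ∀ x y, a x * a y = a y * a x) (h1 : ∀ x, a x * a x = 1) :
    ∃ v ≠ 0, ∀ x ∈ S, ∃ s : F, s * s = 1 ∧ a x *ᵥ v = s • v := by
  classical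
  induction S using Finset.induction_on with
  | empty => exact exists_ne_zero.imp fun v hv => ⟨hv, by simp⟩
  | insert x S _ ih =>
    obtain ⟨v, h0, hv⟩ := ih
    have : ∀ s : F, s * s = 1 → ∀ y ∈ insert x S, ∃ t : F, t * t = 1 ∧
        a y *ᵥ (v + s • a x *ᵥ v) = t • (v + s • a x *ᵥ v) := fun s hs y hy => by
      rcases Finset.mem_insert.1 hy with rfl | hy
      · exact ⟨s, hs, by rw [mulVec_add, mulVec_smul, mulVec_mulVec, h1, one_mulVec, smul_add, smul_smul,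
          hs, one_smul, add_comm]⟩
      · obtain ⟨t, ht, h3⟩ := hv y hy
        exact ⟨t, ht, by rw [mulVec_add, mulVec_smul, mulVec_mulVec, hc, ← mulVec_mulVec, h3, mulVec_smul,
          smul_add, smul_comm]⟩
    by_cases h3 : v + (1 : F) • a x *ᵥ v = 0
    · refine ⟨_, fun h4 => h0 ?_, this (-1) (by simp)⟩
      have : (2 : F) • v = 0 := by
        rw [← add_zero (0 : ι → F)]; nth_rw 1 [← h3, ← h4]; module
      exact (smul_eq_zero.1 this).resolve_left h2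
    · exact ⟨_, h3, this 1 (by simp)⟩

theorem ES.eq_centralizer (h : ES N r) (A : Subgroup N) (hc : IsMulCommutative A)
    (hA : Nat.card N * Nat.card (Subgroup.center N) ≤ Nat.card A * Nat.card A) :
    A = Subgroup.centralizer (A : Set N) := by
  obtain ⟨χ, hχ⟩ := h.exists_chi
  let C := Subgroup.centralizer (A : Set N)
  have hχ' : ∀ x y : N, χ x y = 1 ↔ x * y = y * x := fun x y => by
    rw [Subtype.ext_iff, Subgroup.coe_mul, Subgroup.coe_mul, eq_comm, eq_comm (a := x.1 * y.1),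
      ← mul_inv_eq_iff_eq_mul, hχ, mul_eq_right, ← sc_one (ι := ι)]
    exact ⟨fun h => h ▸ rfl, fun h => (sc_inj h).symm⟩
  have : C.Normal := ⟨fun x hx g a ha => Subtype.ext (by
    have := congrArg Subtype.val (hx a ha)
    simp only [Subgroup.coe_mul, Subgroup.coe_inv, hχ] at this ⊢
    rw [← mul_assoc, ← sc_comm, mul_assoc, this, mul_assoc])⟩
  let ψ : A →* (N ⧸ C →* Fˣ) := MonoidHom.mk' (fun a => QuotientGroup.lift C (χ a) fun x hx =>
    (hχ' _ _).2 (hx _ a.2)) fun a b => QuotientGroup.monoidHom_ext _ (MonoidHom.ext fun y => sc_inj (ι := ι) (by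
      change sc (χ (a * b) y) = sc (χ a y * χ b y)
      rw [← mul_left_inj ((a * b : N) : GL ι F), ← hχ, sc_mul, Subgroup.coe_mul, show y.1 * (a.1.1 * b.1.1) * y.1⁻¹ =
        y.1 * a.1.1 * y.1⁻¹ * (y.1 * b.1.1 * y.1⁻¹) by group, hχ, hχ, mul_assoc, ← mul_assoc a.1.1, ← sc_comm]
      simp only [mul_assoc]))
  have h1 : Nat.card ψ.ker ≤ Nat.card (Subgroup.center N) := Nat.card_le_card_of_injective
    (fun x => ⟨x.1.1, Subgroup.mem_center_iff.2 fun y => ((hχ' _ _).1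
      (DFunLike.congr_fun x.2 (y : N ⧸ C))).symm⟩)
    fun x y h => Subtype.ext (Subtype.ext (congrArg (fun z : Subgroup.center N => z.1) h))
  have := Fintype.ofFinite (N ⧸ C)
  have h2 : Nat.card ψ.range ≤ C.index := by
    have := ((linearIndependent_monoidHom (N ⧸ C) F).comp (fun x : ψ.range => (Units.coeHom F).comp x.1)
      fun x y h => Subtype.ext (MonoidHom.ext fun z => Units.ext (DFunLike.congr_fun h z))).cardinal_le_rank
    rw [← finrank_eq_rank, finrank_fintype_fun_eq_card, ← Nat.card_eq_fintype_card] at this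
    have h3 := Cardinal.toNat_le_toNat this (Cardinal.natCast_lt_aleph0)
    rwa [Cardinal.toNat_natCast] at h3
  refine Subgroup.eq_of_le_of_card_ge (fun x hx y hy =>
    congrArg Subtype.val (hc.is_comm.comm ⟨y, hy⟩ ⟨x, hx⟩)) (Nat.le_of_mul_le_mul_right (c := Nat.card A) ?_
      Nat.card_pos)
  refine le_trans ?_ hA
  rw [← ψ.ker.card_mul_index, Subgroup.index_ker, ← C.card_mul_index, mul_assoc, mul_comm C.index]
  exact Nat.mul_le_mul_left _ (Nat.mul_le_mul h1 h2)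

theorem ES.minus (h : ES N 2) (ht : alg N = ⊤) (hJ : Rf (RingHom.id F) J (-1))
    (hN : N ≤ isoG (RingHom.id F) J) {k : ℕ} (hk : Nat.card N = 2 ^ (1 + 2 * k)) : IsOfMinusType k N := by
  obtain ⟨-, h2, -, h3⟩ := h.bilin hJ.unit hN
  refine fun A hc hA => lt_of_not_ge fun h4 => ?_
  have h5 := h.eq_centralizer A hc (le_trans (by rw [hk, h3]; ring_nf; rfl) (Nat.mul_le_mul h4 h4))
  have := Fintype.ofFinite A
  obtain ⟨v, h0, hv⟩ := exists_eigen h2 Finset.univ (fun a : A => a.1.1.1)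
    (fun x y => congrArg (fun a : A => a.1.1.1) (hc.is_comm.comm x y))
    fun x => congrArg (fun a : N => a.1.1) (hA x x.2)
  have h6 : ∀ v, fm (RingHom.id F) J v v = 0 := alt_of_skew h2 (by simpa [map_id'] using hJ.swap)
  refine h0 (hJ.eq_zero fun w => ?_)
  obtain ⟨m, rfl⟩ := exists_mulVec_eq h0 w
  refine alg_induction (p := fun m => fm (RingHom.id F) J (m *ᵥ v) v = 0) (fun x hx => ?_)
    (by rw [zero_mulVec, fm_zero_left]) (fun a b ha hb => by rw [add_mulVec, fm_add_left, ha, hb, add_zero])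
    (fun c a ha => by rw [smul_mulVec, fm_smul_left, ha, mul_zero]) (ht.ge Algebra.mem_top)
  by_cases h7 : (⟨x, hx⟩ : N) ∈ A
  · obtain ⟨s, -, h8⟩ := hv ⟨_, h7⟩ (Finset.mem_univ _)
    rw [h8, fm_smul_left, h6, mul_zero]
  rw [h5] at h7
  obtain ⟨a, h7⟩ := not_forall.1 h7
  obtain ⟨ha, h7⟩ := _root_.not_imp.1 h7
  obtain ⟨s, h8, h9⟩ := hv ⟨a, ha⟩ (Finset.mem_univ _)
  obtain ⟨c, h10⟩ := h.comm x hx a a.2
  have h11 : (c : F) ≠ 1 := fun h11 => h7 (Subtype.ext (by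
    simpa [show c = 1 from Units.ext h11, mul_inv_eq_iff_eq_mul] using h10))
  have h12 := iso_fm (hN a.2) (x.1 *ᵥ v) v
  rw [mulVec_mulVec, ← Units.val_mul, mul_inv_eq_iff_eq_mul.1 h10, Units.val_mul, Units.val_mul, sc_val,
    ← mulVec_mulVec, h9, smul_mul_assoc, one_mul, smul_mulVec, mulVec_smul, fm_smul_left, fm_smul_left,
    fm_smul_right, RingHom.id_apply, ← mul_assoc s, h8, one_mul] at h12
  exact (mul_eq_zero.1 (by linear_combination h12)).resolve_left (sub_ne_zero.2 h11)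

end es

section quad

theorem quad_unique (hI : Irr N) (hn : 2 ≤ Fintype.card ι) {Q Q' : (ι → F) → F}
    (hs : ∀ (c : F) v, Q (c • v) = c ^ 2 * Q v) (hs' : ∀ (c : F) v, Q' (c • v) = c ^ 2 * Q' v)
    (hp : QuadraticMap.polar Q = QuadraticMap.polar Q') (hQ : N ≤ isometryGroup F Q)
    (hQ' : N ≤ isometryGroup F Q') : Q = Q' := by
  let d : (ι → F) →+ F := AddMonoidHom.mk' (fun v => Q v - Q' v) fun u v => by
    have := congrFun₂ hp u v
    simp only [QuadraticMap.polar] at this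
    linear_combination this
  let W : Submodule F (ι → F) := { d.ker with
    smul_mem' := fun c v hv => by
      change Q _ - Q' _ = 0
      rw [hs, hs', ← mul_sub, show Q v - Q' v = 0 from hv, mul_zero] }
  rcases hI W fun g hg v hv => by
    change Q _ - Q' _ = 0
    exact (congrArg₂ _ (hQ hg v v) (hQ' hg v v)).trans hv with h | h
  · have := Fintype.card_le_of_injective d ((injective_iff_map_eq_zero d).2 fun v hv => h.le hv)
    rw [Fintype.card_fun] at this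
    have := Nat.pow_lt_pow_right (Fintype.one_lt_card (α := F)) (show 1 < Fintype.card ι by omega)
    rw [pow_one] at this
    omega
  · exact funext fun v => sub_eq_zero.1 (h.ge (Submodule.mem_top (x := v)))

/-- an invariant quadratic form polarising to the given form -/
def QQ (J : Matrix ι ι F) (H : Subgroup (GL ι F)) : Prop :=
  ∃ Q, IsNondegenerateQuadraticForm Q ∧ QuadraticMap.polar Q = fm (RingHom.id F) J ∧ H ≤ isometryGroup F Q

theorem QI.qq (hJ : IsUnit J) (h : QI J H) : QQ J H := by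
  obtain ⟨U, rfl, h⟩ := h
  exact ⟨_, quad_fm hJ, polar_fm U, fun g hg v _ => h g hg v⟩

theorem QQ.of_nm (h : QQ J N) (hI : Irr N) (hn : 2 ≤ Fintype.card ι) (hN : Nm H N)
    (hH : H ≤ isoG (RingHom.id F) J) : QQ J H := by
  obtain ⟨Q, h1, h2, h3⟩ := h
  refine ⟨Q, h1, h2, fun g hg v _ => congrFun (quad_unique hI hn (Q := fun v => Q (g.1 *ᵥ v))
    (fun c v => by rw [mulVec_smul, h1.smul]) h1.smul (funext₂ fun u v => ?_) (fun x hx v _ => ?_) h3) v⟩
  · have := iso_fm (hH hg) u v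
    rw [← h2] at this
    simpa only [QuadraticMap.polar, mulVec_add] using this
  · have := h3 (hN g hg x hx) (g.1 *ᵥ v) v
    change Q (_ *ᵥ _) = _ at this
    change Q (_ *ᵥ (x.1 *ᵥ v)) = _
    rw [← this]
    simp [mul_assoc]

theorem exists_upper (h : Jᵀ = J) (h0 : ∀ i, J i i = 0) : ∃ U : Matrix ι ι F, U + Uᵀ = J := by
  let e := Fintype.equivFin ι
  refine ⟨of fun i j => if e i < e j then J i j else 0, ?_⟩
  ext i j
  rcases lt_trichotomy (e i) (e j) with h1 | h1 | h1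
  · simp [h1, h1.not_gt]
  · simp [e.injective h1, h0]
  · simpa [h1, h1.not_gt] using congrFun₂ h i j

theorem trJ_add {e : ι ≃ κ} {P : GL ι F} (A B : Matrix κ κ F) :
    trJ σ e P (A + B) = trJ σ e P A + trJ σ e P B := by
  simp [trJ, submatrix_add, mul_add, add_mul]

theorem Rf.symm_of_two (h : Rf (RingHom.id F) J ε) (h2 : (2 : F) = 0) : Jᵀ = J := by
  have := h.swap
  rw [map_id'] at this
  rcases h.eps with rfl | rfl
  · rwa [one_smul] at this
  · rw [this, show (-1 : F) = 1 by linear_combination -h2, one_smul]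

theorem fm_eq_of_sub {A B : Matrix ι ι F} (h : (A - B)ᵀ = -(A - B)) (h0 : ∀ i, (A - B) i i = 0) (v : ι → F) :
    fm (RingHom.id F) A v v = fm (RingHom.id F) B v v := by
  rw [← sub_add_cancel A B, fm_add, alt_of_diag h h0, zero_add]

theorem TF.qi [Nonempty ι] {k l : ℕ} {e : ι ≃ Fin k × Fin l} {P : GL ι F} {J₁ : Matrix (Fin k) (Fin k) F}
    {J₂ : Matrix (Fin l) (Fin l) F} {δ₁ δ₂ : F} (hT : TF (RingHom.id F) J H e P J₁ J₂ δ₁ δ₂)
    (h2 : (2 : F) = 0) (hI : Irr H) : QI J H := by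
  have : NeZero k := ⟨by have := hT.twok; omega⟩
  have h3 := hT.rf1.symm_of_two h2
  have h4 := hT.rf2.symm_of_two h2
  obtain ⟨U, hU⟩ := exists_upper h3 fun i => (fm_single i i).symm.trans
    (alt_of_two (hT.irr1 hI) h2 h3 (by simpa using hT.twok) (fun _ => hT.sm1) _)
  have h5 : ∀ i, J₂ i i = 0 := fun i => (fm_single i i).symm.trans
    (alt_of_two (hT.swap.irr1 hI) h2 h4 (by simpa using hT.twol) (fun _ => hT.swap.sm1) _)
  obtain ⟨c, -, h6⟩ := hT.eq
  refine ⟨trJ (RingHom.id F) e P (c • U ⊗ₖ J₂), ?_, fun g hg v => ?_⟩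
  · rw [trJ_transpose, ← trJ_add, transpose_smul, kron_transpose, h4, ← smul_add, ← add_kronecker, hU, h6]
  · obtain ⟨a, b, d, rfl, h7, h8⟩ := hT.le g hg
    obtain ⟨x, rfl⟩ := exists_coord e P v
    rw [trG_val, tr_mulVec, fm_trJ, fm_trJ, fm_smul, fm_smul, fm_mulVec, kG_val, kron_map, kron_transpose,
      ← mul_kronecker_mul, ← mul_kronecker_mul, h8, kronecker_smul, ← smul_kronecker, map_id']
    have h9 : ∀ A : Matrix (Fin k) (Fin k) F, A ⊗ₖ J₂ - U ⊗ₖ J₂ = (A - U) ⊗ₖ J₂ := fun A => by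
      ext; simp [sub_mul]
    refine congrArg _ (fm_eq_of_sub ?_ (fun i => by simp [h5]) x)
    rw [h9, kron_transpose, h4, ← neg_kron]
    congr 1
    rw [Sm, map_id', ← hU] at h7
    rw [eq_neg_iff_add_eq_zero, transpose_sub, transpose_smul, transpose_mul, transpose_mul, transpose_transpose,
      sub_add_sub_comm, ← smul_add, ← mul_assoc, ← add_mul, ← mul_add, add_comm Uᵀ, h7, smul_smul,
      inv_mul_cancel₀ (Sm.ne_zero hT.rf1.unit (by rwa [Sm, map_id', ← hU])), one_smul, sub_self]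

theorem Pow.qq [Nonempty ι] {t k : ℕ} {e : ι ≃ (Fin t → Fin k)} {P : GL ι F} {L : Subgroup (GL (Fin k) F)}
    (hT : Pow H N (tr e P) L) {J₀ : Matrix (Fin k) (Fin k) F} {δ : F} (h : PF (RingHom.id F) J H e P J₀ δ)
    (hL : L ≤ isoG (RingHom.id F) J₀) (hJ : IsUnit J) (h2 : (2 : F) = 0) : QQ J N := by
  have : NeZero t := ⟨by have := hT.twot; omega⟩
  have h3 := h.rf.symm_of_two h2
  have h4 : ∀ i, J₀ i i = 0 := fun i => (fm_single i i).symm.trans
    (alt_of_two (irr_of_alg hT.top) h2 h3 (by simpa using hT.twok) (fun _ hx => ⟨1, hL hx⟩) _)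
  obtain ⟨U, hU⟩ := exists_upper h3 h4
  let m := ptM.toLinearMap (fun _ : Fin t => J₀) 0
  have hm : ∀ X, m X = pt (Function.update (fun _ => J₀) 0 X) := fun _ => rfl
  have h5 : ∀ X, (m X)ᵀ = m Xᵀ := fun X => by
    rw [hm, hm, pt_transpose]
    exact congrArg pt (funext fun j => by by_cases hj : j = 0 <;> simp [hj, h3])
  obtain ⟨c, -, h6⟩ := h.eq
  have h7 : trJ (RingHom.id F) e P (c • m U) + (trJ (RingHom.id F) e P (c • m U))ᵀ = J := by
    rw [trJ_transpose, ← trJ_add, transpose_smul, h5, ← smul_add, ← map_add, hU, h6, hm, Function.update_eq_self]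
  refine ⟨_, quad_fm (h7 ▸ hJ), h7 ▸ polar_fm _, hT.gen.ge.trans (iSup_le fun i => ?_)⟩
  rintro _ ⟨x, hx, rfl⟩ v -
  obtain ⟨v, rfl⟩ := exists_coord e P v
  change fm _ _ (tr e P (emb i x.1) *ᵥ _) (tr e P (emb i x.1) *ᵥ _) = fm _ _ _ _
  have h8 := mem_isoG.1 (hL hx)
  rw [Sm, map_id', one_smul] at h8
  have h9 : (emb i x.1)ᵀ * m U * emb i x.1 = m (if i = 0 then x.1ᵀ * U * x.1 else U) := by
    rw [← emb_transpose, emb_apply, emb_apply, hm, hm, ← pt_mul, ← pt_mul]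
    refine congrArg pt (funext fun j => ?_)
    by_cases hi : j = i
    · subst hi; by_cases hj : j = 0 <;> simp [hj, h8]
    · by_cases hj : j = 0
      · subst hj; simp [hi, Ne.symm hi]
      · simp [hi, hj]
  rw [tr_mulVec, fm_trJ, fm_trJ, fm_smul, fm_smul, fm_mulVec, map_id', h9]
  split_ifs
  swap; · rfl
  refine congrArg _ (fm_eq_of_sub ?_ (fun i => ?_) v)
  · rw [← map_sub, h5, ← map_neg]
    congr 1
    rw [eq_neg_iff_add_eq_zero, transpose_sub, transpose_mul, transpose_mul, transpose_transpose,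
      sub_add_sub_comm, ← mul_assoc, ← add_mul, ← mul_add, add_comm Uᵀ, hU, h8, sub_self]
  · rw [← map_sub, hm]
    have : (⟨1, hT.twot⟩ : Fin t) ≠ 0 := by simp [Fin.ext_iff]
    exact Finset.prod_eq_zero (Finset.mem_univ (⟨1, hT.twot⟩ : Fin t)) (by simp [this, h4])

end quad

end Cfsg.Agent.H4.As
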