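import Cfsg.Agent.H4.As14

/-! Aschbacher's theorem, part 15: the classes for unitary, symplectic and orthogonal groups. -/

set_option autoImplicit false
set_option linter.unusedSectionVars false

namespace Cfsg.Agent.H4.As

open Matrix Module Cfsg.Geo
open scoped MatrixGroups Kronecker commutatorElement

variable {ι κ : Type} [Fintype ι] [DecidableEq ι] [Fintype κ] [DecidableEq κ] {F : Type*} [Field F]
  [Fintype F] {G H N R L : Subgroup (GL ι F)} {σ : F →+* F} {J : Matrix ι ι F} {ε : F} {r : ℕ}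
  [Nonempty ι]

theorem Rf.mult_fix (h : Rf σ J ε) {g : Matrix ι ι F} {c : F} (hg : Sm σ J g c) : σ c = c := by
  have := hg.swap h.inv
  rw [h.swap] at this
  exact Sm.unique (isUnit_smul h.eps_ne h.unit) this (hg.smul ε)

theorem ES.mult (h : ES N r) (hE : ES h.rr r) (hJ : IsUnit J) (hN : N ≤ isoG σ J) {l : GL ι F}
    (hl : l ∈ h.rr) : ∃ c : Fˣ, Sm σ J l.1 c ∧ c ^ Nat.card (Subgroup.center h.rr) = 1 := by
  obtain ⟨n, hn, a, rfl⟩ := mem_sup_sc.1 hl.1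
  have h1 : Sm σ J (sc a * n).1 ((a : F) * σ a) := by
    simpa using (sm_smul (a : F)).mul (mem_isoG.1 (hN hn))
  refine ⟨Units.mk0 _ (h1.ne_zero hJ), h1, ?_⟩
  have h2 := h1.pow (r * Nat.gcd 2 r)
  rw [← Units.val_pow_eq_pow_val, hl.2] at h2
  rw [h.card_center_rr hE]
  exact pow_gcd_eq_one.2 ⟨Units.ext (by simpa using h2.unique hJ sm_one),
    Units.ext (by simpa using FiniteField.pow_card_sub_one_eq_one _ (h1.ne_zero hJ))⟩

theorem simple_cases (hm : MinN (scalars ι F) H N) (hp : ⁅N, N⁆ = N) (ht : alg N = ⊤)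
    (hs : MinN (scalars ι F) N N) (hJ : IsUnit J) (hH : H ≤ isoG σ J) :
    (∃ φ P b, SF σ J H φ P b) ∨ (IsResidualCore H N ∧ ∀ (φ : F ≃+* F) (B B' : Matrix ι ι F), φ ≠ 1 → IsUnit B →
      IsUnit B' → (∀ l ∈ N, Sm (RingHom.id F) B l.1 1) → ¬ ∀ l ∈ N, Sm (φ : F →+* F) B' l.1 1) := by
  by_cases h1 : ∃ F₀ : Subfield F, F₀ ≠ ⊤ ∧ RealisableOver F₀ (matrixSet N)
  · obtain ⟨F₀, h1, h2⟩ := h1
    obtain ⟨φ, P, h3, h4⟩ := exists_real_of_realisable h1 h2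
    exact .inl ⟨φ, P, h4.sf h3 ht hm.nm hJ fun l hl => ⟨1, hH (hm.le hl), map_one φ⟩⟩
  · exact .inr ⟨hm.core hp ht hs fun F₀ h5 h6 => h1 ⟨F₀, h5, h6⟩, fun φ B B' h2 h3 h4 h5 h6 =>
      let ⟨_, h7⟩ := real_of_two ht h3 h4 h5 h6; h1 ⟨_, fx_ne_top h2, h7.realisable⟩⟩

theorem not_unit_of {B : Matrix ι ι F} (h : ∀ (φ : F ≃+* F) (B B' : Matrix ι ι F), φ ≠ 1 → IsUnit B →
      IsUnit B' → (∀ l ∈ N, Sm (RingHom.id F) B l.1 1) → ¬ ∀ l ∈ N, Sm (φ : F →+* F) B' l.1 1)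
    (hB : IsUnit B) (hN : N ≤ isoG (RingHom.id F) B) :
    ¬ ∃ (σ : F ≃+* F) (f : (ι → F) → (ι → F) → F), IsUnitaryForm σ f ∧ FixesForm (matrixSet N) f :=
  fun ⟨σ, _, h4, h5⟩ => h σ _ _ h4.ne_refl hB (isUnit_of_nondeg (h4.as_eq ▸ h4.nondegenerate)) hN
    (fixes_iff.1 (h4.as_eq ▸ h5))

section unitary

/-- the refined list of classes in the unitary case -/
def UCl (σ : F →+* F) (J : Matrix ι ι F) (H : Subgroup (GL ι F)) : Prop :=
  (∃ m, ND σ J H m) ∨ TI σ J H ∨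
  (∃ r K, r.Prime ∧ Odd r ∧ IsFieldSubalgebra r K ∧ Nrm H K ∧ AdC σ J K) ∨
  (∃ (k l : ℕ) (e : ι ≃ Fin k × Fin l) (P : GL ι F) (J₁ : Matrix (Fin k) (Fin k) F)
    (J₂ : Matrix (Fin l) (Fin l) F), k < l ∧ (k = 2 → Fintype.card F ≠ 2 ^ 2) ∧ TF σ J H e P J₁ J₂ 1 1) ∨
  (∃ (F₀ : Subfield F) (r : ℕ) (P : GL ι F), r.Prime ∧ Odd r ∧ Fintype.card F = Nat.card F₀ ^ r ∧
      IsFormRationalStructure (fm σ J) F₀ 1 P ∧ H ≤ subfieldSubgroup F₀ P) ∨ U2 σ J H ∨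
  (∃ (r : ℕ) (R : Subgroup (GL ι F)) (p e k : ℕ), IsSymplecticTypeGroup r R ∧ alg R = ⊤ ∧
    R ≤ similarityGroup (fm σ J) ∧ (Odd r → R ≤ isoG σ J) ∧ r ≠ p ∧
    IsMinimalFieldFor (Nat.card (Subgroup.center R)) p e F ∧ Fintype.card ι = r ^ k ∧
    ((Odd r ∧ Nat.card (Subgroup.center R) = r ∧ 1 ≤ k ∧ Nat.card R = r ^ (1 + 2 * k)) ∨
      (r = 2 ∧ e = 2 ∧ Nat.card (Subgroup.center R) = 4 ∧ Nat.card R = 2 ^ (2 + 2 * k))) ∧ Nm H R) ∨
  (∃ (t k : ℕ) (e : ι ≃ (Fin t → Fin k)) (P : GL ι F) (J₀ : Matrix (Fin k) (Fin k) F),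
    3 ≤ k ∧ ¬ (Fintype.card F = 2 ^ 2 ∧ k = 3) ∧ PF σ J H e P J₀ 1) ∨
  InUnitaryResidualClass H

variable (h : Rf σ J 1) (h1 : σ ≠ RingHom.id F) (hH : H ≤ isoG σ J) (hI : Irr H)
include h h1 hH hI

theorem UCl.of_ca (h2 : CA σ J H) : UCl σ J H :=
  (h.comm' hH hI h2).imp_right <| Or.imp And.left fun ⟨r, K, h3, h4, h5⟩ =>
    .inl ⟨r, K, h3, h.odd_deg h1 h3 h4 h5.2, h4, h5⟩

theorem UCl.of_sf (hn : 2 ≤ Fintype.card ι) (h2 : ∃ φ P b, SF σ J H φ P b) : UCl σ J H :=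
  let ⟨_, _, _, h2⟩ := h2
  .inr <| .inr <| .inr <| .inr <| (h2.unit h h1 hH hI hn).imp_right .inl

omit h hH hI in
theorem TF.pr1_le {k l : ℕ} {e : ι ≃ Fin k × Fin l} {P : GL ι F} {J₁ : Matrix (Fin k) (Fin k) F}
    {J₂ : Matrix (Fin l) (Fin l) F} {δ₁ δ₂ : F} (hT : TF σ J H e P J₁ J₂ δ₁ δ₂)
    (hF : Fintype.card F = 2 ^ 2) : pr1 e P H ≤ isoG σ J₁ := fun a ha => by
  have : NeZero k := ⟨by have := hT.twok; omega⟩
  obtain ⟨c, hc⟩ := hT.sm1 ha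
  have h2 := norm_of_four hF h1 hT.rf1.inv (hc.ne_zero hT.rf1.unit)
  have h3 : (2 : F) = 0 := by
    have := FiniteField.cast_card_eq_zero F
    rw [hF] at this
    exact pow_eq_zero_iff two_ne_zero |>.1 (by exact_mod_cast this)
  rw [hT.rf1.mult_fix hc] at h2
  obtain rfl : c = 1 := by
    rcases mul_self_eq_one_iff.1 h2 with h | h
    exacts [h, by rw [h]; linear_combination -h3]
  exact hc

theorem UCl.of_lt {k l : ℕ} {e : ι ≃ Fin k × Fin l} {P : GL ι F} {J₂ : Matrix (Fin l) (Fin l) F}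
    (hT : TF σ J H e P 1 J₂ 1 1) (hk : k < l) : UCl σ J H := by
  by_cases h2 : k = 2 ∧ Fintype.card F = 2 ^ 2
  · obtain ⟨rfl, h2⟩ := h2
    refine .of_ca h h1 hH hI (hT.ca h (ca_mono h.inv le_rfl (hT.pr1_le h1 h2) fun x hx i j hij => ?_))
    by_contra h3
    have h4 : ∀ i, x i * σ (x i) = 1 := fun k => norm_of_four h2 h1 h.inv (by
      have h4 := left_ne_zero_of_mul h3
      have h5 := (_root_.map_ne_zero σ).1 (right_ne_zero_of_mul h3)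
      fin_cases i <;> fin_cases j <;> fin_cases k <;> simp_all)
    simp only [fm, dotProduct, Fin.sum_univ_two, one_mulVec, Function.comp_apply, h4] at hx
    exact one_ne_zero (by linear_combination hx)
  · exact .inr <| .inr <| .inr <| .inl ⟨k, l, e, P, _, _, hk, fun h3 h4 => h2 ⟨h3, h4⟩, hT⟩

theorem uCl (hn : 3 ≤ Fintype.card ι) : UCl σ J H := by
  have hn2 : 2 ≤ Fintype.card ι := by omega
  obtain ⟨N, hm⟩ := exists_minN' hI hn2
  have hN := hm.le.trans hH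
  obtain ⟨q, hq, hσ⟩ := exists_eq_frobq h1 h.inv
  obtain ⟨ψ, h20, h21, -⟩ := exists_inv_of_sq hq
  have h22 : orderOf ψ = 2 := orderOf_eq_prime (RingEquiv.ext h21) h20
  have h23 := eq_of_order_two h22 h1 h.inv
  rcases hm.raw hI with h2 | ⟨k, l, Ψ, L, h2⟩ | ⟨ht, ⟨r, h2⟩ | ⟨hp, h2 | ⟨t, k, Ψ, L, h2⟩⟩⟩
  · exact .of_ca h h1 hH hI ⟨_, (nrm_alg hm.nm).ctr, ctr_comm, h.adC_ctr (h.adC_alg hN), h2⟩
  · obtain ⟨e, P, rfl⟩ := eq_tr (Ψ := Ψ)
    obtain ⟨J₁, J₂, δ₁, δ₂, h3, -, h4, -⟩ := h2.tf h hH hm.le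
    obtain ⟨rfl, rfl⟩ := h4 h1
    obtain ⟨P, h3⟩ := h3.swap.on h1
    obtain ⟨P, h3⟩ := h3.swap.on h1
    generalize (e.trans (Equiv.prodComm _ _)).trans (Equiv.prodComm _ _) = e at h3
    rcases lt_trichotomy k l with h4 | rfl | h4
    · exact .of_lt h h1 hH hI h3 h4
    · rcases h3.twok.eq_or_lt with rfl | h4
      · exact .inr <| .inr <| .inr <| .inr <| .inr <| .inl (h3.u2 h h1 hH hI)
      by_cases h5 : Fintype.card F = 2 ^ 2 ∧ k = 3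
      swap
      · exact .inr <| .inr <| .inr <| .inr <| .inr <| .inr <| .inr <| .inl ⟨2, k, _, P, 1, h4, h5, h3.pf⟩
      obtain ⟨h5, rfl⟩ := h5
      rcases h3.rf1.u32 h1 h5 (by simp) (h3.pr1_le h1 h5) (h3.irr1 hI) with h6 | ⟨R₁, a1, a2, a3, a4, a5⟩
      · exact .of_ca h h1 hH hI (h3.ca h h6)
      rcases h3.rf1.u32 h1 h5 (by simp) (h3.swap.pr1_le h1 h5) (h3.swap.irr1 hI) with h6 |
        ⟨R₂, b1, b2, b3, b4, b5⟩
      · exact .of_ca h h1 hH hI (h3.swap.ca h h6)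
      obtain ⟨R, c1, c2, c3, c4, c5⟩ := h3.es a1 b1 a2 b2 a3 b3 a4 b4
      have c6 : R ≤ isoG σ J := fun y hy => by
        obtain ⟨a, ha, b, hb, rfl⟩ := c5 y hy
        obtain ⟨c, -, rfl⟩ := h3.eq
        rw [mem_isoG, trG_val, sm_trJ, kG_val]
        simpa using (Sm.kron (a5 ha) (b5 hb)).smul c
      obtain ⟨m, c7, c8, c9⟩ := c1.card_eq c3
      have c10 := c1.card_center' c2
      refine .inr <| .inr <| .inr <| .inr <| .inr <| .inr <| .inl ⟨3, R, 2, 2, m, c1.symp3 c2, c3,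
        le_sim h.unit fun g hg => ⟨1, c6 hg⟩, fun _ => c6, by decide, ⟨Nat.prime_two, ?_, h5, by
          rw [c10]; rfl, fun d h6 h7 => by rw [c10, show d = 1 by omega]; decide⟩, c8,
        .inl ⟨by decide, c10, c7, by rw [c9, c10, pow_add, pow_one]⟩, c4⟩
      obtain ⟨p, k, h6, h7, h8, h9⟩ := exists_pow_of_card_sq h5
      exact (Nat.prime_dvd_prime_iff_eq h6 Nat.prime_two).1 (h9 ▸ dvd_pow_self p h8.ne') ▸ h7
    · exact .of_lt h h1 hH hI h3.swap h4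
  · have hR := h2.rs hm
    have hE := hR.es h2
    have ht' := hR.alg_eq.trans ht
    obtain ⟨m, h3, h4, h5⟩ := hE.card_eq ht'
    rcases hE.min_or_real ht' with ⟨p, e, h6, h7⟩ | ⟨φ, P, h6, h7, h8⟩
    swap
    · exact .of_sf h h1 hH hI hn2 ⟨φ, P, h7.sf h6 ht' hR.nm h.unit fun l hl =>
        let ⟨c, h9, h10⟩ := h2.mult hE h.unit hN hl; ⟨c, h9, h8 c h10⟩⟩
    have h8 : Even e := by
      obtain ⟨p', k, h8, h9, -, rfl⟩ := exists_pow_of_card_sq hq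
      obtain rfl := CharP.eq F h9 h7.2.1
      rw [← Nat.pow_right_injective h8.two_le ((pow_mul _ _ _).trans (hq.symm.trans h7.2.2.1))]
      exact even_two.mul_left k
    rcases h2.fields hE h7 with ⟨-, -, h9⟩ | ⟨-, -, rfl⟩ | ⟨-, -, rfl⟩ | ⟨h9, τ, h10, h11, h12⟩
    · exact absurd h8 (Nat.not_even_iff_odd.2 h9)
    · exact absurd h8 (by decide)
    · exact absurd h8 (by decide)
    refine .inr <| .inr <| .inr <| .inr <| .inr <| .inr <| .inl ⟨r, _, p, e, m, hR.sympType h2 hm, ht',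
      le_sim h.unit fun g hg => let ⟨c, h, _⟩ := h2.mult hE h.unit hN hg; ⟨c, h⟩, fun h13 g hg => ?_, h6, h7,
      h4, h9.imp (fun h => ⟨h.1, h.2, h3, by rw [h5, h.2, pow_add, pow_one]⟩) fun h =>
        ⟨h.1, h.2.1, h.2.2, by rw [h5, h.2.2, h.1, pow_add]; rfl⟩, hR.nm⟩
    obtain ⟨c, h14, h15⟩ := h2.mult hE h.unit hN hg
    have h16 := h12 c h15
    have h17 := h.mult_fix h14
    rw [eq_of_order_two (orderOf_eq_prime (RingEquiv.ext h11) h10) h1 h.inv] at h17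
    have h18 : c ^ 2 = 1 := Units.ext (by
      rw [sq, Units.val_mul]; exact (congrArg _ (h17.symm.trans h16)).trans (mul_inv_cancel₀ c.ne_zero))
    rw [(h9.resolve_right fun h => by simp [h.1, ← Nat.not_even_iff_odd] at h13).2] at h15
    obtain rfl : c = 1 := by simpa [(Nat.coprime_two_left.2 h13).gcd_eq_one] using pow_gcd_eq_one.2 ⟨h18, h15⟩
    exact h14
  · refine (simple_cases hm hp ht h2 h.unit hH).elim (.of_sf h h1 hH hI hn2) fun ⟨h3, h4⟩ =>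
      .inr <| .inr <| .inr <| .inr <| .inr <| .inr <| .inr <| .inr ⟨N, h3, ?_, ?_⟩
    · rintro ⟨Q, h5, h6⟩
      obtain ⟨B, h7, h8⟩ := exists_gram_bilin h5.polar_bilinear h5.nondegenerate (FixesQuadForm.polar h6)
      exact h4 ψ B J h20 h7 h.unit h8 (h23 ▸ hN)
    · rintro ⟨f, h5, h6⟩
      obtain ⟨B, h7, h8⟩ := exists_gram_bilin h5.bilinear h5.nondegenerate h6
      exact h4 ψ B J h20 h7 h.unit h8 (h23 ▸ hN)
  · rcases h2.twok.eq_or_lt with rfl | h3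
    · obtain ⟨B, h3, h4⟩ := h2.exists_form
      obtain ⟨P, h5⟩ := real_of_two (φ := ψ) ht h3 h.unit h4 (h23 ▸ hN)
      exact .of_sf h h1 hH hI hn2 ⟨ψ, P, h5.sf (h22 ▸ Nat.prime_two) ht hm.nm h.unit
        fun l hl => ⟨1, hN hl, map_one ψ⟩⟩
    obtain ⟨e, P, rfl⟩ := eq_tr (Ψ := Ψ)
    obtain ⟨J₀, δ, h4, h5, h6, -⟩ := h2.pf h hN
    obtain rfl := h6 h1
    refine .inr <| .inr <| .inr <| .inr <| .inr <| .inr <| .inr <| .inl ⟨t, k, e, P, J₀, h3, ?_, h4⟩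
    rintro ⟨h6, rfl⟩
    exact not_perfect h2.perf (not_le_of_alg h2.top (by simp)) h5 (h4.rf.card_u32 h1 h6 (by simp))

end unitary

theorem TF.ca33 {l : ℕ} {e : ι ≃ Fin 3 × Fin l} {P : GL ι F} {J₁ : Matrix (Fin 3) (Fin 3) F}
    {J₂ : Matrix (Fin l) (Fin l) F} {δ₂ : F} (hT : TF (RingHom.id F) J H e P J₁ J₂ 1 δ₂)
    (h : Rf (RingHom.id F) J ε) (hF : Fintype.card F = 3) : CA (RingHom.id F) J H := by
  have h2 := two_ne_zero_of_odd (F := F) (by rw [hF]; decide)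
  obtain ⟨P, hT⟩ := hT.on_odd h2 (by decide)
  have h3 : ∀ a : F, a ≠ 0 → a * a = 1 := fun a ha => by
    rw [← sq]; exact pow_eq_one_of_dvd ha (by rw [hF])
  have h4 : (3 : F) = 0 := by simpa [hF] using FiniteField.cast_card_eq_zero F
  refine hT.ca h (ca_mono h.inv (by simp) (fun a ha => ?_) fun x hx i j hij => ?_)
  · obtain ⟨c, hc⟩ := hT.sm1 ha
    have h5 := congrArg det hc
    rw [map_id', mul_one, det_mul, det_transpose, h3 _ a.det_ne_zero, det_smul, det_one, mul_one,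
      Fintype.card_fin, pow_succ, sq, h3 c (hc.ne_zero isUnit_one), one_mul] at h5
    subst h5; exact hc
  · by_contra h5
    have h6 := h3 _ (left_ne_zero_of_mul h5)
    have h7 := h3 _ (right_ne_zero_of_mul h5)
    simp only [fm, dotProduct, Fin.sum_univ_three, one_mulVec, RingHom.coe_id, Function.comp_apply, id] at hx h7
    have h8 : ∀ a : F, 1 + 1 + a * a ≠ 1 := fun a h => by
      rcases eq_or_ne a 0 with rfl | ha
      · exact one_ne_zero (by linear_combination h)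
      · exact h2 (by linear_combination h - h3 a ha)
    fin_cases i <;> fin_cases j <;>
      simp only [Fin.zero_eta, Fin.mk_one, Fin.reduceFinMk, Fin.isValue] at h6 h7 hij <;> first
      | exact hij rfl
      | exact h8 (x 0) (by linear_combination hx - h6 - h7)
      | exact h8 (x 1) (by linear_combination hx - h6 - h7)
      | exact h8 (x 2) (by linear_combination hx - h6 - h7)

theorem TF.ca2 {l : ℕ} {e : ι ≃ Fin 2 × Fin l} {P : GL ι F} {J₁ : Matrix (Fin 2) (Fin 2) F}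
    {J₂ : Matrix (Fin l) (Fin l) F} {δ₂ : F} (hT : TF (RingHom.id F) J H e P J₁ J₂ 1 δ₂)
    (h : Rf (RingHom.id F) J ε) (h2 : (2 : F) ≠ 0) : CA (RingHom.id F) J H :=
  hT.ca h (ca_two hT.rf1 h2 rf_J2 (fun _ => hT.sm1) fun _ _ => ⟨_, sm_J2 _⟩)

theorem Rf.even (h : Rf (RingHom.id F) J (-1)) (h2 : (2 : F) ≠ 0) : Even (Fintype.card ι) :=
  even_of_symp (symp_fm h.unit (alt_of_skew h2 (by simpa [map_id'] using h.swap)))

theorem prime_of_min {p e : ℕ} (h : IsMinimalFieldFor 2 p e F) (h1 : 2 ≠ p) : Fintype.card F = p := by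
  obtain ⟨h2, h3, h4, -, h5⟩ := h
  have : e ≠ 0 := by rintro rfl; exact absurd h4 Fintype.one_lt_card.ne'
  obtain rfl : e = 1 := by
    by_contra h6
    obtain ⟨k, rfl⟩ := h2.odd_of_ne_two h1.symm
    exact h5 1 one_pos (by omega) ⟨k, by simp⟩
  rw [h4, pow_one]

section symp

/-- the refined list of classes in the symplectic case -/
def SCl (J : Matrix ι ι F) (H : Subgroup (GL ι F)) : Prop :=
  (∃ m, ND (RingHom.id F) J H m) ∨ (Odd (Fintype.card F) ∧ TI (RingHom.id F) J H) ∨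
  (∃ r K, r.Prime ∧ IsFieldSubalgebra r K ∧ Nrm H K ∧ (∀ x ∈ K, ad (RingHom.id F) J x = x) ∧
    ∀ k ∈ K, ∀ v, fm (RingHom.id F) J (k *ᵥ v) v = 0) ∨
  (Odd (Fintype.card F) ∧ ∃ K, IsFieldSubalgebra 2 K ∧ Nrm H K ∧ AdC (RingHom.id F) J K ∧
    ∃ x ∈ K, ad (RingHom.id F) J x ≠ x) ∨
  (Odd (Fintype.card F) ∧ ∃ (k l : ℕ) (e : ι ≃ Fin k × Fin l) (P : GL ι F) (J₁ : Matrix (Fin k) (Fin k) F)
    (J₂ : Matrix (Fin l) (Fin l) F), 3 ≤ l ∧ ¬ (Fintype.card F = 3 ∧ l = 3) ∧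
      TF (RingHom.id F) J H e P J₁ J₂ (-1) 1) ∨
  (∃ φ P b, SF (RingHom.id F) J H φ P b) ∨
  (Odd (Fintype.card F) ∧ (Fintype.card F).Prime ∧ ∃ (R : Subgroup (GL ι F)) (k : ℕ),
    IsSymplecticTypeGroup 2 R ∧ alg R = ⊤ ∧ R ≤ isoG (RingHom.id F) J ∧ Fintype.card ι = 2 ^ k ∧
    Nat.card R = 2 ^ (1 + 2 * k) ∧ Nat.card (Subgroup.center R) = 2 ∧ IsOfMinusType k R ∧ Nm H R) ∨
  (Odd (Fintype.card F) ∧ ∃ (t k : ℕ) (e : ι ≃ (Fin t → Fin k)) (P : GL ι F) (J₀ : Matrix (Fin k) (Fin k) F),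
    Odd t ∧ 3 ≤ t ∧ ¬ (Fintype.card F = 3 ∧ k = 2) ∧ PF (RingHom.id F) J H e P J₀ (-1)) ∨
  (¬ Odd (Fintype.card F) ∧ QQ J H) ∨ InSymplecticResidualClass H

theorem SCl.of_qq (h2 : (2 : F) = 0) (h : QQ J H) : SCl J H :=
  .inr <| .inr <| .inr <| .inr <| .inr <| .inr <| .inr <| .inr <| .inl
    ⟨fun h => two_ne_zero_of_odd h h2, h⟩

variable (h : Rf (RingHom.id F) J (-1)) (h0 : ∀ v, fm (RingHom.id F) J v v = 0)
  (hH : H ≤ isoG (RingHom.id F) J) (hI : Irr H) (hn : 3 ≤ Fintype.card ι)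
include h h0 hH hI hn

theorem SCl.of_ca (h1 : CA (RingHom.id F) J H) : SCl J H := by
  rcases h.comm' hH hI h1 with h1 | ⟨h1, h3⟩ | ⟨r, K, h1, h3, h4, h5⟩
  · exact .inl h1
  · by_cases h2 : (2 : F) = 0
    · exact .of_qq h2 ((h.qi_of_hf h2 hH h0 h3).qq h.unit)
    · exact .inr (.inl ⟨odd_of_two_ne_zero h2, h1⟩)
  rcases h.sa_or_two h1 h3 h5 with h6 | ⟨rfl, h6⟩
  · refine .inr (.inr (.inl ⟨r, K, h1, h3, h4, h6, fun k => h.sa_alt hH hI h3 h4 ?_ h6⟩))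
    refine (Nat.le_of_dvd (by omega) (h3.finrank_eq ▸ finrank_dvd h3.comm h3.inv)).lt_of_ne ?_
    rintro rfl
    have := h1.even_iff.1 (even_of_symp (symp_fm h.unit h0))
    omega
  · by_cases h2 : (2 : F) = 0
    · exact .of_qq h2 ((h.qi_of_hf h2 hH h0 (h.hf_of_two h2 h3 h5 h6 h4)).qq h.unit)
    · exact .inr (.inr (.inr (.inl ⟨odd_of_two_ne_zero h2, K, h3, h4, h5, h6⟩)))

theorem SCl.of_tf (h2 : (2 : F) ≠ 0) {k l : ℕ} {e : ι ≃ Fin k × Fin l} {P : GL ι F}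
    {J₁ : Matrix (Fin k) (Fin k) F} {J₂ : Matrix (Fin l) (Fin l) F}
    (hT : TF (RingHom.id F) J H e P J₁ J₂ (-1) 1) : SCl J H := by
  rcases hT.twol.eq_or_lt with rfl | h3
  · exact .of_ca h h0 hH hI hn (hT.swap.ca2 h h2)
  by_cases h4 : Fintype.card F = 3 ∧ l = 3
  · obtain ⟨h4, rfl⟩ := h4
    exact .of_ca h h0 hH hI hn (hT.swap.ca33 h h4)
  · exact .inr <| .inr <| .inr <| .inr <| .inl ⟨odd_of_two_ne_zero h2, k, l, e, P, _, _, h3, h4, hT⟩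

theorem sCl : SCl J H := by
  have hn2 : 2 ≤ Fintype.card ι := by omega
  obtain ⟨N, hm⟩ := exists_minN' hI hn2
  have hN := hm.le.trans hH
  rcases hm.raw hI with h1 | ⟨k, l, Ψ, L, h1⟩ | ⟨ht, ⟨r, h1⟩ | ⟨hp, h1 | ⟨t, k, Ψ, L, h1⟩⟩⟩
  · exact .of_ca h h0 hH hI hn ⟨_, (nrm_alg hm.nm).ctr, ctr_comm, h.adC_ctr (h.adC_alg hN), h1⟩
  · obtain ⟨e, P, rfl⟩ := eq_tr (Ψ := Ψ)
    obtain ⟨J₁, J₂, δ₁, δ₂, h3, -, -, h4⟩ := h1.tf h hH hm.le
    by_cases h2 : (2 : F) = 0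
    · exact .of_qq h2 ((h3.qi h2 hI).qq h.unit)
    have h4 := h4 rfl
    rcases h3.rf1.eps with rfl | rfl
    · rw [one_mul] at h4; subst h4
      exact .of_tf h h0 hH hI hn h2 h3.swap
    · rw [neg_one_mul, neg_inj] at h4; subst h4
      exact .of_tf h h0 hH hI hn h2 h3
  · obtain ⟨rfl, h2, h3, h4⟩ := h1.bilin h.unit hN
    obtain ⟨m, -, h5, h6⟩ := h1.card_eq ht
    rcases h1.min_or_real ht with ⟨p, e, h7, h8⟩ | ⟨φ, P, h7, h8, -⟩
    · have h9 : Nat.card N = 2 ^ (1 + 2 * m) := by rw [h6, h4, pow_add, pow_one]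
      exact .inr <| .inr <| .inr <| .inr <| .inr <| .inr <| .inl ⟨odd_of_two_ne_zero h2,
        prime_of_min (h4 ▸ h8) h7 ▸ h8.1, N, m, RS.sympType ⟨le_sup_left, le_sup_left, h3, hm.nm⟩ h1 hm,
        ht, hN, h5, h9, h4, h1.minus ht h hN h9, hm.nm⟩
    · exact .inr <| .inr <| .inr <| .inr <| .inr <| .inl ⟨φ, P, h8.sf h7 ht hm.nm h.unit
        fun l hl => ⟨1, hN hl, map_one φ⟩⟩
  · rcases simple_cases hm hp ht h1 h.unit hH with h3 | ⟨h3, h4⟩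
    · exact .inr <| .inr <| .inr <| .inr <| .inr <| .inl h3
    by_cases h5 : ∃ Q : (ι → F) → F, IsNondegenerateQuadraticForm Q ∧ FixesQuadForm (matrixSet N) Q
    swap
    · exact .inr <| .inr <| .inr <| .inr <| .inr <| .inr <| .inr <| .inr <| .inr
        ⟨N, h3, h5, not_unit_of h4 h.unit hN⟩
    obtain ⟨Q, h5, h6⟩ := h5
    have h7 := h5.polar_bilinear.as_eq
    have h8 := isUnit_of_nondeg (h7 ▸ h5.nondegenerate)
    obtain ⟨a, h9⟩ := gram_unique ht h8 fun l hl => ⟨1, fixes_iff.1 (h7 ▸ FixesQuadForm.polar h6) l hl, hN hl⟩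
    have h10 : ∀ u v, fm (RingHom.id F) J u v = a * QuadraticMap.polar Q u v := fun u v => by
      rw [h9, fm_smul, ← h7]
    have ha : a ≠ 0 := by rintro rfl; exact h.unit.ne_zero (by rw [h9, zero_smul])
    have h11 : QuadraticMap.polar (fun v => a * Q v) = fm (RingHom.id F) J := funext₂ fun u v => by
      rw [h10]; simp only [QuadraticMap.polar]; ring
    refine .of_qq ?_ (QQ.of_nm ⟨fun v => a * Q v, ⟨fun c v => by rw [h5.smul]; ring, h11 ▸ bilin_fm,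
      h11 ▸ h.nondeg⟩, h11, fun g hg v _ => congrArg (a * ·) (h6 _ ⟨g, hg, rfl⟩ v)⟩ (irr_of_alg ht) hn2 hm.nm hH)
    obtain ⟨v, hv⟩ := exists_ne_zero (ι := ι) (F := F)
    obtain ⟨u, hu⟩ := (h.nondeg v hv).1
    have := h.symm u v
    rw [h10, QuadraticMap.polar_comm, ← h10, RingHom.id_apply] at this
    exact (mul_eq_zero.1 (by linear_combination this)).resolve_right hu
  · obtain ⟨e, P, rfl⟩ := eq_tr (Ψ := Ψ)
    obtain ⟨J₀, δ, h4, h5, -, h6⟩ := h1.pf h hN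
    by_cases h2 : (2 : F) = 0
    · exact .of_qq h2 ((h1.qq h4 h5 h.unit h2).of_nm (irr_of_alg ht) hn2 hm.nm hH)
    have h6 := h6 rfl
    have h7 : (1 : F) ≠ -1 := fun h => h2 (by linear_combination h)
    obtain rfl := h4.rf.eps.resolve_left (by rintro rfl; exact h7 (by simpa using h6))
    have h8 : Odd t := Nat.not_even_iff_odd.1 fun h => h7 (h.neg_one_pow.symm.trans h6)
    refine .inr <| .inr <| .inr <| .inr <| .inr <| .inr <| .inr <| .inl ⟨odd_of_two_ne_zero h2, t, k, e, P,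
      J₀, h8, by have := h1.twot; obtain ⟨s, rfl⟩ := h8; omega, ?_, h4⟩
    rintro ⟨h9, rfl⟩
    exact not_perfect h1.perf (not_le_of_alg h1.top (by simp)) le_top (card_gl23 h9)

end symp

section orth

theorem eq_of_comm_field {K : Subalgebra F (Matrix ι ι F)} (hK : IsFieldSubalgebra (Fintype.card ι) K)
    {x : Matrix ι ι F} (hx : ∀ y ∈ K, x * y = y * x) : x ∈ K := by
  obtain ⟨v, hv⟩ := exists_ne_zero (ι := ι) (F := F)
  let φ : K →ₗ[F] (ι → F) := (toLin'.toLinearMap.flip v).comp K.val.toLinearMap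
  have h1 : Function.Surjective φ := (LinearMap.injective_iff_surjective_of_finrank_eq_finrank (by
    rw [hK.finrank_eq, finrank_fintype_fun_eq_card])).1 ((injective_iff_map_eq_zero φ).2 fun y hy =>
      by_contra fun h0 => hv (by
        obtain ⟨z, hz, h2⟩ := hK.inv y y.2 fun h => h0 (Subtype.ext h)
        rw [← one_mulVec v, ← h2, hK.comm _ y.2 z hz, ← mulVec_mulVec, show y.1 *ᵥ v = 0 from hy, mulVec_zero]))
  obtain ⟨y, hy⟩ := h1 (x *ᵥ v)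
  refine (eq_of_mulVec fun w => ?_ : y.1 = x) ▸ y.2
  obtain ⟨z, rfl⟩ := h1 w
  change y.1 *ᵥ (z.1 *ᵥ v) = x *ᵥ (z.1 *ᵥ v)
  rw [mulVec_mulVec, mulVec_mulVec, hx _ z.2, hK.comm _ y.2 _ z.2, ← mulVec_mulVec, ← mulVec_mulVec, ← hy]
  rfl

/-- the refined list of classes in the odd-dimensional orthogonal case -/
def OCl (J : Matrix ι ι F) (H : Subgroup (GL ι F)) : Prop :=
  (∃ m, ND (RingHom.id F) J H m) ∨
  (∃ r K, r.Prime ∧ Fintype.card ι ≠ r ∧ IsFieldSubalgebra r K ∧ Nrm H K ∧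
    ∀ x ∈ K, ad (RingHom.id F) J x = x) ∨
  (∃ (k l : ℕ) (e : ι ≃ Fin k × Fin l) (P : GL ι F) (J₁ : Matrix (Fin k) (Fin k) F)
    (J₂ : Matrix (Fin l) (Fin l) F), 3 ≤ k ∧ k < l ∧ TF (RingHom.id F) J H e P J₁ J₂ 1 1) ∨
  (∃ φ P b, SF (RingHom.id F) J H φ P b) ∨
  (∃ (t k : ℕ) (e : ι ≃ (Fin t → Fin k)) (P : GL ι F) (J₀ : Matrix (Fin k) (Fin k) F),
    3 ≤ k ∧ ¬ (Fintype.card F = 3 ∧ k = 3) ∧ PF (RingHom.id F) J H e P J₀ 1) ∨
  InOrthogonalResidualClass H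

variable (h : Rf (RingHom.id F) J 1) (h2 : (2 : F) ≠ 0) (hH : H ≤ isoG (RingHom.id F) J) (hI : Irr H)
  (hn : Odd (Fintype.card ι))
include h hH hI hn

theorem OCl.of_comm {K : Subalgebra F (Matrix ι ι F)} (hK : Nrm H K) (hc : ∀ a ∈ K, ∀ b ∈ K, a * b = b * a)
    (ha : AdC (RingHom.id F) J K) (h0 : K ≠ ⊥) (h1 : (Fintype.card ι).Prime → ∀ K' ≤ K,
      IsFieldSubalgebra (Fintype.card ι) K' → ¬ ∀ x ∈ K', ad (RingHom.id F) J x = x) : OCl J H := by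
  rcases h.comm hH hI hK hc ha h0 with h3 | ⟨⟨m, -, h3, -⟩, -⟩ | ⟨r, K', h3, h4, h5, h6, h7⟩
  · exact .inl h3
  · exact absurd (h3 ▸ even_two_mul m) (Nat.not_even_iff_odd.2 hn)
  rcases h.sa_or_two h3 h5 h7 with h8 | ⟨rfl, -⟩
  · exact .inr (.inl ⟨r, K', h3, by rintro rfl; exact h1 h3 K' h4 h5 h8, h5, h6, h8⟩)
  · exact absurd (even_iff_two_dvd.2 (h5.finrank_eq ▸ finrank_dvd h5.comm h5.inv)) (Nat.not_even_iff_odd.2 hn)

include h2 in
theorem oCl (hn2 : 2 ≤ Fintype.card ι) : OCl J H := by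
  obtain ⟨N, hm⟩ := exists_minN' hI hn2
  have hN := hm.le.trans hH
  rcases hm.raw hI with h1 | ⟨k, l, Ψ, L, h1⟩ | ⟨ht, ⟨r, h1⟩ | ⟨hp, h1 | ⟨t, k, Ψ, L, h1⟩⟩⟩
  · refine .of_comm h hH hI hn (nrm_alg hm.nm).ctr ctr_comm (h.adC_ctr (h.adC_alg hN)) h1
      fun _ K h3 h4 h5 => hm.nsc fun x hx => mem_sc.2 ?_
    have h6 := eq_of_comm_field h4 fun y hy => (mem_ctr.1 (h3 hy)).2 _ (val_mem_alg hx)
    have h7 : (x.1 - 1) * (x.1 + 1) = 0 := by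
      rw [mul_add, sub_mul, mul_one, one_mul, sub_add_sub_cancel]
      nth_rw 2 [← h5 _ h6]
      rw [h.ad_val (hN hx), Units.mul_inv, sub_self]
    rcases field_mul_eq_zero h4 (K.sub_mem h6 K.one_mem) h7 with h | h
    · exact ⟨1, by rw [one_smul, sub_eq_zero.1 h]⟩
    · exact ⟨-1, by rw [neg_one_smul, eq_neg_of_add_eq_zero_left h]⟩
  · obtain ⟨e, P, rfl⟩ := eq_tr (Ψ := Ψ)
    obtain ⟨J₁, J₂, δ₁, δ₂, h3, -, -, h4⟩ := h1.tf h hH hm.le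
    have : NeZero k := ⟨by have := h3.twok; omega⟩
    obtain ⟨hk, hl⟩ := Nat.odd_mul.1 (h3.card ▸ hn)
    obtain rfl := h3.rf1.eps.resolve_right (by
      rintro rfl; exact Nat.not_even_iff_odd.2 hk (by simpa using h3.rf1.even h2))
    obtain rfl : δ₂ = 1 := (one_mul _).symm.trans (h4 rfl)
    have hk3 : 3 ≤ k := by have := h3.twok; obtain ⟨s, rfl⟩ := hk; omega
    have hl3 : 3 ≤ l := by have := h3.twol; obtain ⟨s, rfl⟩ := hl; omega
    rcases lt_trichotomy k l with h5 | rfl | h5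
    · exact .inr <| .inr <| .inl ⟨k, l, e, P, _, _, hk3, h5, h3⟩
    · by_cases h5 : Fintype.card F = 3 ∧ k = 3
      · obtain ⟨h5, rfl⟩ := h5
        obtain ⟨K, h6, h7, h8, h9⟩ := h3.ca33 h h5
        exact .of_comm h hH hI hn h6 h7 h8 h9 fun h => absurd (h3.card ▸ h) (by decide)
      obtain ⟨P, h3⟩ := h3.swap.on_odd h2 hk
      obtain ⟨P, h3⟩ := h3.swap.on_odd h2 hk
      exact .inr <| .inr <| .inr <| .inr <| .inl ⟨2, k, _, P, 1, hk3, h5, h3.pf⟩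
    · exact .inr <| .inr <| .inl ⟨l, k, _, P, _, _, hl3, h5, h3.swap⟩
  · obtain ⟨rfl, -⟩ := h1.bilin h.unit hN
    obtain ⟨m, h4, h5, -⟩ := h1.card_eq ht
    exact absurd (h5 ▸ Nat.even_pow.2 ⟨even_two, by omega⟩) (Nat.not_even_iff_odd.2 hn)
  · exact .inr <| .inr <| .inr <| (simple_cases hm hp ht h1 h.unit hH).imp_right fun ⟨h3, h4⟩ =>
      .inr ⟨N, h3, not_unit_of h4 h.unit hN⟩
  · obtain ⟨e, P, rfl⟩ := eq_tr (Ψ := Ψ)
    obtain ⟨J₀, δ, h4, h5, -⟩ := h1.pf h hN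
    have : NeZero k := ⟨by have := h4.twok; omega⟩
    have hk : Odd k := (Nat.odd_pow_iff (by have := h4.twot; omega)).1 (h4.card ▸ hn)
    obtain rfl := h4.rf.eps.resolve_right (by
      rintro rfl; exact Nat.not_even_iff_odd.2 hk (by simpa using h4.rf.even h2))
    refine .inr <| .inr <| .inr <| .inr <| .inl ⟨t, k, e, P, J₀, by
      have := h4.twok; obtain ⟨s, rfl⟩ := hk; omega, ?_, h4⟩
    rintro ⟨h6, rfl⟩
    exact not_perfect h1.perf (not_le_of_alg h1.top (by simp)) h5 (h4.rf.card_o33 h6 (by simp))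

end orth

end Cfsg.Agent.H4.As
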