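import Cfsg.Agent.H4.As15

/-! Aschbacher's theorem, part 16: frames and the unitary groups. -/

set_option autoImplicit false
set_option linter.unusedSectionVars false

namespace Cfsg.Agent.H4.As

open Matrix Module Cfsg.Geo
open scoped MatrixGroups Kronecker commutatorElement

variable {ι κ : Type} [Fintype ι] [DecidableEq ι] [Fintype κ] [DecidableEq κ] {F : Type*} [Field F]
  [Fintype F] {G H N R L : Subgroup (GL ι F)} {σ : F →+* F} {J : Matrix ι ι F} {ε : F} {r : ℕ}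

section frame

/-- the vectors orthogonal to a subspace -/
def prp (σ : F →+* F) (J : Matrix ι ι F) (W : Submodule F (ι → F)) : Submodule F (ι → F) where
  carrier := {v | ∀ u ∈ W, fm σ J v u = 0}
  add_mem' ha hb u hu := by rw [fm_add_left, ha u hu, hb u hu, add_zero]
  zero_mem' u _ := fm_zero_left u
  smul_mem' c v hv u hu := by rw [fm_smul_left, hv u hu, mul_zero]

theorem map_gl_inj (g : GL ι F) : Function.Injective fun W : Submodule F (ι → F) =>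
    W.map (toLin' (g : Matrix ι ι F)) :=
  Submodule.map_injective_of_injective fun a b h => by
    simpa [inv_mulVec] using congrArg (((g⁻¹ : GL ι F) : Matrix ι ι F) *ᵥ ·) h

theorem nd_of_set {S : Set (Submodule F (ι → F))} {m : ℕ} (hm : 0 < m) (hn : m < Fintype.card ι)
    (h1 : ∀ W ∈ S, finrank F W = m ∧ IsNondegenerateOn (fm σ J) W)
    (h2 : ∀ W ∈ S, ∀ U ∈ S, W ≠ U → AreOrthogonalFor (fm σ J) W U) (h3 : sSup S = ⊤)
    (h4 : ∀ g ∈ H, ∀ W ∈ S, W.map (toLin' (g : Matrix ι ι F)) ∈ S) :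
    ∃ (t : ℕ) (D : Fin t → Submodule F (ι → F)), IsNondegenerateMDecomposition (fm σ J) m D ∧
      H ≤ decompositionStabilizer D ∧ ∀ i, D i ∈ S := by
  obtain ⟨t, ⟨e⟩⟩ := Finite.exists_equiv_fin S
  have h5 : ∀ i j, i ≠ j → AreOrthogonalFor (fm σ J) (e.symm i).1 (e.symm j).1 := fun i j h =>
    h2 _ (e.symm i).2 _ (e.symm j).2 fun h6 => h (e.symm.injective (Subtype.ext h6))
  have h6 : (⨆ i, (e.symm i).1) = ⊤ := by rw [← h3, sSup_eq_iSup', e.symm.iSup_comp (g := Subtype.val)]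
  refine ⟨t, fun i => (e.symm i).1, ⟨⟨?_, hm, fun i => (h1 _ (e.symm i).2).1, fun i => ?_, h6⟩,
    fun i => (h1 _ (e.symm i).2).2, h5⟩, fun g hg => ⟨Equiv.ofBijective (fun i => e ⟨_, h4 g hg _ (e.symm i).2⟩)
      (Finite.injective_iff_bijective.1 fun i j h => e.symm.injective (Subtype.ext (map_gl_inj g
        (congrArg Subtype.val (e.injective h))))), fun i => by simp⟩, fun i => (e.symm i).2⟩
  · by_contra h7
    obtain rfl | rfl : t = 0 ∨ t = 1 := by omega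
    · rw [iSup_of_empty] at h6
      have := congrArg (fun W : Submodule F (ι → F) => finrank F W) h6
      simp only [finrank_bot, finrank_top, finrank_fintype_fun_eq_card] at this
      omega
    · have := (h1 _ (e.symm default).2).1
      rw [iSup_unique] at h6
      rw [h6, finrank_top, finrank_fintype_fun_eq_card] at this
      omega
  · refine Submodule.disjoint_def.2 fun x hx hx' => by_contra fun h0 => ?_
    obtain ⟨y, hy, h7⟩ := ((h1 _ (e.symm i).2).2 x hx h0).2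
    exact h7 ((iSup₂_le fun j hj u hu => h5 j i hj u hu : _ ≤ prp σ J (e.symm i).1) hx' y hy)

theorem Rf.frame (h : Rf σ J ε) (hn : 1 < Fintype.card ι) {X : Set (ι → F)} (h1 : ∀ v ∈ X, fm σ J v v ≠ 0)
    (h2 : ∀ v ∈ X, ∀ w ∈ X, fm σ J v w = 0 ∨ ∃ c : F, w = c • v) (h3 : Submodule.span F X = ⊤)
    (h4 : ∀ g ∈ H, ∀ v ∈ X, (g : Matrix ι ι F) *ᵥ v ∈ X) :
    ∃ (t : ℕ) (D : Fin t → Submodule F (ι → F)), IsNondegenerateMDecomposition (fm σ J) 1 D ∧
      H ≤ decompositionStabilizer D ∧ ∀ i, ∃ v ∈ X, F ∙ v = D i := by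
  have h0 : ∀ v ∈ X, v ≠ 0 := fun v hv h0 => h1 v hv (by rw [h0, fm_zero_left])
  refine nd_of_set (S := (fun v => F ∙ v) '' X) one_pos hn ?_ ?_ ?_ ?_
  · rintro _ ⟨v, hv, rfl⟩
    refine ⟨finrank_span_singleton (h0 v hv), fun w hw hw0 => ?_⟩
    obtain ⟨c, rfl⟩ := Submodule.mem_span_singleton.1 hw
    have hc := left_ne_zero_of_smul hw0
    exact ⟨⟨v, Submodule.mem_span_singleton_self v, by
      rw [fm_smul_right]; exact mul_ne_zero ((_root_.map_ne_zero σ).2 hc) (h1 v hv)⟩,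
      v, Submodule.mem_span_singleton_self v, by rw [fm_smul_left]; exact mul_ne_zero hc (h1 v hv)⟩
  · rintro _ ⟨v, hv, rfl⟩ _ ⟨w, hw, rfl⟩ h5 x hx y hy
    obtain ⟨c, rfl⟩ := Submodule.mem_span_singleton.1 hx
    obtain ⟨d, rfl⟩ := Submodule.mem_span_singleton.1 hy
    rcases h2 v hv w hw with h6 | ⟨a, rfl⟩
    · rw [fm_smul_left, fm_smul_right, h6, mul_zero, mul_zero]
    · exact absurd (Submodule.span_singleton_smul_eq (left_ne_zero_of_smul (h0 _ hw)).isUnit v).symm h5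
  · rw [sSup_image, ← h3, Submodule.span_eq_iSup_of_singleton_spans]
  · rintro g hg _ ⟨v, hv, rfl⟩
    exact ⟨_, h4 g hg v hv, by simp [Submodule.map_span]⟩

/-- a frame refining a non-degenerate decomposition -/
theorem Rf.refine (h : Rf σ J ε) (hH : H ≤ isoG σ J) {t m : ℕ} {D : Fin t → Submodule F (ι → F)}
    (hD : IsNondegenerateMDecomposition (fm σ J) m D) (h0 : H ≤ decompositionStabilizer D) {p : F → Prop}
    (hp : ¬ p 0) (h1 : ∀ i, ∀ v ∈ D i, ∀ w ∈ D i, p (fm σ J v v) → p (fm σ J w w) →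
      fm σ J v w = 0 ∨ ∃ c : F, w = c • v)
    (h2 : ∀ i, D i ≤ Submodule.span F {v | v ∈ D i ∧ p (fm σ J v v)}) :
    ∃ (t : ℕ) (D : Fin t → Submodule F (ι → F)), IsNondegenerateMDecomposition (fm σ J) 1 D ∧
      H ≤ decompositionStabilizer D ∧ ∀ i, ∃ v, p (fm σ J v v) ∧ F ∙ v = D i := by
  obtain ⟨t, E, h3, h4, h5⟩ := h.frame (H := H) (X := {v | (∃ i, v ∈ D i) ∧ p (fm σ J v v)})
    (hD.decomp.as_card ▸ Nat.mul_le_mul hD.decomp.two_le hD.decomp.pos) (fun v hv h => hp (h ▸ hv.2))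
    (by
      rintro v ⟨⟨i, hi⟩, hv⟩ w ⟨⟨j, hj⟩, hw⟩
      rcases eq_or_ne i j with rfl | h3
      exacts [h1 i v hi w hj hv hw, .inl (hD.orthogonal i j h3 v hi w hj)])
    (eq_top_iff.2 (hD.decomp.iSup_eq_top.ge.trans (iSup_le fun i => (h2 i).trans
      (Submodule.span_mono fun v hv => ⟨⟨i, hv.1⟩, hv.2⟩))))
    (by
      rintro g hg v ⟨⟨i, hi⟩, hv⟩
      obtain ⟨s, hs⟩ := h0 hg
      exact ⟨⟨s i, hs i ▸ Submodule.mem_map_of_mem hi⟩, by rwa [iso_fm (hH hg)]⟩)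
  exact ⟨t, E, h3, h4, fun i => let ⟨v, h6, h7⟩ := h5 i; ⟨v, h6.2, h7⟩⟩

theorem Rf.zero_of_two (h : Rf σ J ε) {W : Submodule F (ι → F)} (hW : IsNondegenerateOn (fm σ J) W)
    (h2 : finrank F W = 2) {u v : ι → F} (hu : u ∈ W) (hv : v ∈ W) (h3 : fm σ J v v ≠ 0)
    (h4 : fm σ J v u = 0) (h5 : fm σ J u u = 0) : u = 0 := by
  by_contra h0
  have h6 : LinearIndependent F ![u, v] := LinearIndependent.pair_iff.2 fun a b h6 => by
    have h7 := congrArg (fm σ J · v) h6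
    simp only [fm_add_left, fm_smul_left, h.zero_symm h4, fm_zero_left, mul_zero, zero_add] at h7
    obtain rfl := (mul_eq_zero.1 h7).resolve_right h3
    exact ⟨by simpa [h0] using h6, rfl⟩
  have h7 : Submodule.span F {u, v} = W := Submodule.eq_of_le_of_finrank_eq
    (Submodule.span_le.2 (Set.pair_subset hu hv)) (by
      rw [h2, ← Matrix.range_cons_cons_empty u v ![]]; exact finrank_span_eq_card h6)
  obtain ⟨x, hx, h8⟩ := (hW u hu h0).1
  obtain ⟨a, b, rfl⟩ := Submodule.mem_span_pair.1 (h7.ge hx)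
  exact h8 (by rw [fm_add_left, fm_smul_left, fm_smul_left, h4, h5, mul_zero, mul_zero, add_zero])

theorem Rf.exists_aniso (h : Rf σ J 1) (h1 : σ ≠ RingHom.id F ∨ (2 : F) ≠ 0) {W : Submodule F (ι → F)}
    (hW : IsNondegenerateOn (fm σ J) W) (h0 : W ≠ ⊥) : ∃ v ∈ W, fm σ J v v ≠ 0 := by
  obtain ⟨u, hu, h2⟩ := W.exists_mem_ne_zero_of_ne_bot h0
  obtain ⟨v, hv, h3⟩ := (hW u hu h2).1
  by_contra! h4
  have h5 : ∀ c : F, c * fm σ J v u + σ c * σ (fm σ J v u) = 0 := fun c => by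
    have := h4 _ (W.add_mem (W.smul_mem c hv) hu)
    rw [fm_add_left, fm_add_right, fm_add_right, h4 _ (W.smul_mem c hv), h4 u hu, fm_smul_right, fm_smul_left,
      h.symm v u] at this
    linear_combination this
  have h6 : σ = RingHom.id F := RingHom.ext fun c => mul_right_cancel₀ h3 (by
    have := h5 1
    rw [map_one] at this
    rw [RingHom.id_apply]; linear_combination σ c * this - h5 c)
  subst h6
  exact h3 ((mul_eq_zero.1 (by simpa [two_mul] using h5 1)).resolve_left (h1.resolve_left fun h => h rfl))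

theorem two_of_four (hF : Fintype.card F = 2 ^ 2) : (2 : F) = 0 := by
  have := FiniteField.cast_card_eq_zero F
  rw [hF] at this
  exact pow_eq_zero_iff two_ne_zero |>.1 (by exact_mod_cast this)

theorem Rf.frame_u2 (h : Rf σ J 1) (h1 : σ ≠ RingHom.id F) (hF : Fintype.card F = 2 ^ 2) (hH : H ≤ isoG σ J)
    {t : ℕ} {D : Fin t → Submodule F (ι → F)} (hD : IsNondegenerateMDecomposition (fm σ J) 2 D)
    (h0 : H ≤ decompositionStabilizer D) : ∃ (t : ℕ) (D : Fin t → Submodule F (ι → F)),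
      IsNondegenerateMDecomposition (fm σ J) 1 D ∧ H ≤ decompositionStabilizer D := by
  have h2 := two_of_four hF
  have hN := fun a => norm_of_four (a := a) hF h1 h.inv
  have h3 : ∀ v, fm σ J v v ≠ 0 → fm σ J v v = 1 := fun v hv => by
    have h3 := hN _ hv
    rw [← one_mul (σ _), ← h.symm] at h3
    exact pow_eq_zero_iff two_ne_zero |>.1 (by linear_combination h3 + (1 - fm σ J v v) * h2) |> sub_eq_zero.1
  refine (h.refine hH hD h0 (p := (· ≠ 0)) (by simp) (fun i v hv w hw h4 h5 => ?_) fun i x hx => ?_).imp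
    fun t => Exists.imp fun E h => ⟨h.1, h.2.1⟩
  · refine or_iff_not_imp_left.2 fun h6 => ⟨fm σ J w v, sub_eq_zero.1 (h.zero_of_two (hD.nondegenerate i)
      (hD.decomp.finrank_eq i) ((D i).sub_mem hw ((D i).smul_mem _ hv)) hv h4 ?_ ?_)⟩
    all_goals simp only [sub_eq_add_neg, ← neg_smul, fm_add_left, fm_add_right, fm_smul_left, fm_smul_right,
      h3 v h4, h3 w h5, h.symm w v, map_neg]
    · ring
    · linear_combination -hN _ fun h7 => h6 (h.zero_symm h7)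
  · by_cases h4 : fm σ J x x = 0
    swap
    · exact Submodule.subset_span ⟨hx, h4⟩
    obtain ⟨v, hv, h5⟩ := h.exists_aniso (.inl h1) (hD.nondegenerate i) (hD.decomp.as_ne i).1
    obtain ⟨c, hc, h6⟩ : ∃ c : F, c ≠ 0 ∧ c * fm σ J v x + σ (c * fm σ J v x) = 0 := by
      rcases eq_or_ne (fm σ J v x) 0 with h6 | h6
      exacts [⟨1, one_ne_zero, by simp [h6]⟩, ⟨_, inv_ne_zero h6, by
        rw [inv_mul_cancel₀ h6, map_one, one_add_one_eq_two, h2]⟩]
    rw [show x = (x + c • v) - c • v by simp]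
    refine Submodule.sub_mem _ (Submodule.subset_span ⟨(D i).add_mem hx ((D i).smul_mem c hv), ?_⟩)
      (Submodule.smul_mem _ c (Submodule.subset_span ⟨hv, h5⟩))
    simp only [fm_add_left, fm_add_right, fm_smul_left, fm_smul_right, h3 v h5, h4, h.symm v x, map_mul] at h6 ⊢
    exact fun h7 => one_ne_zero (by linear_combination h7 - h6 - hN c hc)

end frame

theorem nm_isoG [Nonempty ι] (hJ : IsUnit J) (h : R ≤ similarityGroup (fm σ J)) : Nm R (isoG σ J) :=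
  fun g hg x hx => by
    obtain ⟨c, hc⟩ := (mem_sim_iff hJ).1 (h hg)
    simpa [mul_inv_cancel₀ (hc.ne_zero hJ), mem_isoG] using
      (hc.mul (mem_isoG.1 hx)).mul (hc.inv (hc.ne_zero hJ))

section unitary

variable {n q : ℕ}

theorem GU_eq (hF : Fintype.card F = q ^ 2) : GU n F q = isoG (frobq hF) (gr (unF hF n)) :=
  Subgroup.ext fun _ => ⟨fun h => mem_isoG_gr ((mem_GU hF).1 h), fun h u v =>
    (fm_gr (f := unF hF n) _ _).symm.trans ((iso_fm h u v).trans (fm_gr (f := unF hF n) _ _))⟩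

theorem Rf.upow (hF : Fintype.card F = q ^ 2) (h : Rf (frobq hF) J 1) : IsUnitaryFormPow q (fm (frobq hF) J) :=
  ⟨fm_add_left, fm_smul_left, fun v w => by rw [h.symm, one_mul, frobq_apply], h.nondeg⟩

theorem suAll (hF : Fintype.card F = q ^ 2) (hn : 3 ≤ n) (hx : ¬ (n = 3 ∧ q = 2)) {H : Subgroup (GL (Fin n) F)}
    (hH : H ≤ GU n F q) {Φ : Subgroup (GL (Fin n) F) → Prop}
    (hΦ : ∀ X, H ≤ X → ¬ GU n F q ⊓ specialLinear (Fin n) F ≤ X → Φ X) :
    (∃ W, W ≠ ⊥ ∧ IsTotallySingularFor (hermForm n F q) W ∧ Φ (subspaceStabilizer W)) ∨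
    (∃ W, W ≠ ⊥ ∧ IsNondegenerateOn (hermForm n F q) W ∧ 2 * finrank F W < n ∧ Φ (subspaceStabilizer W)) ∨
    (∃ (t m : ℕ) (D : Fin t → Submodule F (Fin n → F)), t * m = n ∧ 2 ≤ t ∧ (m = 2 → 3 ≤ q) ∧
      IsNondegenerateMDecomposition (hermForm n F q) m D ∧ Φ (decompositionStabilizer D)) ∨
    (∃ (m : ℕ) (D : Fin 2 → Submodule F (Fin n → F)), 2 * m = n ∧ IsMDecomposition m D ∧
      (∀ i, IsTotallySingularFor (hermForm n F q) (D i)) ∧ Φ (decompositionStabilizer D)) ∨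
    (∃ r K, r.Prime ∧ Odd r ∧ r ∣ n ∧ IsFieldSubalgebra r K ∧ IsAdjointClosedFor (hermForm n F q) K ∧
      Φ (subalgebraNormalizer K)) ∨
    (∃ (k l : ℕ) (e : Fin n ≃ Fin k × Fin l) (P : GL (Fin n) F) (f₁ : (Fin k → F) → (Fin k → F) → F)
      (f₂ : (Fin l → F) → (Fin l → F) → F), 2 ≤ k ∧ k < l ∧ k * l = n ∧ (k = 2 → 3 ≤ q) ∧
      IsUnitaryFormPow q f₁ ∧ IsUnitaryFormPow q f₂ ∧
      IsTensorFormStructure (fun x : F => x ^ q) (hermForm n F q) f₁ f₂ e P ∧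
      Φ (tensorProductSubgroup k l e P)) ∨
    (∃ (F₀ : Subfield F) (r : ℕ) (P : GL (Fin n) F), r.Prime ∧ Odd r ∧ Fintype.card F = Nat.card F₀ ^ r ∧
      IsFormRationalStructure (hermForm n F q) F₀ 1 P ∧ Φ (subfieldSubgroup F₀ P)) ∨
    (Odd q ∧ ∃ (F₀ : Subfield F) (P : GL (Fin n) F), Fintype.card F = Nat.card F₀ ^ 2 ∧
      IsFormRationalStructure (hermForm n F q) F₀ 1 P ∧ Φ (subfieldSubgroup F₀ P)) ∨
    (Even n ∧ ∃ (F₀ : Subfield F) (P : GL (Fin n) F) (ζ : F), Fintype.card F = Nat.card F₀ ^ 2 ∧ ζ ≠ 0 ∧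
      ζ + ζ ^ q = 0 ∧ IsFormRationalStructure (hermForm n F q) F₀ ζ P ∧ (∀ u : Fin n → F, (∀ i, u i ∈ F₀) →
        hermForm n F q ((P : Matrix (Fin n) (Fin n) F) *ᵥ u) ((P : Matrix (Fin n) (Fin n) F) *ᵥ u) = 0) ∧
      Φ (subfieldSubgroup F₀ P)) ∨
    (∃ (r : ℕ) (R : Subgroup (GL (Fin n) F)) (p e k : ℕ), n = r ^ k ∧ (Odd r → R ≤ GU n F q) ∧
      IsSymplecticTypeGroup r R ∧ ActsAbsolutelyIrreducibly (matrixSet R) ∧
      R ≤ similarityGroup (hermForm n F q) ∧ r ≠ p ∧ IsMinimalFieldFor (Nat.card (Subgroup.center R)) p e F ∧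
      ((Odd r ∧ Nat.card (Subgroup.center R) = r ∧ 1 ≤ k ∧ Nat.card R = r ^ (1 + 2 * k)) ∨
        (r = 2 ∧ e = 2 ∧ Nat.card (Subgroup.center R) = 4 ∧ Nat.card R = 2 ^ (2 + 2 * k))) ∧
      Φ (subgroupNormalizer R)) ∨
    (∃ (k t : ℕ) (e : Fin n ≃ (Fin t → Fin k)) (P : GL (Fin n) F) (f₁ : (Fin k → F) → (Fin k → F) → F),
      n = k ^ t ∧ 3 ≤ k ∧ 2 ≤ t ∧ ¬ (q = 2 ∧ k = 3) ∧ IsUnitaryFormPow q f₁ ∧
      IsTensorPowerFormStructure (fun x : F => x ^ q) (hermForm n F q) f₁ e P ∧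
      Φ (tensorWreathSubgroup k t e P)) ∨ InUnitaryResidualClass H := by
  have hB := big_SU hF hn hx
  have := hB.nonempty
  have hq := two_le_of_card_sq hF
  have hq' : ∀ {m : ℕ}, (m = 2 → Fintype.card F ≠ 2 ^ 2) → m = 2 → 3 ≤ q := fun h h' =>
    hq.lt_of_ne fun h2 => h h' (h2 ▸ hF)
  have h : Rf (frobq hF) (gr (unF hF n)) 1 := rf_gr (unF_nondeg hF n)
  have h1 := frobq_ne hF
  have hJ := hH.trans (GU_eq hF).le
  have hnd : ∀ {t m} {D : Fin t → _}, IsNondegenerateMDecomposition (fm (frobq hF) (gr (unF hF n))) m D →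
      H ≤ decompositionStabilizer D → ∃ (t m : ℕ) (D : Fin t → Submodule F (Fin n → F)), t * m = n ∧ 2 ≤ t ∧
      (m = 2 → 3 ≤ q) ∧ IsNondegenerateMDecomposition (fm (frobq hF) (gr (unF hF n))) m D ∧
      Φ (decompositionStabilizer D) := fun {t m D} h2 h3 => by
    by_cases h4 : m = 2 ∧ Fintype.card F = 2 ^ 2
    · obtain ⟨rfl, h4⟩ := h4
      obtain ⟨t, D, h2, h3⟩ := h.frame_u2 h1 h4 hJ h2 h3
      exact ⟨t, 1, D, by simpa using h2.decomp.as_card, h2.decomp.two_le, by omega, h2,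
        hΦ _ h3 (hB.not_decomp h2.decomp)⟩
    exact ⟨t, m, D, by simpa using h2.decomp.as_card, h2.decomp.two_le, hq' fun a b => h4 ⟨a, b⟩, h2,
      hΦ _ h3 (hB.not_decomp h2.decomp)⟩
  rw [show hermForm n F q = fm (frobq hF) (gr (unF hF n)) from (fm_gr' (f := unF hF n)).symm]
  rcases irr_or H with ⟨W, h2, h3, h4⟩ | hI
  · rcases red_cases (unF_nondeg hF n) hJ h2 h3 h4 with ⟨U, h5, h6, h7⟩ | ⟨U, h5, h6, h7, h8⟩ | ⟨m, D, h5, h6⟩
    · exact .inl ⟨U, h5, h6, hΦ _ h7.le (hB.not_stab h5 (by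
        rintro rfl
        obtain ⟨v, hv⟩ := exists_ne_zero (ι := Fin n) (F := F)
        exact hv (h.eq_zero fun u => h6 u trivial v trivial)))⟩
    · exact .inr <| .inl ⟨U, h5, h6, by simpa using h7, hΦ _ h8.le (hB.not_stab h5 (by
        rintro rfl; simp at h7; omega))⟩
    · exact .inr <| .inr <| .inl (hnd h5 (le_decomp_of_inv h6))
  refine .inr <| .inr ?_
  rcases uCl h h1 hJ hI (by simpa) with ⟨m, t, D, h2, h3, -⟩ | ⟨m, D, h2, h3, h4, h5⟩ | ⟨r, K, h2, h3, h4, h5, h6⟩ |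
    ⟨k, l, e, P, J₁, J₂, h2, h3, h4⟩ | ⟨F₀, r, P, h2, h3, h4, h5, h6⟩ | (⟨F₀, P, h2, h3, h4, h5⟩ |
    ⟨F₀, P, ζ, h2, h3, h4, h5, h6, h7, h8⟩) | ⟨r, R, p, e, k, h2, h3, h4, h5, h6, h7, h8, h9, h10⟩ |
    ⟨t, k, e, P, J₀, h2, h3, h4⟩ | h2
  · exact .inl (hnd h2 h3)
  · exact .inr <| .inl ⟨m, D, by simpa using h2, h3, h4, hΦ _ h5 (hB.not_decomp h3)⟩
  · exact .inr <| .inr <| .inl ⟨r, K, h2, h3, by simpa [h4.finrank_eq] using finrank_dvd h4.comm h4.inv, h4,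
      h.adC_iff.2 h6, hΦ _ h5.le (hB.not_field h2.one_lt h4)⟩
  · exact .inr <| .inr <| .inr <| .inl ⟨k, l, e, P, _, _, h4.twok, h2, by simpa using h4.card.symm, hq' h3,
      h4.rf1.upow hF, h4.rf2.upow hF, h4.struct, hΦ _ h4.le_tensor (hB.not_tensor h4.twok h4.twol)⟩
  · exact .inr <| .inr <| .inr <| .inr <| .inl ⟨F₀, r, P, h2, h3, h4, h5, hΦ _ h6 (hB.not_subfield h2.one_lt h4)⟩
  · exact .inr <| .inr <| .inr <| .inr <| .inr <| .inl ⟨(Nat.odd_pow_iff two_ne_zero).1 (hF ▸ h2), F₀, P, h3, h4,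
      hΦ _ h5 (hB.not_subfield one_lt_two h3)⟩
  · exact .inr <| .inr <| .inr <| .inr <| .inr <| .inr <| .inl ⟨by simpa using h2, F₀, P, ζ, h3, h4, h5, h6, h7,
      hΦ _ h8 (hB.not_subfield one_lt_two h3)⟩
  · exact .inr <| .inr <| .inr <| .inr <| .inr <| .inr <| .inr <| .inl ⟨r, R, p, e, k, by simpa using h8,
      fun h => (h5 h).trans (GU_eq hF).ge, h2, absIrr_of_alg h3, h4, h6, h7, h9, hΦ _ (nm_iff.1 h10)
        (hB.not_norm h2.prime h2.pGroup (not_le_of_alg h3 hB.two) (GU_eq hF ▸ (nm_isoG h.unit h4).inf (nm_SL R)))⟩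
  · exact .inr <| .inr <| .inr <| .inr <| .inr <| .inr <| .inr <| .inr <| .inl ⟨k, t, e, P, _,
      by simpa using h4.card, h2, h4.twot, fun h => h3 ⟨h.1 ▸ hF, h.2⟩, h4.rf.upow hF, h4.struct,
      hΦ _ h4.le (hB.not_wreath h4.twok h4.twot)⟩
  · exact .inr <| .inr <| .inr <| .inr <| .inr <| .inr <| .inr <| .inr <| .inr h2

theorem c6u {z p e : ℕ} (hF : Fintype.card F = q ^ 2) (h : IsMinimalFieldFor z p e F) (hz : 1 < z)
    (P : ℕ → ℕ → Prop) (hP : ∀ a : ZMod z, ∀ e ≤ z, 0 < e → a ^ e = 1 → (∀ d < e, 0 < d → a ^ d ≠ 1) →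
      e % 2 = 0 → P a.val (e / 2)) : p.Prime ∧ CharP F p ∧ ∃ k, q = p ^ k ∧ P (p % z) k := by
  obtain ⟨p', k, h1, h2, -, rfl⟩ := exists_pow_of_card_sq hF
  obtain rfl := CharP.eq F h2 h.2.1
  obtain rfl := Nat.pow_right_injective h1.two_le ((pow_mul _ _ _).trans (hF.symm.trans h.2.2.1))
  exact ⟨h1, h2, k, rfl, by
    simpa using minField_arith h hz (fun a e => e % 2 = 0 → P a (e / 2)) hP (by simp)⟩

end unitary

end Cfsg.Agent.H4.As
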