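import Cfsg.Agent.H4.As16

/-! Aschbacher's theorem, part 17: the symplectic groups. -/

set_option autoImplicit false
set_option linter.unusedSectionVars false

namespace Cfsg.Agent.H4.As

open Matrix Module Cfsg.Geo
open scoped MatrixGroups Kronecker commutatorElement

variable {ι κ : Type} [Fintype ι] [DecidableEq ι] [Fintype κ] [DecidableEq κ] {F : Type*} [Field F]
  [Fintype F] {G H N R L : Subgroup (GL ι F)} {σ : F →+* F} {J : Matrix ι ι F} {ε : F} {r : ℕ}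

/-- evaluation of a subalgebra at a vector -/
def ev (K : Subalgebra F (Matrix ι ι F)) (v : ι → F) : K →ₗ[F] (ι → F) :=
  (toLin'.toLinearMap.flip v).comp K.val.toLinearMap

theorem ev_inj {K : Subalgebra F (Matrix ι ι F)} (hK : IsFieldSubalgebra r K) {U : Submodule F (ι → F)}
    (hU : ∀ k ∈ K, ∀ u ∈ U, k *ᵥ u ∈ U) {v : ι → F} (hv : v ∉ U) {k : K} (h : ev K v k ∈ U) : k = 0 :=
  by_contra fun h0 => hv (by
    obtain ⟨z, hz, h2⟩ := hK.inv k k.2 fun h => h0 (Subtype.ext h)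
    rw [← one_mulVec v, ← h2, hK.comm _ k.2 z hz, ← mulVec_mulVec]
    exact hU z hz _ h)

theorem finrank_sup_ev {K : Subalgebra F (Matrix ι ι F)} (hK : IsFieldSubalgebra r K) {U : Submodule F (ι → F)}
    (hU : ∀ k ∈ K, ∀ u ∈ U, k *ᵥ u ∈ U) {v : ι → F} (hv : v ∉ U) :
    finrank F (U ⊔ LinearMap.range (ev K v) :) = finrank F U + r := by
  have := Submodule.finrank_sup_add_finrank_inf_eq U (LinearMap.range (ev K v))
  rwa [(Submodule.eq_bot_iff (U ⊓ _)).2 (by rintro _ ⟨h, k, rfl⟩; rw [ev_inj hK hU hv h, map_zero]), finrank_bot,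
    LinearMap.finrank_range_of_inj ((injective_iff_map_eq_zero _).2 fun k hk =>
      ev_inj hK hU hv (hk ▸ U.zero_mem)), hK.finrank_eq, add_zero] at this

theorem two_mul_dvd {f : CForm (FType.symp F) (ι → F)} (hf : f.Nondeg) {K : Subalgebra F (Matrix ι ι F)}
    (hK : IsFieldSubalgebra r K) (h1 : IsSelfAdjointFor (fun x y => f.B x y) K)
    (h2 : ∀ k ∈ K, ∀ v, f.B (k *ᵥ v) v = 0) : 2 * r ∣ Fintype.card ι := by
  obtain ⟨U, ⟨h3, h4, c, h5⟩, h6⟩ := (Set.toFinite {U : Submodule F (ι → F) | (∀ k ∈ K, ∀ u ∈ U, k *ᵥ u ∈ U) ∧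
    U ≤ f.perp U ∧ r ∣ finrank F U}).exists_maximal ⟨⊥, by simp⟩
  have h7 := hf.finrank_perp U
  rw [← h4.antisymm fun v hv => by_contra fun h8 => h8 ?_, finrank_fintype_fun_eq_card] at h7
  · exact ⟨c, by rw [← h7, h5]; ring⟩
  refine h6 (y := U ⊔ LinearMap.range (ev K v)) ⟨fun k hk x hx => ?_, fun x hx y hy => ?_, ?_⟩ le_sup_left
    (Submodule.mem_sup_right ⟨1, one_mulVec v⟩)
  · obtain ⟨u, hu, _, ⟨l, rfl⟩, rfl⟩ := Submodule.mem_sup.1 hx
    rw [mulVec_add]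
    exact Submodule.add_mem_sup (h3 k hk u hu) ⟨⟨k, hk⟩ * l, (mulVec_mulVec ..).symm⟩
  · obtain ⟨u, hu, _, ⟨k, rfl⟩, rfl⟩ := Submodule.mem_sup.1 hx
    obtain ⟨w, hw, _, ⟨l, rfl⟩, rfl⟩ := Submodule.mem_sup.1 hy
    have h9 : ∀ (k : K), ∀ w ∈ U, f.B (ev K v k) w = 0 := fun k w hw => (h1 k k.2 v w).trans (hv _ (h3 k k.2 w hw))
    rw [f.B_add_left, f.B_add_right, f.B_add_right, h4 hu w hw, h9 k w hw, f.B_zero_symm (h9 l u hu),
      show f.B (ev K v k) (ev K v l) = 0 from (h1 l l.2 _ v).symm.trans (by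
        rw [show ev K v k = k.1 *ᵥ v from rfl, mulVec_mulVec]; exact h2 _ (K.mul_mem l.2 k.2) v)]
    simp
  · rw [finrank_sup_ev hK h3 h8, h5]; simp

theorem fm_sum_left {α : Type*} (s : Finset α) (x : α → ι → F) (v : ι → F) :
    fm σ J (∑ i ∈ s, x i) v = ∑ i ∈ s, fm σ J (x i) v :=
  map_sum (AddMonoidHom.mk' (fm σ J · v) fun _ _ => fm_add_left ..) x s

theorem fm_sum_right {α : Type*} (s : Finset α) (x : α → ι → F) (v : ι → F) :
    fm σ J v (∑ i ∈ s, x i) = ∑ i ∈ s, fm σ J v (x i) :=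
  map_sum (AddMonoidHom.mk' (fm σ J v) (fm_add_right v)) x s

theorem eq_zero_or_one (hF : Fintype.card F = 2) (a : F) : a = 0 ∨ a = 1 :=
  (eq_or_ne a 0).imp_right (eq_one_of_card hF)

theorem qq_of_nd (h : Rf (RingHom.id F) J ε) (h0 : ∀ v, fm (RingHom.id F) J v v = 0) (hF : Fintype.card F = 2)
    {t : ℕ} {D : Fin t → Submodule F (ι → F)} (hD : IsNondegenerateMDecomposition (fm (RingHom.id F) J) 2 D)
    (hH : H ≤ decompositionStabilizer D) : QQ J H := by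
  classical
  have h2 := two_of_card hF
  obtain ⟨π, hπ⟩ := exists_dec hD.decomp.indep hD.decomp.iSup_eq_top
  have h1 : QuadraticMap.polar (fun v => ∑ i, if π i v = 0 then (0 : F) else 1) = fm (RingHom.id F) J := by
    funext u v
    have h3 : ∀ i, fm (RingHom.id F) J (π i u) v = fm (RingHom.id F) J (π i u) (π i v) := fun i => by
      conv_lhs => rw [← hπ.sum v]
      rw [fm_sum_right, Finset.sum_eq_single i (fun j _ hj =>
        hD.orthogonal i j hj.symm _ (hπ.mem i u) _ (hπ.mem j v)) (by simp)]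
    conv_rhs => rw [← hπ.sum u, fm_sum_left]
    simp only [QuadraticMap.polar, ← Finset.sum_sub_distrib, map_add, h3]
    refine Finset.sum_congr rfl fun i _ => ?_
    have ha := hπ.mem i u
    have hb := hπ.mem i v
    generalize π i u = a at ha; generalize π i v = b at hb
    rcases eq_or_ne a 0 with rfl | ha0
    · simp [fm_zero_left]
    rcases eq_or_ne b 0 with rfl | hb0
    · simp [fm_zero_right]
    have h4 : b + b = 0 := by rw [← two_smul F, h2, zero_smul]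
    rcases eq_or_ne a b with rfl | hab
    · simp only [h4, ha0, h0, if_true, if_false]; linear_combination -h2
    have h5 : a + b ≠ 0 := fun h => hab (add_right_cancel (h.trans h4.symm))
    have h6 : LinearIndependent F ![a, b] := LinearIndependent.pair_iff.2 fun c d h6 => by
      rcases eq_zero_or_one hF c with rfl | rfl <;> rcases eq_zero_or_one hF d with rfl | rfl <;> simp_all
    have h7 : Submodule.span F {a, b} = D i := Submodule.eq_of_le_of_finrank_eq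
      (Submodule.span_le.2 (Set.pair_subset ha hb)) (by
        rw [hD.decomp.finrank_eq, ← Matrix.range_cons_cons_empty a b ![]]; exact finrank_span_eq_card h6)
    obtain ⟨x, hx, h8⟩ := (hD.nondegenerate i b hb hb0).1
    obtain ⟨c, d, rfl⟩ := Submodule.mem_span_pair.1 (h7.ge hx)
    rw [fm_add_left, fm_smul_left, fm_smul_left, h0, mul_zero, add_zero] at h8
    simp only [h5, ha0, hb0, if_false, eq_one_of_card hF (right_ne_zero_of_mul h8)]
    linear_combination -h2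
  refine ⟨_, ⟨fun c v => ?_, h1 ▸ bilin_fm, h1 ▸ h.nondeg⟩, h1, fun g hg v _ => ?_⟩
  · rcases eq_zero_or_one hF c with rfl | rfl <;> simp
  · obtain ⟨s, hs⟩ := hH hg
    have h3 : ∀ i x, x ∈ D i → (g : Matrix ι ι F) *ᵥ x ∈ D (s i) := fun i x hx =>
      hs i ▸ Submodule.mem_map_of_mem hx
    refine (Fintype.sum_equiv s (fun i => if π i v = 0 then (0 : F) else 1)
      (fun i => if π i ((g : Matrix ι ι F) *ᵥ v) = 0 then 0 else 1) fun i => if_congr ?_ rfl rfl).symm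
    conv_rhs => rw [← hπ.sum v, mulVec_sum, map_sum, Finset.sum_eq_single i (fun j _ hj =>
      hπ.other _ _ (s.injective.ne hj.symm) _ (h3 j _ (hπ.mem j v))) (by simp), hπ.same _ _ (h3 i _ (hπ.mem i v))]
    exact ⟨fun h => by rw [h, mulVec_zero], fun h => by_contra fun h0 => mulVec_ne_zero g h0 h⟩

section symp

variable {m : ℕ}

theorem Sp_eq : spGL m F = isoG (RingHom.id F) (gr (spF F m)) :=
  Subgroup.ext fun _ => ⟨fun h => mem_isoG_gr (mem_spGL.1 h), fun h u v =>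
    (fm_gr (f := spF F m) _ _).symm.trans ((iso_fm h u v).trans (fm_gr (f := spF F m) _ _))⟩

theorem Sp_not_quad (hm : 2 ≤ m) {Q : (Fin m ⊕ Fin m → F) → F} (hQ : IsNondegenerateQuadraticForm Q) :
    ¬ spGL m F ≤ quadSimilarityGroup Q := fun h => by
  obtain ⟨u, h0, hu⟩ := CForm.not_aniso.1 (CForm.Nondeg.orth_not_aniso (f := geoQuad hQ) (by simp; omega))
  have h1 : ∀ v, Q v = 0 := fun v => by
    rcases eq_or_ne v 0 with rfl | hv
    · exact (geoQuad hQ).Q_zero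
    obtain ⟨g, hg, rfl⟩ := (spF_nondeg (F := F) m).witt_vec h0 hv rfl
    obtain ⟨g, rfl⟩ := glE.surjective g
    obtain ⟨c, hc⟩ := h (mem_spGL.2 hg)
    exact (hc u).trans (by rw [show Q u = 0 from hu, mul_zero])
  obtain ⟨x, hx⟩ := (hQ.nondegenerate u h0).1
  exact hx (by simp [QuadraticMap.polar, h1])

theorem Rf.skew (h : Rf (RingHom.id F) J (-1)) (h2 : Odd (Fintype.card F)) :
    IsSymplecticForm (fm (RingHom.id F) J) :=
  symp_fm h.unit (alt_of_skew (two_ne_zero_of_odd h2) (by simpa [map_id'] using h.swap))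

theorem Rf.sym (h : Rf (RingHom.id F) J 1) : IsSymmetricForm (fm (RingHom.id F) J) :=
  symm_fm h.unit (by simpa [map_id'] using h.swap)

theorem spAll (hm : 2 ≤ m) (hx : ¬ (m = 2 ∧ Fintype.card F = 2)) {H : Subgroup (GL (Fin m ⊕ Fin m) F)}
    (hH : H ≤ spGL m F) {Φ : Subgroup (GL (Fin m ⊕ Fin m) F) → Prop}
    (hΦ : ∀ X, H ≤ X → ¬ spGL m F ≤ X → Φ X) :
    (∃ W, W ≠ ⊥ ∧ IsTotallySingularFor (sympForm m F) W ∧ Φ (subspaceStabilizer W)) ∨
    (∃ W : Submodule F (Fin m ⊕ Fin m → F), Even (finrank F W) ∧ W ≠ ⊥ ∧ IsNondegenerateOn (sympForm m F) W ∧ finrank F W < m ∧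
      Φ (subspaceStabilizer W)) ∨
    (∃ (t k : ℕ) (D : Fin t → Submodule F (Fin m ⊕ Fin m → F)), t * k = m ∧ 2 ≤ t ∧
      (k = 1 → 3 ≤ Fintype.card F) ∧
      IsNondegenerateMDecomposition (sympForm m F) (2 * k) D ∧ Φ (decompositionStabilizer D)) ∨
    (Odd (Fintype.card F) ∧ ∃ D : Fin 2 → Submodule F (Fin m ⊕ Fin m → F), IsMDecomposition m D ∧
      (∀ i, IsTotallySingularFor (sympForm m F) (D i)) ∧ Φ (decompositionStabilizer D)) ∨
    (∃ r K, r.Prime ∧ r ∣ m ∧ IsFieldSubalgebra r K ∧ IsSelfAdjointFor (sympForm m F) K ∧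
      (∀ k ∈ K, ∀ v, sympForm m F (k *ᵥ v) v = 0) ∧ Φ (subalgebraNormalizer K)) ∨
    (Odd (Fintype.card F) ∧ ∃ K, IsFieldSubalgebra 2 K ∧ IsAdjointClosedFor (sympForm m F) K ∧
      ¬ IsSelfAdjointFor (sympForm m F) K ∧ Φ (subalgebraNormalizer K)) ∨
    (Odd (Fintype.card F) ∧ ∃ (k l : ℕ) (e : Fin m ⊕ Fin m ≃ Fin (2 * k) × Fin l) (P : GL (Fin m ⊕ Fin m) F)
      (f₁ : (Fin (2 * k) → F) → (Fin (2 * k) → F) → F) (f₂ : (Fin l → F) → (Fin l → F) → F), k * l = m ∧ 3 ≤ l ∧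
      (l = 3 → 5 ≤ Fintype.card F) ∧ IsSymplecticForm f₁ ∧ IsSymmetricForm f₂ ∧
      IsTensorFormStructure id (sympForm m F) f₁ f₂ e P ∧ Φ (tensorProductSubgroup (2 * k) l e P)) ∨
    (∃ (F₀ : Subfield F) (r : ℕ) (P : GL (Fin m ⊕ Fin m) F) (ζ : F), r.Prime ∧ Fintype.card F = Nat.card F₀ ^ r ∧
      ζ ≠ 0 ∧ IsFormRationalStructure (sympForm m F) F₀ ζ P ∧ Φ (subfieldSubgroup F₀ P)) ∨
    (Odd (Fintype.card F) ∧ (Fintype.card F).Prime ∧ ∃ (R : Subgroup (GL (Fin m ⊕ Fin m) F)) (k : ℕ),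
      2 * m = 2 ^ k ∧ IsSymplecticTypeGroup 2 R ∧ ActsAbsolutelyIrreducibly (matrixSet R) ∧
      R ≤ similarityGroup (sympForm m F) ∧ Nat.card R = 2 ^ (1 + 2 * k) ∧ Nat.card (Subgroup.center R) = 2 ∧
      IsOfMinusType k R ∧ Φ (subgroupNormalizer R)) ∨
    (Odd (Fintype.card F) ∧ ∃ (k t : ℕ) (e : Fin m ⊕ Fin m ≃ (Fin t → Fin k)) (P : GL (Fin m ⊕ Fin m) F)
      (f₁ : (Fin k → F) → (Fin k → F) → F), 2 * m = k ^ t ∧ Odd t ∧ 3 ≤ t ∧ ¬ (Fintype.card F = 3 ∧ k = 2) ∧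
      IsSymplecticForm f₁ ∧ IsTensorPowerFormStructure id (sympForm m F) f₁ e P ∧
      Φ (tensorWreathSubgroup k t e P)) ∨
    (¬ Odd (Fintype.card F) ∧ ∃ Q, IsNondegenerateQuadraticForm Q ∧
      (∀ u v, QuadraticMap.polar Q u v = sympForm m F u v) ∧ Φ (quadSimilarityGroup Q)) ∨
    InSymplecticResidualClass H := by
  have hB := big_Sp hm hx
  have := hB.nonempty
  have hq := Fintype.one_lt_card (α := F)
  have hf := spF_nondeg (F := F) m
  have h : Rf (RingHom.id F) (gr (spF F m)) (-1) := rf_gr hf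
  have e : sympForm m F = fm (RingHom.id F) (gr (spF F m)) := (fm_gr' (f := spF F m)).symm
  have h0 : ∀ v, fm (RingHom.id F) (gr (spF F m)) v v = 0 := fun v => e ▸ (spF F m).symp_B_self v
  have hJ := hH.trans Sp_eq.le
  have hc : Fintype.card (Fin m ⊕ Fin m) = 2 * m := by simp [two_mul]
  have hev : ∀ {W}, IsNondegenerateOn (fm (RingHom.id F) (gr (spF F m))) W → Even (finrank F W) := fun hW =>
    ⟨_, ((spF F m).res_nondeg_iff.2 (nondeg_of_geo (fm_gr' (f := spF F m) ▸ hW))).symp_finrank.trans (two_mul _)⟩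
  have hqq : QQ (gr (spF F m)) H → ∃ Q, IsNondegenerateQuadraticForm Q ∧ (∀ u v, QuadraticMap.polar Q u v =
      fm (RingHom.id F) (gr (spF F m)) u v) ∧ Φ (quadSimilarityGroup Q) := fun ⟨Q, h1, h2, h3⟩ =>
    ⟨Q, h1, fun u v => by rw [h2], hΦ _ (fun g hg => ⟨1, fun v => by simpa using h3 hg v v⟩) (Sp_not_quad hm h1)⟩
  have hnd : ∀ {t k} {D : Fin t → _} {A B}, IsNondegenerateMDecomposition (fm (RingHom.id F) (gr (spF F m))) k D →
      H ≤ decompositionStabilizer D → (¬ Odd (Fintype.card F) → QQ (gr (spF F m)) H → B) →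
      (∃ (t k : ℕ) (D : Fin t → Submodule F (Fin m ⊕ Fin m → F)), t * k = m ∧ 2 ≤ t ∧
        (k = 1 → 3 ≤ Fintype.card F) ∧ IsNondegenerateMDecomposition (fm (RingHom.id F) (gr (spF F m))) (2 * k) D ∧
        Φ (decompositionStabilizer D)) ∨ A ∨ B := fun {t k D _ _} h2 h3 h4 => by
    have h5 := h2.decomp.two_le
    obtain ⟨k, rfl⟩ := even_iff_exists_two_mul.1 (h2.decomp.finrank_eq ⟨0, by omega⟩ ▸ hev (h2.nondegenerate _))
    by_cases h6 : k = 1 ∧ Fintype.card F = 2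
    · obtain ⟨rfl, h6⟩ := h6
      exact .inr (.inr (h4 (by rw [h6]; decide) (qq_of_nd h h0 h6 h2 h3)))
    exact .inl ⟨t, k, D, by have := h2.decomp.as_card; rw [hc] at this; linarith, h5, by omega, h2,
      hΦ _ h3 (hB.not_decomp h2.decomp)⟩
  rw [e]
  rcases irr_or H with ⟨W, h2, h3, h4⟩ | hI
  · rcases red_cases hf hJ h2 h3 h4 with ⟨U, h5, h6, h7⟩ | ⟨U, h5, h6, h7, h8⟩ | ⟨m, D, h5, h6⟩
    · exact .inl ⟨U, h5, h6, hΦ _ h7.le (hB.not_stab h5 (by
        rintro rfl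
        obtain ⟨v, hv⟩ := exists_ne_zero (ι := Fin m ⊕ Fin m) (F := F)
        exact hv (h.eq_zero fun u => h6 u trivial v trivial)))⟩
    · exact .inr <| .inl ⟨U, hev h6, h5, h6, by omega, hΦ _ h8.le (hB.not_stab h5 (by
        rintro rfl; simp at h7; omega))⟩
    · exact .inr <| .inr <| hnd h5 (le_decomp_of_inv h6) fun a b =>
        .inr <| .inr <| .inr <| .inr <| .inr <| .inr <| .inl ⟨a, hqq b⟩
  refine .inr <| .inr ?_
  rcases sCl h h0 hJ hI (by omega) with ⟨k, t, D, h2, h3, -⟩ | ⟨h1, k, D, h2, h3, h4, h5⟩ |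
    ⟨r, K, h2, h3, h4, h5, h6⟩ | ⟨h1, K, h2, h3, h4, x, h5, h6⟩ | ⟨h1, k, l, e, P, J₁, J₂, h2, h3, h4⟩ |
    ⟨φ, P, b, h1, h2, h3, h4⟩ | ⟨h1, h2, R, k, h3, h4, h5, h6, h7, h8, h9, h10⟩ |
    ⟨h1, t, k, e, P, J₀, h2, h3, h4, h5⟩ | ⟨h1, h2⟩ | h2
  · exact hnd h2 h3 fun a b => .inr <| .inr <| .inr <| .inr <| .inr <| .inr <| .inl ⟨a, hqq b⟩
  · obtain rfl : k = m := by omega
    exact .inr <| .inl ⟨h1, D, h3, h4, hΦ _ h5 (hB.not_decomp h3)⟩
  · exact .inr <| .inr <| .inl ⟨r, K, h2, Nat.dvd_of_mul_dvd_mul_left two_pos (hc ▸ two_mul_dvd hf h3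
      (fm_gr' (f := spF F m) ▸ h.sa_iff.2 h5) fun k hk v => (fm_gr _ _).symm.trans (h6 k hk v)), h3,
      h.sa_iff.2 h5, h6, hΦ _ h4.le (hB.not_field h2.one_lt h3)⟩
  · exact .inr <| .inr <| .inr <| .inl ⟨h1, K, h2, h.adC_iff.2 h4, fun h7 => h6 (h.sa_iff.1 h7 x h5),
      hΦ _ h3.le (hB.not_field one_lt_two h2)⟩
  · have h5 := h4.rf1.skew h1
    obtain ⟨k, rfl⟩ : ∃ c, k = 2 * c := even_iff_exists_two_mul.1 (by simpa using even_of_symp h5)
    exact .inr <| .inr <| .inr <| .inr <| .inl ⟨h1, k, l, e, P, _, _, by have := h4.card; rw [hc] at this; linarith,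
      h2, by obtain ⟨s, hs⟩ := h1; omega, h5, h4.rf2.sym, h4.struct, hΦ _ h4.le_tensor (hB.not_tensor h4.twok h4.twol)⟩
  · exact .inr <| .inr <| .inr <| .inr <| .inr <| .inl ⟨_, _, P, b, h1, card_fx φ, h3, rat_of_map h4,
      hΦ _ h2.le (hB.not_subfield h1.one_lt (card_fx φ))⟩
  · exact .inr <| .inr <| .inr <| .inr <| .inr <| .inr <| .inl ⟨h1, h2, R, k, hc ▸ h6, h3, absIrr_of_alg h4,
      le_sim h.unit fun g hg => ⟨1, h5 hg⟩, h7, h8, h9, hΦ _ (nm_iff.1 h10) (hB.not_norm Nat.prime_two h3.pGroup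
        (not_le_of_alg h4 hB.two) (Nm.self.mono (h5.trans Sp_eq.ge)))⟩
  · exact .inr <| .inr <| .inr <| .inr <| .inr <| .inr <| .inr <| .inl ⟨h1, k, t, e, P, _, hc ▸ h5.card, h2, h3, h4,
      h5.rf.skew h1, h5.struct, hΦ _ h5.le (hB.not_wreath h5.twok h5.twot)⟩
  · exact .inr <| .inr <| .inr <| .inr <| .inr <| .inr <| .inr <| .inr <| .inl ⟨h1, hqq h2⟩
  · exact .inr <| .inr <| .inr <| .inr <| .inr <| .inr <| .inr <| .inr <| .inr h2

theorem pow_cases' {k t n : ℕ} (ht : 3 ≤ t) (h : n = k ^ t) (h1 : 1 < n) (hn : n < 16) : n = 8 ∧ k = 2 ∧ t = 3 := by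
  have hk : 2 ≤ k := by
    by_contra h2
    obtain rfl | rfl : k = 0 ∨ k = 1 := by omega
    · rw [zero_pow (by omega)] at h; omega
    · rw [one_pow] at h; omega
  have h1 := Nat.pow_le_pow_right (n := k) (by omega) ht
  obtain rfl : k = 2 := by
    by_contra h2
    have := Nat.pow_le_pow_left (show 3 ≤ k by omega) 3
    omega
  have : t < 4 := by
    by_contra h2
    have := Nat.pow_le_pow_right (n := 2) (by omega) (not_lt.1 h2)
    omega
  obtain rfl : t = 3 := by omega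
  omega

end symp

end Cfsg.Agent.H4.As
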