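import Cfsg.Agent.H4.As17

/-! Aschbacher's theorem, part 18: the odd-dimensional orthogonal groups. -/

set_option autoImplicit false
set_option linter.unusedSectionVars false

namespace Cfsg.Agent.H4.As

open Matrix Module Cfsg.Geo
open scoped MatrixGroups Kronecker commutatorElement

variable {ι κ : Type} [Fintype ι] [DecidableEq ι] [Fintype κ] [DecidableEq κ] {F : Type*} [Field F]
  [Fintype F] {G H N R L : Subgroup (GL ι F)} {σ : F →+* F} {J : Matrix ι ι F} {ε : F} {r : ℕ}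

theorem Irr.trans_of (hI : Irr H) {t m : ℕ} {D : Fin t → Submodule F (ι → F)} (hD : IsMDecomposition m D)
    (h : H ≤ decompositionStabilizer D) (i j : Fin t) : ∃ g ∈ H, (D i).map (toLin' (g : Matrix ι ι F)) = D j := by
  by_contra! h1
  have h2 : Inv H (⨆ g : H, (D i).map (toLin' ((g : GL ι F) : Matrix ι ι F))) := fun g hg v hv => by
    refine (?_ : Submodule.map (toLin' (g : Matrix ι ι F)) _ ≤ _) (Submodule.mem_map_of_mem hv)
    rw [Submodule.map_iSup]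
    exact iSup_le fun k => le_iSup_of_le (⟨g, hg⟩ * k) (by simp [Submodule.map_comp])
  rcases hI _ h2 with h3 | h3
  · exact (hD.as_ne i).1 (by simpa using iSup_eq_bot.1 h3 1)
  · refine (hD.as_ne j).1 ((hD.indep j).eq_bot_of_le (le_top.trans (h3.ge.trans (iSup_le fun g => ?_))))
    obtain ⟨s, hs⟩ := h g.2
    exact hs i ▸ le_iSup₂_of_le (s i) (fun h => h1 g g.2 (h ▸ hs i)) le_rfl

theorem Irr.nd (hI : Irr H) {t m : ℕ} {D : Fin t → Submodule F (ι → F)}
    (hD : IsNondegenerateMDecomposition (fm σ J) m D) (h : H ≤ decompositionStabilizer D) : ND σ J H m :=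
  ⟨t, D, hD, h, hI.trans_of hD.decomp h⟩

theorem isom_of_map {Q : (ι → F) → F} {g : GL ι F} (hg : g ∈ isometryGroup F Q) {W U : Submodule F (ι → F)}
    (h : W.map (toLin' (g : Matrix ι ι F)) = U) : AreIsometricFor Q W U :=
  ⟨(glE g).ofSubmodules W U h, fun w => hg w w⟩

theorem exists_smul_of_one {W : Submodule F (ι → F)} (h : finrank F W = 1) {v w : ι → F} (hv : v ∈ W)
    (h0 : v ≠ 0) (hw : w ∈ W) : ∃ c : F, c • v = w :=
  let ⟨c, hc⟩ := (finrank_eq_one_iff_of_nonzero' (⟨v, hv⟩ : W) fun h => h0 (congrArg Subtype.val h)).1 h ⟨w, hw⟩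
  ⟨c, congrArg Subtype.val hc⟩

theorem exists_pair_of_two {W : Submodule F (ι → F)} (h2 : finrank F W = 2) {u v w : ι → F} (hu : u ∈ W)
    (hv : v ∈ W) (h : ∀ a b : F, a • u + b • v = 0 → a = 0 ∧ b = 0) (hw : w ∈ W) :
    ∃ a b : F, a • u + b • v = w :=
  Submodule.mem_span_pair.1 ((Submodule.eq_of_le_of_finrank_eq (Submodule.span_le.2 (Set.pair_subset hu hv)) (by
    rw [h2, ← Matrix.range_cons_cons_empty u v ![]]
    exact finrank_span_eq_card (LinearIndependent.pair_iff.2 h))).ge hw)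

theorem exists_prime_aut (h : ¬ (Fintype.card F).Prime) : ∃ φ : F ≃+* F, (orderOf φ).Prime := by
  obtain ⟨p, _, n, hp, hn⟩ := FiniteField.card' F
  obtain ⟨φ, h1, -⟩ := exists_frob hp hn one_pos (lt_of_le_of_ne n.pos fun h1 => h (by rwa [hn, ← h1, pow_one]))
  exact ⟨_, (exists_prime_pow h1).choose_spec⟩

theorem ND.one_sf [Nonempty ι] (hH : H ≤ isoG (RingHom.id F) J) (hD : ND (RingHom.id F) J H 1)
    (hq : ¬ (Fintype.card F).Prime) : ∃ φ P b, SF (RingHom.id F) J H φ P b := by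
  obtain ⟨t, D, hD, h1, h2⟩ := hD
  obtain ⟨φ, hφ⟩ := exists_prime_aut hq
  have i₀ : Fin t := ⟨0, by have := hD.decomp.two_le; omega⟩
  obtain ⟨v₀, hv, h0⟩ := (D i₀).exists_mem_ne_zero_of_ne_bot (hD.decomp.as_ne i₀).1
  choose g hg h3 using h2 i₀
  have h4 : ∀ i, (g i : Matrix ι ι F) *ᵥ v₀ ∈ D i := fun i => h3 i ▸ Submodule.mem_map_of_mem hv
  have hc : fm (RingHom.id F) J v₀ v₀ ≠ 0 := fun h => by
    obtain ⟨x, hx, h5⟩ := (hD.nondegenerate i₀ v₀ hv h0).1
    obtain ⟨c, rfl⟩ := exists_smul_of_one (hD.decomp.finrank_eq i₀) hv h0 hx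
    exact h5 (by rw [fm_smul_left, h, mul_zero])
  have : Nonempty (Fin t) := ⟨i₀⟩
  let b := basisOfLinearIndependentOfCardEqFinrank (hD.decomp.indep.linearIndependent D h4
    fun i => mulVec_ne_zero _ h0) (by simpa using hD.decomp.as_card)
  obtain ⟨e, P, hP⟩ := exists_eP b.equivFun.symm
  have h5 : ∀ i, (P : Matrix ι ι F) *ᵥ Pi.single i 1 = (g (e i) : Matrix ι ι F) *ᵥ v₀ := fun i => by
    rw [show Pi.single i 1 = (Pi.single (e i) 1 : _ → F) ∘ e by ext; simp [Pi.single_apply], hP]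
    simp [b, Pi.single_apply]
  have h6 : ∀ i j, fm (RingHom.id F) J ((g i : Matrix ι ι F) *ᵥ v₀) ((g j : Matrix ι ι F) *ᵥ v₀) =
      if i = j then fm (RingHom.id F) J v₀ v₀ else 0 := fun i j => by
    split_ifs with h
    exacts [by rw [h, iso_fm (hH (hg j))], hD.orthogonal i j h _ (h4 i) _ (h4 j)]
  have h7 : cJ (RingHom.id F) J P = fm (RingHom.id F) J v₀ v₀ • 1 := by
    ext i j; rw [← fm_single (σ := RingHom.id F) (J := cJ _ _ _), ← fm_cJ, h5, h5, h6]; simp [one_apply]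
  refine ⟨φ, P, _, hφ, fun k hk => ⟨1, ?_⟩, inv_ne_zero hc, by rw [h7, smul_smul, inv_mul_cancel₀ hc]; simp⟩
  ext i j
  obtain ⟨s, hs⟩ := h1 hk
  obtain ⟨a, ha⟩ := exists_smul_of_one (hD.decomp.finrank_eq _) (h4 (s (e j))) (mulVec_ne_zero _ h0)
    (hs _ ▸ Submodule.mem_map_of_mem (h4 (e j)))
  have h8 := iso_fm (hH hk) ((g (e j) : Matrix ι ι F) *ᵥ v₀) ((g (e j) : Matrix ι ι F) *ᵥ v₀)
  have h9 := fm_cJ (σ := RingHom.id F) (J := J) P (Pi.single i 1) (cj P⁻¹ k *ᵥ Pi.single j 1)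
  rw [← cj_mulVec, cj_cj_inv, h5, h5, h7, fm_smul] at h9
  rw [toLin'_apply] at ha
  rw [← ha, fm_smul_right, h6] at h9
  rw [← ha, fm_smul_left, fm_smul_right, h6, h6, if_pos rfl, if_pos rfl, ← mul_assoc, mul_eq_right₀ hc] at h8
  have h10 : cj P⁻¹ (k : Matrix ι ι F) i j = if e i = s (e j) then a else 0 := mul_left_cancel₀ hc (by
    simpa [fm, mul_comm] using h9.symm)
  rw [map_apply, one_smul, h10]
  split_ifs
  · rcases mul_self_eq_one_iff.1 h8 with h | h <;> simp [show a = _ from h]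
  · simp

section orth

variable {f : CForm (FType.orth F) (ι → F)}

theorem polar_eq : QuadraticMap.polar f.Q = fm (RingHom.id F) (gr f) := by
  funext x y; exact (f.orth_B_eq x y).symm.trans (fm_gr (f := f) x y).symm

theorem fm_self (v : ι → F) : fm (RingHom.id F) (gr f) v v = 2 * f.Q v := (fm_gr (f := f) v v).trans (f.orth_B_self v)

theorem isom_le : isometryGroup F f.Q ≤ isoG (RingHom.id F) (gr f) := fun _ h => mem_isoG_gr (mem_isometryGroup.1 h)

theorem mul_self_of_three (hF : Fintype.card F = 3) {a : F} (ha : a ≠ 0) : a * a = 1 := by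
  rw [← sq]; exact pow_eq_one_of_dvd ha (by rw [hF])

theorem ND.three (hH : H ≤ isoG (RingHom.id F) (gr f)) (hf : f.Nondeg) (hI : Irr H)
    (hD : ND (RingHom.id F) (gr f) H 3) (hF : Fintype.card F = 3) : ND (RingHom.id F) (gr f) H 1 := by
  obtain ⟨t, D, hD, h1, h3⟩ := hD
  have h2 := two_ne_zero_of_odd (F := F) (by rw [hF]; decide)
  have i₀ : Fin t := ⟨0, by have := hD.decomp.two_le; omega⟩
  have h4 := f.res_nondeg_iff.2 (nondeg_of_geo (fm_gr' (f := f) ▸ hD.nondegenerate i₀))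
  have h0 := h4.disc_ne
  obtain ⟨b, h5, h6, h7⟩ := (h4.osmul h0).orth_diag h2 (n := 2) (hD.decomp.finrank_eq i₀) one_ne_zero
    ⟨(f.res (D i₀)).disc ^ 2, by rw [CForm.disc_osmul, hD.decomp.finrank_eq]; ring⟩
  generalize (f.res (D i₀)).disc = c at h0 h5 h6 h7
  have h8 : ∀ i, ∃ v : Fin 3 → ι → F, (∀ j, v j ∈ D i) ∧ (∀ x ∈ D i, ∃ a : Fin 3 → F, ∑ j, a j • v j = x) ∧
      ∀ j k, c * fm (RingHom.id F) (gr f) (v j) (v k) = if j = k then 1 else 0 := fun i => by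
    obtain ⟨g, hg, h8⟩ := h3 i₀ i
    refine ⟨fun j => (g : Matrix ι ι F) *ᵥ (b j).1, fun j => h8 ▸ Submodule.mem_map_of_mem (b j).2, ?_, fun j k => ?_⟩
    · rw [← h8]
      rintro _ ⟨x, hx, rfl⟩
      refine ⟨b.repr ⟨x, hx⟩, ?_⟩
      have := congrArg (fun y : D i₀ => (g : Matrix ι ι F) *ᵥ y.1) (b.sum_repr ⟨x, hx⟩)
      simpa only [Submodule.coe_sum, Submodule.coe_smul, mulVec_sum, mulVec_smul, toLin'_apply] using this
    · rw [iso_fm (hH hg)]
      refine (congrArg _ (fm_gr (f := f) _ _)).trans ?_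
      split_ifs with h
      · subst h
        by_cases h : j = Fin.last _
        exacts [h ▸ h7, h6 j h]
      · exact h5 j k h
  have h9 : ∀ {v : Fin 3 → ι → F}, (∀ j k, c * fm (RingHom.id F) (gr f) (v j) (v k) = if j = k then 1 else 0) →
      ∀ a : Fin 3 → F, c * fm (RingHom.id F) (gr f) (∑ j, a j • v j) (∑ j, a j • v j) = 1 →
      ∃ j, ∃ s : F, s ≠ 0 ∧ ∑ j, a j • v j = s • v j := fun {v} hv a ha => by
    simp only [fm_sum_left, fm_sum_right, fm_smul_left, fm_smul_right, Finset.mul_sum, mul_left_comm c, hv,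
      RingHom.id_apply] at ha
    simp only [Fin.sum_univ_three] at ha ⊢
    have h3 : (3 : F) = 0 := by simpa [hF] using FiniteField.cast_card_eq_zero F
    have k := fun a => mul_self_of_three (a := a) hF
    rcases eq_or_ne (a 0) 0 with a0 | a0 <;> rcases eq_or_ne (a 1) 0 with a1 | a1 <;>
      rcases eq_or_ne (a 2) 0 with a2 | a2 <;> simp [*] at ha
    · exact ⟨2, _, a2, by simp [*]⟩
    · exact ⟨1, _, a1, by simp [*]⟩
    · exact ⟨0, _, a0, by simp [*]⟩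
    · exact absurd (by linear_combination ha) h2
  obtain ⟨t, E, h10, h11, -⟩ := Rf.refine (σ := RingHom.id F) (rf_gr hf) hH hD h1 (p := fun x => c * x = 1) (by simp)
    (fun i v hv w hw h10 h11 => by
      obtain ⟨u, -, h12, h13⟩ := h8 i
      obtain ⟨a, rfl⟩ := h12 v hv
      obtain ⟨b, rfl⟩ := h12 w hw
      obtain ⟨j, s, hs, h14⟩ := h9 h13 a h10
      obtain ⟨k, r, -, h15⟩ := h9 h13 b h11
      rw [h14, h15]
      rcases eq_or_ne j k with rfl | h16
      · exact .inr ⟨r / s, by rw [smul_smul, div_mul_cancel₀ _ hs]⟩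
      · refine .inl ?_
        rw [fm_smul_left, fm_smul_right, (mul_eq_zero.1 ((h13 j k).trans (if_neg h16))).resolve_left h0]; simp)
    fun i x hx => by
      obtain ⟨u, h11, h12, h13⟩ := h8 i
      obtain ⟨a, rfl⟩ := h12 x hx
      exact Submodule.sum_mem _ fun j _ => Submodule.smul_mem _ _
        (Submodule.subset_span ⟨h11 j, (h13 j j).trans (if_pos rfl)⟩)
  exact hI.nd h10 h11

theorem inv_of_plus_two (hf : f.Nondeg) (hH : H ≤ isometryGroup F f.Q) (hF : Fintype.card F = 3)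
    {W : Submodule F (ι → F)} (hW : IsNondegenerateOn (fm (RingHom.id F) (gr f)) W) (h2 : finrank F W = 2)
    (hp : IsPlusTypeOn f.Q W) (hi : Inv H W) : ∃ v, f.Q v ≠ 0 ∧ Inv H (F ∙ v) := by
  have h : Rf (RingHom.id F) (gr f) 1 := rf_gr hf
  obtain ⟨U, h3, h4, h5⟩ := hp
  obtain ⟨u, hu, h0⟩ := U.exists_mem_ne_zero_of_ne_bot (by rintro rfl; simp [h2] at h5)
  obtain ⟨v, hv, h6⟩ := h.exists_aniso (.inr (two_ne_zero_of_odd (by rw [hF]; decide))) hW
    (by rintro rfl; simp at h2)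
  have h7 : f.Q v ≠ 0 := fun h7 => h6 (by rw [fm_self, h7, mul_zero])
  have h8 : f.B v u ≠ 0 := fun h8 => h0 (h.zero_of_two hW h2 (h3 hu) hv h6 ((fm_gr (f := f) _ _).trans h8)
    (by rw [fm_self, h4 u hu, mul_zero]))
  refine ⟨v, h7, fun g hg x hx => ?_⟩
  obtain ⟨c, rfl⟩ := Submodule.mem_span_singleton.1 hx
  obtain ⟨a, b, h9⟩ := exists_pair_of_two h2 hv (h3 hu) (fun a b h9 => by
    have := congrArg (f.B · u) h9
    simp only [f.B_add_left, f.B_smul_left, f.B_self_of_Q (h4 u hu), map_zero, LinearMap.zero_apply] at this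
    obtain rfl : a = 0 := (mul_eq_zero.1 (by linear_combination this)).resolve_right h8
    exact ⟨rfl, by simpa [h0] using h9⟩) (hi g hg v hv)
  have h10 := hH hg v v
  simp only [Units.coeHom_apply, ← h9, f.orth_Q_add, f.orth_Q_smul, f.B_smul_left, f.B_smul_right, h4 u hu,
    FType.orth_σ] at h10
  have ha : a ≠ 0 := by rintro rfl; exact h7 (by linear_combination -h10)
  obtain rfl : b = 0 := (mul_eq_zero.1 ((mul_eq_zero.1 (by
    linear_combination h10 - f.Q v * mul_self_of_three hF ha)).resolve_left ha)).resolve_right h8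
  rw [mulVec_smul, ← h9, zero_smul, add_zero, smul_smul]
  exact Submodule.smul_mem _ _ (Submodule.mem_span_singleton_self v)

theorem omAll (hf : f.Nondeg) (hq : Odd (Fintype.card F)) (hn : Odd (Fintype.card ι)) (h7 : 7 ≤ Fintype.card ι)
    (hd : ∀ φ : F ≃+* F, φ (gr f).det = (gr f).det) (hH : H ≤ isometryGroup F f.Q)
    {Φ : Subgroup (GL ι F) → Prop} (hΦ : ∀ X, H ≤ X → ¬ omegaGL f.Q ≤ X → Φ X) :
    (∃ W, W ≠ ⊥ ∧ IsTotallySingularQuad f.Q W ∧ Φ (subspaceStabilizer W)) ∨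
    (∃ W : Submodule F (ι → F), W ≠ ⊥ ∧ Even (finrank F W) ∧ IsNondegenerateOn (QuadraticMap.polar f.Q) W ∧
      ¬ (Fintype.card F = 3 ∧ finrank F W = 2 ∧ IsPlusTypeOn f.Q W) ∧ Φ (subspaceStabilizer W)) ∨
    (∃ (t k : ℕ) (D : Fin t → Submodule F (ι → F)), t * k = Fintype.card ι ∧ 2 ≤ t ∧
      (k = 1 → (Fintype.card F).Prime) ∧ (k = 3 → 5 ≤ Fintype.card F) ∧
      IsOrthogonalMDecomposition f.Q k D ∧ Φ (decompositionStabilizer D)) ∨
    (∃ r K, r.Prime ∧ r ∣ Fintype.card ι ∧ Fintype.card ι ≠ r ∧ IsFieldSubalgebra r K ∧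
      IsSelfAdjointFor (QuadraticMap.polar f.Q) K ∧ Φ (subalgebraNormalizer K)) ∨
    (∃ (k l : ℕ) (e : ι ≃ Fin k × Fin l) (P : GL ι F) (f₁ : (Fin k → F) → (Fin k → F) → F)
      (f₂ : (Fin l → F) → (Fin l → F) → F), k * l = Fintype.card ι ∧ 3 ≤ k ∧ k < l ∧ IsSymmetricForm f₁ ∧
      IsSymmetricForm f₂ ∧ IsTensorFormStructure id (QuadraticMap.polar f.Q) f₁ f₂ e P ∧
      Φ (tensorProductSubgroup k l e P)) ∨
    (∃ (F₀ : Subfield F) (r : ℕ) (P : GL ι F), r.Prime ∧ Fintype.card F = Nat.card F₀ ^ r ∧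
      IsQuadFormRationalStructure f.Q F₀ P ∧ Φ (subfieldSubgroup F₀ P)) ∨
    (∃ (k t : ℕ) (e : ι ≃ (Fin t → Fin k)) (P : GL ι F) (f₁ : (Fin k → F) → (Fin k → F) → F),
      Fintype.card ι = k ^ t ∧ 3 ≤ k ∧ 2 ≤ t ∧ ¬ (Fintype.card F = 3 ∧ k = 3) ∧ IsSymmetricForm f₁ ∧
      IsTensorPowerFormStructure id (QuadraticMap.polar f.Q) f₁ e P ∧ Φ (tensorWreathSubgroup k t e P)) ∨
    InOrthogonalResidualClass H := by
  have hB := big_Om hf h7
  have := hB.nonempty
  have h2 := two_ne_zero_of_odd hq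
  have h : Rf (RingHom.id F) (gr f) 1 := rf_gr hf
  have hJ := hH.trans isom_le
  rw [polar_eq]
  rcases irr_or H with ⟨W, h3, h4, h5⟩ | hI
  · have key : ∀ U, U ≠ ⊥ → U ≠ ⊤ → U ⊓ f.perp U = ⊥ → Inv H U → ∃ W : Submodule F (ι → F), W ≠ ⊥ ∧
        Even (finrank F W) ∧ W ⊓ f.perp W = ⊥ ∧ Inv H W ∧ (finrank F U = 1 → finrank F W ≠ 2) := fun U a b c d => by
      have := hf.finrank_perp U
      rw [finrank_fintype_fun_eq_card] at this
      rcases Nat.even_or_odd (finrank F U) with e | e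
      · exact ⟨U, a, e, c, d, by omega⟩
      · exact ⟨_, fun h => b (by rw [← hf.perp_perp U, h, f.perp_bot]), by
          rw [Nat.odd_iff] at e hn; rw [Nat.even_iff]; omega, hf.perp_inf_perp_perp c, d.perp hJ, by omega⟩
    have key2 : ∀ W : Submodule F (ι → F), Even (finrank F W) → W ≠ ⊤ := by
      rintro _ h rfl; exact Nat.not_even_iff_odd.2 hn (by simpa using h)
    rcases red_cases hf hJ h3 h4 h5 with ⟨U, h5, h6, h7⟩ | ⟨U, h5, h6, h7, h8⟩ | ⟨m, D, h5, -⟩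
    · exact .inl ⟨U, h5, fun w hw => (mul_eq_zero.1 ((fm_self w).symm.trans (h6 w hw w hw))).resolve_left h2,
        hΦ _ h7.le (hB.not_stab h5 (by
          rintro rfl
          obtain ⟨v, hv⟩ := exists_ne_zero (ι := ι) (F := F)
          exact hv (h.eq_zero fun u => h6 u trivial v trivial)))⟩
    · refine .inr <| .inl ?_
      obtain ⟨W, a, b, c, d, -⟩ := key U h5 (by rintro rfl; simp at h7; omega)
        (nondeg_of_geo (fm_gr' (f := f) ▸ h6)) h8
      have e : IsNondegenerateOn (fm (RingHom.id F) (gr f)) W := fm_gr' (f := f) ▸ geo_of_nondeg c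
      by_cases h9 : Fintype.card F = 3 ∧ finrank F W = 2 ∧ IsPlusTypeOn f.Q W
      swap
      · exact ⟨W, a, b, e, h9, hΦ _ d.le (hB.not_stab a (key2 W b))⟩
      obtain ⟨v, hv, h10⟩ := inv_of_plus_two hf hH h9.1 e h9.2.1 h9.2.2 d
      have h0 : v ≠ 0 := by rintro rfl; exact hv f.Q_zero
      have h11 := finrank_span_singleton (K := F) h0
      obtain ⟨W, a, b, c, d, e⟩ := key _ (by simpa) (fun h => by rw [h] at h11; simp at h11; omega)
        ((Submodule.eq_bot_iff _).2 (by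
          rintro _ ⟨hx, h12⟩
          obtain ⟨c, rfl⟩ := Submodule.mem_span_singleton.1 hx
          rw [SetLike.mem_coe, f.mem_perp_singleton, f.B_smul_left, f.orth_B_self] at h12
          simp [(mul_eq_zero.1 h12).resolve_right (mul_ne_zero h2 hv)])) h10
      exact ⟨W, a, b, fm_gr' (f := f) ▸ geo_of_nondeg c, fun h => e h11 h.2.1, hΦ _ d.le (hB.not_stab a (key2 W b))⟩
    · exact absurd (h5.decomp.as_card ▸ even_two_mul m) (Nat.not_even_iff_odd.2 hn)
  refine .inr <| .inr ?_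
  have hsf : (∃ φ P b, SF (RingHom.id F) (gr f) H φ P b) → ∃ (F₀ : Subfield F) (r : ℕ) (P : GL ι F), r.Prime ∧
      Fintype.card F = Nat.card F₀ ^ r ∧ IsQuadFormRationalStructure f.Q F₀ P ∧ Φ (subfieldSubgroup F₀ P) :=
    fun ⟨φ, _, _, h3⟩ => let ⟨P, h3, h4, _, h5⟩ := h3.odd h.unit (hd φ) hn
      ⟨_, _, P, h3, card_fx φ, fun u hu => by
        have := mul_mem (inv_mem (natCast_mem (fx φ) 2)) (rat_of_map h5 u u hu hu)
        rwa [fm_self, one_mul, Nat.cast_ofNat, inv_mul_cancel_left₀ h2] at this,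
        hΦ _ h4.le (hB.not_subfield h3.one_lt (card_fx φ))⟩
  rcases oCl h h2 hJ hI hn (by omega) with ⟨k, h3⟩ | ⟨r, K, h3, h4, h5, h6, h8⟩ | ⟨k, l, e, P, J₁, J₂, h3, h4, h5⟩ |
    h3 | ⟨t, k, e, P, J₀, h3, h4, h5⟩ | h3
  · obtain ⟨k, h3, h4⟩ : ∃ k, ND (RingHom.id F) (gr f) H k ∧ (k = 3 → 5 ≤ Fintype.card F) := by
      by_cases h4 : k = 3 ∧ Fintype.card F = 3
      · obtain ⟨rfl, h4⟩ := h4
        exact ⟨1, h3.three hJ hf hI h4, by omega⟩
      · exact ⟨k, h3, by have := Fintype.one_lt_card (α := F); obtain ⟨s, hs⟩ := hq; omega⟩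
    by_cases h5 : k = 1 → (Fintype.card F).Prime
    · obtain ⟨t, D, h3, h6, h8⟩ := h3
      exact .inl ⟨t, k, D, h3.decomp.as_card, h3.decomp.two_le, h5, h4, ⟨polar_eq (f := f) ▸ h3, fun i j =>
        let ⟨_, a, b⟩ := h8 i j; isom_of_map (hH a) b⟩, hΦ _ h6 (hB.not_decomp h3.decomp)⟩
    · obtain ⟨rfl, h6⟩ := Classical.not_imp.1 h5
      exact .inr <| .inr <| .inr <| .inl (hsf (h3.one_sf hJ h6))
  · exact .inr <| .inl ⟨r, K, h3, h5.finrank_eq ▸ finrank_dvd h5.comm h5.inv, h4, h5, h.sa_iff.2 h8,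
      hΦ _ h6.le (hB.not_field h3.one_lt h5)⟩
  · exact .inr <| .inr <| .inl ⟨k, l, e, P, _, _, h5.card.symm, h3, h4, h5.rf1.sym, h5.rf2.sym, h5.struct,
      hΦ _ h5.le_tensor (hB.not_tensor h5.twok h5.twol)⟩
  · exact .inr <| .inr <| .inr <| .inl (hsf h3)
  · exact .inr <| .inr <| .inr <| .inr <| .inl ⟨k, t, e, P, _, h5.card, h3, h5.twot, h4, h5.rf.sym, h5.struct,
      hΦ _ h5.le (hB.not_wreath h5.twok h5.twot)⟩
  · exact .inr <| .inr <| .inr <| .inr <| .inr h3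

theorem det_oddF (m : ℕ) (φ : F ≃+* F) : φ (gr (oddF F m)).det = (gr (oddF F m)).det := by
  rw [RingEquiv.map_det]
  congr 1
  ext i j
  simp only [RingEquiv.mapMatrix_apply, map_apply, gr, gramMatrix, oddF_B, polar_odd, map_add, map_mul, map_sum,
    map_ofNat, Pi.single_apply, apply_ite φ, map_one, map_zero]

theorem omega_le {Q : (ι → F) → F} : omegaGL Q ≤ isometryGroup F Q := Subgroup.map_subtype_le _

end orth

end Cfsg.Agent.H4.As
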