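import Cfsg.Agent.H4.As18
import Cfsg.Agent.H4.TScnt

/-! Aschbacher's theorem, part 19: types of even-dimensional quadratic spaces. -/

set_option autoImplicit false
set_option linter.unusedSectionVars false

namespace Cfsg.Agent.H4.As

open Matrix Module Cfsg.Geo CForm
open scoped MatrixGroups Kronecker commutatorElement

variable {ι : Type} [Fintype ι] [DecidableEq ι] {F : Type*} [Field F]
  [Fintype F] {H : Subgroup (GL ι F)} {f : CForm (FType.orth F) (ι → F)} {W W' : Submodule F (ι → F)}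

theorem finrank_sup_of (h : W ⊓ W' = ⊥) : finrank F (W ⊔ W' :) = finrank F W + finrank F W' := by
  rw [← Submodule.finrank_sup_add_finrank_inf_eq, h, finrank_bot, add_zero]

theorem inf_bot_of (hW : W ⊓ f.perp W = ⊥) (h : W' ≤ f.perp W) : W ⊓ W' = ⊥ :=
  eq_bot_iff.2 ((inf_le_inf_left W h).trans hW.le)

theorem pl_sup (hW : W ⊓ f.perp W = ⊥) (h : W' ≤ f.perp W) (h1 : IsPlusTypeOn f.Q W)
    (h2 : IsPlusTypeOn f.Q W') : IsPlusTypeOn f.Q (W ⊔ W') := by
  obtain ⟨U, a1, a2, a3⟩ := h1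
  obtain ⟨U', b1, b2, b3⟩ := h2
  have := inf_bot_of hW h
  refine ⟨U ⊔ U', sup_le_sup a1 b1, fun x hx => ?_, ?_⟩
  · obtain ⟨u, hu, v, hv, rfl⟩ := Submodule.mem_sup.1 hx
    rw [f.Q_add_of_perp (f.B_zero_symm (h (b1 hv) u (a1 hu))), a2 u hu, b2 v hv, add_zero]
  · rw [finrank_sup_of this, finrank_sup_of (eq_bot_iff.2 ((inf_le_inf a1 b1).trans this.le))]; omega

theorem pl_of_anti (hW : W ⊓ f.perp W = ⊥) (h : W' ≤ f.perp W) (e : W ≃ₗ[F] W')
    (he : ∀ x, f.Q (e x) = -f.Q x) : IsPlusTypeOn f.Q (W ⊔ W') := by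
  have h0 := inf_bot_of hW h
  let φ : W →ₗ[F] (ι → F) := W.subtype + W'.subtype ∘ₗ (e : W →ₗ[F] W')
  refine ⟨LinearMap.range φ, ?_, ?_, ?_⟩
  · rintro _ ⟨x, rfl⟩; exact Submodule.add_mem_sup x.2 (e x).2
  · rintro _ ⟨x, rfl⟩
    exact (f.Q_add_of_perp (f.B_zero_symm (h (e x).2 x x.2))).trans (by
      rw [show f.Q _ = _ from he x]; exact add_neg_cancel _)
  · rw [finrank_sup_of h0, ← e.finrank_eq, LinearMap.finrank_range_of_inj, two_mul]
    refine (injective_iff_map_eq_zero φ).2 fun x hx => Subtype.ext (h0.le ⟨x.2, ?_⟩)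
    rw [show x.1 = -(e x).1 from eq_neg_of_add_eq_zero_left hx]
    exact neg_mem (e x).2

theorem pl_pair (hW : W ⊓ f.perp W = ⊥) (h : W' ≤ f.perp W) (he : Even (finrank F W))
    (hi : Isom (f.res W) (f.res W')) : IsPlusTypeOn f.Q (W ⊔ W') := by
  have h1 := f.res_nondeg_iff.2 hW
  obtain ⟨e, he⟩ := h1.orth_isom_even ((hi.nondeg h1).osmul (c := -1) (by simp)) he hi.finrank_eq
    (by rw [osmul_wi (by simp), hi.wi_eq])
  exact pl_of_anti hW h e fun x => by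
    have := he.Q x
    simp only [osmul_Q, comap_Q, Submodule.subtype_apply] at this
    linear_combination -this

theorem pl_iff_wi (hW : W ⊓ f.perp W = ⊥) {m : ℕ} (hm : finrank F W = 2 * m) :
    IsPlusTypeOn f.Q W ↔ (f.res W).wi = m := by
  have := (f.res_nondeg_iff.2 hW).two_mul_wi_le
  refine ⟨fun ⟨U, a, b, c⟩ => le_antisymm (by omega) (le_wi_res_iff.2 ⟨U, a, orth_TS_iff.2 b, by omega⟩), fun h => ?_⟩
  obtain ⟨U, a, b, c⟩ := le_wi_res_iff.1 h.ge
  exact ⟨U, a, orth_TS_iff.1 b, by omega⟩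

theorem pl_top (hf : f.Nondeg) {m : ℕ} (hm : Fintype.card ι = 2 * m) : IsPlusTypeOn f.Q ⊤ ↔ f.wi = m := by
  rw [pl_iff_wi (by rw [perp_top hf, inf_bot_eq]) (by simpa using hm), isom_res_top.wi_eq]

theorem pl_perp (hf : f.Nondeg) (hW : W ⊓ f.perp W = ⊥) (h1 : IsPlusTypeOn f.Q W)
    (h2 : IsPlusTypeOn f.Q ⊤) : IsPlusTypeOn f.Q (f.perp W) := by
  obtain ⟨U, a1, a2, a3⟩ := h1
  obtain ⟨U', b1, b2, b3⟩ := (le_wi_res_iff (f := f) (U := f.perp W)).1 le_rfl
  have h3 := finrank_sup_of (eq_bot_iff.2 ((inf_le_inf a1 b1).trans hW.le))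
  have h4 := hf.finrank_perp W
  obtain ⟨m, hm⟩ : ∃ m, Fintype.card ι = 2 * m := let ⟨U, _, _, h⟩ := h2; ⟨_, by simpa using h.symm⟩
  have h5 := (pl_top hf hm).1 h2
  rw [hf.wi_eq_of_maximal (X := U ⊔ U') (orth_TS_iff.2 fun x hx => ?_) fun x hx h6 => ?_] at h5
  · exact ⟨U', b1, orth_TS_iff.1 b2, by simp at h4; omega⟩
  · obtain ⟨u, hu, v, hv, rfl⟩ := Submodule.mem_sup.1 hx
    rw [f.Q_add_of_perp (f.B_zero_symm (b1 hv u (a1 hu))), a2 u hu, orth_TS_iff.1 b2 v hv, add_zero]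
  obtain ⟨w, hw, v, hv, rfl⟩ := Submodule.mem_sup.1 ((hf.isCompl_perp hW).sup_eq_top.ge (Submodule.mem_top (x := x)))
  have h7 : w ∈ U := by
    have := TS.perp_eq (f.res_nondeg_iff.2 hW) (U := U.comap W.subtype) (TS_res_iff.2 (by
      rw [Submodule.map_comap_eq_self (by simpa)]; exact orth_TS_iff.2 a2))
      (by rw [(Submodule.comapSubtypeEquivOfLe a1).finrank_eq, a3])
    refine this.le (x := ⟨w, hw⟩) fun u hu => ?_
    have := hx u (Submodule.mem_sup_left hu)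
    rwa [B_add_left, hv u u.2, add_zero] at this
  rw [f.Q_add_of_perp (f.B_zero_symm (hv w hw)), a2 w h7, zero_add] at h6
  refine Submodule.add_mem_sup h7 (by_contra fun h8 => ?_)
  have := (le_wi_res_iff (f := f) (U := f.perp W)).2 ⟨U' ⊔ F ∙ v, sup_le b1 (by simpa), orth_TS_iff.2 fun y hy => ?_, rfl⟩
  · rw [finrank_sup_singleton h8] at this; omega
  obtain ⟨u, hu, _, hz, rfl⟩ := Submodule.mem_sup.1 hy
  obtain ⟨c, rfl⟩ := Submodule.mem_span_singleton.1 hz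
  have := hx u (Submodule.mem_sup_right hu)
  rw [B_add_left, f.B_zero_symm (b1 hu w hw), zero_add] at this
  rw [Q_add_smul _ h6, orth_TS_iff.1 b2 u hu, f.B_zero_symm this]; simp

theorem pl_bot : IsPlusTypeOn f.Q ⊥ := ⟨⊥, le_rfl, by simp [IsTotallySingularQuad], by simp⟩

section dec

variable {t k : ℕ} {D : Fin t → Submodule F (ι → F)}
  (hD : IsNondegenerateMDecomposition (fm (RingHom.id F) (gr f)) k D)
include hD

theorem dec_nd (i : Fin t) : D i ⊓ f.perp (D i) = ⊥ := nondeg_of_geo (fm_gr' (f := f) ▸ hD.nondegenerate i)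

theorem dec_perp {i j : Fin t} (h : i ≠ j) : D i ≤ f.perp (D j) := fun u hu v hv =>
  (fm_gr u v).symm.trans (hD.orthogonal i j h u hu v hv)

theorem dec_sup_perp {i : Fin t} {S : Finset (Fin t)} (h : i ∉ S) : S.sup D ≤ f.perp (D i) :=
  Finset.sup_le fun _ hj => dec_perp hD (ne_of_mem_of_not_mem hj h)

theorem dec_top : Finset.univ.sup D = ⊤ := by rw [Finset.sup_univ_eq_iSup, hD.decomp.iSup_eq_top]

theorem dec_perp_eq (hf : f.Nondeg) (i : Fin t) : f.perp (D i) = (Finset.univ.erase i).sup D := by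
  have h1 := dec_sup_perp hD (Finset.notMem_erase i Finset.univ)
  refine (Submodule.eq_of_le_of_finrank_eq h1 ?_).symm
  have h2 := finrank_sup_of (inf_bot_of (dec_nd hD i) h1)
  rw [← Finset.sup_insert, Finset.insert_erase (Finset.mem_univ i), dec_top hD, finrank_top, ← hf.finrank_perp (D i)] at h2
  omega

theorem pl_sup_of (S : Finset (Fin t)) (h : ∀ i, IsPlusTypeOn f.Q (D i)) : IsPlusTypeOn f.Q (S.sup D) := by
  induction S using Finset.induction_on with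
  | empty => exact pl_bot
  | insert i S hi ih => rw [Finset.sup_insert]; exact pl_sup (dec_nd hD i) (dec_sup_perp hD hi) (h i) ih

theorem pl_even (hf : f.Nondeg) (hk : Even k) (hi : ∀ i j, Isom (f.res (D i)) (f.res (D j))) (n : ℕ) :
    ∀ S : Finset (Fin t), S.card = 2 * n → IsPlusTypeOn f.Q (S.sup D) := by
  induction n with
  | zero => intro S h; rw [Finset.card_eq_zero.1 h]; exact pl_bot
  | succ n ih =>
    intro S h
    obtain ⟨i, S, hi', rfl, h'⟩ := Finset.card_eq_succ.1 (h.trans (show _ = 2 * n + 1 + 1 by ring))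
    obtain ⟨j, S, hj, rfl, h2⟩ := Finset.card_eq_succ.1 h'
    rw [Finset.mem_insert, not_or] at hi'
    rw [Finset.sup_insert, Finset.sup_insert, ← sup_assoc]
    refine pl_sup (eq_bot_iff.2 ?_) (by rw [perp_sup]; exact le_inf (dec_sup_perp hD hi'.2) (dec_sup_perp hD hj))
      (pl_pair (dec_nd hD i) (dec_perp hD (Ne.symm hi'.1)) (by rwa [hD.decomp.finrank_eq]) (hi i j)) (ih S h2)
    rintro x ⟨h1, h2⟩
    obtain ⟨u, hu, v, hv, rfl⟩ := Submodule.mem_sup.1 h1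
    rw [perp_sup] at h2
    obtain rfl : u = 0 := (dec_nd hD i).le ⟨hu, (Submodule.add_mem_iff_left _ (dec_perp hD (Ne.symm hi'.1) hv)).1 h2.1⟩
    rw [zero_add] at h2 ⊢
    exact (dec_nd hD j).le ⟨hv, h2.2⟩

theorem pl_congr {i j : Fin t} (hk : Even k) (hi : Isom (f.res (D i)) (f.res (D j))) :
    IsPlusTypeOn f.Q (D i) ↔ IsPlusTypeOn f.Q (D j) := by
  obtain ⟨m, hm⟩ := even_iff_exists_two_mul.1 hk
  rw [pl_iff_wi (dec_nd hD i) ((hD.decomp.finrank_eq i).trans hm),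
    pl_iff_wi (dec_nd hD j) ((hD.decomp.finrank_eq j).trans hm), hi.wi_eq]

theorem pl_dec (hf : f.Nondeg) (hk : Even k) (hi : ∀ i j, Isom (f.res (D i)) (f.res (D j))) (i : Fin t) :
    IsPlusTypeOn f.Q ⊤ ↔ IsPlusTypeOn f.Q (D i) ∨ Even t := by
  refine ⟨fun h => or_iff_not_imp_right.2 fun ht => ?_, ?_⟩
  · obtain ⟨n, hn⟩ := Nat.not_even_iff_odd.1 ht
    have := pl_even hD hf hk hi n (Finset.univ.erase i) (by simp; omega)
    rw [← dec_perp_eq hD hf] at this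
    simpa only [hf.perp_perp] using pl_perp hf (hf.perp_inf_perp_perp (dec_nd hD i)) this h
  · rintro (h | ⟨n, hn⟩) <;> rw [← dec_top hD]
    · exact pl_sup_of hD _ fun j => (pl_congr hD hk (hi i j)).1 h
    · exact pl_even hD hf hk hi n _ (by simp; omega)

theorem disc_dec : ∃ s : F, s ≠ 0 ∧ ∏ i, (f.res (D i)).disc = s ^ 2 * f.disc := by
  obtain ⟨T, h1, -⟩ := exists_adapted hD.decomp
  let b := (Pi.basisFun F _).map T
  have hb : ∀ x j, b (x, j) ∈ D j := fun x j => by simpa [b] using h1 x j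
  obtain ⟨s, hs, h2⟩ := f.det_gram_eq b
  have h3 : ∀ j, ∃ s : F, s ≠ 0 ∧ (of fun x y => f.B (b (x, j)) (b (y, j))).det = s ^ 2 * (f.res (D j)).disc := fun j => by
    have : Nonempty (Fin k) := ⟨⟨0, hD.decomp.pos⟩⟩
    have := (f.res (D j)).det_gram_eq (basisOfLinearIndependentOfCardEqFinrank (b := fun x => ⟨_, hb x j⟩)
      (.of_comp (D j).subtype (b.linearIndependent.comp (fun x => (x, j)) fun _ _ h => congrArg Prod.fst h))
      (by simp [hD.decomp.finrank_eq]))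
    rwa [coe_basisOfLinearIndependentOfCardEqFinrank] at this
  choose u hu h3 using h3
  have h4 : (of fun i j => f.B (b i) (b j)) = blockDiagonal fun j => of fun x y => f.B (b (x, j)) (b (y, j)) := by
    ext ⟨x, i⟩ ⟨y, j⟩
    by_cases h : i = j
    · subst h; simp
    · simp [blockDiagonal_apply_ne _ _ _ h, dec_perp hD h (hb x i) _ (hb y j)]
  rw [h4, det_blockDiagonal, Finset.prod_congr rfl fun j _ => h3 j, Finset.prod_mul_distrib, Finset.prod_pow] at h2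
  have h5 := Finset.prod_ne_zero_iff.2 fun j (_ : j ∈ Finset.univ) => hu j
  exact ⟨s / ∏ j, u j, div_ne_zero hs h5, by field_simp; linear_combination h2⟩

theorem pl_disc (hf : f.Nondeg) (h2 : (2 : F) ≠ 0) {m : ℕ} (hm : Fintype.card ι = 2 * m) :
    IsPlusTypeOn f.Q ⊤ ↔ (Fintype.card F ^ m % 4 = 1 ↔ IsSquare (∏ i, (f.res (D i)).disc)) := by
  obtain ⟨s, hs, h⟩ := disc_dec hD
  rw [pl_top hf hm, hf.plus_iff_disc h2 (by simpa using hm), h, isSquare_sq_mul hs,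
    isSquare_mul_iff_iff (by simp) hf.disc_ne, isSquare_neg_one_pow_iff (odd_of_two_ne_zero h2)]

theorem pl_odd (hf : f.Nondeg) (h2 : (2 : F) ≠ 0) {m : ℕ} (hm : Fintype.card ι = 2 * m) (ht : Even t)
    (hi : ∀ i j, Isom (f.res (D i)) (f.res (D j))) : IsPlusTypeOn f.Q ⊤ ↔ Fintype.card F ^ m % 4 = 1 := by
  have i : Fin t := ⟨0, by have := hD.decomp.two_le; omega⟩
  choose s _ hs using fun j => (hi i j).disc_eq
  rw [pl_disc hD hf h2 hm, Finset.prod_congr rfl fun j _ => hs j, Finset.prod_mul_distrib,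
    Finset.prod_pow, Finset.prod_const, Finset.card_univ, Fintype.card_fin]
  simp [(IsSquare.sq (∏ j, s j)).mul (ht.isSquare_pow (f.res (D i)).disc)]

end dec

theorem pl_two {k : ℕ} {D : Fin 2 → Submodule F (ι → F)}
    (hD : IsNondegenerateMDecomposition (fm (RingHom.id F) (gr f)) k D) (hf : f.Nondeg) (h2 : (2 : F) ≠ 0) :
    IsPlusTypeOn f.Q ⊤ ↔ (Fintype.card F ^ k % 4 = 1 ↔ Isom (f.res (D 0)) (f.res (D 1))) := by
  rw [pl_disc hD hf h2 hD.decomp.as_card.symm, Fin.prod_univ_two, (f.res_nondeg_iff.2 (dec_nd hD 0)).orth_isom_iff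
    (f.res_nondeg_iff.2 (dec_nd hD 1)) h2 (by rw [hD.decomp.finrank_eq, hD.decomp.finrank_eq])]

theorem isom_iff : AreIsometricFor f.Q W W' ↔ Isom (f.res W) (f.res W') :=
  ⟨fun ⟨e, he⟩ => ⟨e, fun x y => by
    simp only [orth_B_eq, comap_Q, LinearEquiv.coe_coe, Submodule.subtype_apply, ← map_add, he], he⟩,
    fun ⟨e, he⟩ => ⟨e, he.2⟩⟩

end Cfsg.Agent.H4.As
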