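import Cfsg.Agent.H4.As19

/-! Aschbacher's theorem, part 20: small quadratic spaces. -/

set_option autoImplicit false
set_option linter.unusedSectionVars false

namespace Cfsg.Agent.H4.As

open Matrix Module Cfsg.Geo CForm
open scoped MatrixGroups Kronecker commutatorElement

variable {ι : Type} [Fintype ι] [DecidableEq ι] {F : Type*} [Field F]
  [Fintype F] {H : Subgroup (GL ι F)} {f : CForm (FType.orth F) (ι → F)} {W U : Submodule F (ι → F)}

theorem isoQ {g : GL ι F} (hg : g ∈ isometryGroup F f.Q) (v : ι → F) : f.Q (g.1 *ᵥ v) = f.Q v := hg v v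

theorem isoB {g : GL ι F} (hg : g ∈ isometryGroup F f.Q) (u v : ι → F) : f.B (g.1 *ᵥ u) (g.1 *ᵥ v) = f.B u v :=
  (mem_isometryGroup.1 hg).1 u v

theorem fmB (u v : ι → F) : fm (RingHom.id F) (gr f) u v = f.B u v := fm_gr (f := f) u v

theorem inv_span {X : Set (ι → F)} (h : ∀ g ∈ H, ∀ v ∈ X, g.1 *ᵥ v ∈ Submodule.span F X) :
    Inv H (Submodule.span F X) := fun g hg _ hv =>
  (Submodule.span_le (p := (Submodule.span F X).comap (toLin' g.1))).2 (h g hg) hv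

theorem ts_cases (hH : H ≤ isometryGroup F f.Q) (h0 : U ≠ ⊥) (h1 : ∀ u ∈ U, ∀ v ∈ U, f.B u v = 0) (hi : Inv H U) :
    (∃ W, W ≠ ⊥ ∧ IsTotallySingularQuad f.Q W ∧ Inv H W) ∨ ((2 : F) = 0 ∧ ∃ v, f.Q v ≠ 0 ∧ Inv H (F ∙ v)) := by
  let W : Submodule F (ι → F) :=
    { carrier := {u | u ∈ U ∧ f.Q u = 0}
      add_mem' := fun {a b} ha hb => ⟨add_mem ha.1 hb.1, by rw [f.Q_add_of_perp (h1 a ha.1 b hb.1), ha.2, hb.2, add_zero]⟩
      zero_mem' := ⟨zero_mem _, f.Q_zero⟩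
      smul_mem' := fun c a ha => ⟨U.smul_mem c ha.1, f.Q_smul_of_Q ha.2 c⟩ }
  by_cases h : W = ⊥
  swap
  · exact .inl ⟨W, h, fun w hw => hw.2, fun g hg v hv => ⟨hi g hg v hv.1, (isoQ (hH hg) v).trans hv.2⟩⟩
  obtain ⟨v, hv, h2⟩ := U.exists_mem_ne_zero_of_ne_bot h0
  have h3 : f.Q v ≠ 0 := fun h3 => h2 (h.le ⟨hv, h3⟩)
  have h4 : (2 : F) = 0 := (mul_eq_zero.1 ((f.orth_B_self v).symm.trans (h1 v hv v hv))).resolve_right h3
  refine .inr ⟨h4, v, h3, inv_span (by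
    rintro g hg _ rfl
    have h5 := hi g hg _ hv
    rw [← sub_eq_zero.1 (h.le (x := g.1 *ᵥ _ - _) ⟨sub_mem h5 hv, by
      rw [f.Q_sub, h1 _ h5 _ hv, isoQ (hH hg), ← two_mul, h4]; simp⟩) |>.symm]
    exact Submodule.mem_span_singleton_self _)⟩

theorem even_of_omega (hf : f.Nondeg) {g : GL ι F} (hg : g ∈ omegaGL f.Q) (hW : IsTotallySingularQuad f.Q W)
    (h : Fintype.card ι = 2 * finrank F W) : Even (finrank F W + finrank F (W ⊓ W.map (toLin' g.1) :)) :=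
  glE_coe g ▸ hf.even_of_mem_commutator (orth_TS_iff.2 hW) (by simpa) (mem_omegaGL.1 hg)

theorem ts_max (hf : f.Nondeg) (hH : H ≤ omegaGL f.Q) (hp : IsPlusTypeOn f.Q ⊤) (hU : IsTotallySingularQuad f.Q U)
    (h : Fintype.card ι = 2 * (finrank F U + 1)) (hi : Inv H U) :
    ∃ W, W ≠ ⊥ ∧ IsTotallySingularQuad f.Q W ∧ finrank F W = finrank F U + 1 ∧ Inv H W := by
  obtain ⟨Z, h1, -, -, h2, -, h3⟩ := hf.exists_compl_TS (orth_TS_iff.2 hU)
  rw [(pl_top hf h).1 hp] at h3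
  obtain ⟨⟨z, hz⟩, h4, h5⟩ := not_aniso.1 (mt wi_eq_zero_iff.2 (show (f.res Z).wi ≠ 0 by omega))
  replace h5 : f.Q z = 0 := h5
  have h6 := finrank_sup_singleton (W := U) (u := z) fun h => h4 (Subtype.ext (h2.le ⟨hz, h⟩))
  have h7 : IsTotallySingularQuad f.Q (U ⊔ F ∙ z) := orth_TS_iff.1 ((orth_TS_iff.2 hU).sup_singleton h5 (h1 hz))
  have h0 : U ≤ U ⊔ F ∙ z := le_sup_left
  generalize U ⊔ F ∙ z = W at h0 h6 h7
  refine ⟨W, fun h => by rw [h] at h6; simp at h6, h7, h6, fun g hg v hv => ?_⟩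
  obtain ⟨s, hs⟩ := even_of_omega hf (hH hg) h7 (by omega)
  have h8 := Submodule.finrank_mono (show U ≤ W ⊓ W.map (toLin' g.1) from
    le_inf h0 ((hi.map_eq hg).ge.trans (Submodule.map_mono h0)))
  have h9 := Submodule.finrank_mono (inf_le_right (a := W) (b := W.map (toLin' g.1)))
  have : W ⊓ W.map (toLin' g.1) = W.map (toLin' g.1) := Submodule.eq_of_le_of_finrank_eq inf_le_right (by
    rw [finrank_map_gl] at h9 ⊢; omega)
  exact (this.ge ⟨v, hv, rfl⟩).1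

theorem hyp_basis (hW : W ⊓ f.perp W = ⊥) {m : ℕ} (hm : finrank F W = 2 * m) (hp : IsPlusTypeOn f.Q W) :
    ∃ u w : Fin m → ι → F, (∀ i, u i ∈ W) ∧ (∀ i, w i ∈ W) ∧
      (∀ x ∈ W, ∃ a b : Fin m → F, x = ∑ i, a i • u i + ∑ i, b i • w i) ∧ (∀ i, f.Q (u i) = 0) ∧ (∀ i, f.Q (w i) = 0) ∧
      (∀ i j, f.B (u i) (w j) = if i = j then 1 else 0) ∧ (∀ i j, f.B (u i) (u j) = 0) ∧ ∀ i j, f.B (w i) (w j) = 0 := by
  obtain ⟨b, h1, h2, h3, h4⟩ := (f.res_nondeg_iff.2 hW).exists_hyp_basis hm ((pl_iff_wi hW hm).1 hp)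
  refine ⟨fun i => b (.inl i), fun i => b (.inr i), fun i => (b _).2, fun i => (b _).2, fun x hx =>
    ⟨fun i => b.repr ⟨x, hx⟩ (.inl i), fun i => b.repr ⟨x, hx⟩ (.inr i), ?_⟩, fun i => h1 _, fun i => h1 _, h2, h3, h4⟩
  have := congrArg Subtype.val (b.sum_repr ⟨x, hx⟩).symm
  simpa only [Fintype.sum_sum_type, Submodule.coe_add, Submodule.coe_sum, Submodule.coe_smul] using this

/-- a hyperbolic plane -/
structure HP (f : CForm (FType.orth F) (ι → F)) (W : Submodule F (ι → F)) (u w : ι → F) : Prop where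
  l : u ∈ W
  r : w ∈ W
  ex : ∀ x ∈ W, ∃ a b : F, x = a • u + b • w
  Q : ∀ a b : F, f.Q (a • u + b • w) = a * b
  B : ∀ a b c d : F, f.B (a • u + b • w) (c • u + d • w) = a * d + b * c

theorem exists_hp (hW : W ⊓ f.perp W = ⊥) (hm : finrank F W = 2) (hp : IsPlusTypeOn f.Q W) : ∃ u w, HP f W u w := by
  obtain ⟨u, w, h1, h2, h3, h4, h5, h6, h7, h8⟩ := hyp_basis hW (m := 1) hm hp
  refine ⟨u 0, w 0, h1 0, h2 0, fun x hx => let ⟨a, b, h⟩ := h3 x hx; ⟨a 0, b 0, by simpa using h⟩, fun a b => ?_,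
    fun a b c d => ?_⟩
  · simp [orth_Q_add, orth_Q_smul, h4, h5, h6, mul_comm]
  · simp [h6, h7, h8, f.orth_symm (u 0) (w 0)]

theorem HP.mem {u w : ι → F} (h : HP f W u w) (a b : F) : a • u + b • w ∈ W :=
  add_mem (W.smul_mem a h.l) (W.smul_mem b h.r)

theorem HP.one {u w : ι → F} (h : HP f W u w) (hF : Fintype.card F ≤ 3) {x : ι → F} (hx : x ∈ W) (h1 : f.Q x = 1) :
    ∃ a : F, x = a • ((1 : F) • u + (1 : F) • w) := by
  obtain ⟨a, b, rfl⟩ := h.ex x hx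
  rw [h.Q] at h1
  have := Fintype.one_lt_card (α := F)
  have h2 := pow_eq_one_of_dvd (left_ne_zero_of_mul_eq_one h1) (k := 2) (by
    obtain h | h : Fintype.card F = 2 ∨ Fintype.card F = 3 := by omega
    all_goals simp [h])
  exact ⟨a, by rw [show b = a by linear_combination a * h1 - b * h2]; module⟩

theorem inv_of_plus (hH : H ≤ isometryGroup F f.Q) (hF : Fintype.card F ≤ 3) (hW : W ⊓ f.perp W = ⊥)
    (hm : finrank F W = 2) (hp : IsPlusTypeOn f.Q W) (hi : Inv H W) : ∃ v, f.Q v = 1 ∧ Inv H (F ∙ v) := by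
  obtain ⟨u, w, h⟩ := exists_hp hW hm hp
  have h1 := (h.Q 1 1).trans (mul_one 1)
  refine ⟨_, h1, inv_span ?_⟩
  rintro g hg _ rfl
  obtain ⟨a, ha⟩ := h.one hF (hi g hg _ (h.mem 1 1)) ((isoQ (hH hg) _).trans h1)
  exact Submodule.mem_span_singleton.2 ⟨a, ha.symm⟩

section dec

variable (hf : f.Nondeg) (hH : H ≤ isometryGroup F f.Q) (hI : Irr H) {t k : ℕ} {D : Fin t → Submodule F (ι → F)}
  (hD : IsNondegenerateMDecomposition (fm (RingHom.id F) (gr f)) k D) (h0 : H ≤ decompositionStabilizer D)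
include hf hH hI hD h0

omit hf hH hI hD in
theorem dec_mem {g : GL ι F} (hg : g ∈ H) {v : ι → F} {i : Fin t} (hv : v ∈ D i) : ∃ j, g.1 *ᵥ v ∈ D j :=
  let ⟨s, hs⟩ := h0 hg; ⟨s i, hs i ▸ Submodule.mem_map_of_mem hv⟩

theorem not_plus_small (hk : k = 2) (hF : Fintype.card F ≤ 3) (hp : ∀ i, IsPlusTypeOn f.Q (D i)) : False := by
  subst hk
  have i : Fin t := ⟨0, by have := hD.decomp.two_le; omega⟩
  obtain ⟨u, w, h⟩ := exists_hp (dec_nd hD i) (hD.decomp.finrank_eq i) (hp i)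
  rcases hI _ (inv_span (X := {v | (∃ i, v ∈ D i) ∧ f.Q v = 1}) fun g hg v ⟨⟨_, hj⟩, hv⟩ =>
    Submodule.subset_span ⟨dec_mem h0 hg hj, (isoQ (hH hg) v).trans hv⟩) with h1 | h1
  · have := h.Q 1 1
    rw [(Submodule.mem_bot F).1 (h1.le (Submodule.subset_span ⟨⟨i, h.mem 1 1⟩, this.trans (mul_one 1)⟩))] at this
    simp at this
  · have h2 : ⊤ ≤ f.perp (F ∙ ((1 : F) • u + (-1 : F) • w)) := h1.ge.trans (Submodule.span_le.2 fun v ⟨⟨j, hj⟩, hv⟩ =>
      f.mem_perp_singleton.2 (by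
        rcases eq_or_ne j i with rfl | h2
        · obtain ⟨a, rfl⟩ := h.one hF hj hv
          rw [B_smul_left, h.B]; simp
        · exact dec_perp hD h2 hj _ (h.mem _ _)))
    simpa using (h.B 0 1 1 (-1)).symm.trans (f.mem_perp_singleton.1 (h2 trivial))

theorem nd_five (hk : k = 2) (hF : Fintype.card F = 5) (hp : ∀ i, IsPlusTypeOn f.Q (D i)) :
    ND (RingHom.id F) (gr f) H 1 := by
  subst hk
  have h2 := two_ne_zero_of_odd (F := F) (by rw [hF]; decide)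
  choose u w h using fun i => exists_hp (dec_nd hD i) (hD.decomp.finrank_eq i) (hp i)
  have h3 : ∀ i, ∀ v ∈ D i, fm (RingHom.id F) (gr f) v v ^ 2 = 2 ^ 2 → ∃ a b : F, b * b = 1 ∧ a ≠ 0 ∧
      v = a • u i + (a * b) • w i := fun i v hv h3 => by
    obtain ⟨a, b, rfl⟩ := (h i).ex v hv
    rw [fm_self, (h i).Q, mul_pow, mul_eq_left₀ (pow_ne_zero 2 h2)] at h3
    have ha : a ≠ 0 := by rintro rfl; simp at h3
    have := pow_eq_one_of_dvd ha (k := 4) (by rw [hF])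
    exact ⟨a, b / a, by field_simp; linear_combination a ^ 2 * h3 - b ^ 2 * this, ha, by field_simp⟩
  obtain ⟨t, E, h4, h5, -⟩ := Rf.refine (σ := RingHom.id F) (rf_gr hf) (hH.trans isom_le) hD h0
    (p := fun x => x ^ 2 = 2 ^ 2) (by simpa using (pow_ne_zero 2 h2).symm) (fun i v hv v' hv' h4 h5 => by
      obtain ⟨a, b, h6, ha, rfl⟩ := h3 i v hv h4
      obtain ⟨c, d, h7, -, rfl⟩ := h3 i v' hv' h5
      rcases mul_self_eq_mul_self_iff.1 (h6.trans h7.symm) with rfl | rfl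
      · exact .inr ⟨c / a, by match_scalars <;> field_simp⟩
      · exact .inl (by rw [fmB, (h i).B]; ring))
    fun i x hx => by
      obtain ⟨a, b, rfl⟩ := (h i).ex x hx
      rw [show a • u i + b • w i = ((a + b) / 2) • ((1 : F) • u i + (1 : F) • w i) +
        ((a - b) / 2) • ((1 : F) • u i + (-1 : F) • w i) by match_scalars <;> field_simp <;> ring]
      refine add_mem (Submodule.smul_mem _ _ (Submodule.subset_span ⟨(h i).mem _ _, ?_⟩))
        (Submodule.smul_mem _ _ (Submodule.subset_span ⟨(h i).mem _ _, ?_⟩)) <;> rw [fm_self, (h i).Q] <;> ring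
  exact hI.nd h4 h5

omit hf hH hI h0 in
theorem dec_aniso (hk : k = 2) {i : Fin t} (hp : ¬ IsPlusTypeOn f.Q (D i)) {v : ι → F} (hv : v ∈ D i) (h : f.Q v = 0) :
    v = 0 := by_contra fun h1 => hp ⟨F ∙ v, by simpa, fun x hx => by
      obtain ⟨c, rfl⟩ := Submodule.mem_span_singleton.1 hx; exact f.Q_smul_of_Q h c, by
      rw [finrank_span_singleton h1, hD.decomp.finrank_eq, hk]⟩

theorem nd_three (hk : k = 2) (hF : Fintype.card F = 3) (hp : ∀ i, ¬ IsPlusTypeOn f.Q (D i)) :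
    ND (RingHom.id F) (gr f) H 1 := by
  have h2 := two_ne_zero_of_odd (F := F) (by rw [hF]; decide)
  have h3 : (3 : F) = 0 := by simpa [hF] using FiniteField.cast_card_eq_zero F
  obtain ⟨t, E, h4, h5, -⟩ := Rf.refine (σ := RingHom.id F) (rf_gr hf) (hH.trans isom_le) hD h0
    (p := fun x => x = 2) h2.symm (fun i v hv w hw h4 h5 => by
      rw [fm_self, mul_eq_left₀ h2] at h4 h5
      refine or_iff_not_imp_left.2 fun h6 => ⟨-f.B v w, eq_of_sub_eq_zero (dec_aniso hD hk (hp i)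
        (sub_mem hw (Submodule.smul_mem _ _ hv)) ?_)⟩
      rw [fmB] at h6
      rw [f.Q_sub, orth_Q_smul, B_smul_right, f.orth_symm v w, h4, h5]
      simp only [FType.orth_σ, FType.orth_τ]
      linear_combination 2 * mul_self_of_three hF h6 + h3)
    fun i x hx => by
      obtain ⟨⟨v, hv⟩, h4⟩ := (f.res_nondeg_iff.2 (dec_nd hD i)).orth_represents (by rw [hD.decomp.finrank_eq, hk]) 1
      replace h4 : f.Q v = 1 := h4
      have h5 : v ∈ Submodule.span F {v | v ∈ D i ∧ fm (RingHom.id F) (gr f) v v = 2} :=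
        Submodule.subset_span ⟨hv, by rw [fm_self, h4, mul_one]⟩
      have h6 : x + f.B x v • v ∈ D i := add_mem hx (Submodule.smul_mem _ _ hv)
      refine (Submodule.add_mem_iff_left _ (Submodule.smul_mem _ (f.B x v) h5)).1 ?_
      have h7 : f.B (x + f.B x v • v) v = 0 := by
        rw [B_add_left, B_smul_left, orth_B_self, h4]; linear_combination f.B x v * h3
      generalize x + f.B x v • v = y at h6 h7
      rcases eq_or_ne y 0 with rfl | h8
      · exact zero_mem _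
      rcases mul_self_eq_one_iff.1 (mul_self_of_three hF fun h => h8 (dec_aniso hD hk (hp i) h6 h)) with h9 | h9
      · exact Submodule.subset_span ⟨h6, by rw [fm_self, h9, mul_one]⟩
      · have := dec_aniso hD hk (hp i) (add_mem h6 hv) (by rw [f.Q_add_of_perp h7, h9, h4, neg_add_cancel])
        rw [eq_neg_of_add_eq_zero_left this]; exact neg_mem h5
  exact hI.nd h4 h5

end dec

end Cfsg.Agent.H4.As
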