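import Cfsg.Agent.H4.As20
import Cfsg.Agent.H4.Lang6

/-! Aschbacher's theorem, part 21: subfield structures and decompositions of quadratic spaces. -/

set_option autoImplicit false
set_option linter.unusedSectionVars false

namespace Cfsg.Agent.H4.As

open Matrix Module Cfsg.Geo CForm
open scoped MatrixGroups Kronecker commutatorElement

variable {ι : Type} [Fintype ι] [DecidableEq ι] {F : Type*} [Field F]
  [Fintype F] {H : Subgroup (GL ι F)} {f : CForm (FType.orth F) (ι → F)} {W U : Submodule F (ι → F)}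

theorem comp_mulVec' (φ : F ≃+* F) (a : Matrix ι ι F) (v : ι → F) : φ ∘ (a *ᵥ v) = a.map φ *ᵥ (φ ∘ v) :=
  funext fun i => RingHom.map_mulVec (φ : F →+* F) a v i

theorem fm_map (φ : F ≃+* F) (J : Matrix ι ι F) (u v : ι → F) :
    φ (fm (RingHom.id F) J u v) = fm (RingHom.id F) (J.map φ) (φ ∘ u) (φ ∘ v) := by
  simp [fm_eq_sum, map_sum]

section sf

variable {φ : F ≃+* F} {P : GL ι F} {b : F}

theorem SF.sq (hf : f.Nondeg) (hH : H ≤ isometryGroup F f.Q) (hI : Irr H) (hn : 2 ≤ Fintype.card ι)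
    (h : SF (RingHom.id F) (gr f) H φ P b) (y : ι → F) :
    φ (b * f.Q (P.1 *ᵥ y)) = b * f.Q (P.1 *ᵥ (φ ∘ y)) := by
  have : Nonempty ι := Fintype.card_pos_iff.1 (by omega)
  obtain ⟨-, h1, hb, h2⟩ := h
  have h3 : ∀ u v, φ (b * f.B (P.1 *ᵥ u) (P.1 *ᵥ v)) = b * f.B (P.1 *ᵥ (φ ∘ u)) (P.1 *ᵥ (φ ∘ v)) := fun u v => by
    rw [← fmB, ← fmB, fm_cJ, fm_cJ, ← fm_smul, fm_map, h2, fm_smul]
  have h4 := quad_unique hI hn (Q := fun v => b * f.Q v)
    (Q' := fun v => φ.symm (b * f.Q (P.1 *ᵥ (φ ∘ (P⁻¹.1 *ᵥ v))))) (fun c v => by rw [orth_Q_smul]; ring)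
    (fun c v => by
      rw [mulVec_smul, show φ ∘ (c • P⁻¹.1 *ᵥ v) = φ c • φ ∘ (P⁻¹.1 *ᵥ v) by ext; simp, mulVec_smul, orth_Q_smul,
        mul_left_comm, map_mul, map_pow, φ.symm_apply_apply])
    (funext₂ fun u v => φ.injective (by
      have := h3 (P⁻¹.1 *ᵥ u) (P⁻¹.1 *ᵥ v)
      simp only [mulVec_inv, orth_B_eq, ← mulVec_add] at this
      simp only [QuadraticMap.polar, ← mul_sub, this, map_sub φ (φ.symm _ - _), map_sub φ (φ.symm _),
        φ.apply_symm_apply, mulVec_add]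
      rw [← mulVec_add]; congr 6; ext; simp)) (fun g hg v _ => congrArg (b * ·) (isoQ (hH hg) v)) fun g hg v _ => by
      obtain ⟨c, hc⟩ := h1 g hg
      have h5 := ((mem_isoG.1 (isom_le (hH hg))).cj P).smul b
      have h6 := Sm.map (φ := (φ : F →+* F)) (σ := RingHom.id F) (fun _ => rfl) h5
      erw [h2, hc] at h6
      have h7 : c ^ 2 = 1 := by
        simp only [sm_iff, smul_mulVec, fm_smul_left, fm_smul_right, map_one, one_mul, RingHom.id_apply] at h5 h6
        obtain ⟨u, hu⟩ := exists_ne_zero (ι := ι) (F := F)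
        obtain ⟨w, hw⟩ := ((((rf_gr hf).cong P).smul_herm hb rfl).nondeg u hu).1
        refine mul_right_cancel₀ hw ?_
        have := h6 w u
        erw [h5] at this
        rw [pow_two, mul_assoc, one_mul]; exact this
      change φ.symm (b * f.Q (P.1 *ᵥ (φ ∘ (P⁻¹.1 *ᵥ (g.1 *ᵥ v))))) = _
      have h8 : P⁻¹.1 *ᵥ (g.1 *ᵥ v) = cj P⁻¹ g.1 *ᵥ (P⁻¹.1 *ᵥ v) := (cj_mulVec _ _ _).symm
      rw [h8, comp_mulVec', hc, smul_mulVec, mulVec_smul, orth_Q_smul, h7, one_mul, ← cj_mulVec, cj_cj_inv,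
        isoQ (hH hg)]
  have := congrFun h4 (P.1 *ᵥ y)
  simp only [inv_mulVec] at this
  rw [this, φ.apply_symm_apply]

theorem sq_rat (h : ∀ y, φ (b * f.Q (P.1 *ᵥ y)) = b * f.Q (P.1 *ᵥ (φ ∘ y))) :
    IsQuadFormRationalStructure (fun v => b * f.Q v) (fx φ) P := fun u hu => mem_fixed_subfield.2 (by
  rw [h, show φ ∘ u = u from funext fun i => mem_fixed_subfield.1 (hu i)])

theorem sq_plus (hf : f.Nondeg) {m : ℕ} (hm : Fintype.card ι = 2 * m) (h3 : 3 ≤ m) (hb : b ≠ 0) (h2 : orderOf φ = 2)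
    (h : ∀ y, φ (b * f.Q (P.1 *ᵥ y)) = b * f.Q (P.1 *ᵥ (φ ∘ y))) : IsPlusTypeOn f.Q ⊤ := by
  obtain ⟨m, rfl⟩ : ∃ k, m = k + 1 := ⟨m - 1, by omega⟩
  refine (pl_top hf hm).2 (by_contra fun hw => ?_)
  obtain ⟨a, c, hac⟩ := exists_aniso F
  obtain ⟨e, he⟩ := hf.isom_minusF (m := m) (by simpa [mul_add] using hm) hw hac
  have h4 : ∀ x, (minusF m a c).Q ((gk ((glE P).trans e) φ).s x) = b⁻¹ * φ b * φ ((minusF m a c).Q x) := fun x => by
    obtain ⟨y, rfl⟩ := ((glE P).trans e).surjective x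
    rw [gk_s, LinearEquiv.symm_apply_apply, LinearEquiv.trans_apply, LinearEquiv.trans_apply, he.Q, he.Q,
      mul_assoc, ← map_mul, glE_apply, glE_apply, h, inv_mul_cancel_left₀ hb]
    rfl
  refine minusF_not_sq (by omega) hac (γ := gk ((glE P).trans e) φ) ⟨_, (gk _ φ).smul, by simpa,
    fun x y => ?_, h4⟩ (by rintro rfl; simp at h2) ⟨1, by
      rw [gk_pow, show φ ^ 2 = 1 from h2 ▸ pow_orderOf_eq_one φ, gk_one, map_one]⟩
  simp only [orth_B_eq, ← map_add, h4, map_sub, gk_ρ]; ring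

theorem sf_of_basis {κ : Type} [Fintype κ] [DecidableEq κ] {σ : F →+* F} {J : Matrix ι ι F} (hφ : (orderOf φ).Prime)
    (v : Basis κ F (ι → F)) (h1 : ∀ g ∈ H, ∀ i, g.1 *ᵥ v i ∈ AddSubgroup.closure (Set.range v))
    (h2 : ∀ i j, φ (fm σ J (v i) (v j)) = fm σ J (v i) (v j)) : ∃ P, SF σ J H φ P 1 := by
  obtain ⟨e, P, hP⟩ := exists_eP v.equivFun.symm
  have h5 : ∀ i, P.1 *ᵥ Pi.single i 1 = v (e i) := fun i => by
    rw [show Pi.single i 1 = (Pi.single (e i) 1 : _ → F) ∘ e by ext; simp [Pi.single_apply], hP]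
    simp [Pi.single_apply]
  refine ⟨P, hφ, fun g hg => ⟨1, ?_⟩, one_ne_zero, ?_⟩
  · ext i j
    have h3 : ∀ x ∈ AddSubgroup.closure (Set.range v), φ ((P⁻¹.1 *ᵥ x) i) = (P⁻¹.1 *ᵥ x) i := fun x hx => by
      induction hx using AddSubgroup.closure_induction with
      | mem x hx =>
        obtain ⟨k, rfl⟩ := hx
        obtain ⟨k, rfl⟩ := e.surjective k
        rw [← h5, inv_mulVec]; simp [Pi.single_apply, apply_ite φ]
      | zero => simp
      | add x y _ _ hx hy => simp only [mulVec_add, Pi.add_apply, map_add, hx, hy]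
      | neg x _ hx => simp only [mulVec_neg, Pi.neg_apply, map_neg, hx]
    have h4 := h3 _ (h1 g hg (e j))
    rw [← h5, ← cj_cj_inv P g.1, cj_mulVec, inv_mulVec] at h4
    simpa using h4
  · ext i j
    rw [one_smul, map_apply, ← fm_single (σ := σ) (J := cJ _ _ _), ← fm_cJ, h5, h5, h2]

end sf

theorem TI.ts (hf : f.Nondeg) (hH : H ≤ omegaGL f.Q) (hI : Irr H) {m : ℕ} (hm : Fintype.card ι = 2 * m) (h3 : 3 ≤ m)
    (h : TI (RingHom.id F) (gr f) H) : IsPlusTypeOn f.Q ⊤ ∧ Even m ∧ ∃ D : Fin 2 → Submodule F (ι → F),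
      IsMDecomposition m D ∧ (∀ i, IsTotallySingularQuad f.Q (D i)) ∧ H ≤ decompositionStabilizer D := by
  obtain ⟨k, D, h1, hD, h2, h4⟩ := h
  obtain rfl : k = m := by omega
  let S : Fin 2 → Submodule F (ι → F) := fun i =>
    { carrier := {u | u ∈ D i ∧ f.Q u = 0}
      add_mem' := fun {a b} ha hb => ⟨add_mem ha.1 hb.1, by
        rw [f.Q_add_of_perp ((fmB _ _).symm.trans (h2 i a ha.1 b hb.1)), ha.2, hb.2, add_zero]⟩
      zero_mem' := ⟨zero_mem _, f.Q_zero⟩
      smul_mem' := fun c a ha => ⟨(D i).smul_mem c ha.1, f.Q_smul_of_Q ha.2 c⟩ }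
  have h5 : ∀ i, IsTotallySingularQuad f.Q (D i) := by
    rcases hI (iSup S) (fun g hg v hv => by
      obtain ⟨s, hs⟩ := h4 hg
      exact (iSup_le fun i => fun u hu => Submodule.mem_iSup_of_mem (s i) ⟨hs i ▸ Submodule.mem_map_of_mem hu.1,
        (isoQ (omega_le (hH hg)) u).trans hu.2⟩ : iSup S ≤ (iSup S).comap (toLin' g.1)) hv) with h5 | h5
    · obtain ⟨u, h6, h7⟩ := not_aniso.1 (Nondeg.orth_not_aniso (f := f.res (D 0)) (by rw [hD.finrank_eq]; omega))
      exact absurd (Subtype.ext ((Submodule.mem_bot F).1 ((iSup_eq_bot.1 h5 0).le ⟨u.2, h7⟩))) h6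
    · exact fun i v hv => ((congrFun ((hD.indep.le_iff_eq_of_iSup_eq_top h5).1 fun i _ h => h.1) i).ge hv).2
  refine ⟨⟨D 0, le_top, h5 0, by simp [hD.finrank_eq, hm]⟩, by_contra fun h6 => ?_, D, hD, h5, h4⟩
  refine (hI (D 0) fun g hg v hv => ?_).elim (hD.as_ne 0).1 (hD.as_ne 0).2
  obtain ⟨s, hs⟩ := h4 hg
  have := even_of_omega hf (hH hg) (h5 0) (by rw [hD.finrank_eq, hm])
  rw [hs] at this
  by_cases h7 : 0 = s 0
  · exact h7 ▸ hs 0 ▸ Submodule.mem_map_of_mem hv
  · rw [(hD.indep.pairwiseDisjoint h7).eq_bot, hD.finrank_eq] at this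
    exact absurd (by simpa using this) h6

section dec

variable (hf : f.Nondeg) (hH : H ≤ isometryGroup F f.Q) (hI : Irr H) {t k : ℕ} {D : Fin t → Submodule F (ι → F)}
  (hD : IsNondegenerateMDecomposition (fm (RingHom.id F) (gr f)) k D) (h0 : H ≤ decompositionStabilizer D)
include hf hH hI hD h0

omit hf hI in
theorem sf_four (hk : k = 2) (hF : Fintype.card F = 4) (hp : ∀ i, IsPlusTypeOn f.Q (D i)) :
    ∃ φ P b, SF (RingHom.id F) (gr f) H φ P b := by
  subst hk
  obtain ⟨φ, hφ⟩ := exists_prime_aut (F := F) (by rw [hF]; decide)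
  have h2 := two_of_four (F := F) hF
  obtain ⟨o, ho, h1⟩ := exists_ne_zero_one (F := F) (by omega)
  have h3 : ∀ a : F, a ≠ 0 → a ^ 3 = 1 := fun a ha => pow_eq_one_of_dvd ha (by rw [hF])
  have h4 : o ^ 2 = o + 1 := by
    have : o ^ 2 + o + 1 = 0 := mul_left_cancel₀ (sub_ne_zero.2 h1) (by linear_combination h3 o ho)
    linear_combination this - (o + 1) * h2
  choose u w h using fun i => exists_hp (dec_nd hD i) (hD.decomp.finrank_eq i) (hp i)
  let v : Fin 2 × Fin t → ι → F := fun x => ![1, o] x.1 • u x.2 + ![1, o + 1] x.1 • w x.2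
  have h5 : ∀ i (a b : F), a • u i + b • w i = (a * (o + 1) + b * o) • v (0, i) + (a + b) • v (1, i) := fun i a b => by
    simp only [v, cons_val_zero, cons_val_one]
    match_scalars
    · linear_combination -(a + b) * o * h2
    · linear_combination -(a + b * o + a * o) * h2
  have h6 : ⊤ ≤ Submodule.span F (Set.range v) := hD.decomp.iSup_eq_top.ge.trans (iSup_le fun i x hx => by
    obtain ⟨a, b, rfl⟩ := (h i).ex x hx
    rw [h5]
    exact add_mem (Submodule.smul_mem _ _ (Submodule.subset_span ⟨_, rfl⟩))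
      (Submodule.smul_mem _ _ (Submodule.subset_span ⟨_, rfl⟩)))
  obtain ⟨β, h7⟩ : ∃ β : Basis _ F _, ⇑β = v :=
    ⟨_, coe_basisOfTopLeSpanOfCardEqFinrank v h6 (by simp [← hD.decomp.as_card, mul_comm])⟩
  refine ⟨φ, (sf_of_basis hφ β (fun g hg x => ?_) fun x y => ?_).imp fun _ h => ⟨1, h⟩⟩ <;> rw [h7]
  · obtain ⟨j, hj⟩ := dec_mem h0 hg ((h x.2).mem _ _ : v x ∈ _)
    obtain ⟨a, b, e⟩ := (h j).ex _ hj
    have h8 : a * b = 1 := by
      rw [← (h j).Q, ← e, isoQ (hH hg), (h _).Q]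
      obtain ⟨x, i⟩ := x
      fin_cases x
      · simp
      · simp only [Fin.mk_one, cons_val_one, cons_val_zero]; linear_combination h4 + o * h2
    have ha := h3 a (left_ne_zero_of_mul_eq_one h8)
    obtain rfl : b = a ^ 2 := by linear_combination a ^ 2 * h8 - b * ha
    have h9 : ∀ x, v x ∈ AddSubgroup.closure (Set.range v) := fun x => AddSubgroup.subset_closure ⟨x, rfl⟩
    have : (a - 1) * ((a - o) * (a - (o + 1))) = 0 := by
      linear_combination ha + (a - 1) * h4 - (a - 1) * (a * o + a - o) * h2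
    rw [e, h5]
    rcases mul_eq_zero.1 this with h | h
    · rw [sub_eq_zero.1 h, show (1 : F) * (o + 1) + 1 ^ 2 * o = 1 by linear_combination o * h2,
        show (1 : F) + 1 ^ 2 = 0 by linear_combination h2]
      simpa using h9 _
    rcases mul_eq_zero.1 h with h | h
    · rw [sub_eq_zero.1 h, show o * (o + 1) + o ^ 2 * o = 0 by linear_combination h4 + h3 o ho + (o + 1) * h2,
        show o + o ^ 2 = 1 by linear_combination h4 + o * h2]
      simpa using h9 _
    · rw [sub_eq_zero.1 h, show (o + 1) * (o + 1) + (o + 1) ^ 2 * o = 1 by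
        linear_combination h3 o ho + h4 + (o ^ 2 + 2 * o + 1) * h2,
        show o + 1 + (o + 1) ^ 2 = 1 by linear_combination h4 + (2 * o + 1) * h2]
      simpa using add_mem (h9 _) (h9 _)
  · obtain ⟨x, i⟩ := x
    obtain ⟨y, j⟩ := y
    rw [fmB]
    rcases eq_or_ne i j with rfl | h8
    · rw [(h i).B]
      fin_cases x <;> fin_cases y <;> simp only [Fin.mk_one, Fin.zero_eta, cons_val_one, cons_val_zero]
      · simp
      · rw [show (1 : F) * (o + 1) + 1 * o = 1 by linear_combination o * h2, map_one]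
      · rw [show o * 1 + (o + 1) * 1 = 1 by linear_combination o * h2, map_one]
      · rw [show o * (o + 1) + (o + 1) * o = 0 by linear_combination o * (o + 1) * h2, map_zero]
    · rw [dec_perp hD h8 ((h i).mem _ _) _ ((h j).mem _ _), map_zero]

omit hf hH hI hD h0 in
theorem fact_two (hF : Fintype.card F = 2) (a b c d a' b' c' d' x y z w : F) (h1 : a * c + b * d = 1)
    (h2 : a' * c' + b' * d' = 1) (h3 : a * c' + b * d' + (c * a' + d * b') = 1) (h4 : x * z + y * w = 1) :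
    (∃ r s : F, x = r * a + s * a' ∧ y = r * b + s * b' ∧ z = r * c + s * c' ∧ w = r * d + s * d') ∨
    (x * c + y * d + (z * a + w * b) = 0 ∧ x * c' + y * d' + (z * a' + w * b') = 0) := by
  let e := ZMod.ringEquivOfPrime F Nat.prime_two hF
  have key : ∀ a b c d a' b' c' d' : ZMod 2, a * c + b * d = 1 → a' * c' + b' * d' = 1 →
      a * c' + b * d' + (c * a' + d * b') = 1 → ∀ x y z w : ZMod 2, x * z + y * w = 1 →
      (∃ r s : ZMod 2, x = r * a + s * a' ∧ y = r * b + s * b' ∧ z = r * c + s * c' ∧ w = r * d + s * d') ∨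
      (x * c + y * d + (z * a + w * b) = 0 ∧ x * c' + y * d' + (z * a' + w * b') = 0) := by decide +kernel
  refine (key (e.symm a) (e.symm b) (e.symm c) (e.symm d) (e.symm a') (e.symm b') (e.symm c') (e.symm d')
    (e.injective (by simpa)) (e.injective (by simpa)) (e.injective (by simpa)) (e.symm x) (e.symm y) (e.symm z)
    (e.symm w) (e.injective (by simpa))).imp (fun ⟨r, s, h5, h6, h7, h8⟩ => ⟨e r, e s, ?_, ?_, ?_, ?_⟩)
    fun ⟨h5, h6⟩ => ⟨?_, ?_⟩
  exacts [by simpa using congrArg e h5, by simpa using congrArg e h6, by simpa using congrArg e h7,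
    by simpa using congrArg e h8, by simpa using congrArg e h5, by simpa using congrArg e h6]

theorem nd_two (hk : k = 4) (hF : Fintype.card F = 2) (hp : ∀ i, IsPlusTypeOn f.Q (D i)) :
    ND (RingHom.id F) (gr f) H 2 := by
  subst hk
  have h2 := two_of_card hF
  choose u w h1 h3 h4 h5 h6 h7 h8 h9 using fun i => hyp_basis (m := 2) (dec_nd hD i) (hD.decomp.finrank_eq i) (hp i)
  have h7' : ∀ i j k, f.B (w i j) (u i k) = if k = j then 1 else 0 := fun i j k => by rw [orth_symm, h7]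
  have hB : ∀ {x}, f.Q x = 1 → f.B x x = 0 := fun h => by rw [orth_B_self, h2, zero_mul]
  have hL : ∀ {x y : ι → F}, f.Q x = 1 → f.Q y = 1 → f.B x y = 1 → ∀ a b : F,
      f.B (a • x + b • y) y = a ∧ f.B (a • x + b • y) x = b := fun {x y} hx hy h a b => by
    simp [hB hx, hB hy, h, f.orth_symm x y]
  have hr : ∀ {x y : ι → F}, f.Q x = 1 → f.Q y = 1 → f.B x y = 1 → finrank F (Submodule.span F {x, y}) = 2 :=
    fun {x y} hx hy h => by
      rw [← Matrix.range_cons_cons_empty x y ![]]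
      exact finrank_span_eq_card (LinearIndependent.pair_iff.2 fun a b e => by
        simpa [e, eq_comm] using hL hx hy h a b)
  have key : ∀ i, ∀ x ∈ D i, ∀ y ∈ D i, f.Q x = 1 → f.Q y = 1 → f.B x y = 1 → ∀ z ∈ D i, f.Q z = 1 →
      z ∈ Submodule.span F {x, y} ∨ z ∈ f.perp (Submodule.span F {x, y}) := fun i x hx y hy e1 e2 e3 z hz e4 => by
    obtain ⟨a, b, rfl⟩ := h4 i x hx
    obtain ⟨c, d, rfl⟩ := h4 i y hy
    obtain ⟨r, s, rfl⟩ := h4 i z hz
    rw [← Set.union_singleton, Submodule.span_union, mem_perp_sup_singleton, mem_perp_singleton, ← Submodule.span_union,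
      Set.union_singleton, Submodule.mem_span_pair]
    simp [orth_Q_add, orth_Q_smul, h5, h6, h7, h8, h9, h7'] at e1 e2 e3 e4 ⊢
    refine (fact_two hF (a 0) (a 1) (b 0) (b 1) (c 0) (c 1) (d 0) (d 1) (r 0) (r 1) (s 0) (s 1)
      (by linear_combination e1) (by linear_combination e2) (by linear_combination e3)
      (by linear_combination e4)).imp (fun ⟨p, q, k1, k2, k3, k4⟩ => ⟨p, q, by rw [k1, k2, k3, k4]; module⟩)
      fun ⟨k1, k2⟩ => ⟨by linear_combination k2, by linear_combination k1⟩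
  obtain ⟨t, E, h10, h11, -⟩ := nd_of_set (σ := RingHom.id F) (J := gr f) (H := H) (S := {W | ∃ i, ∃ x ∈ D i,
    ∃ y ∈ D i, f.Q x = 1 ∧ f.Q y = 1 ∧ f.B x y = 1 ∧ W = Submodule.span F {x, y}}) two_pos
    (by have := hD.decomp.two_le; rw [← hD.decomp.as_card]; omega)
    (by
      rintro _ ⟨i, x, -, y, -, hx, hy, h, rfl⟩
      refine ⟨hr hx hy h, fm_gr' (f := f) ▸ geo_of_nondeg ((Submodule.eq_bot_iff _).2 fun z ⟨h10, h11⟩ => ?_)⟩
      obtain ⟨a, b, rfl⟩ := Submodule.mem_span_pair.1 h10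
      obtain rfl := (hL hx hy h a b).1.symm.trans (h11 y (Submodule.subset_span (by simp)))
      obtain rfl := (hL hx hy h 0 b).2.symm.trans (h11 x (Submodule.subset_span (by simp)))
      simp)
    (by
      rintro _ ⟨i, x, a1, y, a2, hx, hy, h, rfl⟩ _ ⟨j, z, b1, v, b2, hz, hv, h', rfl⟩ hne p hp q hq
      rw [fmB]
      rcases eq_or_ne i j with rfl | h10
      · rcases key i z b1 v b2 hz hv h' x a1 hx with k1 | k1 <;> rcases key i z b1 v b2 hz hv h' y a2 hy with k2 | k2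
        · exact absurd (Submodule.eq_of_le_of_finrank_eq (Submodule.span_le.2 (Set.pair_subset k1 k2))
            ((hr hx hy h).trans (hr hz hv h').symm)) hne
        · exact absurd ((f.orth_symm _ _).trans (k2 x k1)) (h ▸ one_ne_zero)
        · exact absurd (k1 y k2) (h ▸ one_ne_zero)
        · exact Submodule.span_le.2 (Set.pair_subset k1 k2) hp q hq
      · exact dec_perp hD h10 (Submodule.span_le.2 (Set.pair_subset a1 a2) hp) q
          (Submodule.span_le.2 (Set.pair_subset b1 b2) hq))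
    (top_unique (hD.decomp.iSup_eq_top.ge.trans (iSup_le fun i x hx => by
      obtain ⟨a, b, rfl⟩ := h4 i x hx
      have k : ∀ j l, j ≠ l → Submodule.span F {u i j + w i j, u i j + u i l + w i l} ≤ sSup {W | ∃ i, ∃ x ∈ D i,
          ∃ y ∈ D i, f.Q x = 1 ∧ f.Q y = 1 ∧ f.B x y = 1 ∧ W = Submodule.span F {x, y}} := fun j l h =>
        le_sSup ⟨i, _, add_mem (h1 i j) (h3 i j), _, add_mem (add_mem (h1 i j) (h1 i l)) (h3 i l),
          by simp [orth_Q_add, h5, h6, h7], by simp [orth_Q_add, h5, h6, h7, h8, h],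
          by simp [h7, h7', h8, h9, h, h.symm], rfl⟩
      rw [show ∑ j, a j • u i j + ∑ j, b j • w i j = ((b 0 - a 1 + b 1) • (u i 0 + w i 0) +
        (a 0 - b 0) • (u i 0 + u i 1 + w i 1)) + ((b 1 - a 0 + b 0) • (u i 1 + w i 1) +
        (a 1 - b 1) • (u i 1 + u i 0 + w i 0)) by simp only [Fin.sum_univ_two]; module]
      exact add_mem (k 0 1 (by simp) (Submodule.mem_span_pair.2 ⟨_, _, rfl⟩))
        (k 1 0 (by simp) (Submodule.mem_span_pair.2 ⟨_, _, rfl⟩)))))
    (by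
      rintro g hg _ ⟨i, x, a1, y, a2, hx, hy, h, rfl⟩
      obtain ⟨s, hs⟩ := h0 hg
      exact ⟨s i, _, hs i ▸ Submodule.mem_map_of_mem a1, _, hs i ▸ Submodule.mem_map_of_mem a2,
        (isoQ (hH hg) x).trans hx, (isoQ (hH hg) y).trans hy, (isoB (hH hg) x y).trans h, by
          rw [Submodule.map_span, Set.image_pair]; rfl⟩)
  exact hI.nd h10 h11

end dec

end Cfsg.Agent.H4.As
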