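import Cfsg.Agent.H4.As21

/-! Aschbacher's theorem, part 22: even-dimensional orthogonal groups, the raw classes. -/

set_option autoImplicit false
set_option linter.unusedSectionVars false

namespace Cfsg.Agent.H4.As

open Matrix Module Cfsg.Geo CForm
open scoped MatrixGroups Kronecker commutatorElement

variable {ι : Type} [Fintype ι] [DecidableEq ι] {F : Type*} [Field F]
  [Fintype F] {H N : Subgroup (GL ι F)} {f : CForm (FType.orth F) (ι → F)} {W U : Submodule F (ι → F)}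

theorem nd_point {v : ι → F} (h2 : (2 : F) ≠ 0) (hv : f.Q v ≠ 0) : (F ∙ v) ⊓ f.perp (F ∙ v) = ⊥ :=
  (Submodule.eq_bot_iff _).2 (by
    rintro _ ⟨hx, h12⟩
    obtain ⟨c, rfl⟩ := Submodule.mem_span_singleton.1 hx
    rw [SetLike.mem_coe, f.mem_perp_singleton, f.B_smul_left, f.orth_B_self] at h12
    simp [(mul_eq_zero.1 h12).resolve_right (mul_ne_zero h2 hv)])

theorem omRed (hf : f.Nondeg) {m : ℕ} (hm : Fintype.card ι = 2 * m) (h4 : 4 ≤ m) (hH : H ≤ omegaGL f.Q)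
    {Φ : Subgroup (GL ι F) → Prop} (hΦ : ∀ X, H ≤ X → ¬ omegaGL f.Q ≤ X → Φ X) (h0 : W ≠ ⊥) (h1 : W ≠ ⊤)
    (hW : Inv H W) :
    (∃ W, W ≠ ⊥ ∧ IsTotallySingularQuad f.Q W ∧ (IsPlusTypeOn f.Q ⊤ → finrank F W + 1 ≠ m) ∧
      Φ (subspaceStabilizer W)) ∨
    (∃ W : Submodule F (ι → F), W ≠ ⊥ ∧ W ≠ ⊤ ∧ finrank F W < m ∧ IsNondegenerateOn (QuadraticMap.polar f.Q) W ∧
      (Odd (finrank F W) → Odd (Fintype.card F)) ∧ (finrank F W = 2 → IsPlusTypeOn f.Q W → 4 ≤ Fintype.card F) ∧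
      Φ (subspaceStabilizer W)) ∨
    (¬ Odd (Fintype.card F) ∧ ∃ v, f.Q v ≠ 0 ∧ Φ (subspaceStabilizer (F ∙ v))) ∨
    ∃ D : Fin 2 → Submodule F (ι → F), IsNondegenerateMDecomposition (fm (RingHom.id F) (gr f)) m D ∧
      Φ (subspaceStabilizer (D 0)) ∧ Φ (decompositionStabilizer D) := by
  have hB := big_Om hf (by omega)
  have hJ := hH.trans omega_le
  have hs : ∀ {W : Submodule F (ι → F)}, W ≠ ⊥ → finrank F W ≤ m → Inv H W → W ≠ ⊤ ∧ Φ (subspaceStabilizer W) :=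
    fun a b c => have := by rintro rfl; simp at b; omega
      ⟨this, hΦ _ c.le (hB.not_stab a this)⟩
  have hp : ∀ {v}, f.Q v ≠ 0 → (F ∙ v) ≠ ⊥ ∧ finrank F (F ∙ v) = 1 := fun hv =>
    have := by rintro rfl; exact hv f.Q_zero
    ⟨by simpa, finrank_span_singleton this⟩
  rw [polar_eq]
  rcases red_cases hf (hJ.trans isom_le) h0 h1 hW with ⟨U, h5, h6, h7⟩ | ⟨U, h5, h6, h7, h8⟩ | ⟨k, D, h5, h6⟩
  · rcases ts_cases hJ h5 (fun u a v b => (fmB u v).symm.trans (h6 u a v b)) h7 with ⟨U, h5, h6, h7⟩ | ⟨h2, v, h8, h9⟩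
    swap
    · exact .inr <| .inr <| .inl ⟨fun h => two_ne_zero_of_odd h h2, v, h8, (hs (hp h8).1 (by rw [(hp h8).2]; omega) h9).2⟩
    by_cases h8 : IsPlusTypeOn f.Q ⊤ ∧ finrank F U + 1 = m
    · obtain ⟨U, a, b, c, d⟩ := ts_max hf hH h8.1 h6 (by rw [hm, h8.2]) h7
      exact .inl ⟨U, a, b, by omega, (hs a (by omega) d).2⟩
    · have := (orth_TS_iff.2 h6).two_mul_finrank_le hf
      exact .inl ⟨U, h5, h6, by tauto, (hs h5 (by simp at this; omega) h7).2⟩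
  · have h9 := nondeg_of_geo (fm_gr' (f := f) ▸ h6)
    by_cases h10 : finrank F U = 2 ∧ IsPlusTypeOn f.Q U ∧ Fintype.card F ≤ 3
    swap
    · have := hs h5 (by omega) h8
      exact .inr <| .inl ⟨U, h5, this.1, by omega, h6, fun h => odd_of_two_ne_zero
        ((f.res_nondeg_iff.2 h9).two_ne_of_odd h), fun a b => by by_contra; exact h10 ⟨a, b, by omega⟩, this.2⟩
    obtain ⟨v, hv, h11⟩ := inv_of_plus hJ h10.2.2 h9 h10.1 h10.2.1 h8
    have h12 : f.Q v ≠ 0 := hv ▸ one_ne_zero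
    obtain ⟨a, b⟩ := hp h12
    have := hs a (by omega) h11
    by_cases h2 : Odd (Fintype.card F)
    · exact .inr <| .inl ⟨_, a, this.1, by omega, fm_gr' (f := f) ▸ geo_of_nondeg (nd_point (two_ne_zero_of_odd h2) h12),
        fun _ => h2, by omega, this.2⟩
    · exact .inr <| .inr <| .inl ⟨h2, v, h12, this.2⟩
  · obtain rfl : k = m := by have := h5.decomp.as_card; omega
    exact .inr <| .inr <| .inr ⟨D, h5, (hs (h5.decomp.as_ne 0).1 (h5.decomp.finrank_eq 0).le (h6 0)).2,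
      hΦ _ (le_decomp_of_inv h6) (hB.not_decomp h5.decomp)⟩

/-- the refined class of orthogonal decompositions -/
def OD (f : CForm (FType.orth F) (ι → F)) (H : Subgroup (GL ι F)) (m : ℕ) : Prop :=
  ∃ (t k : ℕ) (D : Fin t → Submodule F (ι → F)), t * k = 2 * m ∧ 2 ≤ t ∧ IsOrthogonalMDecomposition f.Q k D ∧
    H ≤ decompositionStabilizer D ∧
    (Odd k → Odd (Fintype.card F) ∧ (IsPlusTypeOn f.Q ⊤ ↔ Fintype.card F ^ m % 4 = 1)) ∧
    (Even k → ∀ i, IsPlusTypeOn f.Q ⊤ ↔ IsPlusTypeOn f.Q (D i) ∨ Even t) ∧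
    (k = 1 → (Fintype.card F).Prime) ∧ (k = 3 → 5 ≤ Fintype.card F) ∧
    (k = 2 → (7 ≤ Fintype.card F ∧ ∀ i, IsPlusTypeOn f.Q (D i)) ∨
      (Fintype.card F ≠ 3 ∧ ∀ i, ¬ IsPlusTypeOn f.Q (D i))) ∧
    (k = 4 → (∀ i, IsPlusTypeOn f.Q (D i)) → 3 ≤ Fintype.card F)

theorem ND.od (hf : f.Nondeg) {m : ℕ} (hm : Fintype.card ι = 2 * m) (hH : H ≤ isometryGroup F f.Q) (hI : Irr H)
    {k : ℕ} (h : ND (RingHom.id F) (gr f) H k) : OD f H m ∨ ∃ φ P b, SF (RingHom.id F) (gr f) H φ P b := by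
  have hq := Fintype.one_lt_card (α := F)
  have hJ := hH.trans isom_le
  induction k using Nat.strong_induction_on with | _ k ih =>
  obtain ⟨t, D, hD, h0, h1⟩ := id h
  have h2 := hD.decomp.two_le
  have : Nonempty ι := Fintype.card_pos_iff.1 (hD.decomp.as_card ▸ Nat.mul_pos (by omega) hD.decomp.pos)
  have i₀ : Fin t := ⟨0, by omega⟩
  have h3 : ∀ i j, AreIsometricFor f.Q (D i) (D j) := fun i j => let ⟨_, a, b⟩ := h1 i j; isom_of_map (hH a) b
  have h4 := fun i j => isom_iff.1 (h3 i j)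
  have h5 : Odd k → (2 : F) ≠ 0 := fun h =>
    (f.res_nondeg_iff.2 (dec_nd hD i₀)).two_ne_of_odd (by rwa [hD.decomp.finrank_eq])
  have h6 := hD.decomp.as_card.trans hm
  have h7 : Even k → (∀ i, IsPlusTypeOn f.Q (D i)) ∨ ∀ i, ¬ IsPlusTypeOn f.Q (D i) := fun h =>
    (em (IsPlusTypeOn f.Q (D i₀))).imp (fun a i => (pl_congr hD h (h4 i₀ i)).1 a)
      fun a i b => a ((pl_congr hD h (h4 i i₀)).1 b)
  by_cases a1 : k = 1 ∧ ¬ (Fintype.card F).Prime
  · exact .inr ((a1.1 ▸ h).one_sf hJ a1.2)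
  by_cases a2 : k = 3 ∧ Fintype.card F = 3
  · exact ih 1 (by omega) ((a2.1 ▸ h).three hJ hf hI a2.2)
  by_cases a3 : k = 4 ∧ Fintype.card F = 2 ∧ ∀ i, IsPlusTypeOn f.Q (D i)
  · exact ih 2 (by omega) (nd_two hf hH hI hD h0 a3.1 a3.2.1 a3.2.2)
  by_cases a4 : k = 2 ∧ Fintype.card F = 3 ∧ ∀ i, ¬ IsPlusTypeOn f.Q (D i)
  · exact ih 1 (by omega) (nd_three hf hH hI hD h0 a4.1 a4.2.1 a4.2.2)
  by_cases a5 : k = 2 ∧ Fintype.card F = 5 ∧ ∀ i, IsPlusTypeOn f.Q (D i)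
  · exact ih 1 (by omega) (nd_five hf hH hI hD h0 a5.1 a5.2.1 a5.2.2)
  by_cases a6 : k = 2 ∧ Fintype.card F = 4 ∧ ∀ i, IsPlusTypeOn f.Q (D i)
  · exact .inr (sf_four hH hD h0 a6.1 a6.2.1 a6.2.2)
  refine .inl ⟨t, k, D, h6, h2, ⟨polar_eq (f := f) ▸ hD, h3⟩, h0, fun h => ⟨odd_of_two_ne_zero (h5 h),
    pl_odd hD hf (h5 h) hm ((Nat.even_mul.1 (h6 ▸ even_two_mul m)).resolve_right (Nat.not_even_iff_odd.2 h)) h4⟩,
    fun h => pl_dec hD hf h h4, by tauto, fun h => ?_, fun h => (h7 (h ▸ even_two)).imp (fun a => ⟨?_, a⟩)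
      fun a => ⟨fun b => a4 ⟨h, b, a⟩, a⟩, fun a b => by by_contra; exact a3 ⟨a, by omega, b⟩⟩
  · obtain ⟨s, hs⟩ := odd_of_two_ne_zero (h5 (h ▸ by decide)); omega
  · have b1 : ¬ Fintype.card F ≤ 3 := fun b => not_plus_small hf hH hI hD h0 h b a
    have b2 : Fintype.card F ≠ 6 := fun b => absurd (b ▸ FiniteField.isPrimePow_card F) (by decide)
    have b3 : Fintype.card F ≠ 4 := fun b => a6 ⟨h, b, a⟩
    have b4 : Fintype.card F ≠ 5 := fun b => a5 ⟨h, b, a⟩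
    omega

theorem plus_of_inj {κ : Type} [Fintype κ] (T : (κ → F) →ₗ[F] ι → F) (h : Function.Injective T)
    (h1 : Fintype.card ι = 2 * Fintype.card κ) (h2 : ∀ x, f.Q (T x) = 0) : IsPlusTypeOn f.Q ⊤ :=
  ⟨LinearMap.range T, le_top, by rintro _ ⟨x, rfl⟩; exact h2 x, by simp [LinearMap.finrank_range_of_inj h, h1]⟩

theorem plus_of_coord {κ μ : Type} [Fintype κ] [Fintype μ] [DecidableEq μ] (e : ι ≃ μ) (P : GL ι F) (j : κ → μ)
    (hj : Function.Injective j) (h1 : Fintype.card ι = 2 * Fintype.card κ)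
    (h2 : ∀ x : μ → F, (∀ a ∉ Set.range j, x a = 0) → f.Q (P.1 *ᵥ (x ∘ e)) = 0) : IsPlusTypeOn f.Q ⊤ :=
  plus_of_inj ((toLin' P.1).comp ((LinearMap.funLeft F F e).comp (Function.ExtendByZero.linearMap F j)))
    ((glE P).injective.comp ((LinearMap.funLeft_injective_of_surjective F F _ e.surjective).comp
      (Function.extend_injective hj _))) h1 fun x => h2 _ fun a ha => Function.extend_apply' (f := j) x 0 a ha

theorem pl_iff_det (hf : f.Nondeg) (h2 : (2 : F) ≠ 0) {m : ℕ} (hm : Fintype.card ι = 2 * m) :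
    IsPlusTypeOn f.Q ⊤ ↔ IsSquare ((-1) ^ m * (gr f).det) := by
  obtain ⟨t, h0, ht⟩ := f.det_gram_eq (Pi.basisFun F ι)
  rw [pl_top hf hm, hf.plus_iff_disc h2 (by simpa), show (gr f).det = _ from (by simp; rfl : _ = _).trans ht,
    mul_left_comm, isSquare_sq_mul h0]

section tensor

variable [Nonempty ι] {k l : ℕ} {e : ι ≃ Fin k × Fin l} {P : GL ι F} {J₁ : Matrix (Fin k) (Fin k) F}
  {J₂ : Matrix (Fin l) (Fin l) F} {δ₁ δ₂ : F} (hT : TF (RingHom.id F) (gr f) H e P J₁ J₂ δ₁ δ₂)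
include hT

theorem TF.alt (h2 : (2 : F) = 0) (hI : Irr H) (v : Fin k → F) : fm (RingHom.id F) J₁ v v = 0 :=
  have : NeZero k := ⟨by have := hT.twok; omega⟩
  alt_of_two (hT.irr1 hI) h2 (hT.rf1.symm_of_two h2) (by simpa using hT.twok) (fun _ => hT.sm1) _

omit hT in
theorem fm_pure (A : Matrix (Fin k) (Fin k) F) (x : Fin k → F) (y : Fin l → F) :
    fm (RingHom.id F) (A ⊗ₖ J₂) (fun a => x a.1 * y a.2) (fun a => x a.1 * y a.2) =
      fm (RingHom.id F) A x x * fm (RingHom.id F) J₂ y y := by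
  simp only [fm_eq_sum, Fintype.sum_prod_type, Finset.sum_mul_sum, kroneckerMap_apply, RingHom.id_apply]
  refine Finset.sum_congr rfl fun a _ => Finset.sum_congr rfl fun b _ => Finset.sum_congr rfl fun c _ =>
    Finset.sum_congr rfl fun d _ => by ring

theorem TF.pure (hH : H ≤ isometryGroup F f.Q) (hI : Irr H) (h0 : ∀ v, fm (RingHom.id F) J₂ v v = 0)
    (x : Fin k → F) (y : Fin l → F) : f.Q (P.1 *ᵥ ((fun a : Fin k × Fin l => x a.1 * y a.2) ∘ e)) = 0 := by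
  obtain ⟨c, -, h6⟩ := hT.eq
  by_cases h2 : (2 : F) = 0
  swap
  · refine mul_left_cancel₀ h2 ?_
    rw [← fm_self, h6, fm_trJ, fm_smul, fm_pure, h0]; simp
  have : NeZero k := ⟨by have := hT.twok; omega⟩
  have h3 := hT.rf1.symm_of_two h2
  have h4 := hT.rf2.symm_of_two h2
  obtain ⟨U, hU⟩ := exists_upper h3 fun i => (fm_single i i).symm.trans (hT.alt h2 hI _)
  have h5 : ∀ i, J₂ i i = 0 := fun i => (fm_single i i).symm.trans (h0 _)
  rw [quad_unique hI (by rw [hT.card]; exact hT.twok.trans (Nat.le_mul_of_pos_right _ (by have := hT.twol; omega)))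
    (Q' := fun v => fm (RingHom.id F) (trJ (RingHom.id F) e P (c • U ⊗ₖ J₂)) v v) f.orth_Q_smul
    (fun c v => by rw [fm_smul_left, fm_smul_right, pow_two, mul_assoc]; rfl) (by
      rw [polar_eq, polar_fm, trJ_transpose, ← trJ_add, transpose_smul, kron_transpose, h4, ← smul_add,
        ← add_kronecker, hU, h6]) hH fun g hg v _ => ?_]
  · simp only [fm_trJ, fm_smul, fm_pure, h0, mul_zero]
  obtain ⟨a, b, d, rfl, h7, h8⟩ := hT.le g hg
  obtain ⟨x, rfl⟩ := exists_coord e P v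
  change fm _ _ (_ *ᵥ _) (_ *ᵥ _) = fm _ _ _ _
  rw [Units.coeHom_apply, trG_val, tr_mulVec, fm_trJ, fm_trJ, fm_smul, fm_smul, fm_mulVec, kG_val, kron_map,
    kron_transpose, ← mul_kronecker_mul, ← mul_kronecker_mul, h8, kronecker_smul, ← smul_kronecker, map_id']
  have h9 : ∀ A : Matrix (Fin k) (Fin k) F, A ⊗ₖ J₂ - U ⊗ₖ J₂ = (A - U) ⊗ₖ J₂ := fun A => by
    ext; simp [sub_mul]
  refine congrArg _ (fm_eq_of_sub ?_ (fun i => by simp [h5]) x)
  rw [h9, kron_transpose, h4, ← neg_kron]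
  congr 1
  rw [Sm, map_id', ← hU] at h7
  rw [eq_neg_iff_add_eq_zero, transpose_sub, transpose_smul, transpose_mul, transpose_mul, transpose_transpose,
    sub_add_sub_comm, ← smul_add, ← mul_assoc, ← add_mul, ← mul_add, add_comm Uᵀ, h7, smul_smul,
    inv_mul_cancel₀ (Sm.ne_zero hT.rf1.unit (by rwa [Sm, map_id', ← hU])), one_smul, sub_self]

end tensor

theorem plus_of_pure {l : ℕ} {e : ι ≃ Fin 2 × Fin l} {P : GL ι F}
    (h : ∀ (x : Fin 2 → F) (y : Fin l → F), f.Q (P.1 *ᵥ ((fun a : Fin 2 × Fin l => x a.1 * y a.2) ∘ e)) = 0) : IsPlusTypeOn f.Q ⊤ :=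
  plus_of_coord e P (fun b : Fin l => (0, b)) (fun _ _ h => (Prod.ext_iff.1 h).2) (by simp [Fintype.card_congr e])
    fun x hx => by
      rw [← h ![1, 0] fun b => x (0, b)]
      congr 3
      ext ⟨a, b⟩
      fin_cases a
      · simp
      · simpa using hx (1, b) (by simp)

theorem TF.pl34 {e : ι ≃ Fin 3 × Fin 4} {P : GL ι F} {J₁ : Matrix (Fin 3) (Fin 3) F} {J₂ : Matrix (Fin 4) (Fin 4) F}
    (hT : TF (RingHom.id F) (gr f) H e P J₁ J₂ 1 1) (hf : f.Nondeg) (h2 : (2 : F) ≠ 0) :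
    IsPlusTypeOn f.Q ⊤ ↔ IsPlusTypeOn (fun v => fm (RingHom.id F) J₂ v v) ⊤ := by
  obtain ⟨c, hc, h⟩ := hT.eq
  have h1 := pl_iff_det (hT.rf2.cO_nondeg h2) h2 (m := 2) (by simp)
  rw [show gr (hT.rf2.cO h2) = J₂ from gram_fm] at h1
  rw [pl_iff_det hf h2 (m := 6) hT.card, h, trJ, map_id', det_mul, det_mul, det_transpose, det_submatrix_equiv_self,
    det_smul, det_kronecker]
  refine Iff.trans ?_ (h1.symm.trans (by simp [IsPlusTypeOn, IsTotallySingularQuad, Rf.cO, h2]))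
  have h3 : (P⁻¹).1.det * c ^ 6 * J₁.det ^ 2 * J₂.det ≠ 0 := by
    have := (isUnit_iff_isUnit_det _).1 hT.rf1.unit
    have := (isUnit_iff_isUnit_det _).1 hT.rf2.unit
    have := (isUnit_iff_isUnit_det _).1 (P⁻¹).isUnit
    simp_all
  rw [← isSquare_sq_mul (a := (-1) ^ 2 * J₂.det) h3]
  simp only [Fintype.card_prod, Fintype.card_fin]
  exact iff_of_eq (congrArg _ (by ring))

theorem plus_of_invol (hf : f.Nondeg) (h2 : (2 : F) ≠ 0) (h4 : 4 ∣ Fintype.card ι) {x y : GL ι F}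
    (hx : x ∈ isometryGroup F f.Q) (hy : y ∈ isometryGroup F f.Q) (h : y.1 * x.1 = -(x.1 * y.1))
    (h1 : x.1 * x.1 = 1) : IsPlusTypeOn f.Q ⊤ := by
  let E := fun s : F => Module.End.eigenspace (toLin' x.1) s
  have hE : ∀ {s v}, v ∈ E s ↔ x.1 *ᵥ v = s • v := Module.End.mem_eigenspace_iff
  have h5 : E (-1) ≤ f.perp (E 1) := fun v hv u hu => mul_left_cancel₀ h2 (by
    have := isoB hx v u
    rw [hE.1 hv, hE.1 hu] at this
    simp at this
    linear_combination -this)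
  have h6 : E 1 ⊔ E (-1) = ⊤ := eq_top_iff.2 fun v _ => by
    rw [show v = (2 : F)⁻¹ • (v + x.1 *ᵥ v) + (2 : F)⁻¹ • (v - x.1 *ᵥ v) by match_scalars <;> field_simp <;> ring]
    refine Submodule.add_mem_sup (Submodule.smul_mem _ _ (hE.2 ?_)) (Submodule.smul_mem _ _ (hE.2 ?_))
    · rw [mulVec_add, mulVec_mulVec, h1, one_mulVec, one_smul, add_comm]
    · rw [mulVec_sub, mulVec_mulVec, h1, one_mulVec, neg_one_smul, neg_sub]
  have h7 : E 1 ⊓ f.perp (E 1) = ⊥ := (Submodule.eq_bot_iff _).2 fun v hv => hf v fun u => by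
    obtain ⟨a, ha, b, hb, rfl⟩ := Submodule.mem_sup.1 (h6.ge (Submodule.mem_top (x := u)))
    rw [B_add_right, hv.2 a ha, f.B_zero_symm (h5 hb v hv.1), add_zero]
  have h8 : ∀ s, (E s).map (toLin' y.1) ≤ E (-s) := by
    rintro s _ ⟨v, hv, rfl⟩
    rw [hE, toLin'_apply, mulVec_mulVec, ← neg_neg (x.1 * _), ← h, neg_mulVec, ← mulVec_mulVec, hE.1 hv, mulVec_smul,
      neg_smul]
  have h9 := Submodule.finrank_mono (h8 (-1))
  have h10 : (E 1).map (toLin' y.1) = E (-1) := Submodule.eq_of_le_of_finrank_le (h8 1) (by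
    rwa [finrank_map_gl, neg_neg, ← finrank_map_gl y (E 1)] at h9)
  have h11 := finrank_sup_of (inf_bot_of h7 h5)
  rw [h6, ← h10, finrank_map_gl] at h11
  exact h6 ▸ pl_pair h7 h5 (by simp at h11; rw [Nat.even_iff]; omega) (isom_iff.1 (isom_of_map hy h10))

theorem plus_of_quat (hf : f.Nondeg) (h2 : (2 : F) ≠ 0) {x y : GL ι F}
    (hx : x ∈ isometryGroup F f.Q) (hy : y ∈ isometryGroup F f.Q) (h : y.1 * x.1 = -(x.1 * y.1))
    (h1 : x.1 * x.1 = -1) (h3 : y.1 * y.1 = -1) : IsPlusTypeOn f.Q ⊤ := by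
  obtain ⟨p, _, -, hp, -⟩ := FiniteField.card' F
  have := NeZero.mk hp.ne_zero
  obtain ⟨a, b, hab⟩ := CharP.sq_add_sq F p (-1)
  have k1 : ∀ v, x.1 *ᵥ (x.1 *ᵥ v) = -v := fun v => by rw [mulVec_mulVec, h1, neg_mulVec, one_mulVec]
  have k2 : ∀ v, y.1 *ᵥ (y.1 *ᵥ v) = -v := fun v => by rw [mulVec_mulVec, h3, neg_mulVec, one_mulVec]
  have k3 : ∀ v, y.1 *ᵥ (x.1 *ᵥ v) = -(x.1 *ᵥ (y.1 *ᵥ v)) := fun v => by
    rw [mulVec_mulVec, h, neg_mulVec, mulVec_mulVec]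
  have k4 : ∀ {g : GL ι F}, g ∈ isometryGroup F f.Q → ∀ {v}, g.1 *ᵥ (g.1 *ᵥ v) = -v → f.B (g.1 *ᵥ v) v = 0 :=
    fun {g} hg v h => mul_left_cancel₀ h2 (by
      have := isoB hg (g.1 *ᵥ v) v
      rw [h, B_neg_left, orth_symm] at this
      linear_combination -this)
  let s := (a : F) • toLin' x.1 + (b : F) • toLin' y.1 + toLin' x.1 ∘ₗ toLin' y.1
  have h4 : LinearMap.ker s ≤ LinearMap.range s := fun v hv => ⟨(-2 : F)⁻¹ • x.1 *ᵥ (y.1 *ᵥ v), by
    have hv : (a : F) • x.1 *ᵥ v + (b : F) • y.1 *ᵥ v + x.1 *ᵥ (y.1 *ᵥ v) = 0 := hv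
    have := congrArg (fun w => x.1 *ᵥ (y.1 *ᵥ w)) hv
    simp only [s, LinearMap.add_apply, LinearMap.smul_apply, LinearMap.comp_apply, toLin'_apply, mulVec_smul,
      mulVec_add, mulVec_neg, mulVec_zero, k1, k2, k3, neg_neg] at this ⊢
    linear_combination (norm := match_scalars <;> field_simp <;> ring) (2 : F)⁻¹ • this⟩
  have h5 : IsTotallySingularQuad f.Q (LinearMap.range s) := by
    rintro _ ⟨v, rfl⟩
    have e1 := k4 hx (k1 (y.1 *ᵥ v))
    have e2 := k4 hy (k2 v)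
    have e3 := k4 (mul_mem hx hy) (v := v) (by simp only [Units.val_mul, ← mulVec_mulVec, k1, k2, k3, mulVec_neg, neg_neg])
    have e5 := (isoB hx (x.1 *ᵥ v) (y.1 *ᵥ v)).symm
    simp only [Units.val_mul, ← mulVec_mulVec] at e3
    rw [k1, B_neg_left, f.B_zero_symm e3, neg_zero] at e5
    simp only [s, LinearMap.add_apply, LinearMap.smul_apply, LinearMap.comp_apply, toLin'_apply, orth_Q_add,
      orth_Q_smul, isoQ hx, isoQ hy, B_add_left, B_smul_left, B_smul_right, isoB hx, e5, f.B_zero_symm e1,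
      f.B_zero_symm e2]
    push_cast at hab
    linear_combination f.Q v * hab
  have h6 := Submodule.finrank_mono h4
  have h7 := s.finrank_range_add_finrank_ker
  have := (orth_TS_iff.2 h5).two_mul_finrank_le hf
  exact ⟨_, le_top, h5, by rw [finrank_top]; omega⟩

theorem ES.plus [Nonempty ι] {r : ℕ} (h : ES N r) (hf : f.Nondeg) (hN : N ≤ isometryGroup F f.Q)
    (h4 : 4 ∣ Fintype.card ι) : IsPlusTypeOn f.Q ⊤ := by
  have hJ := (rf_gr hf).unit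
  obtain ⟨rfl, h2, -⟩ := h.bilin hJ (hN.trans isom_le)
  obtain ⟨x, hx, h0⟩ := SetLike.not_le_iff_exists.1 h.nsc
  obtain ⟨y, hy, c, h1, h3⟩ := h.exists_ne hx h0
  have h5 : ∀ c : Fˣ, (c : F) * c = 1 → (sc c : GL ι F).1 = 1 ∨ (sc c : GL ι F).1 = -1 := fun c hc =>
    (mul_self_eq_one_iff.1 hc).imp (fun h => by simp [h]) fun h => by simp [h]
  have h6 : y.1 * x.1 = -(x.1 * y.1) := by
    have := congrArg Units.val (mul_inv_eq_iff_eq_mul.1 h3)
    rcases h5 c (congrArg Units.val (sq_of_conj hJ (hN.trans isom_le) hx hy h3)) with h | h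
    · rw [sc_inj (d := 1) (ι := ι) (Units.ext (h.trans (by simp)))] at h1; simp at h1
    · simpa only [Units.val_mul, h, neg_mul, one_mul] using this
  have h7 : ∀ x ∈ N, x.1 * x.1 = 1 ∨ x.1 * x.1 = -1 := fun x hx => by
    obtain ⟨d, hd⟩ := h.pow x hx
    have hd : sc d = x ^ 2 := hd
    rw [← Units.val_mul, ← pow_two, ← hd]
    exact h5 d (eq_one_of_sc_mem hJ (isom_le (hN (hd ▸ pow_mem hx 2))))
  rcases h7 x hx with a | a
  · exact plus_of_invol hf h2 h4 (hN hx) (hN hy) h6 a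
  rcases h7 y hy with b | b
  · exact plus_of_invol hf h2 h4 (hN hy) (hN hx) (by rw [h6, neg_neg]) b
  · exact plus_of_quat hf h2 (hN hx) (hN hy) h6 a b

theorem Pow.plus [Nonempty ι] {e : ι ≃ (Fin 3 → Fin 2)} {P : GL ι F} {L : Subgroup (GL (Fin 2) F)}
    (hT : Pow H N (tr e P) L) (hf : f.Nondeg) (hN : N ≤ isometryGroup F f.Q) (hI : Irr N) : IsPlusTypeOn f.Q ⊤ := by
  obtain ⟨J₀, δ, h, hL, -, hδ⟩ := hT.pf (σ := RingHom.id F) (rf_gr hf) (hN.trans isom_le)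
  obtain ⟨a, ha⟩ := gram_unique hT.top isUnit_J2 fun l hl =>
    ⟨1, det_of_perfect hT.perf hl ▸ sm_J2 l.1, mem_isoG.1 (hL hl)⟩
  have h4 : ∀ i, J₀ i i = 0 := fun i => by fin_cases i <;> simp [ha, J2]
  have h2 : (2 : F) = 0 := by
    have h1 := congrFun₂ h.rf.swap 0 1
    have h3 : a ≠ 0 := by rintro rfl; exact h.rf.unit.ne_zero (by rw [ha, zero_smul])
    obtain rfl : δ = -1 := mul_right_cancel₀ h3 (by simpa [ha, J2] using h1.symm)
    have : (-1 : F) ^ 3 = 1 := hδ rfl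
    linear_combination -this
  have h3 := h.rf.symm_of_two h2
  obtain ⟨U, hU⟩ := exists_upper h3 h4
  let m := ptM.toLinearMap (fun _ : Fin 3 => J₀) 0
  have hm : ∀ X, m X = pt (Function.update (fun _ => J₀) 0 X) := fun _ => rfl
  have h5 : ∀ X, (m X)ᵀ = m Xᵀ := fun X => by
    rw [hm, hm, pt_transpose]
    exact congrArg pt (funext fun j => by by_cases hj : j = 0 <;> simp [hj, h3])
  obtain ⟨c, -, h6⟩ := h.eq
  have h7 : trJ (RingHom.id F) e P (c • m U) + (trJ (RingHom.id F) e P (c • m U))ᵀ = gr f := by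
    rw [trJ_transpose, ← trJ_add, transpose_smul, h5, ← smul_add, ← map_add, hU, h6, hm, Function.update_eq_self]
  have hn : Fintype.card ι = 8 := h.card
  refine plus_of_coord e P (fun b : Fin 2 × Fin 2 => ![b.1, 0, b.2]) (fun a b h => Prod.ext (congrFun h 0)
    (congrFun h 2)) (by simp [hn]) fun x hx => ?_
  rw [quad_unique hI (by omega) (Q' := fun v => fm (RingHom.id F) (trJ (RingHom.id F) e P (c • m U)) v v)
    f.orth_Q_smul (fun c v => by rw [fm_smul_left, fm_smul_right, pow_two, mul_assoc]; rfl)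
    (by rw [polar_eq, polar_fm, h7]) hN (hT.gen.ge.trans (iSup_le fun i => ?_))]
  · have h8 : ∀ a, a 1 ≠ 0 → x a = 0 := fun a h => hx a (by rintro ⟨b, rfl⟩; exact h rfl)
    beta_reduce
    rw [fm_trJ, fm_smul, fm_eq_sum, hm, Finset.sum_eq_zero fun a _ => Finset.sum_eq_zero fun b _ => ?_, mul_zero]
    by_cases h9 : a 1 = 0
    · by_cases h10 : b 1 = 0
      · simp [pt, Fin.prod_univ_three, h9, h10, h4]
      · simp [h8 b h10]
    · simp [h8 a h9]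
  rintro _ ⟨x, hx, rfl⟩ v -
  obtain ⟨v, rfl⟩ := exists_coord e P v
  change fm _ _ (tr e P (emb i x.1) *ᵥ _) (tr e P (emb i x.1) *ᵥ _) = fm _ _ _ _
  have h8 := mem_isoG.1 (hL hx)
  rw [Sm, map_id', one_smul] at h8
  have h9 : (emb i x.1)ᵀ * m U * emb i x.1 = m (if i = 0 then x.1ᵀ * U * x.1 else U) := by
    rw [← emb_transpose, emb_apply, emb_apply, hm, hm, ← pt_mul, ← pt_mul]
    refine congrArg pt (funext fun j => ?_)
    by_cases hi : j = i
    · subst hi; by_cases hj : j = 0 <;> simp [hj, h8]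
    · by_cases hj : j = 0
      · subst hj; simp [hi, Ne.symm hi]
      · simp [hi, hj]
  rw [tr_mulVec, fm_trJ, fm_trJ, fm_smul, fm_smul, fm_mulVec, map_id', h9]
  split_ifs
  swap; · rfl
  refine congrArg _ (fm_eq_of_sub ?_ (fun i => ?_) v)
  · rw [← map_sub, h5, ← map_neg]
    congr 1
    rw [eq_neg_iff_add_eq_zero, transpose_sub, transpose_mul, transpose_mul, transpose_transpose,
      sub_add_sub_comm, ← mul_assoc, ← add_mul, ← mul_add, add_comm Uᵀ, hU, h8, sub_self]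
  · rw [← map_sub, hm]
    simp [pt, Fin.prod_univ_three, h4]

/-- the classes of irreducible subgroups in dimension 8 (minus type), 10 and 12 -/
def ECl (f : CForm (FType.orth F) (ι → F)) (H : Subgroup (GL ι F)) (m : ℕ) : Prop :=
  OD f H m ∨ (IsPlusTypeOn f.Q ⊤ ∧ Even m ∧ ∃ D : Fin 2 → Submodule F (ι → F),
      IsMDecomposition m D ∧ (∀ i, IsTotallySingularQuad f.Q (D i)) ∧ H ≤ decompositionStabilizer D) ∨
  (∃ r K, r.Prime ∧ IsFieldSubalgebra r K ∧ Nrm H K ∧ (Odd m → AdC (RingHom.id F) (gr f) K)) ∨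
  (IsPlusTypeOn f.Q ⊤ ∧ Even m ∧ 3 ≤ Fintype.card F ∧ ∃ (e : ι ≃ Fin 2 × Fin m) (P : GL ι F)
    (f₁ : (Fin 2 → F) → (Fin 2 → F) → F) (f₂ : (Fin m → F) → (Fin m → F) → F), IsSymplecticForm f₁ ∧
    IsSymplecticForm f₂ ∧ IsTensorFormStructure id (QuadraticMap.polar f.Q) f₁ f₂ e P ∧
    (∀ (x : Fin 2 → F) (y : Fin m → F), f.Q (P.1 *ᵥ ((fun a : Fin 2 × Fin m => x a.1 * y a.2) ∘ e)) = 0) ∧
    H ≤ tensorProductSubgroup 2 m e P) ∨
  (Odd (Fintype.card F) ∧ 5 ≤ Fintype.card F ∧ ∃ (e : ι ≃ Fin 3 × Fin 4) (P : GL ι F) (J₁ : Matrix (Fin 3) (Fin 3) F)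
    (J₂ : Matrix (Fin 4) (Fin 4) F), TF (RingHom.id F) (gr f) H e P J₁ J₂ 1 1) ∨
  (∃ φ P b, SF (RingHom.id F) (gr f) H φ P b) ∨ InOrthogonalResidualClass H

section ecl

variable [Nonempty ι] (hf : f.Nondeg) {m : ℕ} (hm : Fintype.card ι = 2 * m) (h4 : 4 ≤ m) (hH : H ≤ omegaGL f.Q)
  (hI : Irr H)
include hf hm h4 hH hI

omit h4 in
theorem ECl.of_nd {k : ℕ} (h : ND (RingHom.id F) (gr f) H k) : ECl f H m :=
  (h.od hf hm (hH.trans omega_le) hI).imp_right fun h => .inr <| .inr <| .inr <| .inr <| .inl h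

theorem ECl.of_ca (h : CA (RingHom.id F) (gr f) H) : ECl f H m := by
  rcases (rf_gr hf).comm' (hH.trans (omega_le.trans isom_le)) hI h with ⟨k, h⟩ | ⟨h, -⟩ | ⟨r, K, h1, h2, h3, h5⟩
  · exact .of_nd hf hm hH hI h
  · exact .inr <| .inl <| TI.ts hf hH hI hm (by omega) h
  · exact .inr <| .inr <| .inl ⟨r, K, h1, h2, h3, fun _ => h5⟩

theorem ECl.of_tf (h6 : m ≤ 6) {k l : ℕ} {e : ι ≃ Fin k × Fin l} {P : GL ι F} {J₁ : Matrix (Fin k) (Fin k) F}
    {J₂ : Matrix (Fin l) (Fin l) F} {δ₁ δ₂ : F} (hT : TF (RingHom.id F) (gr f) H e P J₁ J₂ δ₁ δ₂) (hk : k ≤ l)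
    (hδ : δ₁ * δ₂ = 1) : ECl f H m := by
  have h1 := hT.card.symm.trans hm
  have h3 := hT.twok
  have hq := Fintype.one_lt_card (α := F)
  have : NeZero k := ⟨by omega⟩
  have : NeZero l := ⟨by omega⟩
  by_cases h : (∀ v, fm (RingHom.id F) J₁ v v = 0) ∧ ∀ v, fm (RingHom.id F) J₂ v v = 0
  · have h7 := symp_fm hT.rf1.unit h.1
    have h8 := symp_fm hT.rf2.unit h.2
    obtain ⟨a, ha⟩ := even_of_symp h7
    have h9 := even_of_symp h8
    rw [Fintype.card_fin] at ha h9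
    obtain rfl : k = 2 := by
      by_contra; have := Nat.mul_le_mul (show 4 ≤ k by omega) (show 4 ≤ l by omega); omega
    obtain rfl : l = m := by omega
    have h10 := hT.pure (hH.trans omega_le) hI h.2
    by_cases h11 : Fintype.card F = 2
    · obtain ⟨K, h12, h13⟩ := tensor_field h11 e P
      exact .inr <| .inr <| .inl ⟨2, K, Nat.prime_two, h12, nrm_iff.2 (hT.le_tensor.trans h13),
        fun h => absurd h9 (Nat.not_even_iff_odd.2 h)⟩
    · exact .inr <| .inr <| .inr <| .inl ⟨plus_of_pure h10, h9, by omega, e, P, _, _, h7, h8,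
        polar_eq (f := f) ▸ hT.struct, h10, hT.le_tensor⟩
  have h2 : (2 : F) ≠ 0 := fun h2 => h ⟨hT.alt h2 hI, hT.swap.alt h2 hI⟩
  have h7 := odd_of_two_ne_zero h2
  obtain rfl := hT.rf1.eps.resolve_right (by
    rintro rfl
    obtain rfl : δ₂ = -1 := by linear_combination -hδ
    exact h ⟨(hT.rf1.skew h7).alternating, (hT.rf2.skew h7).alternating⟩)
  obtain rfl : δ₂ = 1 := by linear_combination hδ
  rcases h3.eq_or_lt with rfl | h3
  · exact .of_ca hf hm h4 hH hI (hT.ca2 (rf_gr hf) h2)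
  obtain rfl : k = 3 := by
    by_contra; have := Nat.mul_le_mul (show 4 ≤ k by omega) (show 4 ≤ l by omega); omega
  obtain rfl : l = 4 := by omega
  by_cases h8 : Fintype.card F = 3
  · exact .of_ca hf hm h4 hH hI (hT.ca33 (rf_gr hf) h8)
  · exact .inr <| .inr <| .inr <| .inr <| .inl ⟨h7, by obtain ⟨s, hs⟩ := h7; omega, e, P, _, _, hT⟩

theorem eCl (h6 : m ≤ 6) (h8 : m = 4 → ¬ IsPlusTypeOn f.Q ⊤) : ECl f H m := by
  have h : Rf (RingHom.id F) (gr f) 1 := rf_gr hf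
  obtain ⟨N, hN⟩ := exists_minN' hI (by omega)
  have hQ := hN.le.trans (hH.trans omega_le)
  have hJ := hH.trans (omega_le.trans isom_le)
  rcases hN.raw hI with h1 | ⟨k, l, Ψ, L, h1⟩ | ⟨ht, ⟨r, h1⟩ | ⟨hp, h1 | ⟨t, k, Ψ, L, h1⟩⟩⟩
  · exact .of_ca hf hm h4 hH hI ⟨_, (nrm_alg hN.nm).ctr, ctr_comm, h.adC_ctr (h.adC_alg (hQ.trans isom_le)), h1⟩
  · obtain ⟨e, P, rfl⟩ := eq_tr (Ψ := Ψ)
    obtain ⟨J₁, J₂, δ₁, δ₂, h3, -, -, h5⟩ := h1.tf h hJ hN.le
    rcases le_total k l with h7 | h7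
    · exact .of_tf hf hm h4 hH hI h6 h3 h7 (h5 rfl)
    · exact .of_tf hf hm h4 hH hI h6 h3.swap h7 ((mul_comm _ _).trans (h5 rfl))
  · obtain ⟨rfl, -⟩ := h1.bilin h.unit (hQ.trans isom_le)
    obtain ⟨k, -, h5, -⟩ := h1.card_eq ht
    have h7 : k < 4 := (Nat.pow_lt_pow_iff_right one_lt_two).1 (by omega)
    obtain rfl : m = 4 := by interval_cases k <;> omega
    exact absurd (h1.plus hf hQ (by omega)) (h8 rfl)
  · exact .inr <| .inr <| .inr <| .inr <| .inr <| (simple_cases hN hp ht h1 h.unit hJ).imp_right fun ⟨h3, h4⟩ =>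
      ⟨N, h3, not_unit_of h4 h.unit (hQ.trans isom_le)⟩
  · obtain ⟨e, P, rfl⟩ := eq_tr (Ψ := Ψ)
    have h5 : 2 * m = k ^ t := by simp [← hm, Fintype.card_congr e]
    rcases h1.twot.eq_or_lt with rfl | h7
    · have : k < 4 := by by_contra; have := Nat.pow_le_pow_left (show 4 ≤ k by omega) 2; omega
      interval_cases k <;> omega
    obtain ⟨h9, rfl, rfl⟩ := pow_cases' h7 h5 (by omega) (by omega)
    exact absurd (h1.plus hf hQ (irr_of_alg ht)) (h8 (by omega))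

end ecl

theorem SF.fin (hf : f.Nondeg) {m : ℕ} (hm : Fintype.card ι = 2 * m) (h4 : 4 ≤ m) (hH : H ≤ omegaGL f.Q) (hI : Irr H)
    {Φ : Subgroup (GL ι F) → Prop} (hΦ : ∀ X, H ≤ X → ¬ omegaGL f.Q ≤ X → Φ X)
    (h : ∃ φ P b, SF (RingHom.id F) (gr f) H φ P b) : ∃ (F₀ : Subfield F) (r : ℕ) (P : GL ι F) (ζ : F), r.Prime ∧
      (¬ IsPlusTypeOn f.Q ⊤ → Odd r) ∧ Fintype.card F = Nat.card F₀ ^ r ∧ ζ ≠ 0 ∧
      IsQuadFormRationalStructure (fun v => ζ * f.Q v) F₀ P ∧ Φ (subfieldSubgroup F₀ P) := by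
  obtain ⟨φ, P, b, h⟩ := h
  have hB := big_Om hf (by omega)
  have := hB.nonempty
  have h1 := h.sq hf (hH.trans omega_le) hI (by omega)
  exact ⟨_, _, P, b, h.1, fun h2 => h.1.eq_two_or_odd'.resolve_left fun h3 => h2 (sq_plus hf hm (by omega) h.2.2.1 h3 h1),
    card_fx φ, h.2.2.1, sq_rat h1, hΦ _ h.2.1.le (hB.not_subfield h.1.one_lt (card_fx φ))⟩

end Cfsg.Agent.H4.As
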