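import Cfsg.Agent.H4.As22

/-! Aschbacher's theorem, part 23: field extension subgroups of orthogonal groups. -/

set_option autoImplicit false
set_option linter.unusedSectionVars false

namespace Cfsg.Agent.H4.As

open Matrix Module Cfsg.Geo CForm
open scoped MatrixGroups Kronecker commutatorElement

variable {ι : Type} [Fintype ι] [DecidableEq ι] {F : Type*} [Field F]
  [Fintype F] {H N : Subgroup (GL ι F)} {f : CForm (FType.orth F) (ι → F)} {σ : F →+* F} {J : Matrix ι ι F} {ε : F}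
  {K A : Subalgebra F (Matrix ι ι F)} {r : ℕ} [Nonempty ι]

/-- the outcome of the refinement -/
def F2 (σ : F →+* F) (J : Matrix ι ι F) (H : Subgroup (GL ι F)) : Prop :=
  (∃ m, ND σ J H m) ∨ TI σ J H ∨ ∃ K, IsFieldSubalgebra 2 K ∧ Nrm H K ∧ AdC σ J K

theorem Rf.f2_of_lt (h : Rf σ J ε) (hH : H ≤ isoG σ J) (hI : Irr H) (hK : IsFieldSubalgebra r K)
    (hn : Fintype.card ι = 2 * r) (h1 : K < A) (hA : Nrm H A) (hc : ∀ a ∈ A, ∀ b ∈ A, a * b = b * a)
    (ha : AdC σ J A) : F2 σ J H := by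
  rcases comm_cases hI hA hc with h2 | h2
  swap
  · obtain ⟨s, hs⟩ := finrank_dvd hc h2
    have h3 : finrank F K < finrank F A := Submodule.finrank_lt_finrank_of_lt (s := K.toSubmodule) (t := A.toSubmodule) h1
    rw [hK.finrank_eq] at h3
    obtain rfl : s = 1 := by
      have := Fintype.card_pos (α := ι)
      rcases s with _ | _ | s
      · omega
      · rfl
      · nlinarith
    obtain ⟨K', h2, h3⟩ := exists_subfield hc h2 (r := 2) ⟨r, by omega⟩
    exact .inr (.inr ⟨K', h2, nrm_subfield hA h3, fun x hx =>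
      (h3 _).2 ⟨ha x ((h3 x).1 hx).1, by rw [← h.ad_pow, ((h3 x).1 hx).2]⟩⟩)
  obtain ⟨p, _, n, hp, hq⟩ := FiniteField.card' F
  have := Fact.mk hp
  let E : Subalgebra F (Matrix ι ι F) :=
    { carrier := {x | x ∈ A ∧ x ^ Fintype.card F = x}
      mul_mem' := fun {a b} x y => ⟨mul_mem x.1 y.1, by rw [Commute.mul_pow (hc a x.1 b y.1), x.2, y.2]⟩
      add_mem' := fun {a b} x y => ⟨add_mem x.1 y.1, by
        rw [hq, add_pow_char_pow_of_commute _ _ (hc a x.1 b y.1), ← hq, x.2, y.2]⟩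
      algebraMap_mem' := fun c => ⟨A.algebraMap_mem c, by rw [← map_pow, FiniteField.pow_card]⟩ }
  have hE := idS_PI hA hc
  obtain ⟨e, he, h3⟩ : ∃ e ∈ PI A, e ≠ 1 := by
    by_contra! h3
    exact h2 (hE.nonempty.subset_singleton_iff.1 h3)
  rcases h.comm hH hI (K := E) (nrm_subfield hA fun _ => Iff.rfl) (fun a x b y => hc a x.1 b y.1)
    (fun x hx => ⟨ha x hx.1, by rw [← h.ad_pow, hx.2]⟩) (fun h4 => by
      obtain ⟨c, rfl⟩ := isSc_iff_bot.2 (h4.le (x := e) ⟨he.1, IsIdempotentElem.pow_eq he.2.1 Fintype.card_ne_zero⟩)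
      have h5 := he.2.1
      rw [smul_mul_smul_comm, mul_one] at h5
      rcases IsIdempotentElem.iff_eq_zero_or_one.1 (smul_left_injective F one_ne_zero h5) with rfl | rfl
      exacts [he.2.2.1 (zero_smul _ _), h3 (one_smul _ _)]) with h4 | h4 | ⟨r, K', h4, h5, h6, -⟩
  · exact .inl h4
  · exact .inr (.inl h4.1)
  · have : K' = ⊥ := eq_bot_iff.2 fun x hx => isSc_iff_bot.1 (isSc_of_pow h6 hx (h5 hx).2)
    exact absurd (h6.finrank_eq.symm.trans (by rw [this, Subalgebra.finrank_bot])) h4.one_lt.ne'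

theorem Rf.f2_of_elt (h : Rf σ J ε) (hH : H ≤ isoG σ J) (hI : Irr H) (hK : IsFieldSubalgebra r K)
    (hn : Fintype.card ι = 2 * r) (hN : Nrm H K) (ha : AdC σ J K) {s : Matrix ι ι F} (h0 : s ∉ K)
    (hc : ∀ k ∈ K, k * s = s * k) (h1 : ∀ g ∈ H, ∃ a ∈ K, ∃ b ∈ K, cj g s = a * s + b)
    (h2 : ∃ a ∈ K, ∃ b ∈ K, ad σ J s = a * s + b) : F2 σ J H := by
  have h3 : K ≤ Algebra.adjoin F (insert s (K : Set _)) := fun x hx => Algebra.subset_adjoin (.inr hx)
  have h4 : s ∈ Algebra.adjoin F (insert s (K : Set _)) := Algebra.subset_adjoin (.inl rfl)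
  have h5 : ∀ {x}, (∃ a ∈ K, ∃ b ∈ K, x = a * s + b) → x ∈ Algebra.adjoin F (insert s (K : Set _)) := by
    rintro _ ⟨a, x, b, y, rfl⟩; exact add_mem (mul_mem (h3 x) h4) (h3 y)
  refine h.f2_of_lt hH hI hK hn (lt_of_le_of_ne h3 fun h => h0 (h ▸ h4)) (fun g hg x hx => ?_) (fun a x b y => ?_)
    fun x hx => ?_
  · induction hx using Algebra.adjoin_induction with
    | mem x hx => rcases hx with rfl | hx; exacts [h5 (h1 g hg), h3 (hN g hg x hx)]
    | algebraMap c => exact h3 (hN g hg _ (K.algebraMap_mem c))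
    | add x y _ _ a b => rw [map_add]; exact add_mem a b
    | mul x y _ _ a b => rw [map_mul]; exact mul_mem a b
  · refine (Algebra.commute_of_mem_adjoin_of_forall_mem_commute y fun b y =>
      (Algebra.commute_of_mem_adjoin_of_forall_mem_commute x fun c z => ?_).symm).eq
    rcases z with rfl | z <;> rcases y with rfl | y
    exacts [rfl, hc _ y, (hc _ z).symm, hK.comm _ y _ z]
  · induction hx using Algebra.adjoin_induction with
    | mem x hx => rcases hx with rfl | hx; exacts [h5 h2, h3 (ha x hx)]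
    | algebraMap c => exact h3 (ha _ (K.algebraMap_mem c))
    | add x y _ _ a b => rw [ad_add]; exact add_mem a b
    | mul x y _ _ a b => rw [h.ad_mul]; exact mul_mem b a

theorem sa_B (hf : f.Nondeg) {k : Matrix ι ι F} (h : ad (RingHom.id F) (gr f) k = k) (u v : ι → F) :
    f.B (k *ᵥ u) v = f.B u (k *ᵥ v) := by
  rw [← fmB, Rf.fm_ad (σ := RingHom.id F) (rf_gr hf), h, fmB]

theorem line_unique (hf : f.Nondeg) (hK : IsFieldSubalgebra r K) (hn : Fintype.card ι = 2 * r)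
    (hs : ∀ k ∈ K, ad (RingHom.id F) (gr f) k = k) {x y : Matrix ι ι F} (h0 : x ≠ 0)
    (hx : ∀ k ∈ K, k * x = x * k) (hy : ∀ k ∈ K, k * y = y * k) (h1 : ∀ k ∈ K, ∀ v, f.B ((k * x) *ᵥ v) v = 0)
    (h2 : ∀ k ∈ K, ∀ v, f.B ((k * y) *ᵥ v) v = 0) : ∃ k ∈ K, y = k * x := by
  obtain ⟨v, hv⟩ : ∃ v, x *ᵥ v ≠ 0 := by by_contra! h; exact h0 (eq_of_mulVec fun v => by rw [h, zero_mulVec])
  have h3 : ∀ {v}, v ≠ 0 → finrank F (LinearMap.range (ev K v)) = r := fun {v} hv => by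
    have := finrank_sup_ev hK (U := ⊥) (by simp) (v := v) (by simpa)
    rwa [bot_sup_eq, finrank_bot, zero_add] at this
  have h4 : v ≠ 0 := by rintro rfl; simp at hv
  have h5 := hf.finrank_perp (LinearMap.range (ev K v))
  have h6 : ∀ {z}, (∀ k ∈ K, f.B (k *ᵥ z) v = 0) → z ∈ f.perp (LinearMap.range (ev K v)) := by
    rintro z h _ ⟨k, rfl⟩; exact (sa_B hf (hs k k.2) z v).symm.trans (h k k.2)
  obtain ⟨k, hk⟩ : y *ᵥ v ∈ LinearMap.range (ev K (x *ᵥ v)) := (Submodule.eq_of_le_of_finrank_eq (by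
    rintro _ ⟨k, rfl⟩
    exact h6 fun l hl => by
      change f.B (l *ᵥ (k.1 *ᵥ (x *ᵥ v))) v = 0
      rw [mulVec_mulVec, mulVec_mulVec, h1 _ (mul_mem hl k.2)]) (by
        rw [h3 h4, finrank_fintype_fun_eq_card] at h5; rw [h3 hv]; omega)).ge
      (h6 fun l hl => by rw [mulVec_mulVec, h2 l hl])
  refine ⟨k, k.2, sub_eq_zero.1 ?_⟩
  have h7 : (y - k.1 * x) *ᵥ v = 0 := by rw [sub_mulVec, ← hk, ← mulVec_mulVec]; exact sub_self _
  have h8 : ∀ l ∈ K, l * (y - k.1 * x) = (y - k.1 * x) * l := fun l hl => by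
    rw [mul_sub, sub_mul, hy l hl, ← mul_assoc, hK.comm l hl k k.2, mul_assoc, hx l hl, mul_assoc]
  have h9 : ∀ l ∈ K, ∀ v, f.B ((l * (y - k.1 * x)) *ᵥ v) v = 0 := fun l hl v => by
    rw [mul_sub, sub_mulVec, B_sub_left, h2 l hl, ← mul_assoc, h1 _ (mul_mem hl k.2), sub_zero]
  generalize y - k.1 * x = z at h7 h8 h9
  refine eq_of_mulVec fun w => ?_
  rw [zero_mulVec]
  by_cases hw : w ∈ LinearMap.range (ev K v)
  · obtain ⟨l, rfl⟩ := hw
    change z *ᵥ (l.1 *ᵥ v) = 0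
    rw [mulVec_mulVec, ← h8 _ l.2, ← mulVec_mulVec, h7, mulVec_zero]
  have h10 := finrank_sup_ev hK (by rintro k hk _ ⟨l, rfl⟩; exact ⟨⟨k, hk⟩ * l, (mulVec_mulVec ..).symm⟩) hw
  refine hf _ fun u => ?_
  obtain ⟨a, ha, _, ⟨l, rfl⟩, rfl⟩ := Submodule.mem_sup.1 ((Submodule.eq_top_of_finrank_eq (h10.trans (by
    rw [h3 h4, finrank_fintype_fun_eq_card]; omega))).ge (Submodule.mem_top (x := u)))
  rw [B_add_right, h6 (fun l hl => by
    have := h9 l hl (v + w)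
    rwa [mulVec_add, B_add_left, B_add_right, B_add_right, h9 l hl, h9 l hl, ← mulVec_mulVec, h7, mulVec_zero, map_zero,
      LinearMap.zero_apply, add_zero, zero_add, add_zero, ← mulVec_mulVec] at this) a ha, zero_add]
  exact (sa_B hf (hs l l.2) _ w).symm.trans (by rw [mulVec_mulVec, h9 l l.2])

section avg

variable {L : Type*} [Field L] [Algebra F L] [Fintype L] (φ : L →ₐ[F] Matrix ι ι F)

/-- averaging over a field of matrices -/
noncomputable def avg (x : Matrix ι ι F) : Matrix ι ι F := ∑ k : L, φ k * x * φ k⁻¹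

theorem avg_comm (x : Matrix ι ι F) (a : L) : φ a * avg φ x = avg φ x * φ a := by
  rcases eq_or_ne a 0 with rfl | h
  · simp
  rw [avg, Finset.mul_sum, Finset.sum_mul, ← Equiv.sum_comp (Equiv.mulLeft₀ a h) (fun k => _ * φ a)]
  refine Finset.sum_congr rfl fun k _ => ?_
  rw [Equiv.mulLeft₀_apply, mul_assoc _ _ (φ a), ← map_mul, mul_inv, mul_comm a⁻¹, inv_mul_cancel_right₀ h, map_mul]
  simp only [mul_assoc]

theorem avg_not_mem (hn : finrank F L < Fintype.card ι) : ∃ x, avg φ x ∉ φ.range := by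
  classical
  obtain ⟨i⟩ := ‹Nonempty ι›
  refine ⟨single i i 1, fun ⟨a, ha⟩ => ?_⟩
  have h1 : trace (avg φ (single i i 1)) = -1 := by
    have : ∀ k : L, trace (φ k * single i i 1 * φ k⁻¹) = 1 - if k = 0 then 1 else 0 := fun k => by
      split_ifs with h
      · simp [h]
      · rw [trace_mul_cycle, ← map_mul, inv_mul_cancel₀ h]; simp
    have h2 : (Fintype.card L : F) = 0 := (algebraMap F L).injective (by simp)
    simp [avg, trace_sum, this, h2]
  have h2 : a ≠ 0 := by rintro rfl; simp [← ha] at h1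
  refine hn.not_ge ((finrank_fintype_fun_eq_card F).ge.trans (LinearMap.finrank_le_finrank_of_surjective
    (f := (toLin'.toLinearMap.flip (Pi.single i 1)).comp φ.toLinearMap) fun w =>
      ⟨∑ k : L, (φ k⁻¹ *ᵥ (φ a⁻¹ *ᵥ w)) i • k, ?_⟩))
  have : avg φ (single i i 1) *ᵥ (φ a⁻¹ *ᵥ w) = w := by
    rw [← ha, mulVec_mulVec]; erw [← map_mul]; rw [mul_inv_cancel₀ h2, map_one, one_mulVec]
  rw [map_sum]
  refine Eq.trans ?_ this
  rw [avg, sum_mulVec]
  refine Finset.sum_congr rfl fun k _ => ?_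
  rw [map_smul, ← mulVec_mulVec, ← mulVec_mulVec, single_mulVec, one_mul]
  exact (mulVec_smul _ _ _).symm.trans (congrArg _ (by ext j; by_cases h : j = i <;> simp [h]))

theorem avg_quad (hf : f.Nondeg) (h2 : (2 : F) = 0) (hs : ∀ k, ad (RingHom.id F) (gr f) (φ k) = φ k)
    {x : Matrix ι ι F} (hx : ∀ w, f.B (x *ᵥ w) w = f.Q w) (w : ι → F) : f.B (avg φ x *ᵥ w) w = f.Q w := by
  classical
  have h3 : (2 : L) = 0 := by rw [← map_ofNat (algebraMap F L), h2, map_zero]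
  rw [avg, sum_mulVec, map_sum, LinearMap.sum_apply, ← Finset.add_sum_erase _ _ (Finset.mem_univ 1),
    Finset.sum_involution (fun k _ => k⁻¹) (fun k _ => ?_) (fun k hk h h4 => ?_) (by simp) (by simp)]
  · simp [hx]
  · rcases eq_or_ne k 0 with rfl | h
    · simp
    have := hx (φ k⁻¹ *ᵥ w + φ k *ᵥ w)
    rw [mulVec_add, B_add_left, B_add_right, B_add_right, hx, hx, orth_Q_add, sa_B hf (hs _), mulVec_mulVec _ (φ _) (φ _),
      ← map_mul, inv_mul_cancel₀ h, map_one, one_mulVec, orth_B_self, h2] at this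
    simp only [← mulVec_mulVec, sa_B hf (hs _), inv_inv]
    linear_combination this
  · rcases inv_eq_self₀.1 h4 with h5 | rfl | h5
    · exact Finset.ne_of_mem_erase hk (by linear_combination h5 - h3)
    · simp at h
    · exact Finset.ne_of_mem_erase hk h5

end avg

theorem exists_half (hf : f.Nondeg) : ∃ x : Matrix ι ι F, ∀ w, f.B (x *ᵥ w) w = f.Q w := by
  obtain ⟨b, hb⟩ := LinearMap.BilinMap.toQuadraticMap_surjective f.toQuad
  refine ⟨(gramMatrix (fun u v => b u v) * (gr f)⁻¹)ᵀ, fun w => ?_⟩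
  rw [← fmB, fm_left, transpose_transpose, nonsing_inv_mul_cancel_right _ _ ((isUnit_iff_isUnit_det _).1 (rf_gr hf).unit),
    ← IsBilinearForm.as_eq ⟨by simp, by simp, by simp, by simp⟩]
  exact DFunLike.congr_fun hb w

theorem f2_of_sa (hf : f.Nondeg) (hH : H ≤ isometryGroup F f.Q) (hI : Irr H) (hK : IsFieldSubalgebra r K)
    (hn : Fintype.card ι = 2 * r) (hN : Nrm H K) (hs : ∀ k ∈ K, ad (RingHom.id F) (gr f) k = k) :
    F2 (RingHom.id F) (gr f) H := by
  have h : Rf (RingHom.id F) (gr f) 1 := rf_gr hf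
  have hJ := hH.trans isom_le
  have ha : AdC (RingHom.id F) (gr f) K := fun k hk => (hs k hk).symm ▸ hk
  have hr : r < Fintype.card ι := by have := Fintype.card_pos (α := ι); omega
  have h1 : ∀ g ∈ H, ∀ {x}, (∀ k ∈ K, k * x = x * k) → ∀ k ∈ K, k * cj g x = cj g x * k := fun g hg x hx k hk => by
    rw [← cj_cj_inv g k, ← map_mul, ← map_mul, hx _ (hN _ (inv_mem hg) k hk)]
  have h3 : ∀ {x}, (∀ k ∈ K, k * x = x * k) → ∀ k ∈ K, k * ad (RingHom.id F) (gr f) x = ad (RingHom.id F) (gr f) x * k :=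
    fun hx k hk => by rw [← hs k hk, ← h.ad_mul, ← h.ad_mul, hx k hk]
  let _ := (isField_of hK.comm hK.inv).toField
  have : Finite K := Module.finite_of_finite F
  let _ := Fintype.ofFinite K
  by_cases h2 : (2 : F) = 0
  · obtain ⟨x, hx⟩ := exists_half hf
    have h4 := avg_quad K.val hf h2 (fun k => hs k k.2) hx
    have h5 : ∀ k ∈ K, k * avg K.val x = avg K.val x * k := fun k hk => avg_comm K.val x ⟨k, hk⟩
    generalize avg K.val x = s at h4 h5
    have h6 : ∀ k ∈ K, ∀ v, f.B ((k * 1) *ᵥ v) v = 0 := fun k hk v => by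
      rw [mul_one, ← fmB]
      exact Rf.sa_alt (by rwa [show (-1 : F) = 1 by linear_combination -h2]) hJ hI hK hN hr hs hk v
    have h7 : ∀ y, (∀ k ∈ K, k * y = y * k) → (∀ w, f.B (y *ᵥ w) w = f.Q w) → ∃ a ∈ K, ∃ b ∈ K, y = a * s + b :=
      fun y h7 h8 => by
        obtain ⟨b, hb, h9⟩ := line_unique hf hK hn hs one_ne_zero (by simp) (y := y - s)
          (fun k hk => by rw [mul_sub, sub_mul, h7 k hk, h5 k hk]) h6 fun k hk v => by
            obtain ⟨l, hl⟩ := Finite.surjective_of_injective (f := fun l : K => l * l) (fun a b h => by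
              rcases mul_self_eq_mul_self_iff.1 h with h | h
              · exact h
              · rw [h, neg_eq_iff_add_eq_zero, ← two_smul F, h2, zero_smul]) ⟨k, hk⟩
            obtain rfl : l.1 * l.1 = k := congrArg Subtype.val hl
            rw [mul_assoc, ← mulVec_mulVec, sa_B hf (hs _ l.2), mul_sub, h7 _ l.2, h5 _ l.2, ← sub_mul, ← mulVec_mulVec,
              sub_mulVec, B_sub_left, h8, h4, sub_self]
        exact ⟨1, one_mem _, b, hb, by rw [one_mul, ← sub_eq_iff_eq_add', h9, mul_one]⟩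
    refine h.f2_of_elt hJ hI hK hn hN ha (fun h8 => ?_) h5 (fun g hg => h7 _ (h1 g hg h5) fun w => ?_)
      (h7 _ (h3 h5) fun w => by rw [← fmB, h.fm_ad', fmB, orth_symm, h4])
    · obtain ⟨v, hv⟩ := hf.orth_represents (by simp; omega) 1
      exact one_ne_zero (hv.symm.trans ((h4 v).symm.trans (by simpa using h6 s h8 v)))
    · rw [← mulVec_inv g w, cj_mulVec, isoB (hH hg), h4, isoQ (hH hg)]
  by_cases h4 : ∀ y, (∀ k ∈ K, k * y = y * k) → ad (RingHom.id F) (gr f) y = y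
  · obtain ⟨x, hx⟩ := avg_not_mem K.val (hK.finrank_eq ▸ hr)
    refine h.f2_of_lt hJ hI hK hn (A := Subalgebra.centralizer F K) (lt_of_le_of_ne (fun x hx k hk => hK.comm k hk x hx)
      fun h => hx (by rw [Subalgebra.range_val]; exact h.ge fun k hk => avg_comm K.val x ⟨k, hk⟩))
      (fun g hg x hx => h1 g hg hx) (fun a x b y => ?_) fun x hx => h3 hx
    rw [← h4 _ (mul_mem x y), h.ad_mul, h4 a x, h4 b y]
  push Not at h4
  obtain ⟨y, h4, h5⟩ := h4
  have h6 : ∀ k ∈ K, k * (y - ad (RingHom.id F) (gr f) y) = (y - ad (RingHom.id F) (gr f) y) * k := fun k hk => by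
    rw [mul_sub, sub_mul, h4 k hk, h3 h4 k hk]
  have h7 : ad (RingHom.id F) (gr f) (y - ad (RingHom.id F) (gr f) y) = -(y - ad (RingHom.id F) (gr f) y) := by
    rw [ad_sub, h.ad_ad, neg_sub]
  replace h5 := sub_ne_zero.2 h5.symm
  generalize y - ad (RingHom.id F) (gr f) y = s at h5 h6 h7
  have h8 : ∀ {x}, (∀ k ∈ K, k * x = x * k) → ad (RingHom.id F) (gr f) x = -x → ∀ k ∈ K, ∀ v,
      f.B ((k * x) *ᵥ v) v = 0 := fun {x} a b k hk v => mul_left_cancel₀ h2 (by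
    have := h.fm_ad (k * x) v v
    rw [h.ad_mul, b, hs k hk, neg_mul, ← a k hk, neg_mulVec, fmB, fmB, map_neg, f.orth_symm _ v] at this
    linear_combination this)
  refine h.f2_of_elt hJ hI hK hn hN ha (fun h9 => h5 ?_) h6 (fun g hg => ?_)
    ⟨-1, neg_mem (one_mem _), 0, zero_mem _, by simp [h7]⟩
  · rw [hs s h9, eq_neg_iff_add_eq_zero, ← two_smul F] at h7
    exact (smul_eq_zero.1 h7).resolve_left h2
  · obtain ⟨k, hk, h9⟩ := line_unique hf hK hn hs h5 h6 (h1 g hg h6) (h8 h6 h7)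
      (h8 (h1 g hg h6) (by rw [h.ad_cj (hJ hg), h7, map_neg]))
    exact ⟨k, hk, 0, zero_mem _, by rw [h9, add_zero]⟩

theorem hsc_of_two (hf : f.Nondeg) (hH : H ≤ isometryGroup F f.Q) (hI : Irr H) (hn : 2 ≤ Fintype.card ι)
    (hK : IsFieldSubalgebra 2 K) (hN : Nrm H K) (ha : AdC (RingHom.id F) (gr f) K)
    (h1 : ∃ x ∈ K, ad (RingHom.id F) (gr f) x ≠ x) {k : Matrix ι ι F} (hk : k ∈ K) :
    ∃ c : F, ∀ v, f.Q (k *ᵥ v) = c * f.Q v := by
  have h : Rf (RingHom.id F) (gr f) 1 := rf_gr hf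
  obtain ⟨z, hz, h3⟩ : ∃ z ∈ K, z + ad (RingHom.id F) (gr f) z ≠ 0 := by
    by_contra! h3
    obtain ⟨x, hx, h4⟩ := h1
    have h5 := h3 1 K.one_mem
    rw [h.ad_one] at h5
    exact h4 (by rw [eq_neg_of_add_eq_zero_right (h3 x hx), neg_eq_iff_add_eq_zero, ← mul_one x, ← mul_add, h5, mul_zero])
  obtain ⟨a, h4⟩ := h.sc_of_two hK ha h1 (K.add_mem hz (ha z hz)) (by rw [ad_add, h.ad_ad, add_comm])
  have h0 : a ≠ 0 := by rintro rfl; exact h3 (by rw [h4, zero_smul])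
  have h5 : a⁻¹ • z + ad (RingHom.id F) (gr f) (a⁻¹ • z) = 1 := by
    rw [ad_smul, RingHom.id_apply, ← smul_add, h4, smul_smul, inv_mul_cancel₀ h0, one_smul]
  have h6 := K.smul_mem hz a⁻¹
  generalize a⁻¹ • z = s at h5 h6
  have h7 : ∀ u v, f.B (ad (RingHom.id F) (gr f) s *ᵥ u) v = f.B (s *ᵥ v) u := fun u v => by
    rw [← fmB, h.fm_ad', fmB, orth_symm]
  have h8 := quad_unique hI hn (Q' := fun v => f.B (s *ᵥ v) v) f.orth_Q_smul (fun c v => by
    simp [mulVec_smul, pow_two, mul_assoc]) (funext₂ fun u v => by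
      rw [polar_eq, fmB, ← one_mulVec u, ← h5, add_mulVec, B_add_left, h7]
      simp only [QuadraticMap.polar, h5, ← add_mulVec, one_mulVec, mulVec_add, B_add_left, B_add_right]; ring) hH
    fun g hg v _ => by
      change f.B (s *ᵥ (g.1 *ᵥ v)) (g.1 *ᵥ v) = f.B (s *ᵥ v) v
      conv_lhs => rw [← cj_cj_inv g s, cj_mulVec, isoB (hH hg)]
      rcases h.cj_of_two hK ha h1 hN (inv_mem hg) h6 with h9 | h9 <;> simp only [h9, h7]
  obtain ⟨c, hc⟩ := h.sc_of_two hK ha h1 (K.mul_mem (ha k hk) hk) (by rw [h.ad_mul, h.ad_ad])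
  refine ⟨c, fun v => ?_⟩
  rw [h8]
  simp only
  rw [mulVec_mulVec, hK.comm s h6 k hk, ← mulVec_mulVec, ← fmB, h.fm_ad, mulVec_mulVec, hc, fmB]
  simp [smul_mulVec]

theorem mul_le_wi (hf : f.Nondeg) (hK : IsFieldSubalgebra r K) (ha : AdC (RingHom.id F) (gr f) K)
    (h1 : ∀ k ∈ K, ∃ c : F, ∀ v, f.Q (k *ᵥ v) = c * f.Q v) (j : ℕ) (hj : j * r < f.wi + r) : j * r ≤ f.wi := by
  have h : Rf (RingHom.id F) (gr f) 1 := rf_gr hf
  suffices ∃ U, f.TS U ∧ finrank F U = j * r ∧ ∀ k ∈ K, ∀ u ∈ U, k *ᵥ u ∈ U from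
    let ⟨U, a, b, _⟩ := this; le_wi_iff.2 ⟨U, a, b⟩
  induction j with
  | zero => exact ⟨⊥, TS_bot, by simp, by simp⟩
  | succ j ih =>
    rw [add_mul, one_mul] at hj
    obtain ⟨U, h2, h3, h4⟩ := ih (by omega)
    obtain ⟨W, h5, h6⟩ := le_wi_iff.1 (le_refl f.wi)
    obtain ⟨W, h7, h8, h9⟩ := hf.exists_TS_ge h2 h5 (by omega)
    obtain ⟨v, hv, h10⟩ := SetLike.exists_of_lt (lt_of_le_of_ne h7 (by rintro rfl; omega))
    refine ⟨U ⊔ LinearMap.range (ev K v), orth_TS_iff.2 fun x hx => ?_, by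
      rw [finrank_sup_ev hK h4 h10, h3, add_mul, one_mul], fun k hk x hx => ?_⟩
    all_goals obtain ⟨u, hu, _, ⟨l, rfl⟩, rfl⟩ := Submodule.mem_sup.1 hx
    · obtain ⟨c, hc⟩ := h1 l l.2
      change f.Q (u + l.1 *ᵥ v) = 0
      rw [orth_Q_add, hc, h2.1 u hu, h8.1 v hv, ← fmB, ← h.fm_ad', fmB, h8.2 _ (h7 (h4 _ (ha l l.2) u hu)) v hv]
      simp
    · rw [mulVec_add]
      exact Submodule.add_mem_sup (h4 k hk u hu) ⟨⟨k, hk⟩ * l, (mulVec_mulVec ..).symm⟩

/-- the field extension classes in dimension ten -/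
def F10 (f : CForm (FType.orth F) (ι → F)) (H : Subgroup (GL ι F)) : Prop :=
  ∃ K, IsFieldSubalgebra 2 K ∧ Nrm H K ∧ ((Odd (Fintype.card F) ∧ IsSelfAdjointFor (QuadraticMap.polar f.Q) K) ∨
    (¬ IsPlusTypeOn f.Q ⊤ ∧ IsAdjointClosedFor (QuadraticMap.polar f.Q) K ∧
      ¬ IsSelfAdjointFor (QuadraticMap.polar f.Q) K ∧ ∀ k ∈ K, ∃ c : F, ∀ v, f.Q (k *ᵥ v) = c * f.Q v))

theorem f10_of_two (hf : f.Nondeg) (hn : Fintype.card ι = 2 * 5) (hH : H ≤ isometryGroup F f.Q) (hI : Irr H)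
    (hK : IsFieldSubalgebra 2 K) (hN : Nrm H K) (ha : AdC (RingHom.id F) (gr f) K) : F10 f H := by
  have h : Rf (RingHom.id F) (gr f) 1 := rf_gr hf
  refine ⟨K, hK, hN, ?_⟩
  rw [polar_eq]
  rcases h.sa_or_two Nat.prime_two hK ha with h1 | ⟨-, h1⟩
  · refine .inl ⟨odd_of_two_ne_zero fun h2 => ?_, h.sa_iff.2 h1⟩
    have := two_mul_dvd (f := f.toSymp h2) hf hK (fun k hk => sa_B hf (h1 k hk)) fun k hk v =>
      (fmB _ _).symm.trans (Rf.sa_alt (by rwa [show (-1 : F) = 1 by linear_combination -h2]) (hH.trans isom_le) hI hK hN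
        (by omega) h1 hk v)
    omega
  · have h2 := fun k => hsc_of_two hf hH hI (by omega) hK hN ha h1 (k := k)
    refine .inr ⟨fun h3 => ?_, h.adC_iff.2 ha, fun h3 => let ⟨x, a, b⟩ := h1; b (h.sa_iff.1 h3 x a), h2⟩
    have := mul_le_wi hf hK ha h2 3
    rw [(pl_top hf hn).1 h3] at this
    omega

theorem eCl10 (hf : f.Nondeg) (hn : Fintype.card ι = 2 * 5) (hH : H ≤ omegaGL f.Q) (hI : Irr H) :
    OD f H 5 ∨ F10 f H ∨ (∃ φ P b, SF (RingHom.id F) (gr f) H φ P b) ∨ InOrthogonalResidualClass H := by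
  have hQ := hH.trans omega_le
  rcases eCl hf hn (by omega) hH hI (by omega) (by omega) with h | h | ⟨r, K, h1, h2, h3, h4⟩ | h | ⟨-, -, e, -⟩ | h
  · exact .inl h
  · exact absurd h.2.1 (by decide)
  · have h5 : r ∣ 2 * 5 := hn ▸ h2.finrank_eq ▸ finrank_dvd h2.comm h2.inv
    replace h4 := h4 (by decide)
    rcases (Nat.Prime.dvd_mul h1).1 h5 with h5 | h5
    · obtain rfl := (Nat.prime_dvd_prime_iff_eq h1 Nat.prime_two).1 h5
      exact .inr <| .inl (f10_of_two hf hn hQ hI h2 h3 h4)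
    obtain rfl := (Nat.prime_dvd_prime_iff_eq h1 Nat.prime_five).1 h5
    rcases f2_of_sa hf hQ hI h2 hn h3 ((Rf.sa_or_two (rf_gr hf) h1 h2 h4).resolve_right (by simp)) with
      ⟨k, h⟩ | h | ⟨K, h2, h3, h4⟩
    · exact (h.od hf hn hQ hI).imp_right fun h => .inr <| .inl h
    · exact absurd (h.ts hf hH hI hn (by omega)).2.1 (by decide)
    · exact .inr <| .inl (f10_of_two hf hn hQ hI h2 h3 h4)
  · exact absurd h.2.1 (by decide)
  · simp [Fintype.card_congr e] at hn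
  · exact .inr <| .inr h

end Cfsg.Agent.H4.As
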