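import Cfsg.Agent.H4.As23

/-! Aschbacher's theorem, part 24: the four-dimensional orthogonal group of plus type. -/

set_option autoImplicit false
set_option linter.unusedSectionVars false

namespace Cfsg.Agent.H4.As

open Matrix Module Cfsg.Geo CForm
open scoped MatrixGroups Kronecker commutatorElement

variable {ι κ : Type} [Fintype ι] [DecidableEq ι] [Fintype κ] [DecidableEq κ] {F : Type*} [Field F]
  [Fintype F] {H N : Subgroup (GL ι F)} {f : CForm (FType.orth F) (ι → F)} {σ : F →+* F}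

theorem Rf.kron {J₁ : Matrix ι ι F} {J₂ : Matrix κ κ F} {a b : F} (h1 : Rf σ J₁ a) (h2 : Rf σ J₂ b) :
    Rf σ (J₁ ⊗ₖ J₂) (a * b) :=
  ⟨h1.inv, isUnit_kron h1.unit h2.unit, by
    rw [kron_map, kron_transpose, h1.swap, h2.swap, smul_kronecker, kronecker_smul, smul_smul], by
    rcases h1.eps with rfl | rfl <;> simpa [neg_eq_iff_eq_neg, or_comm] using h2.eps⟩

theorem Rf.sub {J : Matrix κ κ F} {a : F} (h : Rf σ J a) (e : ι ≃ κ) : Rf σ (J.submatrix e e) a :=
  ⟨h.inv, (isUnit_submatrix_equiv e e).2 h.unit, congrArg (submatrix · e e) h.swap, h.eps⟩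

theorem rf_J22 : Rf (RingHom.id F) (J2 F ⊗ₖ J2 F) 1 := by simpa using (rf_J2 (F := F)).kron rf_J2

theorem Sm.det {J g : Matrix ι ι F} {c : F} (h : Sm (RingHom.id F) J g c) (hJ : IsUnit J) :
    g.det ^ 2 = c ^ Fintype.card ι := by
  have := congrArg Matrix.det h
  rw [map_id', det_mul, det_mul, det_transpose, det_smul] at this
  exact mul_right_cancel₀ ((isUnit_iff_isUnit_det _).1 hJ).ne_zero (by linear_combination this)

theorem so4 (h2 : (2 : F) ≠ 0) {b : GL (Fin 2 × Fin 2) F} {c : F} (h : Sm (RingHom.id F) (J2 F ⊗ₖ J2 F) b c)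
    (hd : b.1.det = c ^ 2) : ∃ u w, b = kG u w := by
  have hc := h.ne_zero rf_J22.unit
  let τ : (Fin 2 × Fin 2 → F) ≃ₗ[F] Fin 2 × Fin 2 → F := LinearEquiv.funCongrLeft F F (Equiv.prodComm _ _)
  have hτ : ∀ u w : GL (Fin 2) F, τ * glE (kG u w) = glE (kG w u) * τ := fun u w => LinearEquiv.ext fun x => by
    ext ⟨i, j⟩; simp [τ, mulVec, dotProduct, Fintype.sum_prod_type]; ring
  have hτ2 : τ * τ = 1 := rfl
  let S : Subgroup ((Fin 2 × Fin 2 → F) ≃ₗ[F] Fin 2 × Fin 2 → F) :=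
    { carrier := {g | ∃ u w, g = glE (kG u w) ∨ g = glE (kG u w) * τ}
      one_mem' := ⟨1, 1, .inl (by rw [show kG 1 1 = 1 from kH.map_one, map_one])⟩
      mul_mem' := by
        rintro _ _ ⟨u, w, rfl | rfl⟩ ⟨u', w', rfl | rfl⟩
        · exact ⟨u * u', w * w', .inl (by rw [kG_mul, map_mul])⟩
        · exact ⟨u * u', w * w', .inr (by rw [kG_mul, map_mul, mul_assoc])⟩
        · exact ⟨u * w', w * u', .inr (by rw [kG_mul, map_mul, mul_assoc, mul_assoc, hτ])⟩
        · exact ⟨u * w', w * u', .inl (by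
            rw [kG_mul, map_mul, mul_assoc, ← mul_assoc τ, hτ, mul_assoc, hτ2, mul_one])⟩
      inv_mem' := by
        rintro _ ⟨u, w, rfl | rfl⟩
        · exact ⟨u⁻¹, w⁻¹, .inl (by rw [← kG_inv, map_inv])⟩
        · exact ⟨w⁻¹, u⁻¹, .inr (by rw [← hτ, ← kG_inv, map_inv, _root_.mul_inv_rev, inv_eq_of_mul_eq_one_right hτ2])⟩ }
  have h3 : (rf_J22.cO h2).iso ≤ S := (rf_J22.cO_nondeg h2).orth_iso_le (.inl (exists_ne_zero_one_of_two h2))
    fun v hv => by
      have h4 : (rf_J22.cO h2).Q v = v (0, 0) * v (1, 1) - v (0, 1) * v (1, 0) := by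
        simp [Rf.cO, fm_eq_sum, Fintype.sum_prod_type, J2]; field_simp; ring
      rw [h4] at hv
      refine ⟨.mkOfDetNeZero ((v (0, 0) * v (1, 1) - v (0, 1) * v (1, 0))⁻¹ •
        !![-v (0, 1), v (0, 0); -v (1, 1), v (1, 0)]) (by
          simp only [det_smul, det_fin_two_of]
          exact mul_ne_zero (by simpa using hv) (by convert hv using 1; ring)),
        .mkOfDetNeZero !![v (1, 0), -v (0, 0); v (1, 1), -v (0, 1)] (by
          rw [det_fin_two_of]; convert hv using 1; ring), .inr (LinearEquiv.ext fun x => ?_)⟩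
      rw [rfx_apply, h4]
      ext ⟨i, j⟩
      fin_cases i <;> fin_cases j <;>
        simp [τ, Rf.cO, fm_eq_sum, mulVec, dotProduct, Fintype.sum_prod_type, J2] <;> field_simp <;> ring
  let d : GL (Fin 2) F := .mkOfDetNeZero !![c⁻¹, 0; 0, 1] (by simpa [det_fin_two])
  have h4 : d.1.det = c⁻¹ := by simp [d, det_fin_two]
  have h5 := h.mul ((sm_J2 d.1).kron (sm_J2 1))
  rw [h4, det_one, mul_one, mul_inv_cancel₀ hc] at h5
  obtain ⟨u, w, h6 | h6⟩ := h3 ((rf_J22.mem_cO h2 (b * kG d 1)).1 (by simpa [mem_isoG] using h5))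
  · exact ⟨u * d⁻¹, w * 1⁻¹, by rw [kG_mul, ← kG_inv, ← glE.injective h6, mul_inv_cancel_right]⟩
  exfalso
  have h7 : (glE.symm τ).1 = !![0, 1; 1, 0] ⊗ₖ !![0, 1; 1, 0] * swap F (0, 0) (1, 1) := eq_of_mulVec fun x => by
    rw [glE_symm_mulVec, ← mulVec_mulVec, swap_mulVec]
    ext ⟨i, j⟩; fin_cases i <;> fin_cases j <;> simp [τ, mulVec, dotProduct, Fintype.sum_prod_type, Equiv.swap_apply_def]
  have h8 : b * kG d 1 = kG u w * glE.symm τ := glE.injective (by rw [h6, map_mul, MulEquiv.apply_symm_apply])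
  have h9 : Sm (RingHom.id F) (J2 F ⊗ₖ J2 F) (glE.symm τ).1 1 := sm_iff.2 fun x y => by
    simp [glE_symm_mulVec, τ, fm_eq_sum, Fintype.sum_prod_type, J2]; ring
  have h10 := ((sm_J2 u.1).kron (sm_J2 w.1)).mul h9
  have h11 := congrArg Units.val h8
  simp only [Units.val_mul, kG_val, Units.val_one] at h11
  have h12 := Sm.unique rf_J22.unit (h11 ▸ h5) h10
  have := congrArg Matrix.det h11
  rw [det_mul, det_mul, det_kronecker, det_kronecker, h4, hd, h7, det_mul, det_kronecker, swap, det_permutation,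
    Equiv.Perm.sign_swap (by decide)] at this
  generalize u.1.det = x, w.1.det = y at this h12
  simp [det_fin_two] at this
  field_simp at this
  exact h2 (by linear_combination this + (1 + x * y) * h12)

theorem TF.sp26 [Nonempty ι] {e : ι ≃ Fin 3 × Fin 4} {P : GL ι F} {J₁ : Matrix (Fin 3) (Fin 3) F}
    {J₂ : Matrix (Fin 4) (Fin 4) F} (hT : TF (RingHom.id F) (gr f) H e P J₁ J₂ 1 1) (hf : f.Nondeg) (h2 : (2 : F) ≠ 0)
    (hp : IsPlusTypeOn f.Q ⊤) (hd : ∀ g ∈ H, g.1.det = 1) : ∃ (e : ι ≃ Fin 2 × Fin 6) (P : GL ι F)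
      (J : Matrix (Fin 6) (Fin 6) F), TF (RingHom.id F) (gr f) H e P (J2 F) J (-1) (-1) := by
  let E : Fin 4 ≃ Fin 2 × Fin 2 := (finProdFinEquiv (m := 2) (n := 2)).symm
  let E' : Fin 6 ≃ Fin 2 × Fin 3 := (finProdFinEquiv (m := 2) (n := 3)).symm
  have h1 := (rf_J22 (F := F)).sub E
  have h3 := hT.rf2.cO_nondeg h2
  have h4 := h1.cO_nondeg h2
  obtain ⟨A, hA⟩ := h4.orth_isom_even h3 (by simp; decide) rfl (((pl_top h4 (m := 2) (by simp)).1
    ((pl_iff_det h4 h2 (m := 2) (by simp)).2 (by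
      rw [show gr (h1.cO h2) = _ from gram_fm]; simp [det_kronecker, J2, det_fin_two]))).trans
      ((pl_top h3 (m := 2) (by simp)).1 (by
        simpa [IsPlusTypeOn, IsTotallySingularQuad, Rf.cO, h2] using (hT.pl34 hf h2).1 hp)).symm)
  have h5 := hT.swap.cong (glE.symm A)
  rw [show _ * _ = (J2 F ⊗ₖ J2 F).submatrix E E from fm_inj fun u v => by
    rw [← fm_mulVec, glE_symm_mulVec, glE_symm_mulVec]; exact hA.B u v] at h5
  obtain ⟨P, e, h5⟩ : ∃ P e, TF (RingHom.id F) (gr f) H e P ((J2 F ⊗ₖ J2 F).submatrix E E) J₁ 1 1 := ⟨_, _, h5⟩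
  let ρ : Fin 4 × Fin 3 ≃ Fin 2 × Fin 6 :=
    ((E.prodCongr (.refl _)).trans (Equiv.prodAssoc _ _ _)).trans ((Equiv.refl _).prodCongr E'.symm)
  have h6 : ∀ (u w : Matrix (Fin 2) (Fin 2) F) (a : Matrix (Fin 3) (Fin 3) F), (u ⊗ₖ w).submatrix E E ⊗ₖ a =
      (u ⊗ₖ (w ⊗ₖ a).submatrix E' E').submatrix ρ ρ := fun u w a => by ext; simp [ρ, mul_assoc]
  obtain ⟨c, hc, h7⟩ := h5.eq
  refine ⟨e.trans ρ, P, _, le_rfl, by omega, rf_J2, by simpa using (rf_J2.kron hT.rf1).sub E',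
    ⟨c, hc, by rw [h7, h6]; rfl⟩, fun g hg => ?_⟩
  obtain ⟨b, a, d, rfl, h8, h9⟩ := h5.le g hg
  have h10 := h8.ne_zero h1.unit
  obtain ⟨b, rfl⟩ := (trG (tr E 1)).surjective b
  have h11 : ∀ x : Matrix _ _ F, tr E 1 x = x.submatrix E E := fun x => by simp [tr_apply]
  have h12 : Sm (RingHom.id F) (J2 F ⊗ₖ J2 F) b d := (sm_trJ (e := E) (P := 1)).1 (by simpa [trJ] using h8)
  obtain ⟨u, w, rfl⟩ := so4 h2 h12 (by
    have h13 := hd _ hg
    rw [trG_val, tr_apply, cj_apply, det_units_conj, det_submatrix_equiv_self, kG_val, det_kronecker, trG_val, h11,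
      det_submatrix_equiv_self] at h13
    have h14 := h12.det rf_J22.unit
    have h15 := h9.det hT.rf1.unit
    simp only [Fintype.card_fin, Fintype.card_prod] at h13 h14 h15
    field_simp at h15
    linear_combination -b.1.det * (a.1.det ^ 2 * d ^ 3 + 1) * h15 + d ^ 2 * h13 - b.1.det * a.1.det ^ 4 * d ^ 2 * h14)
  have h13 := Sm.unique rf_J22.unit h12 (by simpa using (sm_J2 u.1).kron (sm_J2 w.1))
  refine ⟨u, trG (tr E' 1) (kG w a), _, Units.ext ?_, sm_J2 _, ?_⟩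
  · simp only [trG_val, kG_val, tr_apply, cj_one, h6]; rfl
  · have := (sm_trJ (e := E') (P := 1)).2 ((sm_J2 w.1).kron h9)
    rw [h13, mul_inv, mul_left_comm, mul_inv_cancel₀ (right_ne_zero_of_mul (h13 ▸ h10)), mul_one] at this
    simpa [trJ] using this

end Cfsg.Agent.H4.As
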