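import Cfsg.Agent.H4.As24

/-! Aschbacher's theorem, part 25: small exceptions for the linear groups. -/

set_option autoImplicit false
set_option linter.unusedSectionVars false

namespace Cfsg.Agent.H4.As

open Matrix Module Cfsg.Geo
open scoped MatrixGroups Kronecker commutatorElement

variable {ι : Type} [Fintype ι] [DecidableEq ι] {F : Type*} [Field F]
  [Fintype F] {H R : Subgroup (GL ι F)} {K : Subalgebra F (Matrix ι ι F)}

theorem rat_of_basis {κ : Type} [Fintype κ] [DecidableEq κ] (φ : F ≃+* F) (v : Basis κ F (ι → F)) :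
    ∃ (e : ι ≃ κ) (P : GL ι F), (∀ i, P.1 *ᵥ Pi.single i 1 = v (e i)) ∧ ∀ a : Matrix ι ι F,
      (∀ i, a *ᵥ v i ∈ AddSubgroup.closure (Set.range v)) → (cj P⁻¹ a).map φ = cj P⁻¹ a := by
  obtain ⟨e, P, hP⟩ := exists_eP v.equivFun.symm
  have h5 : ∀ i, P.1 *ᵥ Pi.single i 1 = v (e i) := fun i => by
    rw [show Pi.single i 1 = (Pi.single (e i) 1 : _ → F) ∘ e by ext; simp [Pi.single_apply], hP]
    simp [Pi.single_apply]
  refine ⟨e, P, h5, fun a h1 => ?_⟩
  ext i j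
  have h3 : ∀ x ∈ AddSubgroup.closure (Set.range v), φ ((P⁻¹.1 *ᵥ x) i) = (P⁻¹.1 *ᵥ x) i := fun x hx => by
    induction hx using AddSubgroup.closure_induction with
    | mem x hx =>
      obtain ⟨k, rfl⟩ := hx
      obtain ⟨k, rfl⟩ := e.surjective k
      rw [← h5, inv_mulVec]; simp [Pi.single_apply, apply_ite φ]
    | zero => simp
    | add x y _ _ hx hy => simp only [mulVec_add, Pi.add_apply, map_add, hx, hy]
    | neg x _ hx => simp only [mulVec_neg, Pi.neg_apply, map_neg, hx]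
  have h4 := h3 _ (h1 (e j))
  rw [← h5, ← cj_cj_inv P a, cj_mulVec, inv_mulVec] at h4
  simpa using h4

theorem det_cj (P : GL ι F) (a : Matrix ι ι F) : (cj P a).det = a.det := det_units_conj P a

noncomputable def evE (hK : IsFieldSubalgebra (Fintype.card ι) K) {v : ι → F} (hv : v ≠ 0) : K ≃ₗ[F] (ι → F) :=
  LinearMap.linearEquivOfInjective (ev K v) ((injective_iff_map_eq_zero _).2 fun _ h =>
    ev_inj hK (U := ⊥) (fun _ _ _ h => by rw [(Submodule.mem_bot F).1 h]; simp) hv h) (by simp [hK.finrank_eq])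

theorem evE_apply (hK : IsFieldSubalgebra (Fintype.card ι) K) {v : ι → F} (hv : v ≠ 0) (k : K) :
    evE hK hv k = k.1 *ᵥ v := rfl

theorem det_field [Nonempty ι] (hK : IsFieldSubalgebra (Fintype.card ι) K) {u : Matrix ι ι F} (hu : u ∈ K) :
    u ^ ((Fintype.card F ^ Fintype.card ι - 1) / (Fintype.card F - 1)) = u.det • 1 := by
  let _ := (isField_of hK.comm hK.inv).toField
  have : Finite K := Module.finite_of_finite F
  obtain ⟨v, hv⟩ := exists_ne_zero (ι := ι) (F := F)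
  have h1 := congrArg Subtype.val (FiniteField.algebraMap_norm_eq_pow (K := F) (x := (⟨u, hu⟩ : K)))
  rw [Module.natCard_eq_pow_finrank (K := F) (V := K), hK.finrank_eq, Nat.card_eq_fintype_card] at h1
  refine h1.symm.trans ?_
  rw [Algebra.norm_apply, ← LinearMap.det_conj _ (evE hK hv), ← LinearMap.det_toLin' u,
    Algebra.algebraMap_eq_smul_one]
  refine congrArg (fun x => (LinearMap.det x • (1 : Matrix ι ι F))) (LinearMap.ext fun x => ?_)
  obtain ⟨x, rfl⟩ := (evE hK hv).surjective x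
  simp only [LinearMap.comp_apply, LinearEquiv.coe_coe, LinearEquiv.symm_apply_apply]
  simp [evE_apply]

theorem sr34 (hn : Fintype.card ι = 3) (hF : Fintype.card F = 4) (hK : IsFieldSubalgebra 3 K) (hN : Nrm H K)
    (hH : ∀ g ∈ H, g.1.det = 1) : ∃ φ P, (orderOf φ).Prime ∧ SR φ P H := by
  have : Nonempty ι := Fintype.card_pos_iff.1 (by omega)
  have hK' : IsFieldSubalgebra (Fintype.card ι) K := hn ▸ hK
  obtain ⟨φ, h1, h2, h3⟩ := exists_inv_of_sq (q := 2) hF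
  have h4 : ∀ a, φ a = a ^ 2 := fun a => DFunLike.congr_fun h3 a
  have h5 := two_of_four (F := F) hF
  let _ := (isField_of hK.comm hK.inv).toField
  have : Finite K := Module.finite_of_finite F
  have h6 : (2 : K) = 0 := by rw [← map_ofNat (algebraMap F K), h5, map_zero]
  have : Fact (Nat.Prime 7) := ⟨by norm_num⟩
  obtain ⟨z, h7, h8⟩ : ∃ z : K, IsPrimitiveRoot z 7 ∧ z ^ 3 = z + 1 := by
    obtain ⟨y, hy⟩ := exists_prime_orderOf_dvd_card' (G := Kˣ) 7 (by
      rw [Nat.card_units, Module.natCard_eq_pow_finrank (K := F), hK.finrank_eq, Nat.card_eq_fintype_card, hF]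
      norm_num)
    have h7 : IsPrimitiveRoot (y : K) 7 := IsPrimitiveRoot.coe_units_iff.2 (hy ▸ IsPrimitiveRoot.orderOf y)
    have h8 := h7.pow_eq_one
    have : ((y : K) - 1) * ((y ^ 3 - (y + 1)) * ((y ^ 6) ^ 3 - (y ^ 6 + 1))) = 0 := by
      linear_combination ((y : K) ^ 15 - y ^ 14 - y ^ 13 + y ^ 11 + y ^ 8 - y ^ 7 - y ^ 6 + y ^ 4 - y ^ 3 + y ^ 2 + 2 * y - 1) * h8 +
        ((y : K) ^ 2 + y - 1 - y ^ 6) * h6
    rcases mul_eq_zero.1 ((mul_eq_zero.1 this).resolve_left (sub_ne_zero.2 (h7.ne_one (by norm_num)))) with h | h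
    · exact ⟨y, h7, sub_eq_zero.1 h⟩
    · exact ⟨_, h7.pow_of_coprime 6 (by norm_num), sub_eq_zero.1 h⟩
  obtain ⟨v, hv⟩ := exists_ne_zero (ι := ι) (F := F)
  have h9 : (minpoly F z).natDegree = 3 := ((Nat.dvd_prime Nat.prime_three).1
    (hK.finrank_eq ▸ minpoly.degree_dvd (IsIntegral.of_finite F z))).resolve_left fun h => by
      obtain ⟨c, rfl⟩ := minpoly.natDegree_eq_one_iff.1 h
      have h9 : c ≠ 0 := by rintro rfl; simpa using h7.pow_eq_one
      have h10 := h7.dvd_of_pow_eq_one 3 (by rw [← map_pow, pow_eq_one_of_dvd h9 (by rw [hF]), map_one])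
      omega
  have h10 : LinearIndependent F fun i : Fin 3 => z ^ (i : ℕ) := h9 ▸ linearIndependent_pow (K := F) z
  obtain ⟨β, hβ⟩ : ∃ β : Basis (Fin 3) F (ι → F), ∀ i, β i = (z ^ (i : ℕ)).1 *ᵥ v :=
    ⟨(basisOfLinearIndependentOfCardEqFinrank h10 (by simp [hK.finrank_eq])).map (evE hK' hv), fun i => by
      simp [evE_apply]⟩
  obtain ⟨-, P, -, hP⟩ := rat_of_basis φ β
  have h11 : ∀ x ∈ AddSubgroup.closure (Set.range β), z.1 *ᵥ x ∈ AddSubgroup.closure (Set.range β) := fun x hx => by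
    have h11 : ∀ i, β i ∈ AddSubgroup.closure (Set.range β) := fun i => AddSubgroup.subset_closure ⟨i, rfl⟩
    induction hx using AddSubgroup.closure_induction with
    | mem x hx =>
      obtain ⟨k, rfl⟩ := hx
      rw [hβ, mulVec_mulVec, show z.1 * (z ^ (k : ℕ)).1 = (z ^ (k + 1 : ℕ)).1 by rw [pow_succ']; rfl]
      fin_cases k
      · exact hβ 1 ▸ h11 1
      · exact hβ 2 ▸ h11 2
      · have := add_mem (h11 1) (h11 0)
        rwa [hβ, hβ, ← add_mulVec, ← Subalgebra.coe_add, show z ^ ((1 : Fin 3) : ℕ) + z ^ ((0 : Fin 3) : ℕ) = z ^ 3 by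
          simp [h8]] at this
    | zero => simp
    | add x y _ _ hx hy => rw [mulVec_add]; exact add_mem hx hy
    | neg x _ hx => rw [mulVec_neg]; exact neg_mem hx
  have h12 : ∀ n : ℕ, (z ^ n).1 *ᵥ v ∈ AddSubgroup.closure (Set.range β) := fun n => by
    induction n with
    | zero => exact AddSubgroup.subset_closure ⟨0, hβ 0⟩
    | succ n ih => rw [pow_succ', Subalgebra.coe_mul, ← mulVec_mulVec]; exact h11 _ ih
  refine ⟨φ, P, ?_, fun g hg => ?_⟩
  · rw [orderOf_eq_prime (p := 2) (RingEquiv.ext h2) h1]; exact Nat.prime_two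
  obtain ⟨u, hu⟩ := (evE hK' hv).surjective (g.1 *ᵥ v)
  rw [evE_apply] at hu
  obtain ⟨j, -, hj⟩ := h7.eq_pow_of_pow_eq_one (ξ := ⟨_, hN g hg _ z.2⟩) (Subtype.ext (by
    change cj g z.1 ^ 7 = 1
    rw [← map_pow, ← SubmonoidClass.coe_pow, h7.pow_eq_one]; exact map_one _))
  have h13 : ∀ (k : K) (i : ℕ), (k.1 * g.1) *ᵥ ((z ^ i).1 *ᵥ v) = (k * u * z ^ (j * i)).1 *ᵥ v := fun k i => by
    rw [← mulVec_mulVec, ← cj_mulVec, ← hu, mulVec_mulVec, mulVec_mulVec, pow_mul, hj, mul_assoc, mul_assoc,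
      mul_comm u, SubmonoidClass.coe_pow, map_pow]
    rfl
  have h14 : u ≠ 0 := by
    rintro rfl
    exact hv (by rw [← inv_mulVec g v, ← hu]; simp)
  have h15 := congrArg det (hP ((u⁻¹).1 * g.1) fun i => by rw [hβ, h13, inv_mul_cancel₀ h14, one_mul]; exact h12 _)
  erw [← RingHom.map_det (φ : F →+* F)] at h15
  rw [det_cj, det_mul, hH g hg, mul_one] at h15
  have h16 : (u⁻¹).1.det * u.1.det = 1 := by
    rw [← det_mul, ← Subalgebra.coe_mul, inv_mul_cancel₀ h14]; exact det_one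
  have h17 : u ^ 21 = 1 := Subtype.ext (by
    have := det_field hK' u.2
    rw [hn, hF, show u.1.det = 1 by
      erw [h4] at h15
      linear_combination -u.1.det * h16 - u.1.det ^ 2 * h15 + (u⁻¹.1.det * u.1.det + 1) * h16] at this
    simpa using this)
  obtain ⟨c, hc⟩ := isSc_of_pow hK (u ^ 7).2 (by
    rw [hF, ← SubmonoidClass.coe_pow, ← pow_mul, show 7 * 4 = 21 + 7 by rfl, pow_add, h17, one_mul])
  obtain ⟨l, -, hl⟩ := h7.eq_pow_of_pow_eq_one (ξ := u ^ 15) (by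
    rw [← pow_mul, show 15 * 7 = 21 * 5 by rfl, pow_mul, h17, one_pow])
  have h18 := hP ((u ^ 14).1 * g.1) fun i => by rw [hβ, h13, ← pow_succ, ← hl, ← pow_add]; exact h12 _
  have h19 : c ≠ 0 := by
    rintro rfl
    exact pow_ne_zero 7 h14 (Subtype.ext (by rw [hc]; simp))
  rw [show (u ^ 14).1 = c ^ 2 • 1 by
    rw [show 14 = 7 + 7 by rfl, pow_add, Subalgebra.coe_mul, hc, smul_mul_smul, pow_two, one_mul],
    smul_one_mul, map_smul] at h18
  refine ⟨(φ (c ^ 2))⁻¹ * c ^ 2, ?_⟩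
  rw [mul_smul, ← h18, eq_inv_smul_iff₀ (by simpa)]
  ext; simp

theorem sc_neg_one : ((sc (-1) : GL ι F) : Matrix ι ι F) = -1 := by simp

theorem ES.symp2 [Nonempty ι] (h : ES R 2) (hp : ∀ y ∈ R, y ^ 4 = 1) : IsSymplecticTypeGroup 2 R := by
  have h1 : ∀ y : R, y ^ 4 = 1 := fun y => Subtype.ext (hp y y.2)
  have h2 : (2 : F) ≠ 0 := fun h2 => h.ne_char ((Nat.prime_dvd_prime_iff_eq (CharP.char_is_prime F _)
    Nat.prime_two).1 ((CharP.cast_eq_zero_iff F (ringChar F) 2).1 h2)).symm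
  have h3 : ∀ x ∈ R, ∀ y ∈ R, y.1 * x.1 = x.1 * y.1 ∨ y.1 * x.1 = -(x.1 * y.1) := fun x hx y hy => by
    obtain ⟨c, hc⟩ := h.comm x hx y hy
    have h3 := congrArg Units.val (mul_inv_eq_iff_eq_mul.1 hc)
    rcases sq_eq_one_iff.1 (show (c : F) ^ 2 = 1 from congrArg Units.val (h.pow_eq hx hc)) with h4 | h4
    exacts [.inl (by simpa [h4] using h3), .inr (by simpa [h4] using h3)]
  have h4 : ∀ y ∈ R, y.1 * y.1 = 1 ∨ y.1 * y.1 = -1 := fun y hy => by
    obtain ⟨c, hc⟩ := mem_sc.1 (h.pow y hy)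
    have h4 := congrArg Units.val (hp y hy)
    rw [show 4 = 2 + 2 by rfl, pow_add, Units.val_mul, hc, smul_mul_smul, one_mul, Units.val_one] at h4
    rw [Units.val_pow_eq_pow_val, pow_two] at hc
    have h5 := congrFun (congrFun h4 (Classical.arbitrary ι)) (Classical.arbitrary ι)
    rcases mul_self_eq_one_iff.1 (by simpa using h5 : c * c = 1) with rfl | rfl <;> simp [hc]
  have h5 : ∀ {a : Matrix ι ι F}, a = -a → a = 0 := fun {a} h => (smul_eq_zero.1 (by
    rw [two_smul]; exact add_eq_zero_iff_eq_neg.2 h)).resolve_left h2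
  have hm : sc (-1) ∈ R := h.sc_mem (by simp)
  refine ⟨h.prime, fun y => ⟨2, h1 y⟩, fun A hA hc => ?_, ?_⟩
  · have hn : Nm (Subgroup.normalizer (R : Set (GL ι F))) (A.map R.subtype) := by
      rintro g hg _ ⟨x, hx, rfl⟩
      exact ⟨_, (Subgroup.characteristic_iff_le_comap.1 hA (R.normalizerMonoidHom ⟨g, hg⟩) hx), rfl⟩
    have h6 : ∀ x ∈ A.map R.subtype, ∀ y ∈ A.map R.subtype, x.1 * y.1 = y.1 * x.1 := by
      rintro _ ⟨a, ha, rfl⟩ _ ⟨b, hb, rfl⟩
      exact congrArg (fun z : A => ((z : R) : GL ι F).1) (hc.is_comm.comm ⟨a, ha⟩ ⟨b, hb⟩)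
    have h7 := R.map_subtype_le A
    suffices IsCyclic (A.map R.subtype) from
      isCyclic_of_injective (A.equivMapOfInjective _ R.subtype_injective).toMonoidHom (MulEquiv.injective _)
    generalize A.map R.subtype = M at hn h6 h7
    have h8 : ∀ y ∈ R, y.1 * y.1 = -1 → ∀ x ∈ M, y.1 * x.1 = x.1 * y.1 := fun y hy h8 x hx => by
      have h9 : (1 + y.1) * ((2 : F)⁻¹ • (1 - y.1)) = 1 := by
        rw [mul_smul_comm, inv_smul_eq_iff₀ h2, add_mul, mul_sub, mul_sub, h8, two_smul]; simp only [one_mul, mul_one]; abel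
      let u : GL ι F := ⟨_, _, h9, mul_eq_one_comm.1 h9⟩
      have h10 : ∀ x : GL ι F, y.1 * x.1 = -(x.1 * y.1) → u * x * u⁻¹ = sc (-1) * x * y := fun x hx => by
        rw [mul_inv_eq_iff_eq_mul]
        ext1
        simp [u, add_mul, mul_add, mul_assoc, h8, hx, add_comm]
      have h11 : u ∈ Subgroup.normalizer (R : Set (GL ι F)) := Subgroup.mem_normalizer_fintype fun x hx => by
        rcases h3 x hx y hy with h | h
        · rwa [show u * x * u⁻¹ = x from mul_inv_eq_iff_eq_mul.2 (Units.ext (by simp [u, add_mul, mul_add, h]))]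
        · exact h10 x h ▸ mul_mem (mul_mem hm hx) hy
      refine (h3 x (h7 hx) y hy).resolve_right ?_ |>.trans rfl
      intro h12
      have h13 := h6 _ hx _ (h10 x h12 ▸ hn u h11 x hx)
      simp only [Units.val_mul, sc_neg_one, neg_mul, one_mul, mul_neg, neg_inj, mul_assoc, h12,
        Units.mul_right_inj] at h13
      exact (x * (x * y)).ne_zero (h5 h13)
    have h9 : ∀ x ∈ M, x ∉ scalars ι F → x.1 * x.1 = -1 := fun x hx h0 => by
      obtain ⟨y, hy⟩ := not_forall.1 fun h2 => h0 (h.ctr x (h7 hx) h2)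
      obtain ⟨hy, h9⟩ := _root_.not_imp.1 hy
      have h10 := (h3 x (h7 hx) y hy).resolve_left fun h => h9 (Units.ext h.symm)
      have h11 := (h4 y hy).resolve_right fun h => h9 (Units.ext (h8 y hy h x hx).symm)
      have h12 := (h4 _ (mul_mem (h7 hx) hy)).resolve_right fun h => h9 (Units.ext (by
        simpa [mul_assoc] using (h8 _ (mul_mem (h7 hx) hy) h x hx).symm))
      rw [Units.val_mul, mul_assoc, ← mul_assoc y.1, h10, neg_mul, mul_assoc, h11, mul_one, mul_neg] at h12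
      exact neg_eq_iff_eq_neg.1 h12
    by_cases h10 : M ≤ scalars ι F
    · exact Subgroup.isCyclic_of_le h10
    obtain ⟨x, hx, h10⟩ := SetLike.not_le_iff_exists.1 h10
    have h11 : ∀ z ∈ M, z ∈ scalars ι F → z ∈ Subgroup.zpowers x := fun z hz h11 => by
      have h12 := h9 _ (mul_mem hz hx) fun h => h10 ((mul_mem_cancel_left h11).1 h)
      obtain ⟨c, hc⟩ := mem_sc.1 h11
      rw [Units.val_mul, hc, smul_one_mul, smul_mul_smul, h9 x hx h10] at h12
      have h5 := congrFun (congrFun h12 (Classical.arbitrary ι)) (Classical.arbitrary ι)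
      rcases mul_self_eq_one_iff.1 (by simpa using h5 : c * c = 1) with rfl | rfl
      · exact ⟨0, Units.ext (by simp [hc])⟩
      · exact (Units.ext (by rw [Units.val_mul, h9 x hx h10, hc, neg_one_smul]) : x * x = z) ▸
          mul_mem (Subgroup.mem_zpowers x) (Subgroup.mem_zpowers x)
    refine Subgroup.isCyclic_of_le (H' := Subgroup.zpowers x) fun z hz => ?_
    by_cases h12 : z ∈ scalars ι F
    · exact h11 z hz h12
    refine (mul_mem_cancel_left (Subgroup.mem_zpowers x)).1 (h11 _ (mul_mem hx hz) (by_contra fun h13 => ?_))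
    have h14 := h9 _ (mul_mem hx hz) h13
    rw [Units.val_mul, mul_assoc, ← mul_assoc z.1, h6 z hz x hx, mul_assoc, h9 z hz h12, ← mul_assoc,
      h9 x hx h10, neg_mul_neg, one_mul] at h14
    exact one_ne_zero (h5 h14)
  · have h2 : Monoid.exponent R ∣ 2 ^ 2 := Monoid.exponent_dvd_of_forall_pow_eq_one h1
    have h3 : ¬ Monoid.exponent R ∣ 2 := fun h3 => h.not_comm fun x hx y hy => congrArg Subtype.val
      ((Commute.of_orderOf_dvd_two (fun z : R => (Monoid.order_dvd_exponent z).trans h3)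
        ⟨x, hx⟩ ⟨y, hy⟩).eq)
    obtain ⟨k, hk, h4⟩ := (Nat.dvd_prime_pow Nat.prime_two (m := 2)).1 h2
    rw [h4] at h3 ⊢
    interval_cases k <;> first | rfl | exact absurd (by decide) h3

section mono

variable {τ : Type} [Fintype τ] [DecidableEq τ] {β : Basis τ F (ι → F)} {g h : GL ι F} {s s' : Equiv.Perm τ}
  {t t' : τ → Fˣ}

theorem mat_ext (β : Basis τ F (ι → F)) {a b : Matrix ι ι F} (h : ∀ i, a *ᵥ β i = b *ᵥ β i) : a = b :=
  toLin'.injective (β.ext h)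

/-- `g` is monomial with respect to the basis `β` -/
def Mo (β : Basis τ F (ι → F)) (g : GL ι F) (s : Equiv.Perm τ) (t : τ → Fˣ) : Prop :=
  ∀ i, g.1 *ᵥ β i = (t i : F) • β (s i)

theorem Mo.mul (h1 : Mo β g s t) (h2 : Mo β h s' t') : Mo β (g * h) (s * s') fun i => t (s' i) * t' i :=
  fun i => by rw [Units.val_mul, ← mulVec_mulVec, h2, mulVec_smul, h1, smul_smul, mul_comm]; rfl

theorem Mo.inv (h1 : Mo β g s t) : Mo β g⁻¹ s⁻¹ fun i => (t (s⁻¹ i))⁻¹ := fun i => by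
  rw [Units.val_inv_eq_inv_val (t _), eq_inv_smul_iff₀ (Units.ne_zero _), ← mulVec_smul,
    ← inv_mulVec g (β (s⁻¹ i)), h1]
  simp

theorem Mo.ext (h1 : Mo β g s t) (h2 : Mo β h s t) : g = h := Units.ext (mat_ext β fun i => (h1 i).trans (h2 i).symm)

theorem mo_sc (c : Fˣ) : Mo β (sc c) 1 fun _ => c := fun i => by simp [smul_mulVec]

theorem exists_mo (β : Basis τ F (ι → F)) (s : Equiv.Perm τ) (t : τ → Fˣ) : ∃ g, Mo β g s t :=
  ⟨glE.symm (β.equiv ((β.reindex s.symm).unitsSMul t) (Equiv.refl _)), fun i => by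
    rw [← glE_apply, MulEquiv.apply_symm_apply]; simp [Basis.unitsSMul_apply, Units.smul_def]⟩

theorem Mo.det (h1 : Mo β g s t) : g.1.det = (Equiv.Perm.sign s : ℤ) * ∏ i, (t i : F) := by
  have := β.det_comp (toLin' g.1) β
  rw [LinearMap.det_toLin', β.det_self, mul_one] at this
  rw [← this, show toLin' g.1 ∘ β = fun i => (t i : F) • (β ∘ s) i from funext h1, AlternatingMap.map_smul_univ,
    AlternatingMap.map_perm, β.det_self, mul_comm]
  simp [Units.smul_def]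

theorem exists_frame {n : ℕ} {D : Fin n → Submodule F (ι → F)} (hD : IsMDecomposition 1 D)
    {v : Fin n → ι → F} (h1 : ∀ i, v i ∈ D i) (h2 : ∀ i, v i ≠ 0) : ∃ β : Basis (Fin n) F (ι → F), ⇑β = v ∧
      ∀ g ∈ decompositionStabilizer D, ∃ s t, Mo β g s t := by
  refine ⟨_, coe_basisOfTopLeSpanOfCardEqFinrank v (hD.iSup_eq_top.ge.trans (iSup_le fun i x hx => ?_))
    (by simp [← hD.as_card]), fun g ⟨s, hs⟩ => ?_⟩
  · obtain ⟨c, rfl⟩ := exists_smul_of_one (hD.finrank_eq i) (h1 i) (h2 i) hx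
    exact Submodule.smul_mem _ _ (Submodule.subset_span ⟨i, rfl⟩)
  choose c hc using fun i => exists_smul_of_one (hD.finrank_eq (s i)) (h1 _) (h2 _)
    (hs i ▸ Submodule.mem_map_of_mem (h1 i))
  refine ⟨s, fun i => Units.mk0 (c i) fun h => h2 i ?_, fun i => ?_⟩
  · rw [← inv_mulVec g (v i), ← toLin'_apply g.1, ← hc, h]; simp
  · rw [coe_basisOfTopLeSpanOfCardEqFinrank]; exact (hc i).symm

end mono

section four

/-- the Klein four-group -/
def V4 (a : Equiv.Perm (Fin 4)) : Prop := a * a = 1 ∧ Equiv.Perm.sign a = 1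

instance instDecV4 : DecidablePred V4 := fun _ => inferInstanceAs (Decidable (_ ∧ _))

def U4 (u : Fin 4 → Fˣ) : Prop := (∀ x y, u x ^ 2 = u y ^ 2) ∧ (∀ x, u x ^ 4 = 1) ∧ ∏ x, u x = 1

theorem U4.quot {u : Fin 4 → Fˣ} (hu : U4 u) {a : Equiv.Perm (Fin 4)} (ha : V4 a) (x y : Fin 4) :
    u (a x) * (u x)⁻¹ = u (a y) * (u y)⁻¹ := by
  have key : ∀ a : Equiv.Perm (Fin 4), V4 a → ∀ x y, (a x = x ∧ a y = y) ∨ y = x ∨ (y = a x ∧ a y = x) ∨
      ∃ π : Equiv.Perm (Fin 4), π 0 = x ∧ π 1 = a x ∧ π 2 = y ∧ π 3 = a y := by decide +kernel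
  rw [mul_inv_eq_mul_inv_iff_mul_eq_mul]
  rcases key a ha x y with ⟨h1, h2⟩ | rfl | ⟨h1, h2⟩ | ⟨π, h1, h2, h3, h4⟩
  · rw [h1, h2, mul_comm]
  · rfl
  · rw [h2, ← h1, ← pow_two, ← pow_two, hu.1]
  · have h5 := (Equiv.prod_comp π u).trans hu.2.2
    rw [Fin.prod_univ_four, h1, h2, h3, h4] at h5
    have h6 := congrArg Units.val (hu.1 x (a y))
    have h7 := congrArg Units.val (hu.2.1 x)
    have h8 := congrArg Units.val h5
    push_cast at h6 h7 h8
    refine mul_left_cancel (a := u x * u (a y)) (Units.ext ?_)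
    push_cast
    linear_combination h8 - h7 + (u x : F) ^ 2 * h6

theorem U4.comp {u : Fin 4 → Fˣ} (hu : U4 u) (s : Equiv.Perm (Fin 4)) : U4 fun x => u (s x) :=
  ⟨fun _ _ => hu.1 _ _, fun _ => hu.2.1 _, (Equiv.prod_comp s u).trans hu.2.2⟩

theorem U4.mul {u w : Fin 4 → Fˣ} (hu : U4 u) (hw : U4 w) : U4 fun x => u x * w x :=
  ⟨fun x y => by rw [mul_pow, mul_pow, hu.1 x y, hw.1 x y], fun x => by rw [mul_pow, hu.2.1, hw.2.1, one_mul],
    by rw [Finset.prod_mul_distrib, hu.2.2, hw.2.2, one_mul]⟩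

theorem u4_sc {c : Fˣ} (h : c ^ 4 = 1) : U4 fun _ => c := ⟨fun _ _ => rfl, fun _ => h, by simpa⟩

/-- the group `4 ∘ 2 ^ (1 + 4)` attached to a frame -/
def R4 (β : Basis (Fin 4) F (ι → F)) : Subgroup (GL ι F) where
  carrier := {g | ∃ a u, Mo β g a u ∧ V4 a ∧ U4 u}
  one_mem' := ⟨1, _, sc_one (ι := ι) (F := F) ▸ mo_sc 1, by decide, u4_sc (one_pow _)⟩
  mul_mem' := by
    rintro g h ⟨a, u, h1, h2, h3⟩ ⟨b, w, h4, h5, h6⟩
    exact ⟨_, _, h1.mul h4, (by decide +kernel : ∀ a b, V4 a → V4 b → V4 (a * b)) a b h2 h5, (h3.comp b).mul h6⟩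
  inv_mem' := by
    rintro g ⟨a, u, h1, h2, h3⟩
    exact ⟨_, _, h1.inv, (by decide +kernel : ∀ a, V4 a → V4 a⁻¹) a h2, fun x y => by
      rw [inv_pow, inv_pow, h3.1], fun x => by rw [inv_pow, h3.2.1, inv_one], by
      rw [Finset.prod_inv_distrib, (h3.comp _).2.2, inv_one]⟩

variable {β : Basis (Fin 4) F (ι → F)}

theorem nm_R4 (h : ∀ g ∈ H, ∃ s t, Mo β g s t ∧ (∀ x, t x ^ 4 = 1) ∧ (∏ x, t x) ^ 2 = 1) : Nm H (R4 β) := by
  rintro g hg r ⟨a, u, h1, h2, h3⟩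
  obtain ⟨s, t, h4, h5, h6⟩ := h g hg
  have h7 : U4 fun x => t x ^ 2 := ⟨fun x y => by rw [← pow_mul, ← pow_mul, h5, h5], fun x => by
    rw [← pow_mul, mul_comm, pow_mul, h5, one_pow], by rw [Finset.prod_pow, h6]⟩
  have h8 : U4 fun x => t (a x) * (t x)⁻¹ := ⟨fun x y => by
    simpa only [mul_pow, inv_pow] using h7.quot h2 x y, fun x => by rw [mul_pow, inv_pow, h5, h5, inv_one, one_mul],
    by rw [Finset.prod_mul_distrib, Finset.prod_inv_distrib, Equiv.prod_comp a, mul_inv_cancel]⟩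
  exact ⟨_, _, (h4.mul h1).mul h4.inv, (by decide +kernel : ∀ a s, V4 a → V4 (s * a * s⁻¹)) a s h2,
    by simpa only [mul_right_comm] using (h8.mul h3).comp s⁻¹⟩

theorem alg_R4 (h2 : (2 : F) ≠ 0) : alg (R4 β) = ⊤ := by
  have h1 : ∀ a (u : Fin 4 → Fˣ), V4 a → U4 u → ∃ g ∈ alg (R4 β), ∀ i, g *ᵥ β i = (u i : F) • β (a i) := fun a u h1 h2 =>
    let ⟨g, hg⟩ := exists_mo β a u
    ⟨_, val_mem_alg ⟨a, u, hg, h1, h2⟩, hg⟩
  obtain ⟨d, h3, h4⟩ := h1 1 ![1, 1, -1, -1] (by decide) ⟨fun x y => by fin_cases x <;> fin_cases y <;> simp,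
    fun x => by fin_cases x <;> simp [Even.neg_pow (by decide : Even 4)], by simp [Fin.prod_univ_four]⟩
  obtain ⟨d', h5, h6⟩ := h1 1 ![1, -1, 1, -1] (by decide) ⟨fun x y => by fin_cases x <;> fin_cases y <;> simp,
    fun x => by fin_cases x <;> simp [Even.neg_pow (by decide : Even 4)], by simp [Fin.prod_univ_four]⟩
  have h7 : ∀ i, ((1 + d) * (1 + d')) *ᵥ β i = if i = 0 then (4 : F) • β 0 else 0 := fun i => by
    rw [← mulVec_mulVec, add_mulVec, add_mulVec, one_mulVec, one_mulVec, h6, mulVec_add, mulVec_smul]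
    simp only [Equiv.Perm.one_apply] at h4 ⊢
    rw [h4]
    fin_cases i <;> simp
    module
  refine eq_top_iff.2 fun x hx => ?_
  clear hx
  obtain ⟨x, rfl⟩ := LinearMap.toMatrix'.surjective x
  refine (Submodule.span_le.2 ?_ : _ ≤ ((alg (R4 β)).toSubmodule.comap LinearMap.toMatrix'.toLinearMap))
    (β.end.mem_span x)
  rintro _ ⟨⟨i, j⟩, rfl⟩
  obtain ⟨a, h8, rfl⟩ := (by decide +kernel : ∀ i, ∃ a, V4 a ∧ a 0 = i) i
  obtain ⟨b, h9, hb⟩ := (by decide +kernel : ∀ j, ∃ a, V4 a ∧ ∀ k, a k = 0 ↔ j = k) j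
  obtain ⟨g, h10, h11⟩ := h1 a _ h8 (u4_sc (one_pow _))
  obtain ⟨g', h12, h13⟩ := h1 b _ h9 (u4_sc (one_pow _))
  have h14 : (4 : F) ≠ 0 := by rw [show (4 : F) = 2 * 2 by norm_num]; exact mul_ne_zero h2 h2
  have : LinearMap.toMatrix' (β.end (a 0, j)) = (4 : F)⁻¹ • (g * ((1 + d) * (1 + d')) * g') := mat_ext β fun k => by
    rw [LinearMap.toMatrix'_mulVec, Basis.end_apply_apply, smul_mulVec, ← mulVec_mulVec, ← mulVec_mulVec, h13]
    simp only [Units.val_one, one_smul, h7, hb]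
    split_ifs <;> simp [mulVec_smul, h11, h14]
  exact (show _ ∈ alg _ from this ▸ Subalgebra.smul_mem _ (mul_mem (mul_mem h10
    (mul_mem (add_mem (one_mem _) h3) (add_mem (one_mem _) h5))) h12) _)

theorem sq_R4 {y : GL ι F} (hy : y ∈ R4 β) : ∃ c : Fˣ, y ^ 2 = sc c ∧ c ^ 2 = 1 := by
  obtain ⟨a, u, h1, h2, h3⟩ := hy
  refine ⟨u (a 0) * u 0, (pow_two y).trans ((h1.mul h1).ext ?_), by rw [mul_pow, h3.1 _ 0, ← pow_add, h3.2.1]⟩
  convert mo_sc (β := β) (u (a 0) * u 0) using 1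
  · exact h2.1
  · funext x
    rw [← inv_mul_cancel_right (u (a x)) (u x), mul_assoc (u (a x) * _), h3.quot h2 x 0, ← pow_two, h3.1 x 0,
      pow_two, ← mul_assoc, inv_mul_cancel_right]

theorem es_R4 (h2 : (2 : F) ≠ 0) : ES (R4 β) 2 := by
  have hn : Fintype.card ι = 4 := by simpa using (finrank_eq_card_basis β)
  have : Nonempty ι := Fintype.card_pos_iff.1 (by omega)
  refine es_of_alg Nat.prime_two (alg_R4 h2) (by omega) ?_ fun x hx => let ⟨c, h, _⟩ := sq_R4 hx; h ▸ sc_mem c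
  rintro x ⟨a, u, h1, h2, h3⟩ y ⟨b, w, h4, h5, h6⟩
  refine ⟨w (a 0) * (w 0)⁻¹ * (u (b⁻¹ 0) * (u 0)⁻¹), ((h4.mul h1).mul h4.inv).ext ?_⟩
  convert (mo_sc _).mul h1 using 1
  · exact (by decide +kernel : ∀ a b, V4 a → V4 b → b * a * b⁻¹ = 1 * a) a b h2 h5
  · funext x
    rw [h6.quot h2 0 (b⁻¹ x), h3.quot ((by decide +kernel : ∀ a, V4 a → V4 a⁻¹) b h5) 0 x, mul_assoc _ _ (u x),
      inv_mul_cancel_right, mul_right_comm]

theorem pow_R4 {y : GL ι F} (hy : y ∈ R4 β) : y ^ 4 = 1 := by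
  obtain ⟨c, h1, h2⟩ := sq_R4 hy
  rw [show 4 = 2 * 2 by rfl, pow_mul, h1, ← sc_pow, h2, sc_one]

theorem card_R4 (h4 : 4 ∣ Fintype.card F - 1) :
    Nat.card (Subgroup.center (R4 β)) = 4 ∧ Nat.card (R4 β) = 64 ∧ IsSymplecticTypeGroup 2 (R4 β) ∧
      ES (R4 β) 2 ∧ alg (R4 β) = ⊤ := by
  have hn : Fintype.card ι = 4 := by simpa using (finrank_eq_card_basis β)
  have : Nonempty ι := Fintype.card_pos_iff.1 (by omega)
  obtain ⟨c, hc⟩ : ∃ c : Fˣ, orderOf c = 4 := by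
    obtain ⟨g, hg⟩ := IsCyclic.exists_ofOrder_eq_natCard (α := Fˣ)
    rw [Nat.card_units, Nat.card_eq_fintype_card] at hg
    exact ⟨_, orderOf_pow_orderOf_div (orderOf_pos g).ne' (hg ▸ h4)⟩
  have h2 : (2 : F) ≠ 0 := fun h => by
    have := FiniteField.even_card_of_char_two (F := F) ((Nat.prime_dvd_prime_iff_eq (CharP.char_is_prime F _)
      Nat.prime_two).1 ((CharP.cast_eq_zero_iff F (ringChar F) 2).1 h))
    have := Fintype.one_lt_card (α := F)
    omega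
  have hE := es_R4 (β := β) h2
  have h1 := hE.card_center four_ne_zero hc fun c => ⟨fun h => sc_inj (ι := ι) (by rw [sc_pow, pow_R4 h, sc_one]),
    fun h => ⟨1, _, mo_sc c, by decide, u4_sc h⟩⟩
  obtain ⟨m, -, h3, h5⟩ := hE.card_eq (alg_R4 h2)
  obtain rfl : 2 = m := Nat.pow_right_injective le_rfl (hn.symm.trans h3 : 2 ^ 2 = 2 ^ m)
  exact ⟨h1, by rw [h5, h1]; rfl, hE.symp2 fun _ => pow_R4, hE, alg_R4 h2⟩

end four

theorem det_of_SL (hH : H ≤ specialLinear ι F) (g : GL ι F) (hg : g ∈ H) : g.1.det = 1 :=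
  congrArg Units.val (hH hg)

theorem exists_ne_of_decomp {t m : ℕ} {D : Fin t → Submodule F (ι → F)} (hD : IsMDecomposition m D) :
    ∃ v : Fin t → ι → F, (∀ i, v i ∈ D i) ∧ ∀ i, v i ≠ 0 := by
  choose v h1 h2 using fun i => (Submodule.ne_bot_iff _).1 (hD.as_ne i).1
  exact ⟨v, h1, h2⟩

theorem sq_prod {τ : Type} [Fintype τ] [DecidableEq τ] {β : Basis τ F (ι → F)} {g : GL ι F} {s : Equiv.Perm τ}
    {t : τ → Fˣ} (h : Mo β g s t) (h1 : g.1.det = 1) : (∏ x, t x) ^ 2 = 1 := Units.ext (by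
  have := h.det
  rw [h1] at this
  push_cast
  rcases Int.units_eq_one_or (Equiv.Perm.sign s) with e | e <;> simp only [e] at this <;> push_cast at this
  · linear_combination -(1 + ∏ x, (t x : F)) * this
  · linear_combination -(1 - ∏ x, (t x : F)) * this)

theorem sl45 (hF : Fintype.card F = 5) {D : Fin 4 → Submodule F (ι → F)} (hD : IsMDecomposition 1 D)
    (h1 : H ≤ decompositionStabilizer D) (h2 : H ≤ specialLinear ι F) :
    ∃ R, IsLinearSymplecticTypeData 2 R ∧ ¬ R ≤ scalars ι F ∧ H ≤ subgroupNormalizer R := by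
  obtain ⟨v, h3, h4⟩ := exists_ne_of_decomp hD
  obtain ⟨β, -, h5⟩ := exists_frame hD h3 h4
  obtain ⟨h6, h7, h8, h9, h10⟩ := card_R4 (β := β) (by rw [hF])
  have : Fact (Nat.Prime 5) := ⟨by norm_num⟩
  refine ⟨_, ⟨h8, absIrr_of_alg h10, 5, 1, by norm_num, ⟨by norm_num, charP_of_card_eq_prime hF, hF,
    by rw [h6]; rfl, by omega⟩, .inr (.inl ⟨rfl, rfl, h6, hD.as_card.le, 2, h7⟩)⟩, h9.nsc,
    nm_iff.1 (nm_R4 fun g hg => ?_)⟩
  obtain ⟨s, t, h⟩ := h5 g (h1 hg)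
  exact ⟨s, t, h, fun x => Units.ext (pow_eq_one_of_dvd (t x).ne_zero (by rw [hF])), sq_prod h (det_of_SL h2 g hg)⟩

theorem det_tr {κ : Type} [Fintype κ] [DecidableEq κ] (e : ι ≃ κ) (P : GL ι F) (a : Matrix κ κ F) :
    (tr e P a).det = a.det := by rw [tr_apply, det_cj, det_submatrix_equiv_self]

theorem two_ne_of_three (hF : Fintype.card F = 3) : (2 : F) ≠ 0 := fun h => by
  have := FiniteField.even_card_of_char_two (F := F) ((Nat.prime_dvd_prime_iff_eq (CharP.char_is_prime F _)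
    Nat.prime_two).1 ((CharP.cast_eq_zero_iff F (ringChar F) 2).1 h))
  omega

theorem sl43 (hF : Fintype.card F = 3) {D : Fin 2 → Submodule F (ι → F)} (hD : IsMDecomposition 2 D)
    (h1 : H ≤ decompositionStabilizer D) (h2 : H ≤ specialLinear ι F) :
    ∃ f : (ι → F) → (ι → F) → F, IsSymplecticForm f ∧ H ≤ similarityGroup f := by
  have : Nonempty ι := Fintype.card_pos_iff.1 (by rw [← hD.as_card]; omega)
  obtain ⟨e, P, h3⟩ := exists_blocks hD
  have hJ : IsUnit (trJ (RingHom.id F) e P (J2 F ⊗ₖ 1)) := isUnit_trJ (rf_J2.kron (rf_one fun _ => rfl)).unit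
  refine ⟨_, symp_fm hJ (alt_of_skew (two_ne_of_three hF) (by
    rw [trJ_transpose, kron_transpose, J2_transpose, transpose_one, neg_kron, trJ_neg])), le_sim hJ fun g hg => ?_⟩
  obtain ⟨s, A, h4⟩ := h3 g (h1 hg)
  have h5 := det_of_SL h2 g hg
  rw [h4, det_tr, det_bm, Fin.prod_univ_two] at h5
  have h6 : (A 0).1.det = (A 1).1.det := by
    have h6 := mul_self_of_three hF (A 1).det_ne_zero
    rcases Int.units_eq_one_or (Equiv.Perm.sign s) with e | e <;> simp [e] at h5 <;>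
      linear_combination (A 1).1.det * h5 - (A 0).1.det * h6
  exact ⟨(A 0).1.det, h4 ▸ sm_trJ.2 (Sm.bm s fun i => by fin_cases i; exacts [sm_J2 _, h6 ▸ sm_J2 _])⟩

end Cfsg.Agent.H4.As
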