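import Cfsg.Agent.H4.As25

/-! Aschbacher's theorem, part 26: small exceptions in dimension four. -/

set_option autoImplicit false
set_option linter.unusedSectionVars false

namespace Cfsg.Agent.H4.As

open Matrix Module Cfsg.Geo
open scoped MatrixGroups Kronecker commutatorElement

variable {ι κ : Type} [Fintype ι] [DecidableEq ι] [Fintype κ] [DecidableEq κ] {F : Type*} [Field F]
  [Fintype F] {H R : Subgroup (GL ι F)} {σ : F →+* F} {J : Matrix ι ι F} {ε : F}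

section bm

variable {τ : Type} [Fintype τ] [DecidableEq τ] {s s' : Equiv.Perm τ} {A A' : τ → Matrix κ κ F}

theorem bm_mul : bm s A * bm s' A' = bm (s * s') fun i => A (s' i) * A' i := by
  ext ⟨x, i⟩ ⟨y, j⟩
  simp only [mul_apply, bm_apply, Fintype.sum_prod_type, mul_ite, ite_mul, mul_zero, zero_mul,
    Finset.sum_ite_eq', Finset.mem_univ, if_true, Equiv.Perm.mul_apply]
  split_ifs <;> simp

theorem bm_transpose : (bm s A)ᵀ = bm s⁻¹ fun i => (A (s⁻¹ i))ᵀ := by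
  ext ⟨x, i⟩ ⟨y, j⟩
  simp only [transpose_apply, bm_apply, Equiv.Perm.eq_inv_iff_eq, eq_comm (a := j)]
  split_ifs with h
  · subst h; simp
  · rfl

theorem bm_map : (bm s A).map σ = bm s fun i => (A i).map σ := by
  ext ⟨x, i⟩ ⟨y, j⟩; simp [bm_apply, apply_ite σ]

theorem bm_smul (c : F) : c • bm s A = bm s fun i => c • A i := by
  ext ⟨x, i⟩ ⟨y, j⟩; simp [bm_apply]

theorem bm_one : bm 1 (fun _ : τ => (1 : Matrix κ κ F)) = 1 := by
  ext ⟨x, i⟩ ⟨y, j⟩; simp [bm_apply, one_apply, ite_and]; split_ifs <;> rfl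

theorem bm_inj (h : bm s A = bm s A') (i : τ) : A i = A' i := by
  ext x y
  simpa [bm_apply] using congrFun (congrFun h (x, s i)) (y, i)

theorem exists_blocks' {t m : ℕ} {D : Fin t → Submodule F (ι → F)} (hD : IsMDecomposition m D) :
    ∃ (e : ι ≃ Fin m × Fin t) (P : GL ι F), (∀ y j, P.1 *ᵥ (Pi.single (y, j) 1 ∘ e) ∈ D j) ∧
      ∀ g ∈ decompositionStabilizer D, ∃ (s : Equiv.Perm (Fin t)) (A : Fin t → GL (Fin m) F),
        (g : Matrix ι ι F) = tr e P (bm s fun i => A i) := by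
  obtain ⟨T, hT, hT'⟩ := exists_adapted hD
  obtain ⟨e, P, h⟩ := exists_eP T
  refine ⟨e, P, fun y j => h _ ▸ hT y j, fun g ⟨s, hs⟩ => ?_⟩
  obtain ⟨g', hg⟩ := (trG (tr e P)).surjective g
  have h1 : (g' : Matrix _ _ F) = bm s fun i => of fun x y => g' (x, s i) (y, i) := by
    ext ⟨x, i⟩ ⟨y, j⟩
    rw [bm_apply]
    split_ifs with h2
    · obtain rfl : i = s j := h2
      rfl
    have h3 := tr_mulVec e P g' (Pi.single (y, j) 1)
    rw [h, h, ← trG_val, hg, mulVec_single_one] at h3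
    refine hT' (g'.1.col (y, j)) (s j) ?_ x i (Ne.symm h2)
    rw [← h3, ← hs]
    exact ⟨_, hT y j, rfl⟩
  have h2 := g'.det_ne_zero
  rw [h1, det_bm] at h2
  refine ⟨s, fun i => GeneralLinearGroup.mkOfDetNeZero _
    (Finset.prod_ne_zero_iff.1 (right_ne_zero_of_mul h2) i (Finset.mem_univ i)), ?_⟩
  rw [← hg, trG_val]
  exact congrArg _ h1

end bm

abbrev sw : Equiv.Perm (Fin 2) := Equiv.swap 0 1

theorem perm_two (s : Equiv.Perm (Fin 2)) : s = 1 ∨ s = sw := by revert s; decide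

theorem Rf.ti_blocks (h : Rf σ J ε) (hH : H ≤ isoG σ J) {m : ℕ} {D : Fin 2 → Submodule F (ι → F)}
    (hD : IsMDecomposition m D) (h1 : ∀ i, IsTotallySingularFor (fm σ J) (D i)) (h2 : H ≤ decompositionStabilizer D) :
    ∃ (e : ι ≃ Fin m × Fin 2) (P : GL ι F) (M : Fin 2 → Matrix (Fin m) (Fin m) F), J = trJ σ e P (bm sw M) ∧
      (∀ i, (M i).det ≠ 0) ∧ (∀ i, ((M i).map σ)ᵀ = ε • M (sw i)) ∧ ∀ g ∈ H, ∃ (s : Equiv.Perm (Fin 2))
        (A : Fin 2 → GL (Fin m) F), (g : Matrix ι ι F) = tr e P (bm s fun i => A i) ∧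
        ∀ i, (A (sw i)).1ᵀ * M (s i) * (A i).1.map σ = M i := by
  obtain ⟨e, P, h3, h4⟩ := exists_blocks' hD
  obtain ⟨J', h5, rfl⟩ := exists_trJ σ e P h.unit
  obtain ⟨M, rfl⟩ : ∃ M, J' = bm sw M := ⟨fun i => of fun x y => J' (x, sw i) (y, i), by
    ext ⟨x, i⟩ ⟨y, j⟩
    rw [bm_apply]
    split_ifs with h6
    · obtain rfl : i = sw j := h6
      rfl
    obtain rfl : i = j := (by decide : ∀ i j : Fin 2, ¬ i = sw j → i = j) i j h6
    rw [← fm_single (σ := σ) (J := J'), ← fm_trJ (e := e) (P := P)]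
    exact h1 i _ (h3 _ _) _ (h3 _ _)⟩
  refine ⟨e, P, M, rfl, fun i => ?_, fun i => ?_, fun g hg => ?_⟩
  · have := ((isUnit_iff_isUnit_det _).1 h5).ne_zero
    rw [det_bm] at this
    exact Finset.prod_ne_zero_iff.1 (right_ne_zero_of_mul this) i (Finset.mem_univ i)
  · have := h.swap
    rw [trJ_swap h.inv, ← trJ_smul, bm_map, bm_transpose, bm_smul, Equiv.swap_inv] at this
    simpa using bm_inj (trJ_inj this) (sw i)
  · obtain ⟨s, A, h6⟩ := h4 g (h2 hg)
    refine ⟨s, A, h6, fun i => ?_⟩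
    have h7 := mem_isoG.1 (hH hg)
    rw [h6, sm_trJ, Sm, bm_transpose, bm_map, bm_mul, bm_mul, one_smul,
      (by decide : ∀ s : Equiv.Perm (Fin 2), s⁻¹ * sw * s = sw)] at h7
    simpa only [(by decide : ∀ (s : Equiv.Perm (Fin 2)) i, s⁻¹ (sw (s i)) = sw i)] using bm_inj h7 i

theorem u2_tr [Nonempty ι] {φ : F ≃+* F} (h2 : orderOf φ = 2) {e : ι ≃ κ} {P : GL ι F} {J B Y : Matrix κ κ F}
    (h : Rf (φ : F →+* F) (trJ φ e P J) 1) (hH : H ≤ isoG (φ : F →+* F) (trJ φ e P J)) (hI : Irr H)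
    (hn : 2 ≤ Fintype.card ι) (h0 : IsUnit B) (hB : Bᵀ = B ∨ Bᵀ = -B)
    (h1 : ∀ g ∈ H, ∃ c, Sm (RingHom.id F) (trJ (RingHom.id F) e P B) g c) (h3 : B * Y = J) {c : Fˣ}
    (h4 : Y * Y.map (φ : F →+* F) = (c : F) • 1) : U2 (φ : F →+* F) (trJ φ e P J) H := by
  obtain ⟨B', hB'⟩ := isUnit_trJ (σ := RingHom.id F) (e := e) (P := P) h0
  refine u2_of_twist h2 h hH hI hn (B := B') ?_ (hB' ▸ h1) (c := c) ?_
  · rw [hB', trJ_transpose, ← trJ_neg]; exact hB.imp (congrArg _) (congrArg _)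
  have h5 : B'⁻¹.1 * trJ φ e P J = P.1 * Y.submatrix e e * P⁻¹.1.map (φ : F →+* F) := by
    rw [Units.inv_mul_eq_iff_eq_mul, hB', trJ, trJ, map_id', ← h3, ← submatrix_mul_equiv _ _ _ e]
    simp only [mul_assoc, Units.inv_mul_cancel_left]
  rw [h5]
  erw [Matrix.map_mul (f := (φ : F →+* F)), Matrix.map_mul (f := (φ : F →+* F)), h.map_map]
  rw [mul_assoc, mul_assoc (P.1.map _), ← mul_assoc (P⁻¹.1.map _), ← Matrix.map_mul, Units.inv_mul,
    Matrix.map_one _ (map_zero _) (map_one _), one_mul, mul_assoc, ← mul_assoc (Y.submatrix e e), ← submatrix_map,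
    submatrix_mul_equiv, h4, submatrix_smul]
  simp

theorem J2_mul : J2 F * J2 F = -1 := by ext i j; fin_cases i <;> fin_cases j <;> simp [J2]

theorem J2_map : (J2 F).map σ = J2 F := by ext i j; fin_cases i <;> fin_cases j <;> simp [J2]

theorem J2_sm (a : Matrix (Fin 2) (Fin 2) F) : aᵀ * J2 F * a = a.det • J2 F := by simpa [Sm] using sm_J2 a

theorem isUnit_bm {l : Fin 2 → F} (h : ∀ i, l i ≠ 0) : IsUnit (bm 1 fun i => l i • J2 F) :=
  (isUnit_iff_isUnit_det _).2 (by simp [det_bm, J2, h])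

theorem bm_skew (l : Fin 2 → F) : (bm 1 fun i => l i • J2 F)ᵀ = -bm 1 fun i => l i • J2 F := by
  rw [bm_transpose, ← neg_one_smul F (bm _ _), bm_smul]; simp [J2_transpose]

theorem sm_bm {l : Fin 2 → F} {s : Equiv.Perm (Fin 2)} {A : Fin 2 → Matrix (Fin 2) (Fin 2) F} {c : F}
    (h : ∀ i, l (s i) * (A i).det = c * l i) : Sm (RingHom.id F) (bm 1 fun i => l i • J2 F) (bm s A) c := by
  rw [Sm, map_id', bm_transpose, bm_mul, bm_mul, bm_smul, mul_one, inv_mul_cancel]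
  congr 1
  funext i
  simp [J2_sm, smul_smul, h]

theorem Rf.ti_u2 (h : Rf σ J 1) (h1 : σ ≠ RingHom.id F) (hH : H ≤ isoG σ J) (hI : Irr H)
    (hq : ∀ a, a ≠ 0 → σ a = a → a * a = 1) (hd : H ≤ specialLinear ι F) {D : Fin 2 → Submodule F (ι → F)}
    (hD : IsMDecomposition 2 D) (h3 : ∀ i, IsTotallySingularFor (fm σ J) (D i)) (h4 : H ≤ decompositionStabilizer D) :
    U2 σ J H := by
  have hn := hD.as_card
  have : Nonempty ι := Fintype.card_pos_iff.1 (by omega)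
  obtain ⟨φ, h10, h11, -⟩ := exists_inv_of_sq (exists_eq_frobq h1 h.inv).choose_spec.1
  have h2 : orderOf φ = 2 := orderOf_eq_prime (RingEquiv.ext h11) h10
  obtain rfl := eq_of_order_two h2 h1 h.inv
  obtain ⟨e, P, M, rfl, h5, h6, h7⟩ := h.ti_blocks hH hD h3 h4
  have h8 : ∀ i, (φ : F →+* F) (M i).det = (M (sw i)).det := fun i => by
    rw [RingHom.map_det, ← det_transpose]; exact (congrArg det (h6 i)).trans (by simp)
  have hl : ∀ i, ![1, (M 0).det] i ≠ 0 := fun i => by fin_cases i <;> simp [h5]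
  refine u2_tr h2 h hH hI (by omega) (isUnit_bm hl) (.inr (bm_skew _)) (fun g hg => ?_)
    (Y := bm sw fun i => (![1, (M 0).det] (sw i))⁻¹ • (-J2 F * M i)) ?_ (c := -1) ?_
  · obtain ⟨s, A, h9, h12⟩ := h7 g hg
    have h13 := det_of_SL hd g hg
    have h14 := congrArg det (h12 0)
    rw [h9, det_tr, det_bm, Fin.prod_univ_two, show ((Equiv.Perm.sign s : ℤ) : F) ^ Fintype.card (Fin 2) = 1 by
      rcases Int.units_eq_one_or (Equiv.Perm.sign s) with e | e <;> simp [e], one_mul] at h13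
    rw [det_mul, det_mul, det_transpose, Equiv.swap_apply_left] at h14
    erw [← RingHom.map_det] at h14
    refine ⟨![1, (M 0).det] (s 0) * (A 0).1.det, h9 ▸ sm_trJ.2 (sm_bm fun i => ?_)⟩
    rcases perm_two s with rfl | rfl <;> fin_cases i <;> simp
    · have := hq _ (A 0).det_ne_zero (mul_left_cancel₀ (h5 0) (by
        simp only [Equiv.Perm.one_apply] at h14
        linear_combination (A 0).1.det * h14 - (M 0).det * (φ : F →+* F) (A 0).1.det * h13))
      linear_combination (M 0).det * (A 0).1.det * h13 - (M 0).det * (A 1).1.det * this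
    · have := hq _ (mul_ne_zero (h5 0) (A 0).det_ne_zero) (by
        rw [Equiv.swap_apply_left] at h14
        rw [map_mul, h8, Equiv.swap_apply_left]
        linear_combination (A 0).1.det * h14 - (M 1).det * (φ : F →+* F) (A 0).1.det * h13)
      linear_combination (M 0).det ^ 2 * (A 0).1.det * h13 - (A 1).1.det * this
  · rw [bm_mul, one_mul]
    congr 1
    funext i
    rw [smul_mul_smul_comm, mul_inv_cancel₀ (hl _), one_smul, ← mul_assoc, mul_neg, J2_mul, neg_neg, one_mul]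
  · rw [bm_map, bm_mul, Equiv.swap_mul_self, ← bm_one, bm_smul]
    congr 1
    funext i
    have h7 : ∀ (c : F) (a : Matrix (Fin 2) (Fin 2) F), (c • a).map (φ : F →+* F) = φ c • a.map (φ : F →+* F) :=
      fun c a => by ext; simp
    rw [h7, smul_mul_smul_comm, Matrix.map_mul, Matrix.map_neg _ (map_neg _), J2_map, ← one_smul F (M (sw i)), ← h6,
      neg_mul (J2 F), neg_mul (J2 F), neg_mul_neg, mul_assoc, ← mul_assoc _ (J2 F), J2_sm, mul_smul_comm, J2_mul]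
    erw [← RingHom.map_det, h8]
    have := h8 0
    have := h5 1
    have := h5 0
    fin_cases i <;> simp_all [smul_smul]

theorem sm_of_basis {τ : Type} [Fintype τ] (β : Basis τ F (ι → F)) {g : Matrix ι ι F} {c : F}
    (h : ∀ i j, fm σ J (g *ᵥ β i) (g *ᵥ β j) = c * fm σ J (β i) (β j)) : Sm σ J g c := sm_iff.2 fun u v => by
  rw [← β.sum_repr u, ← β.sum_repr v]
  simp only [mulVec_sum, mulVec_smul, fm_sum_left, fm_sum_right, fm_smul_left, fm_smul_right, h, Finset.mul_sum,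
    mul_left_comm c]

theorem su43 (h : Rf σ J 1) (h1 : σ ≠ RingHom.id F) (hq : ∀ a, σ a = a ^ 3) (hF : Fintype.card F = 3 ^ 2)
    (hH : H ≤ isoG σ J) (hd : H ≤ specialLinear ι F) {D : Fin 4 → Submodule F (ι → F)}
    (hD : IsNondegenerateMDecomposition (fm σ J) 1 D) (h2 : H ≤ decompositionStabilizer D) :
    ∃ R, IsSymplecticTypeGroup 2 R ∧ alg R = ⊤ ∧ R ≤ isoG σ J ∧ Nat.card R = 64 ∧
      Nat.card (Subgroup.center R) = 4 ∧ Nm H R := by
  obtain ⟨v, h3, h4⟩ : ∃ v : Fin 4 → ι → F, (∀ i, v i ∈ D i) ∧ ∀ i, fm σ J (v i) (v i) = 1 := by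
    choose v h3 h4 using fun i => h.exists_aniso (.inl h1) (hD.nondegenerate i) (hD.decomp.as_ne i).1
    choose c hc using fun i => exists_norm_eq' h1 h.inv (μ := (fm σ J (v i) (v i))⁻¹) (by
      rw [map_inv₀, ← one_mul (σ _), ← h.symm])
    exact ⟨fun i => c i • v i, fun i => (D i).smul_mem _ (h3 i), fun i => by
      rw [fm_smul_left, fm_smul_right, ← mul_assoc, hc, inv_mul_cancel₀ (h4 i)]⟩
  obtain ⟨β, rfl, h5⟩ := exists_frame hD.decomp h3 fun i e => by simpa [e, fm_zero_left] using h4 i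
  obtain ⟨h6, h7, h8, h9, h10⟩ := card_R4 (β := β) (by rw [hF]; norm_num)
  have h11 : ∀ i j, fm σ J (β i) (β j) = if i = j then 1 else 0 := fun i j => by
    split_ifs with e
    exacts [e ▸ h4 i, hD.orthogonal i j e _ (h3 i) _ (h3 j)]
  refine ⟨_, h8, h10, ?_, h7, h6, nm_R4 fun g hg => ?_⟩
  · rintro g ⟨a, u, k1, -, k2⟩
    refine sm_of_basis β fun i j => ?_
    rw [k1, k1, fm_smul_left, fm_smul_right, h11, h11, hq, one_mul, ← mul_assoc]
    by_cases e : i = j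
    · simpa [e, ← pow_succ'] using congrArg Units.val (k2.2.1 j)
    · simp [e]
  obtain ⟨s, t, k⟩ := h5 g (h2 hg)
  refine ⟨s, t, k, fun x => Units.ext ?_, sq_prod k (det_of_SL hd g hg)⟩
  have := iso_fm (hH hg) (β x) (β x)
  rw [k, fm_smul_left, fm_smul_right, h4, h4, hq, mul_one, ← pow_succ'] at this
  exact this

theorem rf_unF {n q : ℕ} (hF : Fintype.card F = q ^ 2) : Rf (frobq hF) (gr (unF hF n)) 1 :=
  rf_gr (unF_nondeg hF n)

theorem herm_eq {n q : ℕ} (hF : Fintype.card F = q ^ 2) : hermForm n F q = fm (frobq hF) (gr (unF hF n)) :=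
  (fm_gr' (f := unF hF n)).symm

theorem suRed {n q : ℕ} (hF : Fintype.card F = q ^ 2) (hn : 3 ≤ n) (hx : ¬ (n = 3 ∧ q = 2))
    {H : Subgroup (GL (Fin n) F)} (hH : H ≤ GU n F q) {Φ : Subgroup (GL (Fin n) F) → Prop}
    (hΦ : ∀ X, H ≤ X → ¬ GU n F q ⊓ specialLinear (Fin n) F ≤ X → Φ X) :
    ((∃ W, W ≠ ⊥ ∧ IsTotallySingularFor (hermForm n F q) W ∧ Φ (subspaceStabilizer W)) ∨
    (∃ W, W ≠ ⊥ ∧ IsNondegenerateOn (hermForm n F q) W ∧ 2 * finrank F W < n ∧ Φ (subspaceStabilizer W)) ∨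
    (∃ (t m : ℕ) (D : Fin t → Submodule F (Fin n → F)), t * m = n ∧ 2 ≤ t ∧ (m = 2 → 3 ≤ q) ∧
      IsNondegenerateMDecomposition (hermForm n F q) m D ∧ Φ (decompositionStabilizer D))) ∨ Irr H := by
  have hB := big_SU hF hn hx
  have := hB.nonempty
  have hq := two_le_of_card_sq hF
  have h := rf_unF (n := n) hF
  have hJ := hH.trans (GU_eq hF).le
  rw [herm_eq hF]
  refine (irr_or H).imp_left fun ⟨W, h2, h3, h4⟩ => ?_
  rcases red_cases (unF_nondeg hF n) hJ h2 h3 h4 with ⟨U, h5, h6, h7⟩ | ⟨U, h5, h6, h7, h8⟩ | ⟨m, D, h2, h6⟩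
  · exact .inl ⟨U, h5, h6, hΦ _ h7.le (hB.not_stab h5 (by
      rintro rfl
      obtain ⟨v, hv⟩ := exists_ne_zero (ι := Fin n) (F := F)
      exact hv (h.eq_zero fun u => h6 u trivial v trivial)))⟩
  · exact .inr <| .inl ⟨U, h5, h6, by simpa using h7, hΦ _ h8.le (hB.not_stab h5 (by
      rintro rfl; simp at h7; omega))⟩
  have h3 := le_decomp_of_inv h6
  refine .inr (.inr ?_)
  by_cases h4 : m = 2 ∧ Fintype.card F = 2 ^ 2
  · obtain ⟨rfl, h4⟩ := h4
    obtain ⟨t, D, h2, h3⟩ := h.frame_u2 (frobq_ne hF) h4 hJ h2 h3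
    exact ⟨t, 1, D, by simpa using h2.decomp.as_card, h2.decomp.two_le, by omega, h2,
      hΦ _ h3 (hB.not_decomp h2.decomp)⟩
  exact ⟨2, m, D, by simpa using h2.decomp.as_card, le_rfl, fun a => hq.lt_of_ne fun b => h4 ⟨a, b ▸ hF⟩, h2,
    hΦ _ h3 (hB.not_decomp h2.decomp)⟩

end Cfsg.Agent.H4.As
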