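import Cfsg.Agent.H4.As26

/-! Aschbacher's theorem, part 27: small exceptions for the symplectic groups. -/

set_option autoImplicit false
set_option linter.unusedSectionVars false

namespace Cfsg.Agent.H4.As

open Matrix Module Cfsg.Geo
open scoped MatrixGroups Kronecker commutatorElement

variable {ι κ ν : Type} [Fintype ι] [DecidableEq ι] [Fintype κ] [DecidableEq κ] [Fintype ν] [DecidableEq ν]
  {F : Type*} [Field F] [Fintype F] {H R : Subgroup (GL ι F)} {σ : F →+* F} {J : Matrix ι ι F} {ε : F} {r : ℕ}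

theorem es_of_set [Nonempty ι] {S : Set (GL ι F)} (ht : alg (Subgroup.closure S) = ⊤) (hn : 2 ≤ Fintype.card ι)
    (h1 : ∀ x ∈ S, ∀ y ∈ S, ∃ c : Fˣ, y * x * y⁻¹ = sc c * x) (h2 : ∀ x ∈ S, x ^ 2 ∈ scalars ι F) :
    ES (Subgroup.closure S) 2 := by
  have h3 : ∀ x ∈ Subgroup.closure S, ∀ y ∈ Subgroup.closure S, ∃ c : Fˣ, y * x * y⁻¹ = sc c * x :=
    fun x hx y hy => by
      induction hx, hy using Subgroup.closure_induction₂ with
      | mem x y hx hy => exact h1 x hx y hy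
      | one_left => exact ⟨1, by simp⟩
      | one_right => exact ⟨1, by simp⟩
      | mul_left x y z _ _ _ h h' =>
        obtain ⟨c, h⟩ := h
        obtain ⟨d, h'⟩ := h'
        exact ⟨c * d, by rw [← conj_mul, h, h', sc_mul, mul_assoc, mul_assoc, ← mul_assoc x, ← sc_comm, mul_assoc]⟩
      | mul_right x y z _ _ _ h h' =>
        obtain ⟨c, h⟩ := h
        obtain ⟨d, h'⟩ := h'
        exact ⟨d * c, by rw [show x * y * z * (x * y)⁻¹ = x * (y * z * y⁻¹) * x⁻¹ by group, h', conj_sc_mul, h,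
          sc_mul, mul_assoc]⟩
      | inv_left x y _ _ h =>
        obtain ⟨c, h⟩ := h
        exact ⟨c⁻¹, by rw [← conj_inv, h, _root_.mul_inv_rev, sc_inv, ← sc_inv, sc_comm]⟩
      | inv_right x y _ _ h =>
        obtain ⟨c, h⟩ := h
        refine ⟨c⁻¹, ?_⟩
        rw [sc_inv, eq_inv_mul_iff_mul_eq, ← conj_sc_mul, ← h]; group
  refine es_of_alg Nat.prime_two ht hn h3 fun x hx => ?_
  induction hx using Subgroup.closure_induction with
  | mem x hx => exact h2 x hx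
  | one => simp
  | mul x y hx hy h h' =>
    obtain ⟨c, hc⟩ := h3 x hx y hy
    rw [mul_pow_of_conj hc]
    exact mul_mem (sc_mem _) (mul_mem h h')
  | inv x _ h => rw [inv_pow]; exact inv_mem h

theorem conj_of_pm {x y : GL ι F} (h : y.1 * x.1 = x.1 * y.1 ∨ y.1 * x.1 = -(x.1 * y.1)) :
    ∃ c : Fˣ, y * x * y⁻¹ = sc c * x :=
  h.elim (fun h => ⟨1, mul_inv_eq_iff_eq_mul.2 (Units.ext (by simpa))⟩)
    fun h => ⟨-1, mul_inv_eq_iff_eq_mul.2 (Units.ext (by simpa))⟩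

theorem nm_closure {S : Set (GL ι F)} (h : ∀ g ∈ H, ∀ x ∈ S, g * x * g⁻¹ ∈ S) : Nm H (Subgroup.closure S) :=
  fun g hg _ hx => (Subgroup.closure_le (K := (Subgroup.closure S).comap (MulAut.conj g).toMonoidHom)).2
    (fun x hx => Subgroup.subset_closure (h g hg x hx)) hx

theorem c6_sp [Nonempty ι] (h : Rf (RingHom.id F) J (-1)) (h1 : ES R 2) (ht : alg R = ⊤)
    (h2 : R ≤ isoG (RingHom.id F) J) {k : ℕ} (hk : Fintype.card ι = 2 ^ k) : IsSymplecticTypeGroup 2 R ∧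
      Nat.card R = 2 ^ (1 + 2 * k) ∧ Nat.card (Subgroup.center R) = 2 ∧ IsOfMinusType k R := by
  obtain ⟨-, -, h3, h4⟩ := h1.bilin h.unit h2
  obtain ⟨m, -, h5, h6⟩ := h1.card_eq ht
  obtain rfl := Nat.pow_right_injective le_rfl (hk.symm.trans h5)
  have h7 : Nat.card R = 2 ^ (1 + 2 * k) := by rw [h6, h4, pow_add, pow_one]
  exact ⟨h1.symp2 h3, h7, h4, h1.minus ht h h2 h7⟩

section kron

variable (Ψ : Matrix (κ × ν) (κ × ν) F ≃ₐ[F] Matrix ι ι F) {R₁ : Subgroup (GL κ F)} {R₂ : Subgroup (GL ν F)}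

/-- the tensor product of two groups -/
def kS (R₁ : Subgroup (GL κ F)) (R₂ : Subgroup (GL ν F)) : Subgroup (GL ι F) :=
  (R₁.prod R₂).map ((trG Ψ).toMonoidHom.comp kH)

theorem alg_kS (h5 : alg R₁ = ⊤) (h6 : alg R₂ = ⊤) : alg (kS Ψ R₁ R₂) = ⊤ := eq_top_iff.2 fun x hx => by
  clear hx
  obtain ⟨x, rfl⟩ := Ψ.surjective x
  have h9 : ∀ a b, Ψ (a ⊗ₖ b) ∈ alg (kS Ψ R₁ R₂) := fun a b => by
    rw [← kl_mul_kr, map_mul]
    refine mul_mem (alg_le (A := Subalgebra.comap (Ψ.toAlgHom.comp (kl _)) (alg (kS Ψ R₁ R₂))) (fun g hg => ?_)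
      (h5.ge (Algebra.mem_top (x := a)))) (alg_le (A := Subalgebra.comap (Ψ.toAlgHom.comp (kr _))
      (alg (kS Ψ R₁ R₂))) (fun g hg => ?_) (h6.ge (Algebra.mem_top (x := b))))
    · have := val_mem_alg (L := kS Ψ R₁ R₂) ⟨(g, 1), ⟨hg, one_mem _⟩, rfl⟩
      simpa [kH, kl_apply] using this
    · have := val_mem_alg (L := kS Ψ R₁ R₂) ⟨(1, g), ⟨one_mem _, hg⟩, rfl⟩
      simpa [kH, kr_apply] using this
  induction x using Matrix.induction_on' with
  | h_zero => simp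
  | h_add p q hp hq => rw [map_add]; exact add_mem hp hq
  | h_std_basis i j c =>
    have := h9 (single i.1 j.1 c) (single i.2 j.2 1)
    rwa [single_kronecker_single, mul_one] at this

theorem es_kS [Nonempty ι] [Nonempty κ] (h1 : ES R₁ r) (h2 : ES R₂ r) (h5 : alg R₁ = ⊤) (h6 : alg R₂ = ⊤)
    (hn : 2 ≤ Fintype.card ι) : ES (kS Ψ R₁ R₂) r := by
  let φ := (trG Ψ).toMonoidHom.comp kH
  have hφ : ∀ c d : Fˣ, φ (sc c, sc d) = sc (c * d) := fun c d =>
    (congrArg (trG Ψ) (kG_sc c d)).trans (trG_sc _ _)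
  refine es_of_alg h1.prime (alg_kS Ψ h5 h6) hn ?_ ?_
  · rintro _ ⟨⟨a, b⟩, ⟨ha, hb⟩, rfl⟩ _ ⟨⟨a', b'⟩, ⟨ha', hb'⟩, rfl⟩
    obtain ⟨c, hc⟩ := h1.comm a ha a' ha'
    obtain ⟨d, hd⟩ := h2.comm b hb b' hb'
    exact ⟨c * d, by rw [← map_inv, ← map_mul, ← map_mul, ← hφ, ← map_mul]; exact congrArg φ (Prod.ext hc hd)⟩
  · rintro _ ⟨⟨a, b⟩, ⟨ha, hb⟩, rfl⟩
    obtain ⟨c, hc⟩ := h1.pow a ha
    obtain ⟨d, hd⟩ := h2.pow b hb
    rw [← map_pow, show (a, b) ^ r = (sc c, sc d) from Prod.ext hc.symm hd.symm, hφ]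
    exact sc_mem _

theorem nm_kS (h : ∀ g ∈ H, ∃ a b, g = trG Ψ (kG a b) ∧ (∀ x ∈ R₁, a * x * a⁻¹ ∈ R₁) ∧
    ∀ x ∈ R₂, b * x * b⁻¹ ∈ R₂) : Nm H (kS Ψ R₁ R₂) := by
  rintro g hg _ ⟨⟨a, b⟩, ⟨ha, hb⟩, rfl⟩
  obtain ⟨x, y, rfl, h1, h2⟩ := h g hg
  exact ⟨(x, y) * (a, b) * (x, y)⁻¹, ⟨h1 a ha, h2 b hb⟩, by rw [map_mul, map_mul, map_inv]; rfl⟩

end kron

theorem kS_le {e : ι ≃ κ × ν} {P : GL ι F} {R₁ : Subgroup (GL κ F)} {R₂ : Subgroup (GL ν F)} {J₁ : Matrix κ κ F}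
    {J₂ : Matrix ν ν F} (h1 : R₁ ≤ isoG σ J₁) (h2 : R₂ ≤ isoG σ J₂) (c : F) :
    kS (tr e P) R₁ R₂ ≤ isoG σ (trJ σ e P (c • J₁ ⊗ₖ J₂)) := by
  rintro _ ⟨⟨a, b⟩, ⟨ha, hb⟩, rfl⟩
  exact sm_trJ.2 (by simpa [kH] using ((mem_isoG.1 (h1 ha)).kron (mem_isoG.1 (h2 hb))).smul c)

theorem sm_split [Nonempty κ] [Nonempty ν] {J₁ a : Matrix κ κ F} {J₂ b : Matrix ν ν F} (h1 : IsUnit J₁)
    (h2 : IsUnit J₂) (h : Sm σ (J₁ ⊗ₖ J₂) (a ⊗ₖ b) 1) : ∃ c, Sm σ J₁ a c ∧ Sm σ J₂ b c⁻¹ :=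
  let ⟨c, _, h⟩ := kron_unique h1.ne_zero h2.ne_zero ((sm_kron_iff.1 h).trans (one_smul _ _))
  ⟨c, h⟩

section three

variable (hF : Fintype.card F = 3)
include hF

theorem three_eq : (3 : F) = 0 := by simpa [hF] using FiniteField.cast_card_eq_zero F

/-- the quaternion group -/
def Q8 (F : Type*) [Field F] : Subgroup (GL (Fin 2) F) := Subgroup.closure {x | x.1 * x.1 = -1}

omit hF in
theorem nm_Q8 (g x : GL (Fin 2) F) (hx : x ∈ Q8 F) : g * x * g⁻¹ ∈ Q8 F :=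
  nm_closure (H := ⊤) (fun g _ x (hx : x.1 * x.1 = -1) => show (g * x * g⁻¹).1 * (g * x * g⁻¹).1 = -1 by
    rw [← cj_val, ← map_mul, hx, map_neg, map_one]) g trivial x hx

theorem alg_Q8 : alg (Q8 F) = ⊤ := by
  have h3 := three_eq hF
  have h1 : ∀ x : Matrix (Fin 2) (Fin 2) F, x * x = -1 → x ∈ alg (Q8 F) := fun x h =>
    val_mem_alg (g := ⟨x, -x, by simp [h], by simp [h]⟩) (Subgroup.subset_closure h)
  have h2 := h1 _ J2_mul
  have h4 := h1 !![1, 1; 1, -1] (by ext i j; fin_cases i <;> fin_cases j <;> simp <;> linear_combination h3)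
  refine eq_top_iff.2 fun a _ => ?_
  rw [show a = (-(a 0 0 + a 1 1)) • 1 + (a 1 0 - a 0 1) • J2 F + (a 0 0 - a 1 1 + a 0 1 + a 1 0) • !![1, 1; 1, -1] +
    (a 0 0 - a 1 1 - a 0 1 - a 1 0) • (J2 F * !![1, 1; 1, -1]) by
      ext i j; fin_cases i <;> fin_cases j <;> simp [J2]
      exacts [by linear_combination (a 1 1) * h3, by linear_combination -(a 1 0) * h3,
        by linear_combination -(a 0 1) * h3, by linear_combination (a 0 0) * h3]]
  exact add_mem (add_mem (add_mem (Subalgebra.smul_mem _ (one_mem _) _) (Subalgebra.smul_mem _ h2 _))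
    (Subalgebra.smul_mem _ h4 _)) (Subalgebra.smul_mem _ (mul_mem h2 h4) _)

theorem fact3 (x y : Matrix (Fin 2) (Fin 2) F) :
    (x * x = -1 → x.det = 1) ∧ (xᵀ * x = 1 → x * x = 1 ∨ x * x = -1) ∧
    ((x * x = -1 ∧ y * y = -1) ∨ (xᵀ * x = 1 ∧ yᵀ * y = 1) → y * x = x * y ∨ y * x = -(x * y)) := by
  have key : ∀ x : Matrix (Fin 2) (Fin 2) (ZMod 3), (x * x = -1 → x.det = 1) ∧ (xᵀ * x = 1 → x * x = 1 ∨ x * x = -1) ∧
    ∀ y, ((x * x = -1 ∧ y * y = -1) ∨ (xᵀ * x = 1 ∧ yᵀ * y = 1) → y * x = x * y ∨ y * x = -(x * y)) := by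
    decide +kernel
  let e := (ZMod.ringEquivOfPrime F Nat.prime_three hF)
  obtain ⟨x, rfl⟩ := e.mapMatrix.surjective x
  obtain ⟨y, rfl⟩ := e.mapMatrix.surjective y
  have h1 : ∀ x : Matrix (Fin 2) (Fin 2) (ZMod 3), (e.mapMatrix x)ᵀ = e.mapMatrix xᵀ := fun _ => rfl
  simp only [h1, ← map_mul, ← map_neg, ← map_one e.mapMatrix, e.mapMatrix.injective.eq_iff, ← e.map_det,
    ← map_one e, e.injective.eq_iff]
  exact ⟨(key x).1, (key x).2.1, (key x).2.2 y⟩

theorem es_Q8 : ES (Q8 F) 2 :=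
  es_of_set (alg_Q8 hF) (by simp) (fun x hx y hy => conj_of_pm ((fact3 hF _ _).2.2 (.inl ⟨hx, hy⟩)))
    fun x hx => ⟨-1, Units.ext (by rw [pow_two, Units.val_mul, hx]; exact sc_neg_one)⟩

theorem Q8_le : Q8 F ≤ isoG (RingHom.id F) (J2 F) := (Subgroup.closure_le _).2 fun x hx =>
  mem_isoG.2 ((fact3 hF x.1 1).1 hx ▸ sm_J2 x.1)

omit hF in
theorem mem_iso_one {x : GL κ F} : x ∈ isoG (RingHom.id F) 1 ↔ x.1ᵀ * x.1 = 1 := by simp [mem_isoG, Sm]

theorem alg_D8 : alg (isoG (RingHom.id F) (1 : Matrix (Fin 2) (Fin 2) F)) = ⊤ := by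
  have h3 := three_eq hF
  have h1 : ∀ x : Matrix (Fin 2) (Fin 2) F, xᵀ * x = 1 → x ∈ alg (isoG (RingHom.id F) 1) := fun x h =>
    val_mem_alg (g := ⟨x, xᵀ, mul_eq_one_comm.1 h, h⟩) (mem_iso_one.2 h)
  have h2 := h1 (J2 F) (by rw [J2_transpose, neg_mul, J2_mul, neg_neg])
  have h4 := h1 !![1, 0; 0, -1] (by ext i j; fin_cases i <;> fin_cases j <;> simp [mul_apply])
  refine eq_top_iff.2 fun a _ => ?_
  rw [show a = (-(a 0 0 + a 1 1)) • 1 + (a 1 0 - a 0 1) • J2 F + (a 1 1 - a 0 0) • !![1, 0; 0, -1] +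
    (a 0 1 + a 1 0) • (J2 F * !![1, 0; 0, -1]) by
      ext i j; fin_cases i <;> fin_cases j <;> simp [J2]
      exacts [by linear_combination (a 0 0) * h3, by linear_combination (a 0 1) * h3,
        by linear_combination (a 1 0) * h3, by linear_combination (a 1 1) * h3]]
  exact add_mem (add_mem (add_mem (Subalgebra.smul_mem _ (one_mem _) _) (Subalgebra.smul_mem _ h2 _))
    (Subalgebra.smul_mem _ h4 _)) (Subalgebra.smul_mem _ (mul_mem h2 h4) _)

theorem es_D8 : ES (isoG (RingHom.id F) (1 : Matrix (Fin 2) (Fin 2) F)) 2 :=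
  es_of_alg Nat.prime_two (alg_D8 hF) (by simp) (fun x hx y hy => conj_of_pm ((fact3 hF _ _).2.2
    (.inr ⟨mem_iso_one.1 hx, mem_iso_one.1 hy⟩))) fun x hx => ((fact3 hF x.1 1).2.1 (mem_iso_one.1 hx)).elim
      (fun h => ⟨1, Units.ext (by rw [pow_two, Units.val_mul, h]; simp)⟩)
      fun h => ⟨-1, Units.ext (by rw [pow_two, Units.val_mul, h]; exact sc_neg_one)⟩

end three

theorem exists_trJ_of (σ : F →+* F) (v : κ → ι → F) (hn : Fintype.card κ = Fintype.card ι)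
    (h : IsUnit (of fun i j => fm σ J (v i) (v j))) : ∃ (e : ι ≃ κ) (P : GL ι F),
      ∀ J : Matrix ι ι F, J = trJ σ e P (of fun i j => fm σ J (v i) (v j)) := by
  have h1 : ∀ (J : Matrix ι ι F) x y, fm σ J (Fintype.linearCombination F v x) (Fintype.linearCombination F v y) =
      fm σ (of fun i j => fm σ J (v i) (v j)) x y := fun J x y => by
    simp only [Fintype.linearCombination_apply, fm_sum_left, fm_sum_right, fm_smul_left, fm_smul_right]
    rw [fm_eq_sum, Finset.sum_comm (γ := κ)]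
    exact Finset.sum_congr rfl fun i _ => (Finset.mul_sum _ _ _).trans (Finset.sum_congr rfl fun j _ => by simp; ring)
  obtain ⟨e, P, h2⟩ := exists_eP (LinearMap.linearEquivOfInjective (Fintype.linearCombination F v)
    ((injective_iff_map_eq_zero _).2 fun x hx => vecMul_injective_iff_isUnit.2 h (funext fun j => by
      have := h1 J x (Pi.single j 1)
      rw [hx, fm_zero_left, fm_eq_sum] at this
      simpa [vecMul, dotProduct, Pi.single_apply, apply_ite σ] using this.symm)) (by simpa))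
  refine ⟨e, P, fun J => fm_inj (σ := σ) fun u w => ?_⟩
  obtain ⟨x, rfl⟩ := exists_coord e P u
  obtain ⟨y, rfl⟩ := exists_coord e P w
  rw [fm_trJ, h2, h2]
  exact h1 J x y

theorem trJ_mul {e : ι ≃ κ} {P : GL ι F} (B Y : Matrix κ κ F) :
    trJ (RingHom.id F) e P (B * Y) = trJ (RingHom.id F) e P B * tr e P Y := by
  rw [trJ, trJ, map_id', tr_apply, cj_apply, ← submatrix_mul_equiv _ _ _ e]
  simp only [mul_assoc, Units.inv_mul_cancel_left]

theorem Rf.nd_of_two [Nonempty ι] (h : Rf (RingHom.id F) J ε) (h2 : (2 : F) ≠ 0) (hH : H ≤ isoG (RingHom.id F) J)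
    (hI : Irr H) {B s : Matrix ι ι F} (h0 : IsUnit B) (hB : Bᵀ = ε • B) (h1 : B * s = J) (h3 : s * s = 1)
    (h4 : ¬ IsSc s) (h5 : ∀ g ∈ H, ∃ c, Sm (RingHom.id F) B g.1 c) : ∃ m, ND (RingHom.id F) J H m := by
  have h6 : ad (RingHom.id F) J s = s := h.ad_eq' (by
    have := h.swap
    rw [map_id', ← h1, transpose_mul, hB, mul_smul_comm] at this
    rw [map_id', ← h1, ← mul_assoc, smul_right_injective _ h.eps_ne this])
  have h7 : ∀ g ∈ H, cj g s = s ∨ cj g s = -s := fun g hg => by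
    obtain ⟨c, hc⟩ := h5 g hg
    have h7 := mem_isoG.1 (hH hg)
    simp only [Sm, map_id', one_smul] at hc h7
    have h8 : cj g s = c • s := cj_eq_iff.2 ((((isUnit_transpose _).2 g.isUnit).mul h0).mul_left_cancel (by
      rw [← mul_assoc, hc, smul_mul_assoc, smul_mul_assoc, mul_smul_comm, ← mul_assoc, mul_assoc _ B, h1, h7]))
    have h9 := congrArg (cj g) h3
    rw [map_mul, h8, smul_mul_smul_comm, h3, map_one] at h9
    have h10 := congrFun (congrFun h9 (Classical.arbitrary ι)) (Classical.arbitrary ι)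
    rcases mul_self_eq_one_iff.1 (by simpa using h10 : c * c = 1) with rfl | rfl <;> simp [h8]
  let p (c : F) := (2 : F)⁻¹ • (1 + c • s)
  have h8 : ∀ c d, p c * p d = ((2 : F)⁻¹ * 2⁻¹) • ((1 + c * d) • 1 + (c + d) • s) := fun c d => by
    simp only [p, smul_mul_smul_comm, add_mul, mul_add, mul_one, one_mul, h3]
    module
  have h10 : ∀ c, c * c = 1 → ¬ IsSc (p c) := fun c hc ⟨d, hd⟩ => h4 ⟨c * (2 * d - 1), by
    rw [inv_smul_eq_iff₀ h2, ← eq_sub_iff_add_eq'] at hd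
    rw [mul_smul, ← one_smul F s, ← hc, mul_smul c c, hd]; congr 1; match_scalars; linear_combination hc⟩
  refine (h.nd_of_idS hI (E := {p 1, p (-1)}) ⟨?_, ?_, ?_, ?_, by simp⟩ (fun e => h10 1 (by simp)
    ⟨1, (e.le (by simp)).trans (by simp)⟩) ?_).imp fun _ h => h.1
  · rintro _ (rfl | rfl) <;> rw [h8] <;> simp only [p] <;> match_scalars <;> field_simp <;> ring
  · rintro _ (rfl | rfl) e <;> exact h10 _ (by simp) ⟨0, e.trans (by simp)⟩
  · rintro _ (rfl | rfl) _ (rfl | rfl) e <;> first | exact absurd rfl e | simp [h8]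
  · rintro g hg _ (rfl | rfl) <;> rcases h7 g hg with e | e <;> simp [p, e]
  · rintro _ (rfl | rfl) <;> simp [p, ad_smul, ad_add, ad_neg, h.ad_one, h6]

theorem Rf.ti_nd (h : Rf (RingHom.id F) J (-1)) (hF : Fintype.card F = 3) (hH : H ≤ isoG (RingHom.id F) J)
    (hI : Irr H) {D : Fin 2 → Submodule F (ι → F)} (hD : IsMDecomposition 2 D)
    (h3 : ∀ i, IsTotallySingularFor (fm (RingHom.id F) J) (D i)) (h4 : H ≤ decompositionStabilizer D) :
    ∃ m, ND (RingHom.id F) J H m := by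
  have hn := hD.as_card
  have : Nonempty ι := Fintype.card_pos_iff.1 (by omega)
  obtain ⟨e, P, M, rfl, h5, h6, h7⟩ := h.ti_blocks hH hD h3 h4
  simp only [map_id'] at h6 h7
  have h8 : ∀ i, (M i).det = (M 0).det := fun i => by
    have := congrArg det (h6 0)
    fin_cases i
    exacts [rfl, by simpa [det_neg] using this.symm]
  have h9 := mul_self_of_three hF (h5 0)
  have hl : ∀ i, ![1, (M 0).det] i ≠ 0 := fun i => by fin_cases i <;> simp [h5]
  refine h.nd_of_two (two_ne_of_three hF) hH hI (isUnit_trJ (σ := RingHom.id F) (e := e) (P := P) (isUnit_bm hl))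
    (by rw [trJ_transpose, bm_skew, trJ_neg, neg_one_smul])
    (s := tr e P (bm sw fun i => (![1, (M 0).det] (sw i))⁻¹ • (-J2 F * M i))) ?_ ?_ (fun ⟨c, hc⟩ => ?_) fun g hg => ?_
  · rw [← trJ_mul, bm_mul, one_mul]
    congr 2
    funext i
    rw [smul_mul_smul_comm, mul_inv_cancel₀ (hl _), one_smul, ← mul_assoc, mul_neg, J2_mul, neg_neg, one_mul]
  · rw [← map_mul, bm_mul, Equiv.swap_mul_self, ← map_one (tr e P), ← bm_one]
    congr 2
    funext i
    rw [smul_mul_smul_comm, ← neg_neg (M (sw i)), ← neg_one_smul F (M (sw i)), ← h6, neg_mul_neg, neg_mul (J2 F),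
      mul_neg, mul_assoc, ← mul_assoc _ (J2 F), J2_sm, mul_smul_comm, J2_mul, h8 i]
    fin_cases i <;> simp [smul_smul, h5]
  · rw [← map_one (tr e P), ← map_smul, (tr e P).injective.eq_iff] at hc
    have h10 := congrFun (congrFun hc (0, 0)) (0, 0)
    simp [bm_apply] at h10
    rw [← h10, zero_smul, ← zero_smul F (bm sw M), bm_smul] at hc
    have := congrArg det (bm_inj hc 1)
    rw [det_smul, det_mul, zero_smul, det_zero] at this
    simp [h5, J2] at this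
  · obtain ⟨s, A, h10, h12⟩ := h7 g hg
    have h14 := congrArg det (h12 0)
    rw [det_mul, det_mul, det_transpose, Equiv.swap_apply_left, h8] at h14
    have h13 := mul_self_of_three hF (A 0).det_ne_zero
    have h15 : (A 1).1.det = (A 0).1.det := mul_left_cancel₀ (h5 0) (by
      linear_combination (A 0).1.det * h14 - (M 0).det * (A 1).1.det * h13)
    refine ⟨![1, (M 0).det] (s 0) * (A 0).1.det, h10 ▸ sm_trJ.2 (sm_bm fun i => ?_)⟩
    rcases perm_two s with rfl | rfl <;> fin_cases i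
    exacts [by simp, by simp [h15, mul_comm], by simp, by simp [h15, mul_right_comm, h9]]

theorem Rf.gu23 (h : Rf (RingHom.id F) J (-1)) (hF : Fintype.card F = 3) (hn : Fintype.card ι = 2 ^ 2)
    (hH : H ≤ isoG (RingHom.id F) J) (hd : ∀ g ∈ H, g.1.det = 1) {K : Subalgebra F (Matrix ι ι F)}
    (hK : IsFieldSubalgebra 2 K) (hN : Nrm H K) (ha : AdC (RingHom.id F) J K)
    (h1 : ∃ x ∈ K, ad (RingHom.id F) J x ≠ x) :
    ∃ R, ES R 2 ∧ alg R = ⊤ ∧ R ≤ isoG (RingHom.id F) J ∧ Nm H R := by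
  have : Nonempty ι := Fintype.card_pos_iff.1 (by omega)
  have h2 := two_ne_of_three hF
  have h3 := three_eq hF
  obtain ⟨s, hs, h4, h5⟩ : ∃ s ∈ K, ad (RingHom.id F) J s = -s ∧ s * s = -1 := by
    obtain ⟨x, hx, h4⟩ := id h1
    have h5 := sub_mem hx (ha x hx)
    have h6 : ad (RingHom.id F) J (x - ad (RingHom.id F) J x) = -(x - ad (RingHom.id F) J x) := by
      rw [ad_sub, h.ad_ad, neg_sub]
    have h7 := sub_ne_zero.2 h4.symm
    generalize x - ad (RingHom.id F) J x = s at h5 h6 h7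
    obtain ⟨d, h8⟩ := h.sc_of_two hK ha h1 (mul_mem h5 h5) (by rw [h.ad_mul, h6, neg_mul_neg])
    have h9 : d ≠ 0 := by rintro rfl; exact h7 (by simpa using field_mul_eq_zero hK h5 (h8.trans (zero_smul _ _)))
    have h10 : ∀ c : F, s ≠ c • 1 := by
      rintro c rfl
      rw [ad_smul, h.ad_one] at h6
      exact h7 ((smul_eq_zero.1 (by rw [two_smul]; exact add_eq_zero_iff_eq_neg.2 h6)).resolve_left h2)
    refine ⟨s, h5, h6, ?_⟩
    rcases mul_self_eq_one_iff.1 (mul_self_of_three hF h9) with rfl | rfl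
    · rcases field_mul_eq_zero hK (sub_mem h5 (one_mem K)) (y := s + 1) (by
        rw [sub_mul, mul_add, h8]; simp [add_comm]) with e | e
      exacts [absurd ((sub_eq_zero.1 e).trans (by simp)) (h10 1),
        absurd ((add_eq_zero_iff_eq_neg.1 e).trans (by simp)) (h10 (-1))]
    · rw [h8, neg_one_smul]
  have k1 : ∀ u v, fm (RingHom.id F) J (s *ᵥ u) v = -fm (RingHom.id F) J u (s *ᵥ v) := fun u v => by
    rw [h.fm_ad, h4, neg_mulVec, ← neg_one_smul F (s *ᵥ v), fm_smul_right]; simp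
  have k2 : ∀ v, s *ᵥ (s *ᵥ v) = (-1 : F) • v := fun v => by rw [mulVec_mulVec, h5, neg_mulVec]; simp
  have k3 : ∀ u v, fm (RingHom.id F) J v u = -fm (RingHom.id F) J u v := fun u v => by simpa using h.symm u v
  have k4 : ∀ v, fm (RingHom.id F) J v v = 0 := fun v => mul_left_cancel₀ h2 (by linear_combination k3 v v)
  have k5 : ∀ u v, fm (RingHom.id F) (J * s) u v = fm (RingHom.id F) J u (s *ᵥ v) := fun u v => by
    rw [fm_right, map_id']
  have hb : Rf (RingHom.id F) (J * s) 1 := ⟨fun _ => rfl, h.unit.mul ⟨⟨s, -s, by simp [h5], by simp [h5]⟩, rfl⟩,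
    fm_inj (σ := RingHom.id F) fun u v => by rw [map_id', ← fm_transpose, one_smul, k5, k5, k3, k1, neg_neg],
    .inl rfl⟩
  obtain ⟨x, h6, h7⟩ := CForm.not_aniso.1 (CForm.Nondeg.orth_not_aniso (f := hb.cO h2) (by simp [hn]))
  have h8 : fm (RingHom.id F) J x (s *ᵥ x) = 0 := by simpa [Rf.cO, h2, k5] using h7
  obtain ⟨y, h9, h10, h11⟩ : ∃ y, fm (RingHom.id F) J x y = 1 ∧ fm (RingHom.id F) J x (s *ᵥ y) = 0 ∧
      fm (RingHom.id F) J y (s *ᵥ y) = 0 := by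
    obtain ⟨z, hz⟩ := (h.nondeg x h6).2
    have h9 := mul_self_of_three hF hz
    have h10 : fm (RingHom.id F) J x z ^ 2 + fm (RingHom.id F) J x (s *ᵥ z) ^ 2 ≠ 0 := fun e => by
      by_cases h10 : fm (RingHom.id F) J x (s *ᵥ z) = 0
      · exact one_ne_zero (α := F) (by linear_combination e - h9 - fm (RingHom.id F) J x (s *ᵥ z) * h10)
      · exact h2 (by linear_combination e - h9 - mul_self_of_three hF h10)
    obtain ⟨y, h11, h12⟩ : ∃ y, fm (RingHom.id F) J x y = 1 ∧ fm (RingHom.id F) J x (s *ᵥ y) = 0 :=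
      ⟨(fm (RingHom.id F) J x z ^ 2 + fm (RingHom.id F) J x (s *ᵥ z) ^ 2)⁻¹ • (fm (RingHom.id F) J x z • z +
        fm (RingHom.id F) J x (s *ᵥ z) • s *ᵥ z), by
        simp only [fm_smul_right, fm_add_right, RingHom.id_apply]; field_simp, by
        simp only [mulVec_smul, mulVec_add, k2, fm_smul_right, fm_add_right, RingHom.id_apply]; ring⟩
    refine ⟨y + fm (RingHom.id F) J y (s *ᵥ y) • s *ᵥ x, ?_, ?_, ?_⟩ <;>
      simp only [mulVec_smul, mulVec_add, k2, fm_smul_right, fm_add_right, fm_smul_left, fm_add_left, k1, h8, h11,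
        h12, k4, k3 x y, RingHom.id_apply]
    exacts [by ring, by ring, by linear_combination fm (RingHom.id F) J y (s *ᵥ y) * h3]
  let v : Fin 2 × Fin 2 → ι → F := fun a => ![![x, s *ᵥ x], ![y, s *ᵥ y]] a.1 a.2
  have h12 : fm (RingHom.id F) J y (s *ᵥ x) = 0 := by rw [k3, k1, h10, neg_neg]
  have k6 : ∀ u v, fm (RingHom.id F) J u (-v) = -fm (RingHom.id F) J u v := fun u v => by
    rw [k3, k3 v u, ← neg_one_smul F v, fm_smul_left]; ring
  have h13 : (of fun i j => fm (RingHom.id F) J (v i) (v j)) = (1 : F) • J2 F ⊗ₖ 1 := by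
    ext ⟨i, j⟩ ⟨k, l⟩
    fin_cases i <;> fin_cases j <;> fin_cases k <;> fin_cases l <;>
      simp [v, J2, k1, k2, k4, k3 x y, h8, h9, h10, h11, h12, k6]
  have h14 : (of fun i j => fm (RingHom.id F) (J * s) (v i) (v j)) = (-1 : F) • J2 F ⊗ₖ J2 F := by
    ext ⟨i, j⟩ ⟨k, l⟩
    fin_cases i <;> fin_cases j <;> fin_cases k <;> fin_cases l <;>
      simp [v, J2, k1, k2, k4, k5, k3 x y, h8, h9, h10, h11, h12, k6, mulVec_neg]
  obtain ⟨e, P, h15⟩ := exists_trJ_of (J := J) (RingHom.id F) v (by simp [hn])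
    (by rw [h13, one_smul]; exact isUnit_kron isUnit_J2 isUnit_one)
  have h16 := (h15 J).trans (congrArg _ h13)
  have h17 := (h15 (J * s)).trans (congrArg _ h14)
  refine ⟨_, es_kS (tr e P) (es_Q8 hF) (es_D8 hF) (alg_Q8 hF) (alg_D8 hF) (by omega),
    alg_kS _ (alg_Q8 hF) (alg_D8 hF), by rw [h16]; exact kS_le (Q8_le hF) le_rfl 1, nm_kS _ fun g hg => ?_⟩
  have h18 := mem_isoG.1 (hH hg)
  obtain ⟨c, h19, h20⟩ : ∃ c : F, c * c = 1 ∧ Sm (RingHom.id F) (J * s) g.1 c := by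
    have h19 : g.1ᵀ * (J * s) * g.1 = J * cj g⁻¹ s := by
      rw [Sm, map_id', one_smul] at h18
      rw [cj_apply, inv_inv]
      nth_rw 2 [← h18]
      simp only [mul_assoc, Units.mul_inv_cancel_left]
    rcases h.cj_of_two hK ha h1 hN (inv_mem hg) hs with e | e
    · exact ⟨1, one_mul _, by rw [Sm, map_id', h19, e, one_smul]⟩
    · exact ⟨-1, by simp, by rw [Sm, map_id', h19, e, h4, mul_neg, neg_one_smul]⟩
  have h21 := hd g hg
  obtain ⟨g, rfl⟩ := (trG (tr e P)).surjective g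
  rw [h16, trG_val, sm_trJ, one_smul] at h18
  rw [h17, trG_val, sm_trJ] at h20
  obtain ⟨a, b, rfl⟩ := so4 h2 (b := g) (c := c) (by simpa [smul_smul] using h20.smul (-1)) (by
    rw [trG_val, det_tr] at h21; rw [h21, pow_two, h19])
  rw [kG_val] at h18
  obtain ⟨d, -, h22⟩ := sm_split isUnit_J2 isUnit_one h18
  exact ⟨a, b, rfl, nm_Q8 a, fun x hx => nm_isoG (R := ⊤ ⊓ similarityGroup _) isUnit_one inf_le_right b
    ⟨trivial, (mem_sim_iff isUnit_one).2 ⟨_, h22⟩⟩ x hx⟩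

end Cfsg.Agent.H4.As
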