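import Cfsg.Agent.H4.As27

/-! Aschbacher's theorem, part 28: the tensor cube of the plane. -/

set_option autoImplicit false
set_option linter.unusedSectionVars false

namespace Cfsg.Agent.H4.As

open Matrix Module Cfsg.Geo
open scoped MatrixGroups Kronecker commutatorElement

variable {ι κ ν : Type} [Fintype ι] [DecidableEq ι] [Fintype κ] [DecidableEq κ] [Fintype ν] [DecidableEq ν]
  {F : Type*} [Field F] [Fintype F] {H R : Subgroup (GL ι F)} {σ : F →+* F} {J : Matrix ι ι F} {ε : F} {r : ℕ}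

/-- the interchange of the two tensor factors -/
def tau (κ : Type) [Fintype κ] [DecidableEq κ] (F : Type*) [Field F] : GL (κ × κ) F :=
  ⟨(Equiv.prodComm κ κ).toPEquiv.toMatrix, (Equiv.prodComm κ κ).toPEquiv.toMatrix, by
    rw [← PEquiv.toMatrix_trans, ← Equiv.toPEquiv_trans]; exact PEquiv.toMatrix_refl, by
    rw [← PEquiv.toMatrix_trans, ← Equiv.toPEquiv_trans]; exact PEquiv.toMatrix_refl⟩

theorem tau_apply (x y : κ × κ) : (tau κ F).1 x y = if y = x.swap then 1 else 0 := by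
  simp [tau, PEquiv.toMatrix_apply, eq_comm]

theorem tau_conj (a b : GL κ F) : tau κ F * kG a b * (tau κ F)⁻¹ = kG b a := Units.ext (by
  change (tau κ F).1 * _ * (tau κ F).1 = _
  rw [tau, PEquiv.toMatrix_toPEquiv_mul, PEquiv.mul_toMatrix_toPEquiv]
  ext; simp [mul_comm])

theorem tau_mul : tau κ F * tau κ F = 1 := Units.ext (tau κ F).val_inv

theorem sm_tau (J : Matrix κ κ F) : Sm (RingHom.id F) (J ⊗ₖ J) (tau κ F).1 1 := by
  have h : (tau κ F).1ᵀ = (tau κ F).1 := by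
    ext x y
    simp only [transpose_apply, tau_apply]
    exact if_congr ⟨fun h => by simp [h], fun h => by simp [h]⟩ rfl rfl
  rw [Sm, map_id', h, tau, PEquiv.toMatrix_toPEquiv_mul, PEquiv.mul_toMatrix_toPEquiv]
  ext; simp [mul_comm]

theorem det_tau : (tau (Fin 2) F).1.det = -1 := by
  refine (det_permutation (Equiv.prodComm (Fin 2) (Fin 2))).trans ?_
  rw [show Equiv.Perm.sign (Equiv.prodComm (Fin 2) (Fin 2)) = -1 by decide +kernel]
  simp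

theorem go4 (h2 : (2 : F) ≠ 0) {b : GL (Fin 2 × Fin 2) F} {c : F} (h : Sm (RingHom.id F) (J2 F ⊗ₖ J2 F) b c) :
    ∃ u w, b = kG u w ∨ b = kG u w * tau _ F := by
  have h1 := h.det rf_J22.unit
  rw [Fintype.card_prod, Fintype.card_fin, pow_mul] at h1
  rcases sq_eq_sq_iff_eq_or_eq_neg.1 h1 with e | e
  · obtain ⟨u, w, h3⟩ := so4 h2 h e
    exact ⟨u, w, .inl h3⟩
  have h3 := h.mul (sm_tau _)
  rw [← Units.val_mul] at h3
  obtain ⟨u, w, h5⟩ := so4 h2 h3 (by rw [Units.val_mul, det_mul, e, det_tau]; ring)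
  exact ⟨u, w, .inr (by rw [← h5, mul_assoc, tau_mul, mul_one])⟩

theorem tf_of {k l : ℕ} (hk : 2 ≤ k) (hl : 2 ≤ l) {e : ι ≃ Fin k × Fin l} {P : GL ι F} {J₁ : Matrix (Fin k) (Fin k) F}
    {J₂ : Matrix (Fin l) (Fin l) F} {δ₁ δ₂ : F} (h1 : Rf σ J₁ δ₁) (h2 : Rf σ J₂ δ₂)
    (h : IsTensorFormStructure σ (fm σ J) (fm σ J₁) (fm σ J₂) e P) (h3 : H ≤ tensorProductSubgroup k l e P)
    (h4 : H ≤ isoG σ J) : TF σ J H e P J₁ J₂ δ₁ δ₂ := by
  have : NeZero k := ⟨by omega⟩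
  have : NeZero l := ⟨by omega⟩
  obtain ⟨c, hc, h⟩ := h
  obtain rfl : J = trJ σ e P (c • J₁ ⊗ₖ J₂) := fm_inj (σ := σ) fun u v => by
    obtain ⟨x, rfl⟩ := exists_coord e P u
    obtain ⟨y, rfl⟩ := exists_coord e P v
    rw [h, fm_trJ, fm_smul, gram_fm, gram_fm, formOfGram_eq]
  refine ⟨hk, hl, h1, h2, ⟨c, hc, rfl⟩, fun g hg => ?_⟩
  obtain ⟨a, b, rfl⟩ := exists_of_mem_tensor (h3 hg)
  have := mem_isoG.1 (h4 hg)
  rw [trG_val, sm_trJ, kG_val] at this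
  replace this := this.smul c⁻¹
  rw [inv_smul_smul₀ hc] at this
  obtain ⟨d, h5⟩ := sm_split h1.unit h2.unit this
  exact ⟨a, b, d, rfl, h5⟩

theorem rf_symp {f : (ι → F) → (ι → F) → F} (h : IsSymplecticForm f) : Rf (RingHom.id F) (gramMatrix f) (-1) :=
  ⟨fun _ => rfl, isUnit_of_nondeg (h.bilinear.as_eq ▸ h.nondegenerate), by
    ext i j; simpa [gramMatrix] using h.skew _ _, .inr rfl⟩

theorem rf_symm {f : (ι → F) → (ι → F) → F} (h : IsSymmetricForm f) : Rf (RingHom.id F) (gramMatrix f) 1 :=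
  ⟨fun _ => rfl, isUnit_of_nondeg (h.bilinear.as_eq ▸ h.nondegenerate), by
    ext i j; simpa [gramMatrix] using h.symm _ _, .inl rfl⟩

theorem TF.sp8 [Nonempty ι] {e : ι ≃ Fin 2 × Fin 4} {P : GL ι F} {J₁ : Matrix (Fin 2) (Fin 2) F}
    {J₂ : Matrix (Fin 4) (Fin 4) F} (hT : TF (RingHom.id F) J H e P J₁ J₂ (-1) 1) (h2 : (2 : F) ≠ 0)
    (hp : IsPlusTypeOn (fun v => fm (RingHom.id F) J₂ v v) ⊤) : ∃ (e : ι ≃ (Fin 2 × Fin 2) × Fin 2) (P : GL ι F) (c : F),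
      c ≠ 0 ∧ J = trJ (RingHom.id F) e P (c • (J2 F ⊗ₖ J2 F) ⊗ₖ J2 F) ∧ ∀ g ∈ H, ∃ u w a,
        g = trG (tr e P) (kG (kG u w) a) ∨ g = trG (tr e P) (kG (kG u w * tau _ F) a) := by
  let E : Fin 4 ≃ Fin 2 × Fin 2 := (finProdFinEquiv (m := 2) (n := 2)).symm
  have h1 := (rf_J22 (F := F)).sub E
  have h3 := hT.rf2.cO_nondeg h2
  have h4 := h1.cO_nondeg h2
  obtain ⟨A, hA⟩ := h4.orth_isom_even h3 (by simp; decide) rfl (((pl_top h4 (m := 2) (by simp)).1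
    ((pl_iff_det h4 h2 (m := 2) (by simp)).2 (by
      rw [show gr (h1.cO h2) = _ from gram_fm]; simp [det_kronecker, J2, det_fin_two]))).trans
      ((pl_top h3 (m := 2) (by simp)).1 (by
        simpa [IsPlusTypeOn, IsTotallySingularQuad, Rf.cO, h2] using hp)).symm)
  have h5 := hT.swap.cong (glE.symm A)
  rw [show _ * _ = (J2 F ⊗ₖ J2 F).submatrix E E from fm_inj fun u v => by
    rw [← fm_mulVec, glE_symm_mulVec, glE_symm_mulVec]; exact hA.B u v] at h5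
  obtain ⟨P, e, h5⟩ : ∃ P e, TF (RingHom.id F) J H e P ((J2 F ⊗ₖ J2 F).submatrix E E) J₁ 1 (-1) := ⟨_, _, h5⟩
  obtain ⟨c, hc, h7⟩ := h5.eq
  have h6 : J₁ = J₁ 0 1 • J2 F := by
    have h6 := fun i j => congrFun (congrFun hT.rf1.swap i) j
    have h8 : ∀ i, J₁ i i = 0 := fun i => mul_left_cancel₀ h2 (by
      have := h6 i i; simp at this; linear_combination this)
    ext i j
    fin_cases i <;> fin_cases j <;> simp [J2, h8]
    simpa using h6 0 1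
  have h8 : J₁ 0 1 ≠ 0 := fun h => hT.rf1.unit.ne_zero (by rw [h6, h, zero_smul])
  refine ⟨e.trans (E.prodCongr (.refl _)), P, c * J₁ 0 1, mul_ne_zero hc h8, by
    rw [h7, mul_smul, ← kronecker_smul (J₁ 0 1), ← h6]; rfl, fun g hg => ?_⟩
  obtain ⟨b, a, d, rfl, h8, -⟩ := h5.le g hg
  obtain ⟨b, rfl⟩ := (trG (tr E 1)).surjective b
  have h9 : trG (tr e P) (kG (trG (tr E 1) b) a) = trG (tr (e.trans (E.prodCongr (.refl _))) P) (kG b a) :=
    Units.ext (by simp only [trG_val, kG_val, tr_apply, cj_one]; rfl)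
  obtain ⟨u, w, h⟩ := go4 h2 ((sm_trJ (e := E) (P := 1)).1 (by simpa [trJ] using h8) : Sm _ _ b.1 d)
  exact ⟨u, w, a, by rcases h with rfl | rfl; exacts [.inl h9, .inr h9]⟩

section sp8

variable [Nonempty ι] {e : ι ≃ (Fin 2 × Fin 2) × Fin 2} {P : GL ι F} {c : F} (hc : c ≠ 0)
  (h1 : J = trJ (RingHom.id F) e P (c • (J2 F ⊗ₖ J2 F) ⊗ₖ J2 F))
  (h2 : ∀ g ∈ H, ∃ u w a, g = trG (tr e P) (kG (kG u w) a) ∨ g = trG (tr e P) (kG (kG u w * tau _ F) a))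
include h1 h2

theorem sp8_three (hF : Fintype.card F = 3) : ∃ R, ES R 2 ∧ alg R = ⊤ ∧ R ≤ isoG (RingHom.id F) J ∧ Nm H R := by
  have h3 := alg_kS (tr (.refl _) 1) (alg_Q8 hF) (alg_Q8 hF)
  have h4 := es_kS (tr (.refl _) 1) (es_Q8 hF) (es_Q8 hF) (alg_Q8 hF) (alg_Q8 hF) (by simp)
  have h5 := kS_le (e := .refl _) (P := 1) (Q8_le hF) (Q8_le hF) 1
  have h6 : ∀ x : GL (Fin 2 × Fin 2) F, trG (tr (.refl _) 1) x = x := fun x => Units.ext (by simp [tr_apply])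
  have h7 : ∀ u w, ∀ x ∈ kS (tr (.refl _) 1) (Q8 F) (Q8 F), kG u w * x * (kG u w)⁻¹ ∈
      kS (tr (.refl _) 1) (Q8 F) (Q8 F) := fun u w => nm_kS (H := Subgroup.zpowers (kG u w)) _ (by
    rintro _ ⟨k, rfl⟩
    exact ⟨u ^ k, w ^ k, (map_zpow kH (u, w) k).symm.trans (h6 _).symm, nm_Q8 _, nm_Q8 _⟩) _ (Subgroup.mem_zpowers _)
  refine ⟨_, es_kS (tr e P) h4 (es_Q8 hF) h3 (alg_Q8 hF) (by simp [Fintype.card_congr e]), alg_kS _ h3 (alg_Q8 hF),
    h1 ▸ kS_le (by simpa [trJ] using h5) (Q8_le hF) c, nm_kS _ fun g hg => ?_⟩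
  obtain ⟨u, w, a, rfl | rfl⟩ := h2 g hg
  · exact ⟨_, a, rfl, h7 u w, nm_Q8 a⟩
  refine ⟨_, a, rfl, ?_, nm_Q8 a⟩
  rintro _ ⟨⟨x, y⟩, ⟨hx, hy⟩, rfl⟩
  have := h7 u w _ ⟨(y, x), ⟨hy, hx⟩, rfl⟩
  change _ * trG _ (kG _ _) * _ ∈ _ at this ⊢
  rw [h6] at this ⊢
  rwa [← tau_conj x y, ← mul_assoc, ← mul_assoc, mul_assoc _ _⁻¹, ← _root_.mul_inv_rev] at this

include hc in
theorem sp8_pf : ∃ (e : ι ≃ (Fin 3 → Fin 2)) (P : GL ι F), PF (RingHom.id F) J H e P (J2 F) (-1) := by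
  let ρ : (Fin 2 × Fin 2) × Fin 2 ≃ (Fin 3 → Fin 2) := ⟨fun x => ![x.1.1, x.1.2, x.2], fun x => ((x 0, x 1), x 2),
    fun _ => rfl, fun x => by ext i; fin_cases i <;> rfl⟩
  have h3 : ∀ u w a : Matrix (Fin 2) (Fin 2) F, (u ⊗ₖ w) ⊗ₖ a = (pt ![u, w, a]).submatrix ρ ρ := fun u w a => by
    ext; rw [submatrix_apply, pt, of_apply, Fin.prod_univ_three]; rfl
  have h4 : ∀ u w a : GL (Fin 2) F, trG (tr e P) (kG (kG u w) a) ∈ tensorWreathSubgroup 2 3 (e.trans ρ) P :=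
    fun u w a => mem_map_tr.2 (by
      rw [show trG (tr e P) (kG (kG u w) a) = trG (tr (e.trans ρ) P) (ptG ![u, w, a]) from Units.ext (by
        simp only [trG_val, kG_val, ptG_val, h3, tr_apply]
        congr 3), MulEquiv.symm_apply_apply]
      exact ptG_mem _)
  refine ⟨e.trans ρ, P, by omega, le_rfl, rf_J2, ⟨c, hc, by
    rw [h1, h3, show ![J2 F, J2 F, J2 F] = fun _ => J2 F by funext i; fin_cases i <;> rfl]; rfl⟩, fun g hg => ?_⟩
  obtain ⟨u, w, a, rfl | rfl⟩ := h2 g hg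
  · exact h4 u w a
  rw [← mul_one a, kG_mul, map_mul]
  refine mul_mem (h4 u w a) (mem_map_tr.2 ?_)
  rw [show trG (tr e P) (kG (tau _ F) 1) = trG (tr (e.trans ρ) P) (pmG (Equiv.swap 0 1)) from Units.ext (by
    simp only [trG_val, kG_val, tr_apply]
    congr 1
    ext i j
    simp only [submatrix_apply, kroneckerMap_apply, tau_apply, Units.val_one, one_apply, ite_zero_mul_ite_zero, pmG, pm,
      of_apply, mul_one, Equiv.trans_apply]
    generalize e i = x, e j = y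
    exact if_congr (by revert x y; decide) rfl rfl), MulEquiv.symm_apply_apply]
  exact Subgroup.subset_closure (.inr ⟨_, fun _ _ => rfl⟩)

end sp8

theorem rf_spF {m : ℕ} : Rf (RingHom.id F) (gr (spF F m)) (-1) := rf_gr (spF_nondeg (F := F) m)

theorem symp_eq {m : ℕ} : sympForm m F = fm (RingHom.id F) (gr (spF F m)) := (fm_gr' (f := spF F m)).symm

theorem even_of_nd {m : ℕ} {W : Submodule F (Fin m ⊕ Fin m → F)}
    (hW : IsNondegenerateOn (fm (RingHom.id F) (gr (spF F m))) W) : Even (finrank F W) :=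
  ⟨_, ((spF F m).res_nondeg_iff.2 (nondeg_of_geo (fm_gr' (f := spF F m) ▸ hW))).symp_finrank.trans (two_mul _)⟩

theorem sp43 (hF : Fintype.card F = 3) {H : Subgroup (GL (Fin 2 ⊕ Fin 2) F)} (hH : H ≤ spGL 2 F)
    {D : Fin 2 → Submodule F (Fin 2 ⊕ Fin 2 → F)} (hD : IsMDecomposition 2 D)
    (h1 : ∀ i, IsTotallySingularFor (sympForm 2 F) (D i)) (h2 : H ≤ decompositionStabilizer D) :
    (∃ W, W ≠ ⊥ ∧ W ≠ ⊤ ∧ IsTotallySingularFor (sympForm 2 F) W ∧ H ≤ subspaceStabilizer W) ∨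
    ∃ D : Fin 2 → Submodule F (Fin 2 ⊕ Fin 2 → F), IsNondegenerateMDecomposition (sympForm 2 F) 2 D ∧
      H ≤ decompositionStabilizer D := by
  have hJ := hH.trans Sp_eq.le
  rw [symp_eq] at h1 ⊢
  rcases irr_or H with ⟨W, h2, h3, h4⟩ | hI
  · rcases red_cases (spF_nondeg (F := F) 2) hJ h2 h3 h4 with ⟨U, h5, h6, h7⟩ | ⟨U, h5, h6, h7, h8⟩ | ⟨m, D, h5, h6⟩
    · refine .inl ⟨U, h5, ?_, h6, h7.le⟩
      rintro rfl
      obtain ⟨v, hv⟩ := exists_ne_zero (ι := Fin 2 ⊕ Fin 2) (F := F)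
      exact hv (rf_spF.eq_zero fun u => h6 u trivial v trivial)
    · obtain ⟨k, hk⟩ := even_of_nd h6
      exact absurd (Submodule.finrank_eq_zero.1 (by simp at h7; omega)) h5
    · obtain rfl : m = 2 := by have := h5.decomp.as_card; simp at this; omega
      exact .inr ⟨D, h5, le_decomp_of_inv h6⟩
  obtain ⟨m, t, D, h3, h4, -⟩ := rf_spF.ti_nd hF hJ hI hD h1 h2
  have h5 := h3.decomp.two_le
  have h6 := h3.decomp.as_card
  have h7 := h3.decomp.pos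
  obtain ⟨k, hk⟩ := h3.decomp.finrank_eq ⟨0, by omega⟩ ▸ even_of_nd (h3.nondegenerate _)
  simp at h6
  have : 2 * m ≤ 4 := h6 ▸ Nat.mul_le_mul_right m h5
  obtain rfl : m = 2 := by omega
  obtain rfl : t = 2 := by omega
  exact .inr ⟨D, h3, h4⟩

theorem sp_c6 {m k : ℕ} (hm : 2 ≤ m) (hk : 2 * m = 2 ^ k) (hF : Fintype.card F = 3)
    {H : Subgroup (GL (Fin m ⊕ Fin m) F)} (hH : IsMaximalIn (spGL m F) H)
    (h : ∃ R, ES R 2 ∧ alg R = ⊤ ∧ R ≤ isoG (RingHom.id F) (gr (spF F m)) ∧ Nm H R) :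
    ∃ R : Subgroup (GL (Fin m ⊕ Fin m) F), IsSymplecticTypeGroup 2 R ∧ ActsAbsolutelyIrreducibly (matrixSet R) ∧
      R ≤ similarityGroup (sympForm m F) ∧ Nat.card R = 2 ^ (1 + 2 * k) ∧ Nat.card (Subgroup.center R) = 2 ∧
      IsOfMinusType k R ∧ H = subgroupNormalizer R ⊓ spGL m F := by
  have hB := big_Sp (F := F) hm (by omega)
  have := hB.nonempty
  obtain ⟨R, h1, h2, h3, h4⟩ := h
  obtain ⟨h5, h6, h7, h8⟩ := c6_sp rf_spF h1 h2 h3 (k := k) (by simp [← hk, two_mul])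
  exact ⟨R, h5, absIrr_of_alg h2, symp_eq (F := F) ▸ le_sim rf_spF.unit fun g hg => ⟨1, h3 hg⟩, h6, h7, h8,
    hH.as_eq (nm_iff.1 h4) (hB.not_norm Nat.prime_two h5.pGroup h1.nsc (Nm.self.mono (h3.trans Sp_eq.ge)))⟩

end Cfsg.Agent.H4.As
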