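import Cfsg.Agent.H4.As28

/-! Proper overgroups of some geometric subgroups. -/

set_option autoImplicit false
set_option linter.unusedSectionVars false

namespace Cfsg.Agent.H4.As

open Matrix Module Cfsg.Geo
open scoped MatrixGroups Kronecker commutatorElement

variable {ι κ ν : Type} [Fintype ι] [DecidableEq ι] [Fintype κ] [DecidableEq κ] [Fintype ν] [DecidableEq ν]
  {F : Type*} [Field F] [Fintype F] {G H X Y : Subgroup (GL ι F)} {σ : F →+* F} {J : Matrix ι ι F} {ε : F}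

theorem btw {Γ : Type*} [Group Γ] {X Y G : Subgroup Γ} (h1 : X ⊓ G ≤ Y) (h2 : ¬ G ≤ Y) (h3 : ¬ Y ⊓ G ≤ X) :
    ∃ K, X ⊓ G < K ∧ K < G :=
  ⟨Y ⊓ G, lt_of_le_not_ge (le_inf h1 inf_le_right) fun h => h3 (h.trans inf_le_left),
    lt_of_le_not_ge inf_le_right fun h => h2 (h.trans inf_le_left)⟩

theorem Big.not_comm (h : Big G) {K : Subalgebra F (Matrix ι ι F)} (hc : ∀ a ∈ K, ∀ b ∈ K, a * b = b * a)
    (h0 : K ≠ ⊥) : ¬ G ≤ subalgebraNormalizer K := fun h1 => by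
  have := h.nonempty
  rcases comm_cases h.irr (nrm_iff.2 h1) hc with h2 | h2
  · obtain ⟨t, m, e, -, -, -, h3, h4⟩ := (idS_PI (nrm_iff.2 h1) hc).decomp h.irr h2
    exact h.not_decomp h3 h4
  · exact h.not_field (one_lt_finrank h0) ⟨hc, h2, rfl⟩ h1

section frame

theorem Rf.frame_btw (h : Rf σ J ε) (hB : Big G) (hH : G ≤ isoG σ J) (hG : ∀ a ∈ isoG σ J, ∀ b ∈ isoG σ J, ⁅a, b⁆ ∈ G)
    {t m : ℕ} {D : Fin t → Submodule F (ι → F)} (hD : IsNondegenerateMDecomposition (fm σ J) m D) (hm : 2 ≤ m)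
    {c : F} (hc : c ≠ 0) (h1 : ∀ i, ∀ v ∈ D i, ∀ w ∈ D i, fm σ J v v = c → fm σ J w w = c →
      fm σ J v w = 0 ∨ ∃ c : F, w = c • v) (h2 : ∀ i, D i ≤ Submodule.span F {v | v ∈ D i ∧ fm σ J v v = c}) :
    ∃ K, decompositionStabilizer D ⊓ G < K ∧ K < G := by
  obtain ⟨n, E, h3, h4, h5⟩ := h.frame (H := decompositionStabilizer D ⊓ G) (X := {v | (∃ i, v ∈ D i) ∧ fm σ J v v = c})
    hB.two (fun v hv h => hc (h ▸ hv.2).symm)
    (by
      rintro v ⟨⟨i, hi⟩, hv⟩ w ⟨⟨j, hj⟩, hw⟩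
      rcases eq_or_ne i j with rfl | h3
      exacts [h1 i v hi w hj hv hw, .inl (hD.orthogonal i j h3 v hi w hj)])
    (eq_top_iff.2 (hD.decomp.iSup_eq_top.ge.trans (iSup_le fun i => (h2 i).trans
      (Submodule.span_mono fun v hv => ⟨⟨i, hv.1⟩, hv.2⟩))))
    (by
      rintro g ⟨⟨s, hs⟩, hg⟩ v ⟨⟨i, hi⟩, hv⟩
      exact ⟨⟨s i, hs i ▸ Submodule.mem_map_of_mem hi⟩, by rwa [iso_fm (hH hg)]⟩)
  refine btw h4 (hB.not_decomp h3.decomp) fun h6 => ?_
  choose v h7 h8 using h5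
  choose j h9 using fun i => (h7 i).1
  have h10 : ∀ i, v i ∈ E i := fun i => h8 i ▸ Submodule.mem_span_singleton_self _
  have h11 : ∀ i, v i ≠ 0 := fun i e => hc (by rw [← (h7 i).2, e, fm_zero_left])
  obtain ⟨β, rfl, -⟩ := exists_frame h3.decomp h10 h11
  obtain ⟨a, b, hab, h12⟩ := Fintype.exists_ne_map_eq_of_card_lt j (by
    have := h3.decomp.as_card
    have := hD.decomp.as_card
    have := hD.decomp.two_le
    simp only [Fintype.card_fin]; nlinarith)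
  obtain ⟨d, h13⟩ : ∃ d, β d ∉ D (j a) := not_forall.1 fun h => (hD.decomp.as_ne (j a)).2
    (eq_top_iff.2 (β.span_eq.ge.trans (Submodule.span_le.2 (Set.range_subset_iff.2 h))))
  have h14 : d ≠ a := fun e => h13 (e ▸ h9 a)
  have h15 : d ≠ b := fun e => h13 (e ▸ h12 ▸ h9 b)
  have h16 : ∀ {g s}, Mo β g s 1 → g ∈ isoG σ J := fun {g s} hg => sm_of_basis β fun i k => by
    rw [hg, hg, Pi.one_apply, Pi.one_apply, Units.val_one, one_smul, one_smul, one_mul]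
    rcases eq_or_ne i k with rfl | e
    · rw [(h7 _).2, (h7 _).2]
    · rw [h3.orthogonal _ _ e _ (h10 _) _ (h10 _), h3.orthogonal _ _ (s.injective.ne e) _ (h10 _) _ (h10 _)]
  obtain ⟨x, hx⟩ := exists_mo β (Equiv.swap a b) 1
  obtain ⟨y, hy⟩ := exists_mo β (Equiv.swap b d) 1
  have h17 := ((hx.mul hy).mul hx.inv).mul hy.inv
  obtain ⟨s, hs⟩ := h6 ⟨⟨_, fun i => by
    rw [← h8, ← h8, Submodule.map_span, Set.image_singleton, toLin'_apply]
    exact (congrArg (F ∙ ·) (h17 i)).trans (Submodule.span_singleton_smul_eq (Units.isUnit _) _)⟩,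
    hG x (h16 hx) y (h16 hy)⟩
  have h18 : ∀ i, β i ∈ D (j a) → β ((Equiv.swap a b * Equiv.swap b d * (Equiv.swap a b)⁻¹ * (Equiv.swap b d)⁻¹) i) ∈
      D (s (j a)) := fun i hi => by
    have := hs _ ▸ Submodule.mem_map_of_mem (f := toLin' (⁅x, y⁆ : GL ι F).1) hi
    rwa [toLin'_apply, commutatorElement_def, h17, Submodule.smul_mem_iff _ (Units.ne_zero _)] at this
  have h19 := h18 a (h9 a)
  have h20 := h18 b (h12 ▸ h9 b)
  simp [Equiv.swap_apply_def, hab, hab.symm, h14, h15, h14.symm, h15.symm] at h19 h20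
  by_cases h21 : j a = s (j a)
  · exact h13 (h21 ▸ h19)
  · exact h11 a ((hD.decomp.indep.pairwiseDisjoint h21).eq_bot.le ⟨h9 a, h20⟩)

end frame

section psi

variable {e : ι ≃ κ × ν} {P : GL ι F} {p : Matrix ν ν F}

/-- `a ⊗ p + 1 ⊗ (1 - p)` for an idempotent `p` -/
def psi (hp : p * p = p) : Matrix κ κ F →* Matrix (κ × ν) (κ × ν) F where
  toFun a := a ⊗ₖ p + 1 ⊗ₖ (1 - p)
  map_one' := by rw [← kronecker_add]; simp
  map_mul' a b := by simp [add_mul, mul_add, ← mul_kronecker_mul, mul_sub, sub_mul, hp]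

theorem psi_apply (hp : p * p = p) (a : Matrix κ κ F) : psi hp a = a ⊗ₖ p + 1 ⊗ₖ (1 - p) := rfl

theorem isSc_of_psi [Nonempty κ] (hp : p * p = p) (h0 : p ≠ 0) (h1 : p ≠ 1) {u : GL κ F} {a : Matrix κ κ F}
    {b : Matrix ν ν F} (h : psi hp u.1 = a ⊗ₖ b) : IsSc u.1 := by
  have h2 := congrArg (· * (1 : Matrix κ κ F) ⊗ₖ p) h
  have h3 := congrArg (· * (1 : Matrix κ κ F) ⊗ₖ (1 - p)) h
  simp only [psi_apply, add_mul, ← mul_kronecker_mul, mul_sub p, sub_mul, hp, mul_one, one_mul, sub_self,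
    kronecker_zero, add_zero, zero_add, sub_zero] at h2 h3
  obtain ⟨c, hc, h4, -⟩ := kron_unique u.ne_zero h0 h2.symm
  obtain ⟨d, -, h5, -⟩ := kron_unique one_ne_zero (sub_ne_zero.2 h1.symm) h3.symm
  exact ⟨c⁻¹ * d, by rw [mul_smul, ← h5, h4, inv_smul_smul₀ hc]⟩

theorem sm_psi (hp : p * p = p) {J₁ a : Matrix κ κ F} {J₂ : Matrix ν ν F} (h1 : pᵀ * J₂ = J₂ * p.map σ)
    (h2 : Sm σ J₁ a 1) : Sm σ (J₁ ⊗ₖ J₂) (psi hp a) 1 := by
  have h3 : p.map σ * p.map σ = p.map σ := by rw [← Matrix.map_mul, hp]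
  rw [Sm, one_smul] at h2 ⊢
  rw [psi_apply, Matrix.map_add _ (map_add σ), kron_map, kron_map, Matrix.map_sub _ (map_sub σ),
    Matrix.map_one _ (map_zero σ) (map_one σ), Matrix.map_one _ (map_zero σ) (map_one σ)]
  simp only [transpose_add, kron_transpose, transpose_sub, transpose_one, add_mul, mul_add, ← mul_kronecker_mul, h2, h1,
    sub_mul, mul_sub, one_mul, mul_one, mul_assoc J₂, h3, sub_self, mul_zero, kronecker_zero, add_zero, zero_add, sub_zero,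
    ← kronecker_add, add_sub_cancel]

theorem tens_btw [Nonempty κ] [Nonempty ν] (hB : Big G) (hX : ∀ g ∈ X, ∃ a b, g = trG (tr e P) (kG a b))
    {K : Subalgebra F (Matrix κ κ F)} (hc : ∀ a ∈ K, ∀ b ∈ K, a * b = b * a) (h0 : K ≠ ⊥)
    (h1 : ∀ a b, trG (tr e P) (kG a b) ∈ G → ∀ x ∈ K, cj a x ∈ K) (hp : p * p = p) (h2 : p ≠ 0) (h3 : p ≠ 1)
    {u : GL κ F} (h4 : u.1 ∈ K) (h5 : ¬ IsSc u.1) (h6 : trG (tr e P) (Units.map (psi hp) u) ∈ G) :
    ∃ K, X ⊓ G < K ∧ K < G := by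
  have := hB.nonempty
  refine btw (Y := subalgebraNormalizer (K.map ((tr e P).toAlgHom.comp (kl ν)))) (Nrm.le ?_) (hB.not_comm ?_
    fun h5 => h0 (eq_bot_iff.2 fun x hx => ?_)) fun h7 => ?_
  · rintro g hg _ ⟨x, hx, rfl⟩
    obtain ⟨a, b, rfl⟩ := hX g hg.1
    exact ⟨cj a x, h1 a b hg.2 x hx, by
      change tr e P (kl _ _) = cj _ (tr e P (kl _ x)); rw [← map_cj, cj_kG_kl]⟩
  · rintro _ ⟨x, hx, rfl⟩ _ ⟨y, hy, rfl⟩
    rw [← map_mul, hc x hx y hy, map_mul]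
  · obtain ⟨c, hc⟩ := isSc_iff_bot.2 (h5.le ⟨x, hx, rfl⟩)
    exact isSc_iff_bot.1 ⟨c, RingHom.injective ((tr e P).toAlgHom.comp (kl ν)).toRingHom
      (hc.trans (by simp))⟩
  · obtain ⟨a, b, h8⟩ := hX _ (h7 ⟨Nrm.le (H := Subgroup.zpowers _) (by
      rintro _ ⟨k, rfl⟩ _ ⟨x, hx, rfl⟩
      refine ⟨x, hx, (cj_eq_iff.2 (Commute.units_zpow_left ?_ k).eq).symm⟩
      change tr e P (psi hp u.1) * tr e P (kl _ x) = tr e P (kl _ x) * tr e P (psi hp u.1)
      rw [← map_mul, ← map_mul]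
      simp [psi_apply, kl_apply, add_mul, mul_add, ← mul_kronecker_mul, hc _ h4 x hx]) (Subgroup.mem_zpowers _), h6⟩)
    exact h5 (isSc_of_psi hp h2 h3 ((congrArg Units.val ((trG (tr e P)).injective h8)).trans (kG_val a b)))

end psi

/-- the map `x ↦ f(x, w) u` -/
def pj (σ : F →+* F) (J : Matrix ι ι F) (u w : ι → F) : Matrix ι ι F := vecMulVec u (J *ᵥ (σ ∘ w))

theorem pj_mulVec (u w x : ι → F) : pj σ J u w *ᵥ x = fm σ J x w • u := by
  ext i; simp [pj, vecMulVec_mulVec, fm, dotProduct_comm x, mul_comm]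

theorem Rf.exists_idem (h : Rf σ J ε) (hn : 3 ≤ Fintype.card ι) :
    ∃ p : Matrix ι ι F, p * p = p ∧ pᵀ * J = J * p.map σ ∧ p ≠ 0 ∧ p ≠ 1 := by
  have : Nonempty ι := Fintype.card_pos_iff.1 (by omega)
  have key : ∀ (p : Matrix ι ι F) (u w : ι → F), (∀ x, p *ᵥ x ∈ Submodule.span F (Set.range ![u, w])) → p ≠ 1 := by
    rintro _ u w h1 rfl
    have := Submodule.finrank_mono (show ⊤ ≤ Submodule.span F (Set.range ![u, w]) from fun x _ => by
      simpa only [one_mulVec] using h1 x)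
    have := this.trans (finrank_range_le_card (R := F) ![u, w])
    simp at this; omega
  have k1 : ∀ u w : ι → F, u ∈ Submodule.span F (Set.range ![u, w]) ∧ w ∈ Submodule.span F (Set.range ![u, w]) :=
    fun u w => ⟨Submodule.subset_span ⟨0, rfl⟩, Submodule.subset_span ⟨1, rfl⟩⟩
  have k2 : ∀ p, (∀ x y, fm σ J (p *ᵥ x) y = fm σ J x (p *ᵥ y)) → pᵀ * J = J * p.map σ := fun p h1 => by
    rw [h.ad_spec, h.ad_eq h1]
  by_cases h1 : ∃ v, fm σ J v v ≠ 0
  · obtain ⟨v, hv⟩ := h1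
    refine ⟨(fm σ J v v)⁻¹ • pj σ J v v, eq_of_mulVec fun x => ?_, k2 _ fun x y => ?_, fun e => ?_, key _ v v fun x => ?_⟩
    · simp only [← mulVec_mulVec, smul_mulVec, pj_mulVec, fm_smul_left, smul_smul]; field_simp
    · simp only [smul_mulVec, pj_mulVec, fm_smul_left, fm_smul_right, map_inv₀, h.symm y v]
      nth_rw 1 [h.symm v v]
      field_simp [h.eps_ne]
    · have := congrArg (fun a => fm σ J (a *ᵥ v) v) e
      simp [smul_mulVec, pj_mulVec, fm_smul_left, hv, fm_zero_left] at this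
    · rw [smul_mulVec, pj_mulVec]; exact Submodule.smul_mem _ _ (Submodule.smul_mem _ _ (k1 v v).1)
  push Not at h1
  obtain ⟨w, hw⟩ := exists_ne_zero (ι := ι) (F := F)
  obtain ⟨u, hu⟩ : ∃ u, fm σ J u w = 1 := let ⟨u, hu⟩ := (h.nondeg w hw).1
    ⟨_, (fm_smul_left _ u w).trans (inv_mul_cancel₀ hu)⟩
  have h2 : fm σ J w u = ε := by rw [h.symm, hu, map_one, mul_one]
  refine ⟨pj σ J u w + ε • pj σ J w u, eq_of_mulVec fun x => ?_, k2 _ fun x y => ?_, fun e => ?_, key _ u w fun x => ?_⟩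
  · simp only [← mulVec_mulVec, add_mulVec, smul_mulVec, pj_mulVec, fm_smul_left, fm_add_left, h1, hu, h2]
    match_scalars
    exacts [by ring, by linear_combination ε * fm σ J x u * h.eps_mul]
  · simp only [add_mulVec, smul_mulVec, pj_mulVec, fm_smul_left, fm_add_left, fm_smul_right, fm_add_right, h.symm y u,
      h.symm y w, h.map_eps]
    linear_combination fm σ J x u * σ (fm σ J y w) * h.eps_mul
  · have := congrArg (fun a => fm σ J (a *ᵥ u) w) e
    simp [add_mulVec, smul_mulVec, pj_mulVec, hu, h1, fm_zero_left] at this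
  · rw [add_mulVec, smul_mulVec, pj_mulVec, pj_mulVec]
    exact add_mem (Submodule.smul_mem _ _ (k1 u w).1) (Submodule.smul_mem _ _ (Submodule.smul_mem _ _ (k1 u w).2))

theorem trG_cong (e : ι ≃ κ × ν) (P : GL ι F) (A a : GL κ F) (b : GL ν F) :
    trG (tr e P) (kG a b) = trG (tr e (trG (tr e P) (kG A 1) * P)) (kG (A⁻¹ * a * A) b) := Units.ext (by
  rw [trG_val, trG_val, tr_apply e (_ * P), cj_mul, ← tr_apply, ← map_cj, cj_val, kG_inv, ← kG_mul, ← kG_mul]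
  simp [mul_assoc])

theorem exists_comm_diag {i j : κ} (hij : i ≠ j) {z : Fˣ} (hz : (z : F) * σ z = 1) :
    ∃ a ∈ isoG σ (1 : Matrix κ κ F), ∃ b ∈ isoG σ (1 : Matrix κ κ F), ∃ d, (⁅a, b⁆ : GL κ F).1 = diagonal d ∧
      d i = z ∧ d j = (z : F)⁻¹ ∧ ∀ k, k ≠ i → k ≠ j → d k = 1 := by
  have h1 : ∀ {g s t}, Mo (Pi.basisFun F κ) g s t → (∀ k, (t k : F) * σ (t k) = 1) → g ∈ isoG σ (1 : Matrix κ κ F) :=
    fun {g s t} hg ht => sm_of_basis (Pi.basisFun F κ) fun i k => by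
      rw [hg, hg, fm_smul_left, fm_smul_right, ← mul_assoc]
      simp only [Pi.basisFun_apply, fm_single, one_apply, s.injective.eq_iff]
      split_ifs with e <;> simp [e, ht]
  obtain ⟨a, ha⟩ := exists_mo (Pi.basisFun F κ) 1 (Function.update 1 i z)
  obtain ⟨b, hb⟩ := exists_mo (Pi.basisFun F κ) (Equiv.swap i j) 1
  have h2 := ((ha.mul hb).mul ha.inv).mul hb.inv
  simp only [inv_one] at h2
  refine ⟨a, h1 ha fun k => by by_cases e : k = i <;> simp [e, hz], b, h1 hb (by simp), _,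
    mat_ext (Pi.basisFun F κ) fun k => (h2 k).trans (by
      rw [Pi.basisFun_apply, Pi.basisFun_apply, diagonal_mulVec_single, mul_one, ← Pi.single_smul, smul_eq_mul, mul_one]
      simp only [mul_one, one_mul, mul_inv_cancel, Equiv.Perm.one_apply]), by simp [hij.symm], by simp [hij.symm], fun k h3 h4 => by simp [Equiv.swap_apply_of_ne_of_ne, h3, h4]⟩

theorem diag_btw [Nonempty ν] (hB : Big G) (hH : G ≤ isoG σ J) (hG : ∀ a ∈ isoG σ J, ∀ b ∈ isoG σ J, ⁅a, b⁆ ∈ G)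
    {e : ι ≃ κ × ν} {P : GL ι F} {J₂ : Matrix ν ν F} {c δ : F} (hc : c ≠ 0)
    (hJ : J = trJ σ e P (c • (1 : Matrix κ κ F) ⊗ₖ J₂)) (h2 : Rf σ J₂ δ) (hn : 3 ≤ Fintype.card ν)
    (hX : ∀ g ∈ X, ∃ a b, g = trG (tr e P) (kG a b)) (h3 : ∀ (a : GL κ F) d, Sm σ 1 a.1 d → d = 1)
    (h4 : ∀ x : κ → F, fm σ 1 x x = 1 → ∀ i j, i ≠ j → x i * σ (x j) = 0) {i j : κ} (hij : i ≠ j) {z : Fˣ}
    (hz : (z : F) * σ z = 1) (h5 : (z : F) ≠ (z : F)⁻¹ ∨ ∃ k, k ≠ i ∧ k ≠ j ∧ (z : F) ≠ 1) :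
    ∃ K, X ⊓ G < K ∧ K < G := by
  have : Nonempty κ := ⟨i⟩
  subst hJ
  obtain ⟨p, h6, h7, h8, h9⟩ := h2.exists_idem hn
  obtain ⟨a, ha, b, hb, d, h10, h11, h12, h13⟩ := exists_comm_diag hij hz
  have h14 : ¬ IsSc (diagonal d) := fun ⟨c, hc⟩ => by
    have h : ∀ k, d k = c := fun k => by simpa using congrFun₂ hc k k
    rcases h5 with h5 | ⟨k, k1, k2, h5⟩
    exacts [h5 (by rw [← h12, ← h11, h, h]), h5 (by rw [← h13 k k1 k2, ← h11, h, h])]
  have h15 : ∀ a ∈ isoG σ (1 : Matrix κ κ F), trG (tr e P) (Units.map (psi h6) a) ∈ isoG σ (trJ σ e P (c • 1 ⊗ₖ J₂)) :=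
    fun a ha => sm_trJ.2 ((sm_psi h6 h7 ha).smul c)
  refine tens_btw hB hX (K := (diagonalAlgHom F).range) ?_ (fun h => h14 (isSc_iff_bot.2 (h.le ⟨d, rfl⟩))) ?_ h6 h8 h9
    (u := ⁅a, b⁆) ⟨d, h10.symm⟩ (h10 ▸ h14) (by
      rw [map_commutatorElement, map_commutatorElement]; exact hG _ (h15 a ha) _ (h15 b hb))
  · rintro _ ⟨a, rfl⟩ _ ⟨b, rfl⟩
    rw [← map_mul, mul_comm, map_mul]
  rintro g b hg _ ⟨d, rfl⟩
  have h16 := mem_isoG.1 (hH hg)
  rw [trG_val, sm_trJ, kG_val] at h16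
  replace h16 := h16.smul c⁻¹
  rw [inv_smul_smul₀ hc] at h16
  obtain ⟨r, h17, -⟩ := sm_split isUnit_one h2.unit h16
  obtain rfl := h3 g r h17
  refine ⟨_, (isDiag_iff_diagonal_diag _).1 fun i j hij => ?_⟩
  change cj g _ i j = 0
  rw [cj_apply, ← (rf_one h2.inv).ad_val h17, show ad σ 1 g.1 = g.1ᵀ.map σ by simp [ad], mul_apply]
  refine Finset.sum_eq_zero fun k _ => ?_
  have := h4 _ ((iso_fm h17 _ _).trans ((fm_single k k).trans (one_apply_eq k))) i j hij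
  simp only [mulVec_single_one, col_apply] at this
  simp only [AlgHom.toRingHom_eq_coe, RingHom.coe_coe, diagonalAlgHom_apply, mul_diagonal, map_apply,
    transpose_apply]
  rw [mul_right_comm, this, zero_mul]

theorem o3_btw (hF : Fintype.card F = 3) (hB : Big G) (hH : G ≤ isoG (RingHom.id F) J)
    (hG : ∀ a ∈ isoG (RingHom.id F) J, ∀ b ∈ isoG (RingHom.id F) J, ⁅a, b⁆ ∈ G) {l : ℕ} (hl : 3 ≤ l)
    {e : ι ≃ Fin 3 × Fin l} {P : GL ι F} {J₁ : Matrix (Fin 3) (Fin 3) F} {J₂ : Matrix (Fin l) (Fin l) F} {δ : F}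
    (hT : TF (RingHom.id F) J ⊥ e P J₁ J₂ 1 δ) (hX : ∀ g ∈ X, ∃ a b, g = trG (tr e P) (kG a b)) :
    ∃ K, X ⊓ G < K ∧ K < G := by
  have : NeZero l := ⟨by omega⟩
  have h2 := two_ne_of_three hF
  obtain ⟨c, hc, A, hA⟩ := hT.rf1.exists_on_odd h2 (by simp; decide)
  obtain ⟨d, hd, h1⟩ := ((show A.1ᵀ * (c • J₁) * _ = 1 from hA) ▸ (hT.smul hc (hT.rf1.smul_herm hc rfl)).cong A).eq
  have h3 := fun a => mul_self_of_three (a := a) hF
  refine diag_btw hB hH hG hd h1 hT.rf2 (by simpa) (fun g hg => let ⟨a, b, h⟩ := hX g hg; ⟨_, b, h.trans (trG_cong e P A a b)⟩)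
    (fun a c hc => ?_) (fun x hx i j hij => ?_) (i := 0) (j := 1) (by decide) (z := -1) (by simp)
    (.inr ⟨2, by decide, by decide, fun h => h2 (by push_cast at h; linear_combination -h)⟩)
  · have h5 := congrArg det hc
    rwa [map_id', mul_one, det_mul, det_transpose, h3 _ a.det_ne_zero, det_smul, det_one, mul_one,
      Fintype.card_fin, pow_succ, sq, h3 c (hc.ne_zero isUnit_one), one_mul, eq_comm] at h5
  · by_contra h5
    have h6 := h3 _ (left_ne_zero_of_mul h5)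
    have h7 := h3 _ (right_ne_zero_of_mul h5)
    simp only [fm, dotProduct, Fin.sum_univ_three, one_mulVec, RingHom.coe_id, Function.comp_apply, id] at hx h7
    have h8 : ∀ a : F, 1 + 1 + a * a ≠ 1 := fun a h => by
      rcases eq_or_ne a 0 with rfl | ha
      · exact one_ne_zero (by linear_combination h)
      · exact h2 (by linear_combination h - h3 a ha)
    fin_cases i <;> fin_cases j <;>
      simp only [Fin.zero_eta, Fin.mk_one, Fin.reduceFinMk, Fin.isValue] at h6 h7 hij <;> first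
      | exact hij rfl
      | exact h8 (x 0) (by linear_combination hx - h6 - h7)
      | exact h8 (x 1) (by linear_combination hx - h6 - h7)
      | exact h8 (x 2) (by linear_combination hx - h6 - h7)

theorem u2_btw (hF : Fintype.card F = 2 ^ 2) (h1 : σ ≠ RingHom.id F) (hB : Big G) (hH : G ≤ isoG σ J)
    (hG : ∀ a ∈ isoG σ J, ∀ b ∈ isoG σ J, ⁅a, b⁆ ∈ G) {l : ℕ} (hl : 3 ≤ l)
    {e : ι ≃ Fin 2 × Fin l} {P : GL ι F} {J₁ : Matrix (Fin 2) (Fin 2) F} {J₂ : Matrix (Fin l) (Fin l) F}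
    (hT : TF σ J ⊥ e P J₁ J₂ 1 1) (hX : ∀ g ∈ X, ∃ a b, g = trG (tr e P) (kG a b)) :
    ∃ K, X ⊓ G < K ∧ K < G := by
  have : NeZero l := ⟨by omega⟩
  obtain ⟨A, hA⟩ := hT.rf1.exists_on h1
  obtain ⟨d, hd, h2⟩ := ((show A.1ᵀ * J₁ * _ = 1 from hA) ▸ hT.cong A).eq
  have h3 := fun a => norm_of_four (a := a) hF h1 hT.rf1.inv
  have h4 := two_of_four hF
  obtain ⟨z, h5, h6⟩ := exists_ne_zero_one (F := F) (by omega)
  refine diag_btw hB hH hG hd h2 hT.rf2 (by simpa) (fun g hg => let ⟨a, b, h⟩ := hX g hg; ⟨_, b, h.trans (trG_cong e P A a b)⟩)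
    (fun a c hc => ?_) (fun x hx i j hij => ?_) (i := 0) (j := 1) (by decide) (z := Units.mk0 z h5) (h3 _ h5)
    (.inl fun h => h6 (pow_eq_zero_iff two_ne_zero |>.1 (by
      rw [Units.val_mk0, ← mul_eq_one_iff_eq_inv₀ h5] at h
      linear_combination h + (1 - z) * h4) |> sub_eq_zero.1))
  · have h7 := h3 c (hc.ne_zero isUnit_one)
    rw [(rf_one hT.rf1.inv).mult_fix hc] at h7
    exact pow_eq_zero_iff two_ne_zero |>.1 (by linear_combination h7 + (1 - c) * h4) |> sub_eq_zero.1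
  · by_contra h7
    have h8 : ∀ i, x i * σ (x i) = 1 := fun k => h3 _ (by
      have h4 := left_ne_zero_of_mul h7
      have h5 := (_root_.map_ne_zero σ).1 (right_ne_zero_of_mul h7)
      fin_cases i <;> fin_cases j <;> fin_cases k <;> simp_all)
    simp only [fm, dotProduct, Fin.sum_univ_two, one_mulVec, Function.comp_apply, h8] at hx
    exact one_ne_zero (by linear_combination hx)

theorem comm_mem_omega {Q : (ι → F) → F} {a b : GL ι F} (ha : a ∈ isometryGroup F Q) (hb : b ∈ isometryGroup F Q) :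
    ⁅a, b⁆ ∈ omegaGL Q :=
  ⟨⁅(⟨a, ha⟩ : isometryGroup F Q), ⟨b, hb⟩⁆, Subgroup.commutator_mem_commutator trivial trivial,
    map_commutatorElement _ _ _⟩

theorem iso_le {f : CForm (FType.orth F) (ι → F)} (h2 : (2 : F) ≠ 0) : isoG (RingHom.id F) (gr f) ≤ isometryGroup F f.Q :=
  fun g hg v _ => mul_left_cancel₀ h2 (by
    have := iso_fm hg v v
    rwa [fm_self, fm_self] at this)

theorem comm_mem_SU {n q : ℕ} (hF : Fintype.card F = q ^ 2) (a) (ha : a ∈ isoG (frobq hF) (gr (unF hF n))) (b)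
    (hb : b ∈ isoG (frobq hF) (gr (unF hF n))) : ⁅a, b⁆ ∈ GU n F q ⊓ specialLinear (Fin n) F :=
  ⟨GU_eq hF ▸ Subgroup.commutator_le_self _ (Subgroup.commutator_mem_commutator ha hb), by
    change GeneralLinearGroup.det _ = 1
    rw [map_commutatorElement]; exact commutatorElement_eq_one_iff_mul_comm.2 (mul_comm _ _)⟩

theorem upow_eq {q : ℕ} (hF : Fintype.card F = q ^ 2) {f : (ι → F) → (ι → F) → F} (h : IsUnitaryFormPow q f) :
    f = fm (frobq hF) (gramMatrix f) := funext₂ (eq_fm h.add_left h.smul_left (fun v x y => by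
      rw [h.herm, h.add_left, h.herm v x, h.herm v y]; exact map_add (frobq hF) _ _) fun c v x => by
      rw [h.herm, h.smul_left, h.herm v x, mul_pow]; rfl)

theorem rf_upow {q : ℕ} (hF : Fintype.card F = q ^ 2) {f : (ι → F) → (ι → F) → F} (h : IsUnitaryFormPow q f) :
    Rf (frobq hF) (gramMatrix f) 1 :=
  ⟨frobq_frobq hF, isUnit_of_nondeg (upow_eq hF h ▸ h.nondegenerate), by
    ext i j; simpa [gramMatrix] using (h.herm _ _).symm, .inl rfl⟩

theorem k4_btw (hF : Fintype.card F = 2) (hB : Big G) [Nonempty ν] {e : ι ≃ Fin 2 × ν} {P : GL ι F}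
    (hX : ∀ g ∈ X, ∃ a b, g = trG (tr e P) (kG a b)) {p : Matrix ν ν F} (hp : p * p = p) (h2 : p ≠ 0) (h3 : p ≠ 1)
    (h4 : ∀ a b : GL (Fin 2) F, ⁅trG (tr e P) (Units.map (psi hp) a), trG (tr e P) (Units.map (psi hp) b)⁆ ∈ G) :
    ∃ K, X ⊓ G < K ∧ K < G := by
  have h1 := two_of_card hF
  let a : GL (Fin 2) F := ⟨!![1, 1; 0, 1], !![1, -1; 0, 1], by simp [one_fin_two], by simp [one_fin_two]⟩
  let b : GL (Fin 2) F := ⟨!![1, 0; 1, 1], !![1, 0; -1, 1], by simp [one_fin_two], by simp [one_fin_two]⟩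
  have h5 : (⁅a, b⁆ : GL (Fin 2) F).1 = !![3, -1; 1, 0] := by
    change !![1, 1; 0, 1] * !![1, 0; 1, 1] * !![1, -1; 0, 1] * !![1, 0; -1, 1] = _
    simp; norm_num
  refine tens_btw hB hX (K4_field hF).comm (fun h => ?_) (fun a _ _ x => cj_mem_K4 hF a) hp h2 h3 (u := ⁅a, b⁆)
    (h5 ▸ ⟨by simp; linear_combination h1, by simp; linear_combination -h1⟩) (fun ⟨c, h⟩ => by
      simpa [h5] using congrFun₂ h 1 0) (by rw [map_commutatorElement, map_commutatorElement]; exact h4 a b)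
  have := (K4_field hF).finrank_eq
  rw [h] at this
  simp at this

theorem psi_isoQ {f : CForm (FType.orth F) (ι → F)} {k l : ℕ} {e : ι ≃ Fin k × Fin l} {P : GL ι F}
    {J₁ : Matrix (Fin k) (Fin k) F} {J₂ p : Matrix (Fin l) (Fin l) F} {c : F}
    (h1 : gr f = trJ (RingHom.id F) e P (c • J₁ ⊗ₖ J₂)) (hp : p * p = p) (h2 : pᵀ * J₂ = J₂ * p.map (RingHom.id F))
    (h3 : ∀ (x : Fin k → F) (y : Fin l → F), f.Q (P.1 *ᵥ ((fun a : Fin k × Fin l => x a.1 * y a.2) ∘ e)) = 0)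
    {a : GL (Fin k) F} (ha : Sm (RingHom.id F) J₁ a 1) :
    trG (tr e P) (Units.map (psi hp) a) ∈ isometryGroup F f.Q := fun v _ => by
  have h4 : trG (tr e P) (Units.map (psi hp) a) ∈ isoG (RingHom.id F) (gr f) :=
    h1 ▸ sm_trJ.2 ((sm_psi hp h2 ha).smul c)
  obtain ⟨x, rfl⟩ := exists_coord e P v
  change f.Q ((trG (tr e P) (Units.map (psi hp) a)).1 *ᵥ _) = f.Q _
  induction x using Pi.single_induction with
  | zero => simp
  | add x y hx hy =>
    rw [show (x + y) ∘ e = x ∘ e + y ∘ e from rfl, mulVec_add, mulVec_add, CForm.orth_Q_add, CForm.orth_Q_add, hx, hy,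
      ← fmB, ← fmB, iso_fm h4]
  | single i c =>
    have h5 : ∀ (a : Matrix (Fin k) (Fin k) F) (b : Matrix (Fin l) (Fin l) F), (a ⊗ₖ b) *ᵥ Pi.single i c =
        fun z => (c * a z.1 i.1) * b z.2 i.2 := fun a b => by ext; simp; ring
    rw [trG_val, tr_mulVec, Units.coe_map, psi_apply, add_mulVec, h5, h5,
      show ∀ x y : Fin k × Fin l → F, (x + y) ∘ e = x ∘ e + y ∘ e from fun _ _ => rfl, mulVec_add, CForm.orth_Q_add,
      h3 (fun z => c * a.1 z i.1) (fun z => p z i.2), h3 (fun z => c * (1 : Matrix _ _ F) z i.1) fun z => (1 - p) z i.2,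
      ← h5, ← h5, ← fmB, h1, fm_trJ, fm_mulVec, map_id', mul_smul_comm, smul_mul_assoc, kron_transpose,
      ← mul_kronecker_mul, ← mul_kronecker_mul, h2, map_id', mul_assoc J₂, mul_sub, hp, mul_one p, sub_self,
      ← one_mulVec (Pi.single i c), ← one_kronecker_one, h5, h3 (fun z => c * (1 : Matrix _ _ F) z i.1)
        fun z => (1 : Matrix _ _ F) z i.2]
    simp [fm]

section orth

variable {f : CForm (FType.orth F) (ι → F)} (hf : f.Nondeg) (hn : 7 ≤ Fintype.card ι) (hF : Fintype.card F = 3)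
  {t k : ℕ} {D : Fin t → Submodule F (ι → F)} (hD : IsNondegenerateMDecomposition (fm (RingHom.id F) (gr f)) k D)
include hf hn hF hD

theorem two_btw (hk : k = 2) (hp : ∀ i, ¬ IsPlusTypeOn f.Q (D i)) :
    ∃ K, decompositionStabilizer D ⊓ omegaGL f.Q < K ∧ K < omegaGL f.Q := by
  have h2 := two_ne_of_three hF
  have h3 := three_eq hF
  refine Rf.frame_btw (σ := RingHom.id F) (rf_gr hf) (big_Om hf hn) (omega_le.trans isom_le)
    (fun a ha b hb => comm_mem_omega (iso_le h2 ha) (iso_le h2 hb)) hD hk.ge h2 (fun i v hv w hw h4 h5 => ?_)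
    fun i x hx => ?_
  · rw [fm_self, mul_eq_left₀ h2] at h4 h5
    refine or_iff_not_imp_left.2 fun h6 => ⟨-f.B v w, eq_of_sub_eq_zero (dec_aniso hD hk (hp i)
      (sub_mem hw (Submodule.smul_mem _ _ hv)) ?_)⟩
    rw [fmB] at h6
    rw [f.Q_sub, CForm.orth_Q_smul, CForm.B_smul_right, f.orth_symm v w, h4, h5]
    simp only [FType.orth_σ, FType.orth_τ]
    linear_combination 2 * mul_self_of_three hF h6 + h3
  · obtain ⟨⟨v, hv⟩, h4⟩ := (f.res_nondeg_iff.2 (dec_nd hD i)).orth_represents (by rw [hD.decomp.finrank_eq, hk]) 1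
    replace h4 : f.Q v = 1 := h4
    have h5 : v ∈ Submodule.span F {v | v ∈ D i ∧ fm (RingHom.id F) (gr f) v v = 2} :=
      Submodule.subset_span ⟨hv, by rw [fm_self, h4, mul_one]⟩
    have h6 : x + f.B x v • v ∈ D i := add_mem hx (Submodule.smul_mem _ _ hv)
    refine (Submodule.add_mem_iff_left _ (Submodule.smul_mem _ (f.B x v) h5)).1 ?_
    have h7 : f.B (x + f.B x v • v) v = 0 := by
      rw [CForm.B_add_left, CForm.B_smul_left, CForm.orth_B_self, h4]; linear_combination f.B x v * h3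
    generalize x + f.B x v • v = y at h6 h7
    rcases eq_or_ne y 0 with rfl | h8
    · exact zero_mem _
    rcases mul_self_eq_one_iff.1 (mul_self_of_three hF fun h => h8 (dec_aniso hD hk (hp i) h6 h)) with h9 | h9
    · exact Submodule.subset_span ⟨h6, by rw [fm_self, h9, mul_one]⟩
    · have := dec_aniso hD hk (hp i) (add_mem h6 hv) (by rw [f.Q_add_of_perp h7, h9, h4, neg_add_cancel])
      rw [eq_neg_of_add_eq_zero_left this]; exact neg_mem h5

theorem three_btw (hk : k = 3) (h3 : ∀ i j, AreIsometricFor f.Q (D i) (D j)) :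
    ∃ K, decompositionStabilizer D ⊓ omegaGL f.Q < K ∧ K < omegaGL f.Q := by
  subst hk
  have h2 := two_ne_of_three hF
  have i₀ : Fin t := ⟨0, by have := hD.decomp.two_le; omega⟩
  have h4 := f.res_nondeg_iff.2 (dec_nd hD i₀)
  have h0 := h4.disc_ne
  obtain ⟨b, h5, h6, h7⟩ := (h4.osmul h0).orth_diag h2 (n := 2) (hD.decomp.finrank_eq i₀) one_ne_zero
    ⟨(f.res (D i₀)).disc ^ 2, by rw [CForm.disc_osmul, hD.decomp.finrank_eq]; ring⟩
  generalize (f.res (D i₀)).disc = c at h0 h5 h6 h7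
  have h8 : ∀ i, ∃ v : Fin 3 → ι → F, (∀ j, v j ∈ D i) ∧ (∀ x ∈ D i, ∃ a : Fin 3 → F, ∑ j, a j • v j = x) ∧
      ∀ j k, c * fm (RingHom.id F) (gr f) (v j) (v k) = if j = k then 1 else 0 := fun i => by
    obtain ⟨g, hg⟩ := isom_iff.1 (h3 i₀ i)
    refine ⟨fun j => (g (b j)).1, fun j => (g (b j)).2, fun x hx => ⟨b.repr (g.symm ⟨x, hx⟩), ?_⟩, fun j k => ?_⟩
    · have := congrArg (fun y : D i₀ => (g y).1) (b.sum_repr (g.symm ⟨x, hx⟩))
      simpa only [map_sum, map_smul, Submodule.coe_sum, Submodule.coe_smul, g.apply_symm_apply] using this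
    · refine (congrArg _ ((fmB _ _).trans (hg.B (b j) (b k)))).trans ?_
      split_ifs with h
      · subst h
        by_cases h : j = Fin.last _
        exacts [h ▸ h7, h6 j h]
      · exact h5 j k h
  have h9 : ∀ {v : Fin 3 → ι → F}, (∀ j k, c * fm (RingHom.id F) (gr f) (v j) (v k) = if j = k then 1 else 0) →
      ∀ a : Fin 3 → F, c * fm (RingHom.id F) (gr f) (∑ j, a j • v j) (∑ j, a j • v j) = 1 →
      ∃ j, ∃ s : F, s ≠ 0 ∧ ∑ j, a j • v j = s • v j := fun {v} hv a ha => by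
    simp only [fm_sum_left, fm_sum_right, fm_smul_left, fm_smul_right, Finset.mul_sum, mul_left_comm c, hv,
      RingHom.id_apply] at ha
    simp only [Fin.sum_univ_three] at ha ⊢
    have h3 : (3 : F) = 0 := three_eq hF
    have k := fun a => mul_self_of_three (a := a) hF
    rcases eq_or_ne (a 0) 0 with a0 | a0 <;> rcases eq_or_ne (a 1) 0 with a1 | a1 <;>
      rcases eq_or_ne (a 2) 0 with a2 | a2 <;> simp [*] at ha
    · exact ⟨2, _, a2, by simp [*]⟩
    · exact ⟨1, _, a1, by simp [*]⟩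
    · exact ⟨0, _, a0, by simp [*]⟩
    · exact absurd (by linear_combination ha) h2
  refine Rf.frame_btw (σ := RingHom.id F) (rf_gr hf) (big_Om hf hn) (omega_le.trans isom_le)
    (fun a ha b hb => comm_mem_omega (iso_le h2 ha) (iso_le h2 hb)) hD (by omega) (inv_ne_zero h0)
    (fun i v hv w hw h10 h11 => ?_) fun i x hx => ?_
  · obtain ⟨u, -, h12, h13⟩ := h8 i
    obtain ⟨a, rfl⟩ := h12 v hv
    obtain ⟨b, rfl⟩ := h12 w hw
    obtain ⟨j, s, hs, h14⟩ := h9 h13 a (by rw [h10, mul_inv_cancel₀ h0])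
    obtain ⟨k, r, -, h15⟩ := h9 h13 b (by rw [h11, mul_inv_cancel₀ h0])
    rw [h14, h15]
    rcases eq_or_ne j k with rfl | h16
    · exact .inr ⟨r / s, by rw [smul_smul, div_mul_cancel₀ _ hs]⟩
    · refine .inl ?_
      rw [fm_smul_left, fm_smul_right, (mul_eq_zero.1 ((h13 j k).trans (if_neg h16))).resolve_left h0]; simp
  · obtain ⟨u, h11, h12, h13⟩ := h8 i
    obtain ⟨a, rfl⟩ := h12 x hx
    exact Submodule.sum_mem _ fun j _ => Submodule.smul_mem _ _
      (Submodule.subset_span ⟨h11 j, eq_inv_of_mul_eq_one_right ((h13 j j).trans (if_pos rfl))⟩)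

end orth

theorem Rf.u2_frame_btw (h : Rf σ J 1) (h1 : σ ≠ RingHom.id F) (hF : Fintype.card F = 2 ^ 2) (hB : Big G)
    (hH : G ≤ isoG σ J) (hG : ∀ a ∈ isoG σ J, ∀ b ∈ isoG σ J, ⁅a, b⁆ ∈ G) {t : ℕ} {D : Fin t → Submodule F (ι → F)}
    (hD : IsNondegenerateMDecomposition (fm σ J) 2 D) : ∃ K, decompositionStabilizer D ⊓ G < K ∧ K < G := by
  have h2 := two_of_four hF
  have hN := fun a => norm_of_four (a := a) hF h1 h.inv
  have h3 : ∀ v, fm σ J v v ≠ 0 → fm σ J v v = 1 := fun v hv => by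
    have h3 := hN _ hv
    rw [← one_mul (σ _), ← h.symm] at h3
    exact pow_eq_zero_iff two_ne_zero |>.1 (by linear_combination h3 + (1 - fm σ J v v) * h2) |> sub_eq_zero.1
  refine h.frame_btw hB hH hG hD le_rfl one_ne_zero (fun i v hv w hw h4 h5 => ?_) fun i x hx => ?_
  · refine or_iff_not_imp_left.2 fun h6 => ⟨fm σ J w v, sub_eq_zero.1 (h.zero_of_two (hD.nondegenerate i)
      (hD.decomp.finrank_eq i) ((D i).sub_mem hw ((D i).smul_mem _ hv)) hv (h4 ▸ one_ne_zero) ?_ ?_)⟩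
    all_goals simp only [sub_eq_add_neg, ← neg_smul, fm_add_left, fm_add_right, fm_smul_left, fm_smul_right,
      h4, h5, h.symm w v, map_neg]
    · ring
    · linear_combination -hN _ fun h7 => h6 (h.zero_symm h7)
  · by_cases h4 : fm σ J x x = 0
    swap
    · exact Submodule.subset_span ⟨hx, h3 _ h4⟩
    obtain ⟨v, hv, h5⟩ := h.exists_aniso (.inl h1) (hD.nondegenerate i) (hD.decomp.as_ne i).1
    obtain ⟨c, hc, h6⟩ : ∃ c : F, c ≠ 0 ∧ c * fm σ J v x + σ (c * fm σ J v x) = 0 := by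
      rcases eq_or_ne (fm σ J v x) 0 with h6 | h6
      exacts [⟨1, one_ne_zero, by simp [h6]⟩, ⟨_, inv_ne_zero h6, by
        rw [inv_mul_cancel₀ h6, map_one, one_add_one_eq_two, h2]⟩]
    rw [show x = (x + c • v) - c • v by simp]
    refine Submodule.sub_mem _ (Submodule.subset_span ⟨(D i).add_mem hx ((D i).smul_mem c hv), h3 _ ?_⟩)
      (Submodule.smul_mem _ c (Submodule.subset_span ⟨hv, h3 _ h5⟩))
    simp only [fm_add_left, fm_add_right, fm_smul_left, fm_smul_right, h3 v h5, h4, h.symm v x, map_mul] at h6 ⊢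
    exact fun h7 => one_ne_zero (by linear_combination h7 - h6 - hN c hc)

end Cfsg.Agent.H4.As
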