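import Cfsg.Agent.H4.As29

/-! Further non-maximal decomposition and tensor stabilisers. -/

set_option autoImplicit false
set_option linter.unusedSectionVars false

namespace Cfsg.Agent.H4.As

open Matrix Module Cfsg.Geo
open scoped MatrixGroups Kronecker commutatorElement

variable {ι κ ν : Type} [Fintype ι] [DecidableEq ι] [Fintype κ] [DecidableEq κ] [Fintype ν] [DecidableEq ν]
  {F : Type*} [Field F] [Fintype F] {G H X Y : Subgroup (GL ι F)} {σ : F →+* F} {J : Matrix ι ι F} {ε : F}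

theorem sl_two_btw {n t m : ℕ} (hn : 3 ≤ n) (ht : 4 ≤ t) (h2 : (2 : F) = 0) {D : Fin t → Submodule F (Fin n → F)}
    (hD : IsMDecomposition m D) {J : Matrix (Fin m) (Fin m) F} (hJ : Rf σ J ε) (h : ∀ A : GL (Fin m) F, Sm σ J A 1) :
    ∃ K, decompositionStabilizer D ⊓ specialLinear (Fin n) F < K ∧ K < specialLinear (Fin n) F := by
  have : Nonempty (Fin n) := ⟨⟨0, by omega⟩⟩
  let c := Fin.castLEEmb ht
  obtain ⟨e, P, h1⟩ := exists_blocks hD
  have h0 := hJ.kron (rf_one (ι := Fin t) hJ.inv)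
  have h3 := isUnit_trJ (σ := σ) (e := e) (P := P) h0.unit
  obtain rfl : ε = 1 := hJ.eps.elim id fun h => by rw [h]; linear_combination -h2
  rw [mul_one] at h0
  let x : Fin m := ⟨0, hD.pos⟩
  obtain ⟨y, hy⟩ : ∃ y, J y x ≠ 0 := by
    by_contra! h4
    simpa using congrFun (mulVec_injective_iff_isUnit.2 hJ.unit (a₁ := Pi.single x 1) (a₂ := 0) (by ext; simp [h4])) x
  obtain ⟨w, hw⟩ : ∃ w : Fin m × Fin t → F, w = ∑ j, Pi.single (x, c j) 1 := ⟨_, rfl⟩
  have h3' : ∀ z i, fm σ (J ⊗ₖ 1) (Pi.single (z, c i) 1) w = J z x := fun z i => by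
    simp [hw, fm_sum_right, fm_single, one_apply]
  have h4 : fm σ (J ⊗ₖ 1) w w = 0 := by
    nth_rw 1 [hw]
    simp only [fm_sum_left, h3']
    rw [Fin.sum_univ_four]
    linear_combination (2 * J x x) * h2
  have h5 : (1 + pj σ (J ⊗ₖ 1) w w) * (1 + pj σ (J ⊗ₖ 1) w w) = 1 := eq_of_mulVec fun v => by
    simp only [← mulVec_mulVec, add_mulVec, one_mulVec, pj_mulVec, fm_add_left, fm_smul_left, h4]
    linear_combination (norm := module) (fm σ (J ⊗ₖ 1) v w * h2) • w
  refine btw (Y := similarityGroup (fm σ (trJ σ e P (J ⊗ₖ 1)))) (fun g hg => ?_) (SL_not_sim hn h3) fun h6 => ?_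
  · obtain ⟨s, A, h2⟩ := h1 g hg.1
    exact (mem_sim_iff h3).2 ⟨1, h2 ▸ sm_trJ.2 (Sm.bm s fun i => h _)⟩
  obtain ⟨s, A, h7⟩ := h1 (trG (tr e P) ⟨_, _, h5, h5⟩) (h6 ⟨(mem_sim_iff h3).2 ⟨1, sm_trJ.2 (sm_iff.2 fun u v => by
      simp only [add_mulVec, one_mulVec, pj_mulVec, fm_add_left, fm_smul_left, h4, fm_add_right, fm_smul_right]
      linear_combination (fm σ (J ⊗ₖ 1) u w * σ (fm σ (J ⊗ₖ 1) v w)) * h2 + fm σ (J ⊗ₖ 1) u w * h0.symm v w)⟩, Units.ext (by
      have := congrArg det h5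
      rw [det_mul, det_one] at this
      refine (det_tr e P _).trans (pow_eq_zero_iff (n := 2) two_ne_zero |>.1 ?_ |> sub_eq_zero.1)
      rw [Units.val_one]
      linear_combination this + (1 - det (1 + pj σ (J ⊗ₖ 1) w w)) * h2)⟩)
  have h8 : 1 + pj σ (J ⊗ₖ 1) w w = _ := (tr e P).injective h7
  have h9 : ∀ i, i ≠ 0 → c i = s (c 0) := fun i h9 => by
    have := congrFun (congrFun h8 (x, c i)) (y, c 0)
    have h12 := congrFun (pj_mulVec (σ := σ) (J := J ⊗ₖ 1) w w (Pi.single (y, c 0) 1)) (x, c i)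
    rw [h3'] at h12
    by_contra h11
    simp only [bm_apply, h11, if_false] at this
    simp [hw, Pi.single_apply] at h12
    simp [h9, hw, h12, hy] at this
  exact absurd (c.injective ((h9 1 (by decide)).trans (h9 2 (by decide)).symm)) (by decide)

theorem sl_btw {n t m : ℕ} (hn : 13 ≤ n) {D : Fin t → Submodule F (Fin n → F)} (hD : IsMDecomposition m D)
    (h : (m = 1 ∧ Fintype.card F ≤ 4) ∨ (m = 2 ∧ Fintype.card F = 2)) :
    ∃ K, decompositionStabilizer D ⊓ specialLinear (Fin n) F < K ∧ K < specialLinear (Fin n) F := by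
  have h0 := hD.as_card
  have := Fintype.one_lt_card (α := F)
  simp only [Fintype.card_fin] at h0
  rcases h with ⟨rfl, h⟩ | ⟨rfl, h⟩
  · rcases (by omega : Fintype.card F = 2 ∨ Fintype.card F = 3 ∨ Fintype.card F = 2 ^ 2) with h | h | h
    · exact sl_two_btw (by omega) (by omega) (two_of_card h) hD (rf_one (σ := RingHom.id F) fun _ => rfl)
        (sm_one_one fun a ha => by simp [eq_one_of_card h ha])
    · have : Nonempty (Fin n) := ⟨⟨0, by omega⟩⟩
      obtain ⟨e, P, h1⟩ := exists_gram_blocks hD (RingHom.id F) (sm_one_one fun a ha => mul_self_of_three h ha)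
      have h2 : Rf (RingHom.id F) (trJ (RingHom.id F) e P (1 ⊗ₖ 1)) 1 :=
        ⟨fun _ => rfl, isUnit_trJ (by simp), by simp [trJ_transpose], .inl rfl⟩
      have h3 := big_Om (h2.cO_nondeg (two_ne_of_three h)) (by simp; omega)
      refine btw (Y := similarityGroup (fm _ (trJ (RingHom.id F) e P (1 ⊗ₖ 1))))
        (fun g hg => (mem_sim_iff h2.unit).2 ⟨1, h1 g hg.1⟩) (SL_not_sim (by omega) h2.unit) fun h4 =>
          h3.not_decomp hD fun g hg => h4 ⟨(mem_sim_iff h2.unit).2 ⟨1, ?_⟩,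
            Units.ext (det_of_perfect h3.perf hg)⟩
      exact (h2.mem_cO _ g).2 (mem_isometryGroup.1 (omega_le hg))
    · exact sl_two_btw (by omega) (by omega) (by
        have := FiniteField.cast_card_eq_zero F
        rw [h] at this; exact pow_eq_zero_iff (n := 2) two_ne_zero |>.1 (by exact_mod_cast this)) hD
        (rf_one (frobq_frobq h)) (sm_one_one fun a ha => by
          rw [frobq_apply, ← pow_succ']; exact pow_eq_one_of_dvd ha (by simp [h]))
  · exact sl_two_btw (by omega) (by omega) (two_of_card h) hD rf_J2 fun A =>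
      eq_one_of_card h A.det_ne_zero ▸ sm_J2 A.1

theorem sp_two_btw {m t : ℕ} (hm : 4 ≤ m) (hF : Fintype.card F = 2) {D : Fin t → Submodule F (Fin m ⊕ Fin m → F)}
    (hD : IsNondegenerateMDecomposition (sympForm m F) 2 D) :
    ∃ K, decompositionStabilizer D ⊓ spGL m F < K ∧ K < spGL m F := by
  obtain ⟨Q, h1, h2, h3⟩ := qq_of_nd rf_spF (fun v => (fm_gr (f := spF F m) v v).trans ((spF F m).symp_B_self v)) hF
    (symp_eq (F := F) ▸ hD) le_rfl
  have h4 : ∀ g ∈ isometryGroup F Q, g ∈ quadSimilarityGroup Q := fun g hg =>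
    ⟨1, fun v => (hg v v).trans (by simp)⟩
  refine btw (Y := quadSimilarityGroup Q) (fun g hg => h4 g (h3 hg.1)) (Sp_not_quad (by omega) h1) fun h5 =>
    (big_Om (geoQuad_nondeg h1) (by simp; omega)).not_decomp hD.decomp
      fun g hg => h5 ⟨h4 g (omega_le hg), ?_⟩
  have h6 := isom_le (f := geoQuad h1) (omega_le hg)
  rwa [Sp_eq, ← show gr (geoQuad h1) = _ from fm_inj (congrFun₂ ((polar_eq (f := geoQuad h1)).symm.trans h2))]

theorem sm_alt2 (hF : Fintype.card F = 2) {f : (Fin 2 → F) → (Fin 2 → F) → F} (h : IsSymplecticForm f)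
    (a : GL (Fin 2) F) : Sm (RingHom.id F) (gramMatrix f) a 1 := by
  rw [show gramMatrix f = gramMatrix f 0 1 • J2 F by
    ext i j
    fin_cases i <;> fin_cases j <;> simp [J2, gramMatrix, h.alternating]
    exact h.skew _ _]
  exact (eq_one_of_card hF a.det_ne_zero ▸ sm_J2 a.1).smul _

end Cfsg.Agent.H4.As
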