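import Cfsg.Agent.H4.As7

/-! Aschbacher's theorem, part 8: the classical groups are big; block decompositions. -/

set_option autoImplicit false
set_option linter.unusedSectionVars false

namespace Cfsg.Agent.H4.As

open Matrix Module Cfsg.Geo
open scoped MatrixGroups Kronecker commutatorElement

variable {ι κ : Type} [Fintype ι] [DecidableEq ι] [Fintype κ] [DecidableEq κ] {F : Type*} [Field F]
  [Fintype F] {G H R : Subgroup (GL ι F)}

theorem min_of_simple (hs : IsSimpleGroup (G ⧸ Subgroup.center G)) (hp : ⁅G, G⁆ = G)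
    (hc : ∀ g : G, g ∈ Subgroup.center G → (g : GL ι F) ∈ scalars ι F) :
    ∀ M ≤ G, Nm G M → M ≤ scalars ι F ∨ M = G := fun M hM hn => by
  have : (M.subgroupOf G).Normal := ⟨fun x hx g => hn g g.2 x hx⟩
  refine (hs.eq_bot_or_eq_top_of_normal ((M.subgroupOf G).map (QuotientGroup.mk' _))
    (this.map _ (QuotientGroup.mk'_surjective _))).imp (fun h x hx => hc ⟨x, hM hx⟩ ?_) fun h => ?_
  · exact (QuotientGroup.eq_one_iff _).1 (h.le ⟨⟨x, hM hx⟩, hx, rfl⟩)
  · refine le_antisymm hM (hp.ge.trans (comm_le_of_sup fun g hg => ?_))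
    obtain ⟨x, hx, e⟩ := h.ge (Subgroup.mem_top ((⟨g, hg⟩ : G) : G ⧸ Subgroup.center G))
    have := hc _ (QuotientGroup.eq.1 e)
    simpa using mul_mem (Subgroup.mem_sup_left hx : (x : GL ι F) ∈ M ⊔ _) (Subgroup.mem_sup_right this)

theorem cen_of_gam (h : ∀ a : Gam F (ι → F), (∀ g ∈ G, Gam.cj a (glE g) = glE g) → a ∈ Zs F (ι → F))
    (φ : F ≃+* F) (T : GL ι F) (hT : ∀ l ∈ G, cj T ((l : Matrix ι ι F).map φ) = l) :
    φ = 1 ∧ T ∈ scalars ι F := by
  obtain ⟨c, hc⟩ := h (mkG T φ) fun g hg =>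
    ((cj_mkG_iff T φ (glE_apply g) (glE_apply g)).2 (hT g hg).symm).symm
  obtain rfl : φ = 1 := (congrArg Gam.ρ hc).symm
  refine ⟨rfl, c, Units.ext (eq_of_mulVec fun v => ?_)⟩
  change (sc c : GL ι F).1 *ᵥ v = _
  rw [sc_val, smul_mulVec, one_mulVec]
  exact congrArg (fun a : Gam F (ι → F) => a.s v) hc

theorem big_of {K : Subgroup ((ι → F) ≃ₗ[F] (ι → F))} (hG : ∀ g, g ∈ G ↔ glE g ∈ K)
    (h2 : 2 ≤ Fintype.card ι) (hI : ∀ W, W ≠ ⊥ → W ≠ ⊤ → ∃ g ∈ K, g ∉ stab W)
    (hc : ∀ a : Gam F (ι → F), (∀ g ∈ K, Gam.cj a g = g) → a ∈ Zs F (ι → F)) (hp : K ≤ ⁅K, K⁆)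
    (hs : IsSimpleGroup (K ⧸ Subgroup.center K)) {s : ℕ} (h3 : s ^ Fintype.card ι ∣ Nat.card K)
    (h4 : ringChar F ∣ s) (h5 : Fintype.card F ∣ s ^ 2) : Big G := by
  have hp' : ⁅G, G⁆ = G := le_antisymm (commutator_le_self G) ((commutator_eq_top_iff G).1
    (commutator_eq_top_of_equiv (glSub hG).symm ((commutator_eq_top_iff K).2 hp)))
  have hc' := cen_of_gam (G := G) fun a ha => hc a fun g hg => by
    obtain ⟨g, rfl⟩ := glE.surjective g
    exact ha g ((hG g).2 hg)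
  rw [← Nat.card_congr (glSub hG).toEquiv] at h3
  refine ⟨h2, fun W hW => ?_, hc', hp', min_of_simple (quotCenterEquiv (glSub hG)).isSimpleGroup hp'
    fun g hg => (hc' 1 g fun l hl => cj_eq_iff.2 (congrArg (fun x : G => (x : GL ι F).1)
      (Subgroup.mem_center_iff.1 hg ⟨l, hl⟩)).symm).2, (pow_dvd_pow_of_dvd h4 _).trans h3,
    fun _ => ((pow_dvd_pow_of_dvd h5 _).trans ?_).trans h3⟩
  · by_contra! h
    obtain ⟨g, hg, h1⟩ := hI W h.1 h.2
    obtain ⟨g, rfl⟩ := glE.surjective g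
    exact h1 (mem_subspaceStabilizer.1 (hW.le ((hG g).2 hg)))
  · rw [← pow_mul]
    exact pow_dvd_pow _ (by omega)

theorem big_of_good {T : FType F} {f : CForm T (ι → F)} (h : f.Good) (hG : ∀ g, g ∈ G ↔ glE g ∈ f.E)
    (hp : f.E ≤ ⁅f.E, f.E⁆) {s : ℕ} (h3 : s ^ Fintype.card ι ∣ Nat.card f.E)
    (h4 : ringChar F ∣ s) (h5 : Fintype.card F ∣ s ^ 2) : Big G := by
  obtain ⟨u, -, hu0, hu⟩ := h.big.sing
  refine big_of hG (by have := h.three; simp at this; omega) (fun W h0 h1 => ?_)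
    (fun a ha => h.mem_sc_of_comm fun u v c ok => ha _ ok.mem_E) hp (h.hf.isSimpleGroup_E h.thick_top hu0 hu
      (h.thick u hu0 hu) ((commutator_eq_top_iff _).2 hp)) h3 h4 h5
  by_contra! h2
  rcases h.big.le_or h.hf (C := W) fun g hg x hx => (h2 g (CForm.EU_le_E _ hg) x).1 hx with h3 | h3
  · exact h1 (top_le_iff.1 h3)
  · exact h0 (le_bot_iff.1 (CForm.perp_top h.hf ▸ h3))

theorem coprime_card {k : ℕ} (h : (ringChar F).Coprime k) (s : ℕ) : (Fintype.card F ^ s).Coprime k := by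
  obtain ⟨e, -, he⟩ := FiniteField.card F (ringChar F)
  rw [he]; exact (h.pow_left _).pow_left _

theorem le_choose {n : ℕ} (hn : 3 ≤ n) : n ≤ n * (n - 1) / 2 :=
  (Nat.le_div_iff_mul_le two_pos).2 (Nat.mul_le_mul_left n (by omega))

theorem big_SL {n : ℕ} (hn : 3 ≤ n) : Big (specialLinear (Fin n) F) := by
  have e : SL(n, F) ≃* SLg F (Fin n → F) := (slEquivKer _ F).trans (glSub fun _ => mem_specialLinear)
  refine big_of (K := SLg F _) (fun _ => mem_specialLinear) (by simp; omega)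
    (fun W => exists_SLg_not_stab) (fun a ha => mem_sc_of_comm_SL (by simp; omega) fun φ v h =>
      ha _ (dt_mem_SLg h)) ((commutator_eq_top_iff _).1 (commutator_eq_top_of_equiv e
        (SL_commutator_eq_top (by simpa)))) ?_ (s := Fintype.card F) ?_ ringChar_dvd_card
        (dvd_pow_self _ two_ne_zero)
  · have := PSL_simple_of_three_le (F := F) (ι := Fin n) (by simpa)
    exact (quotCenterEquiv e).symm.isSimpleGroup
  · rw [← Nat.card_congr e.toEquiv]
    refine (coprime_card (pow_one (Fintype.card F) ▸ coprime_sub_one one_ne_zero) _).dvd_of_dvd_mul_left ?_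
    rw [card_SL n (by omega), prod_pow_sub_pow, Fintype.card_fin]
    exact (pow_dvd_pow _ (le_choose hn)).mul_right _

theorem big_Sp {m : ℕ} (hm : 2 ≤ m) (h : ¬ (m = 2 ∧ Fintype.card F = 2)) : Big (spGL m F) := by
  have e := (spF_nondeg (F := F) m).symp_E_eq
  refine big_of_good (spF_good2 hm).toGood (fun _ => e ▸ mem_spGL) (e ▸ spF_perfect m ?_)
    (s := Fintype.card F) ?_ ringChar_dvd_card (dvd_pow_self _ two_ne_zero)
  · have := Fintype.one_lt_card (α := F); omega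
  · rw [e, (spF_nondeg m).symp_card_iso (m := m) (by simp [two_mul])]
    exact (pow_dvd_pow _ (by simp; nlinarith)).mul_right _

theorem big_SU {q n : ℕ} (hF : Fintype.card F = q ^ 2) (hn : 3 ≤ n) (h : ¬ (n = 3 ∧ q = 2)) :
    Big (GU n F q ⊓ specialLinear (Fin n) F) := by
  have hf := unF_nondeg hF n
  have hq : ringChar F ∣ q := (Fact.out : (ringChar F).Prime).dvd_of_dvd_pow (hF ▸ ringChar_dvd_card)
  refine big_of_good (unF_good2 hF hn h).toGood (fun _ => mem_GU_SL hF (by omega))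
    ((hf.unT_E_le_Tr hF (by simpa) (by simpa using h)).trans (hf.unit_Tr_le_commutator (frobq_ne hF) (by simpa)))
    (s := q) ?_ hq hF.dvd
  rw [← Nat.card_congr (suEquivE hF (by omega)).toEquiv]
  refine (Nat.Coprime.pow_left _ (by simp : q.Coprime (q + 1))).dvd_of_dvd_mul_left ?_
  rw [← card_GU_eq_mul hF (by omega), card_GU hF, Fintype.card_fin]
  exact (pow_dvd_pow _ (le_choose hn)).mul_right _

theorem big_Om {f : CForm (FType.orth F) (ι → F)} (hf : f.Nondeg) (h7 : 7 ≤ Fintype.card ι) :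
    Big (omegaGL f.Q) := by
  have hn : finrank F (ι → F) = Fintype.card ι := finrank_fintype_fun_eq_card F
  have h1 := hf.orth_finrank_le
  have h2 := hf.two_mul_wi_le
  have : Nonempty ι := Fintype.card_pos_iff.1 (by omega)
  refine big_of_good (orth_good2' hf h7).toGood (fun _ => mem_omegaGL_E hf (by omega))
    (hf.orth_E_perfect (by omega) (by omega)) (s := Fintype.card F) ?_ ringChar_dvd_card
    (dvd_pow_self _ two_ne_zero)
  have h3 : 2 * Fintype.card F ^ Fintype.card ι ∣ Nat.card f.iso := by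
    obtain ⟨m, hm | hm⟩ : ∃ m, Fintype.card ι = 2 * m ∨ Fintype.card ι = 2 * m + 1 :=
      ⟨Fintype.card ι / 2, by omega⟩
    · have h4 : Fintype.card ι ≤ m * (m - 1) := hm ▸ mul_comm 2 m ▸ Nat.mul_le_mul_left m (by omega)
      by_cases hw : f.wi = m
      · rw [hf.orth_card_plus (by omega) hw (hn.trans hm)]
        exact ((mul_dvd_mul_left 2 (pow_dvd_pow _ h4)).mul_right _).mul_right _
      · rw [hf.orth_card_minus (m := m) (by omega) (hn.trans hm)]
        exact ((mul_dvd_mul_left 2 (pow_dvd_pow _ h4)).mul_right _).mul_right _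
    · rw [hf.orth_card_odd (hn.trans hm)]
      exact (mul_dvd_mul_left 2 (pow_dvd_pow _ (by nlinarith [show 3 ≤ m by omega]))).mul_right _
  rw [← hf.orth_card_E (by omega) (.inr (by omega))] at h3
  by_cases h4 : (2 : F) = 0
  · rw [hf.orth_index_even h4 (.inr (by omega)), mul_comm] at h3
    exact Nat.dvd_of_mul_dvd_mul_right two_pos h3
  · rw [hf.orth_index_odd h4 (by omega)] at h3
    exact ((Nat.coprime_two_right.2 (odd_of_two_ne_zero h4).pow).pow_right 2).dvd_of_dvd_mul_right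
      ((Dvd.intro_left _ rfl).trans h3)

theorem SL_not_sim {n : ℕ} (hn : 3 ≤ n) {σ : F →+* F} {J : Matrix (Fin n) (Fin n) F} (hJ : IsUnit J) :
    ¬ specialLinear (Fin n) F ≤ similarityGroup (fm σ J) := fun h => by
  have : Nonempty (Fin n) := ⟨⟨0, by omega⟩⟩
  refine hJ.ne_zero (Matrix.ext fun i j => ?_)
  obtain ⟨k, hi, hj⟩ := exists_third (i := i) (j := j) (by simpa)
  have h1 := sm_iff.1 (sm_of_perfect (big_SL hn).perf hJ (fun g hg => (mem_sim_iff hJ).1 (h hg))
    (g := SpecialLinearGroup.toGL ⟨transvection j k 1, det_transvection_of_ne _ _ hj.symm _⟩)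
    (range_toGL.le ⟨_, rfl⟩)) (Pi.single i 1) (Pi.single k 1)
  change fm σ J (transvection j k 1 *ᵥ _) (transvection j k 1 *ᵥ _) = _ at h1
  have h2 : ∀ l, transvection j k (1 : F) *ᵥ Pi.single l 1 =
      Pi.single l 1 + if k = l then Pi.single j 1 else 0 := fun l => by
    rw [transvection, add_mulVec, one_mulVec, single_mulVec]
    congr 1
    split_ifs with h3 <;> ext x <;> simp [h3, Function.update_apply, Pi.single_apply]
  simpa [h2, hi, fm_add_right, fm_single] using h1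

theorem quadSim_le (Q : (ι → F) → F) : quadSimilarityGroup Q ≤ similarityGroup (QuadraticMap.polar Q) := by
  rintro g ⟨c, hc⟩
  exact ⟨c, fun u v => by simp only [QuadraticMap.polar, ← mulVec_add, hc]; ring⟩

theorem SL_not_bilin {n : ℕ} (hn : 3 ≤ n) {f : (Fin n → F) → (Fin n → F) → F} (h1 : IsBilinearForm f)
    (h2 : IsNondegenerateForm f) : ¬ specialLinear (Fin n) F ≤ similarityGroup f := by
  rw [h1.as_eq] at h2 ⊢; exact SL_not_sim hn (isUnit_of_nondeg h2)

theorem SL_not_unit {n : ℕ} (hn : 3 ≤ n) {σ : F ≃+* F} {f : (Fin n → F) → (Fin n → F) → F}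
    (h : IsUnitaryForm σ f) : ¬ specialLinear (Fin n) F ≤ similarityGroup f := by
  have h2 := h.nondegenerate
  rw [h.as_eq] at h2 ⊢; exact SL_not_sim hn (isUnit_of_nondeg h2)

theorem SL_not_quad {n : ℕ} (hn : 3 ≤ n) {Q : (Fin n → F) → F} (h : IsNondegenerateQuadraticForm Q) :
    ¬ specialLinear (Fin n) F ≤ quadSimilarityGroup Q := fun h1 =>
  SL_not_bilin hn h.polar_bilinear h.nondegenerate (h1.trans (quadSim_le Q))

theorem nm_SL (R : Subgroup (GL ι F)) : Nm R (specialLinear ι F) :=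
  fun g _ x hx => (MonoidHom.normal_ker _).conj_mem x hx g

theorem exists_eP (T : (κ → F) ≃ₗ[F] (ι → F)) :
    ∃ (e : ι ≃ κ) (P : GL ι F), ∀ x, (P : Matrix ι ι F) *ᵥ (x ∘ e) = T x := by
  have h := T.finrank_eq
  simp only [finrank_fintype_fun_eq_card] at h
  let e : ι ≃ κ := Fintype.equivOfCardEq h.symm
  refine ⟨e, glE.symm ((LinearEquiv.funCongrLeft F F e.symm).trans T), fun x => ?_⟩
  rw [glE_symm_mulVec]
  simp [LinearEquiv.funCongrLeft_apply, LinearMap.funLeft, Function.comp_assoc]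

section blocks
variable {τ : Type} [Fintype τ] [DecidableEq τ]

/-- block monomial matrices -/
def bm (s : Equiv.Perm τ) (A : τ → Matrix κ κ F) : Matrix (κ × τ) (κ × τ) F :=
  ((1 : Matrix κ κ F) ⊗ₖ s⁻¹.permMatrix F) * blockDiagonal A

theorem bm_apply (s : Equiv.Perm τ) (A : τ → Matrix κ κ F) (x y : κ × τ) :
    bm s A x y = if x.2 = s y.2 then A y.2 x.1 y.1 else 0 := by
  obtain ⟨a, i⟩ := x
  obtain ⟨b, j⟩ := y
  simp only [bm, mul_apply, Fintype.sum_prod_type, kroneckerMap_apply, blockDiagonal_apply, one_apply,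
    PEquiv.toMatrix_apply, Equiv.toPEquiv_apply, Option.mem_def, Option.some.injEq]
  simp [Equiv.symm_apply_eq]

theorem det_bm (s : Equiv.Perm τ) (A : τ → Matrix κ κ F) :
    (bm s A).det = (Equiv.Perm.sign s : F) ^ Fintype.card κ * ∏ i, (A i).det := by
  simp [bm, det_kronecker, det_blockDiagonal, det_permutation]

theorem Sm.bm {σ : F →+* F} {J : Matrix κ κ F} {A : τ → Matrix κ κ F} {c : F} (s : Equiv.Perm τ)
    (h : ∀ i, Sm σ J (A i) c) : Sm σ (J ⊗ₖ (1 : Matrix τ τ F)) (bm s A) c := by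
  have h1 : Sm σ (1 : Matrix τ τ F) (s⁻¹.permMatrix F) 1 := by
    have : (s⁻¹.permMatrix F).map σ = s⁻¹.permMatrix F := by
      ext; simp [PEquiv.toMatrix_apply, apply_ite σ]
    rw [Sm, this, transpose_permMatrix, mul_one, ← permMatrix_mul]; simp
  have h2 : Sm σ (J ⊗ₖ (1 : Matrix τ τ F)) (blockDiagonal A) c := by
    rw [Sm, kronecker_one, blockDiagonal_transpose, blockDiagonal_map _ _ (map_zero σ),
      ← blockDiagonal_mul, ← blockDiagonal_mul, ← blockDiagonal_smul]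
    exact congrArg blockDiagonal (funext h)
  simpa [As.bm] using (sm_one.kron h1).mul h2

theorem exists_adapted {t m : ℕ} {D : Fin t → Submodule F (ι → F)} (hD : IsMDecomposition m D) :
    ∃ T : (Fin m × Fin t → F) ≃ₗ[F] (ι → F), (∀ y j, T (Pi.single (y, j) 1) ∈ D j) ∧
      ∀ x j, T x ∈ D j → ∀ a i, j ≠ i → x (a, i) = 0 := by
  have hi := DirectSum.isInternal_submodule_of_iSupIndep_of_iSup_eq_top hD.indep hD.iSup_eq_top
  obtain ⟨b, h1, h2⟩ : ∃ b : Basis (Σ _ : Fin t, Fin m) F (ι → F), (∀ a, b a ∈ D a.1) ∧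
      ∀ x j, x ∈ D j → ∀ a i, j ≠ i → b.repr x ⟨i, a⟩ = 0 :=
    ⟨hi.collectedBasis fun i => finBasisOfFinrankEq F (D i) (hD.finrank_eq i), hi.collectedBasis_mem _,
      fun x j h a i hij => hi.collectedBasis_repr_of_mem_ne _ hij h⟩
  let ε : (Σ _ : Fin t, Fin m) ≃ Fin m × Fin t := (Equiv.sigmaEquivProd _ _).trans (Equiv.prodComm _ _)
  refine ⟨(b.reindex ε).equivFun.symm, fun y j => ?_, fun x j h a i hij => ?_⟩
  · rw [Basis.equivFun_symm_single, Basis.reindex_apply]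
    exact h1 ⟨j, y⟩
  · refine Eq.trans ?_ (h2 _ j h a i hij)
    exact ((congrFun ((b.reindex ε).equivFun.apply_symm_apply x) (a, i)).symm.trans
      (b.repr_reindex_apply _ ε (a, i)))

theorem exists_blocks {t m : ℕ} {D : Fin t → Submodule F (ι → F)} (hD : IsMDecomposition m D) :
    ∃ (e : ι ≃ Fin m × Fin t) (P : GL ι F), ∀ g ∈ decompositionStabilizer D,
      ∃ (s : Equiv.Perm (Fin t)) (A : Fin t → GL (Fin m) F),
        (g : Matrix ι ι F) = tr e P (bm s fun i => A i) := by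
  obtain ⟨T, hT, hT'⟩ := exists_adapted hD
  obtain ⟨e, P, h⟩ := exists_eP T
  refine ⟨e, P, fun g ⟨s, hs⟩ => ?_⟩
  obtain ⟨g', hg⟩ := (trG (tr e P)).surjective g
  have h1 : (g' : Matrix _ _ F) = bm s fun i => of fun x y => g' (x, s i) (y, i) := by
    ext ⟨x, i⟩ ⟨y, j⟩
    rw [bm_apply]
    split_ifs with h2
    · obtain rfl : i = s j := h2
      rfl
    have h3 := tr_mulVec e P g' (Pi.single (y, j) 1)
    rw [h, h, ← trG_val, hg, mulVec_single_one] at h3
    refine hT' (g'.1.col (y, j)) (s j) ?_ x i (Ne.symm h2)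
    rw [← h3, ← hs]
    exact ⟨_, hT y j, rfl⟩
  have h2 := g'.det_ne_zero
  rw [h1, det_bm] at h2
  refine ⟨s, fun i => GeneralLinearGroup.mkOfDetNeZero _
    (Finset.prod_ne_zero_iff.1 (right_ne_zero_of_mul h2) i (Finset.mem_univ i)), ?_⟩
  rw [← hg, trG_val]
  exact congrArg _ h1

theorem exists_gram_blocks {t m : ℕ} {D : Fin t → Submodule F (ι → F)} (hD : IsMDecomposition m D)
    (σ : F →+* F) {J : Matrix (Fin m) (Fin m) F} (h : ∀ A : GL (Fin m) F, Sm σ J A 1) :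
    ∃ (e : ι ≃ Fin m × Fin t) (P : GL ι F), ∀ g ∈ decompositionStabilizer D,
      Sm σ (trJ σ e P (J ⊗ₖ (1 : Matrix (Fin t) (Fin t) F))) (g : Matrix ι ι F) 1 := by
  obtain ⟨e, P, h1⟩ := exists_blocks hD
  refine ⟨e, P, fun g hg => ?_⟩
  obtain ⟨s, A, h2⟩ := h1 g hg
  exact h2 ▸ sm_trJ.2 (Sm.bm s fun i => h _)

end blocks

end Cfsg.Agent.H4.As
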