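import Cfsg.Agent.H4.As8

/-! Aschbacher's theorem, part 9: maximal subgroups of special linear groups. -/

set_option autoImplicit false
set_option linter.unusedSectionVars false

namespace Cfsg.Agent.H4.As

open Matrix Module Cfsg.Geo
open scoped MatrixGroups Kronecker commutatorElement

variable {ι κ : Type} [Fintype ι] [DecidableEq ι] [Fintype κ] [DecidableEq κ] {F : Type*} [Field F]
  [Fintype F] {G H R : Subgroup (GL ι F)}

theorem bilin_form [Nonempty ι] {J : Matrix ι ι F} (hI : Irr H) (hn : 2 ≤ Fintype.card ι) (hJ : IsUnit J)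
    (hs : Jᵀ = J ∨ Jᵀ = -J) (h : ∀ g ∈ H, ∃ c, Sm (RingHom.id F) J (g : Matrix ι ι F) c) :
    (∃ f : (ι → F) → (ι → F) → F, IsSymplecticForm f ∧ H ≤ similarityGroup f) ∨
    ∃ Q : (ι → F) → F, IsNondegenerateQuadraticForm Q ∧ Odd (Fintype.card F) ∧
      H ≤ quadSimilarityGroup Q :=
  (bilin_cases hI hn hJ hs h).imp (fun h1 => ⟨_, h1, le_sim hJ h⟩) fun h1 =>
    ⟨_, quad_of_symm (two_ne_zero_of_odd h1.1) hJ h1.2, h1.1, le_quadSim hJ h⟩

theorem pow_eq_one_of_dvd {a : F} (ha : a ≠ 0) {k : ℕ} (h : Fintype.card F - 1 ∣ k) : a ^ k = 1 := by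
  obtain ⟨s, rfl⟩ := h
  rw [pow_mul, FiniteField.pow_card_sub_one_eq_one a ha, one_pow]

theorem eq_one_of_card (hF : Fintype.card F = 2) {a : F} (ha : a ≠ 0) : a = 1 := by
  simpa using pow_eq_one_of_dvd ha (k := 1) (by simp [hF])

theorem two_of_card (hF : Fintype.card F = 2) : (2 : F) = 0 := by
  simpa [hF] using FiniteField.cast_card_eq_zero F

theorem sm_one_one {σ : F →+* F} (h : ∀ a : F, a ≠ 0 → a * σ a = 1) (A : GL (Fin 1) F) :
    Sm σ 1 (A : Matrix (Fin 1) (Fin 1) F) 1 := by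
  ext i j
  simpa [mul_apply, Subsingleton.elim i 0, Subsingleton.elim j 0] using
    h _ (by simpa [det_unique] using A.det_ne_zero : A.1 0 0 ≠ 0)

theorem neg_kron {ν : Type} (a : Matrix κ κ F) (b : Matrix ν ν F) : (-a) ⊗ₖ b = -(a ⊗ₖ b) := by
  ext; simp

theorem trJ_neg {σ : F →+* F} {e : ι ≃ κ} {P : GL ι F} {J : Matrix κ κ F} :
    trJ σ e P (-J) = -trJ σ e P J := by simpa using trJ_smul (σ := σ) (e := e) (P := P) (J := J) (-1)

theorem blocks_bilin {t m : ℕ} {D : Fin t → Submodule F (ι → F)} (hD : IsMDecomposition m D)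
    (h : (m = 1 ∧ Fintype.card F ≤ 3) ∨ (m = 2 ∧ Fintype.card F = 2)) : ∃ J : Matrix ι ι F, IsUnit J ∧
      (Jᵀ = J ∨ Jᵀ = -J) ∧ ∀ g ∈ decompositionStabilizer D, Sm (RingHom.id F) J (g : Matrix ι ι F) 1 := by
  rcases h with ⟨rfl, h⟩ | ⟨rfl, h⟩
  · obtain ⟨e, P, h1⟩ := exists_gram_blocks hD (RingHom.id F) (sm_one_one fun a ha => by
      have := Fintype.one_lt_card (α := F)
      exact (sq a).symm.trans (pow_eq_one_of_dvd ha (by
        rcases (by omega : Fintype.card F = 2 ∨ Fintype.card F = 3) with h | h <;> simp [h])))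
    exact ⟨_, isUnit_trJ (by simp), .inl (by simp [trJ_transpose]), h1⟩
  · obtain ⟨e, P, h1⟩ := exists_gram_blocks hD (RingHom.id F) fun A =>
      eq_one_of_card h A.det_ne_zero ▸ sm_J2 A.1
    exact ⟨_, isUnit_trJ (isUnit_kron isUnit_J2 isUnit_one), .inr (by
      rw [trJ_transpose, ← kroneckerMap_transpose, J2_transpose, transpose_one, neg_kron, trJ_neg]), h1⟩

theorem exists_inv_of_sq {q : ℕ} (hF : Fintype.card F = q ^ 2) :
    ∃ σ : F ≃+* F, σ ≠ 1 ∧ (∀ a, σ (σ a) = a) ∧ (σ : F →+* F) = frobq hF :=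
  ⟨RingEquiv.ofRingHom (frobq hF) (frobq hF) (RingHom.ext (frobq_frobq hF)) (RingHom.ext (frobq_frobq hF)),
    fun h => frobq_ne hF (congrArg (fun σ : F ≃+* F => (σ : F →+* F)) h), frobq_frobq hF, rfl⟩

theorem blocks_unit [Nonempty ι] {t : ℕ} {D : Fin t → Submodule F (ι → F)} (hD : IsMDecomposition 1 D)
    (h : Fintype.card F = 4) : ∃ (σ : F ≃+* F) (f : (ι → F) → (ι → F) → F), IsUnitaryForm σ f ∧
      decompositionStabilizer D ≤ similarityGroup f := by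
  obtain ⟨σ, h1, h2, h3⟩ := exists_inv_of_sq (q := 2) h
  obtain ⟨e, P, h4⟩ := exists_gram_blocks hD (σ : F →+* F) (sm_one_one fun a ha => by
    rw [h3, frobq_apply, ← pow_succ']; exact pow_eq_one_of_dvd ha (by simp [h]))
  have hJ : IsUnit (trJ (σ : F →+* F) e P (1 ⊗ₖ 1)) := isUnit_trJ (by simp)
  exact ⟨σ, _, unit_fm h1 h2 hJ ((trJ_swap (σ := (σ : F →+* F)) h2).trans (by simp)),
    le_sim hJ fun g hg => ⟨1, h4 g hg⟩⟩

theorem field_map [Nonempty ι] [Nonempty κ] {r : ℕ} {K : Subalgebra F (Matrix κ κ F)}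
    (h : IsFieldSubalgebra r K) (φ : Matrix κ κ F →ₐ[F] Matrix ι ι F) : IsFieldSubalgebra r (K.map φ) := by
  refine ⟨?_, ?_, ((K.equivMapOfInjective φ φ.toRingHom.injective).toLinearEquiv.finrank_eq).symm.trans
    h.finrank_eq⟩
  · rintro _ ⟨x, hx, rfl⟩ _ ⟨y, hy, rfl⟩
    exact (map_mul φ x y).symm.trans ((congrArg φ (h.comm x hx y hy)).trans (map_mul φ y x))
  · rintro _ ⟨x, hx, rfl⟩ h0
    obtain ⟨y, hy, e⟩ := h.inv x hx (by rintro rfl; exact h0 (map_zero φ))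
    exact ⟨_, ⟨y, hy, rfl⟩, (map_mul φ x y).symm.trans ((congrArg φ e).trans (map_one φ))⟩

/-- the algebra generated by a root of `X ^ 2 = X + 1` -/
def K4 (F : Type*) [Field F] : Subalgebra F (Matrix (Fin 2) (Fin 2) F) where
  carrier := {x | x 1 0 = x 0 1 ∧ x 1 1 = x 0 0 + x 0 1}
  mul_mem' := by
    rintro x y ⟨h1, h2⟩ ⟨h3, h4⟩
    constructor <;> simp [mul_apply, h1, h2, h3, h4] <;> ring
  add_mem' := by
    rintro x y ⟨h1, h2⟩ ⟨h3, h4⟩
    constructor <;> simp [h1, h2, h3, h4]; ring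
  algebraMap_mem' c := by constructor <;> simp [algebraMap_matrix_apply]

theorem eq_of_K4 {x : Matrix (Fin 2) (Fin 2) F} (h : x ∈ K4 F) :
    x = x 0 0 • 1 + x 0 1 • !![0, 1; 1, 1] := by
  ext i j; fin_cases i <;> fin_cases j <;> simp [h.1, h.2]

theorem K4_field (hF : Fintype.card F = 2) : IsFieldSubalgebra 2 (K4 F) := by
  refine ⟨fun x hx y hy => ?_, fun x hx h0 => ⟨x * x, mul_mem hx hx, ?_⟩, ?_⟩
  · ext i j; fin_cases i <;> fin_cases j <;> simp [mul_apply, hx.1, hx.2, hy.1, hy.2] <;> ring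
  · have h2 := two_of_card hF
    rw [eq_of_K4 hx] at h0 ⊢
    by_cases h1 : x 0 0 = 0 <;> by_cases h3 : x 0 1 = 0
    · simp [h1, h3] at h0
    all_goals
      try rw [eq_one_of_card hF h1]
      try rw [eq_one_of_card hF h3]
      ext i j; fin_cases i <;> fin_cases j <;> simp [mul_apply, *] <;> grind
  · let T : K4 F ≃ₗ[F] (Fin 2 → F) :=
      { toFun := fun x => x.1 0
        invFun := fun v => ⟨!![v 0, v 1; v 1, v 0 + v 1], rfl, rfl⟩
        map_add' := fun _ _ => rfl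
        map_smul' := fun _ _ => rfl
        left_inv := fun x => Subtype.ext (by
          ext i j; fin_cases i <;> fin_cases j <;> simp [x.2.1, x.2.2])
        right_inv := fun v => by ext i; fin_cases i <;> rfl }
    simpa using T.finrank_eq

theorem cj_mem_K4 (hF : Fintype.card F = 2) (g : GL (Fin 2) F) {x : Matrix (Fin 2) (Fin 2) F}
    (hx : x ∈ K4 F) : cj g x ∈ K4 F := by
  rw [eq_of_K4 hx, map_add, map_smul, map_smul, map_one]
  refine add_mem (Subalgebra.smul_mem _ (one_mem _) _) (Subalgebra.smul_mem _ ?_ _)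
  have h1 := trace_units_conj g !![0, 1; 1, 1]
  have h2 := det_units_conj g !![0, 1; 1, 1]
  rw [← cj_apply] at h1 h2
  generalize cj g !![0, 1; 1, 1] = y at *
  simp only [trace_fin_two, det_fin_two] at h1 h2
  simp at h1 h2
  have h3 := two_of_card hF
  have h4 : y 0 0 * y 1 1 = 0 := by
    by_contra h4
    rw [eq_one_of_card hF (left_ne_zero_of_mul h4), eq_one_of_card hF (right_ne_zero_of_mul h4)] at h1
    simp at h1
  have h5 : y 0 1 * y 1 0 ≠ 0 := by rw [h4] at h2; intro h; simp [h] at h2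
  refine ⟨by rw [eq_one_of_card hF (left_ne_zero_of_mul h5), eq_one_of_card hF (right_ne_zero_of_mul h5)], ?_⟩
  rw [eq_one_of_card hF (left_ne_zero_of_mul h5)]
  linear_combination h1 - y 0 0 * h3

theorem tensor_field [Nonempty ι] (hF : Fintype.card F = 2) {l : ℕ} (e : ι ≃ Fin 2 × Fin l) (P : GL ι F) :
    ∃ K, IsFieldSubalgebra 2 K ∧ tensorProductSubgroup 2 l e P ≤ subalgebraNormalizer K := by
  refine ⟨_, field_map (K4_field hF) ((tr e P).toAlgHom.comp (kl (Fin l))), Nrm.le ?_⟩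
  rintro g hg _ ⟨x, hx, rfl⟩
  obtain ⟨a, b, rfl⟩ := exists_of_mem_tensor hg
  exact ⟨_, cj_mem_K4 hF a hx, ((map_cj (tr e P) _ _).symm.trans (congrArg _ (cj_kG_kl a b x))).symm⟩

theorem slMax {n : ℕ} (hn : 3 ≤ n) {H : Subgroup (GL (Fin n) F)}
    (hH : IsMaximalIn (specialLinear (Fin n) F) H) :
    (∃ W : Submodule F (Fin n → F), W ≠ ⊥ ∧ W ≠ ⊤ ∧ H = subspaceStabilizer W ⊓ specialLinear (Fin n) F) ∨
    (∃ (t m : ℕ) (D : Fin t → Submodule F (Fin n → F)), t * m = n ∧ 2 ≤ t ∧ (m = 1 → 5 ≤ Fintype.card F) ∧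
      (m = 2 → 3 ≤ Fintype.card F) ∧ IsMDecomposition m D ∧
      H = decompositionStabilizer D ⊓ specialLinear (Fin n) F) ∨
    (∃ (r : ℕ) (K : Subalgebra F (Matrix (Fin n) (Fin n) F)), r.Prime ∧ r ∣ n ∧ IsFieldSubalgebra r K ∧
      H = subalgebraNormalizer K ⊓ specialLinear (Fin n) F) ∨
    (∃ (k l : ℕ) (e : Fin n ≃ Fin k × Fin l) (P : GL (Fin n) F), 2 ≤ k ∧ k < l ∧ k * l = n ∧
      (k = 2 → 3 ≤ Fintype.card F) ∧ H = tensorProductSubgroup k l e P ⊓ specialLinear (Fin n) F) ∨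
    (∃ (F₀ : Subfield F) (r : ℕ) (P : GL (Fin n) F), r.Prime ∧ Fintype.card F = Nat.card F₀ ^ r ∧
      H = subfieldSubgroup F₀ P ⊓ specialLinear (Fin n) F) ∨
    (∃ (r m : ℕ) (R : Subgroup (GL (Fin n) F)), r.Prime ∧ n = r ^ m ∧ IsLinearSymplecticTypeData r R ∧
      H = subgroupNormalizer R ⊓ specialLinear (Fin n) F) ∨
    (∃ (m t : ℕ) (e : Fin n ≃ (Fin t → Fin m)) (P : GL (Fin n) F), 3 ≤ m ∧ 2 ≤ t ∧ n = m ^ t ∧
      H = tensorWreathSubgroup m t e P ⊓ specialLinear (Fin n) F) ∨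
    (Odd (Fintype.card F) ∧ ∃ Q : (Fin n → F) → F, IsNondegenerateQuadraticForm Q ∧
      H = quadSimilarityGroup Q ⊓ specialLinear (Fin n) F) ∨
    (Even n ∧ ∃ f : (Fin n → F) → (Fin n → F) → F, IsSymplecticForm f ∧
      H = similarityGroup f ⊓ specialLinear (Fin n) F) ∨
    (∃ (σ : F ≃+* F) (f : (Fin n → F) → (Fin n → F) → F), IsUnitaryForm σ f ∧
      H = similarityGroup f ⊓ specialLinear (Fin n) F) ∨ InLinearResidualClass H := by
  have hB := big_SL (F := F) hn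
  have := hB.nonempty
  have := Fintype.one_lt_card (α := F)
  rcases irr_or H with ⟨W, h1, h2, h3⟩ | hI
  · exact .inl ⟨W, h1, h2, hH.as_eq h3.le (hB.not_stab h1 h2)⟩
  refine .inr ?_
  have hf : ∀ {r K}, r.Prime → IsFieldSubalgebra r K → H ≤ subalgebraNormalizer K → _ := fun {r K} h1 h2 h3 =>
    (⟨r, K, h1, by simpa [h2.finrank_eq] using finrank_dvd h2.comm h2.inv, h2,
      hH.as_eq h3 (hB.not_field h1.one_lt h2)⟩ : ∃ (r : ℕ) (K : Subalgebra F (Matrix (Fin n) (Fin n) F)),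
        r.Prime ∧ r ∣ n ∧ IsFieldSubalgebra r K ∧ H = subalgebraNormalizer K ⊓ specialLinear (Fin n) F)
  have hs : ∀ {f}, IsSymplecticForm f → H ≤ similarityGroup f → Even n ∧ ∃ f, IsSymplecticForm f ∧
      H = similarityGroup f ⊓ specialLinear (Fin n) F := fun h1 h2 =>
    ⟨by simpa using even_of_symp h1, _, h1, hH.as_eq h2 (SL_not_bilin hn h1.bilinear h1.nondegenerate)⟩
  have hu : ∀ {σ f}, IsUnitaryForm σ f → H ≤ similarityGroup f → ∃ σ f, IsUnitaryForm σ f ∧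
      H = similarityGroup f ⊓ specialLinear (Fin n) F := fun h1 h2 =>
    ⟨_, _, h1, hH.as_eq h2 (SL_not_unit hn h1)⟩
  have hq : ∀ {Q}, IsNondegenerateQuadraticForm Q → H ≤ quadSimilarityGroup Q →
      ∃ Q, IsNondegenerateQuadraticForm Q ∧ H = quadSimilarityGroup Q ⊓ specialLinear (Fin n) F :=
    fun h1 h2 => ⟨_, h1, hH.as_eq h2 (SL_not_quad hn h1)⟩
  rcases linCl (by simpa using hn) hI with ⟨t, m, D, h1, h2⟩ | ⟨r, K, h1, h2, h3⟩ |
    ⟨a, b, e, P, h1, h2, h3⟩ | ⟨F₀, r, P, h1, h2, h3⟩ | ⟨r, m, R, h1, h2, h3, h4⟩ | ⟨a, b, e, P, h1, h2, h3⟩ |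
    ⟨f, h1, h2⟩ | ⟨σ, f, h1, h2⟩ | ⟨Q, h1, h2, h3⟩ | h
  · by_cases h3 : (m = 1 ∧ Fintype.card F ≤ 3) ∨ (m = 2 ∧ Fintype.card F = 2)
    · obtain ⟨J, hJ, h4, h5⟩ := blocks_bilin h1 h3
      rcases bilin_form hI hB.two hJ h4 fun g hg => ⟨1, h5 g (h2 hg)⟩ with ⟨f, h6, h7⟩ | ⟨Q, h6, h7, h8⟩
      · exact .inr <| .inr <| .inr <| .inr <| .inr <| .inr <| .inr <| .inl (hs h6 h7)
      · exact .inr <| .inr <| .inr <| .inr <| .inr <| .inr <| .inl ⟨h7, hq h6 h8⟩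
    by_cases h4 : m = 1 ∧ Fintype.card F = 4
    · obtain ⟨rfl, h4⟩ := h4
      obtain ⟨σ, f, h5, h6⟩ := blocks_unit h1 h4
      exact .inr <| .inr <| .inr <| .inr <| .inr <| .inr <| .inr <| .inr <| .inl (hu h5 (h2.trans h6))
    exact .inl ⟨t, m, D, by simpa using h1.as_card, h1.two_le, by omega, by omega, h1,
      hH.as_eq h2 (hB.not_decomp h1)⟩
  · exact .inr <| .inl (hf h1 h2 h3)
  · by_cases h4 : a = 2 ∧ Fintype.card F = 2
    · obtain ⟨rfl, h4⟩ := h4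
      obtain ⟨K, h5, h6⟩ := tensor_field h4 e P
      exact .inr <| .inl (hf Nat.prime_two h5 (h3.trans h6))
    exact .inr <| .inr <| .inl ⟨a, b, e, P, h1, h2, by simpa using (Fintype.card_congr e).symm, by omega,
      hH.as_eq h3 (hB.not_tensor h1 (by omega))⟩
  · exact .inr <| .inr <| .inr <| .inl ⟨F₀, r, P, h1, h2, hH.as_eq h3 (hB.not_subfield h1.one_lt h2)⟩
  · exact .inr <| .inr <| .inr <| .inr <| .inl ⟨r, m, R, h2.prime, by simpa using h3, h1,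
      hH.as_eq h4 (hB.not_norm h2.prime h1.symplecticType.pGroup h2.nsc (nm_SL R))⟩
  · exact .inr <| .inr <| .inr <| .inr <| .inr <| .inl ⟨a, b, e, P, h1, h2,
      by simpa using Fintype.card_congr e, hH.as_eq h3 (hB.not_wreath (by omega) h2)⟩
  · exact .inr <| .inr <| .inr <| .inr <| .inr <| .inr <| .inr <| .inl (hs h1 h2)
  · exact .inr <| .inr <| .inr <| .inr <| .inr <| .inr <| .inr <| .inr <| .inl (hu h1 h2)
  · exact .inr <| .inr <| .inr <| .inr <| .inr <| .inr <| .inl ⟨h2, hq h1 h3⟩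
  · exact .inr <| .inr <| .inr <| .inr <| .inr <| .inr <| .inr <| .inr <| .inr h

/-- the arithmetic content of minimality of the field -/
theorem minField_ord {z p e : ℕ} (h : IsMinimalFieldFor z p e F) (hz : 1 < z) :
    e = orderOf (p : ZMod z) := by
  have : NeZero z := ⟨by omega⟩
  have key : ∀ d, z ∣ p ^ d - 1 ↔ (p : ZMod z) ^ d = 1 := fun d => by
    rw [← (Nat.modEq_iff_dvd' (Nat.one_le_pow _ _ h.1.pos)), ← ZMod.natCast_eq_natCast_iff]
    simp [eq_comm]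
  have he : 0 < e := Nat.pos_of_ne_zero (by
    rintro rfl; exact Fintype.one_lt_card.ne' (h.2.2.1.trans (pow_zero p)))
  exact ((orderOf_eq_iff he).2 ⟨(key e).1 h.2.2.2.1, fun d h1 h2 h3 =>
    h.2.2.2.2 d h2 h1 ((key d).2 h3)⟩).symm

theorem minField_arith {z p e : ℕ} (h : IsMinimalFieldFor z p e F) (hz : 1 < z) (P : ℕ → ℕ → Prop)
    (hP : ∀ a : ZMod z, ∀ e ≤ z, 0 < e → a ^ e = 1 → (∀ d < e, 0 < d → a ^ d ≠ 1) → P a.val e) :
    P (p % z) e := by
  have : NeZero z := ⟨by omega⟩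
  have he : 0 < e := Nat.pos_of_ne_zero (by
    rintro rfl; exact Fintype.one_lt_card.ne' (h.2.2.1.trans (pow_zero p)))
  have h1 := minField_ord h hz
  rw [← ZMod.val_natCast]
  exact hP _ e (h1 ▸ orderOf_le_card_univ.trans (ZMod.card z).le) he (h1 ▸ pow_orderOf_eq_one _)
    ((orderOf_eq_iff he).1 h1.symm).2

theorem c6_odd {r : ℕ} (h : IsLinearSymplecticTypeData r R) (hr : r ≠ 2) (P : ℕ → ℕ → Prop)
    (hP : ∀ a : ZMod r, ∀ e ≤ r, 0 < e → a ^ e = 1 → (∀ d < e, 0 < d → a ^ d ≠ 1) → e % 2 = 1 → P a.val e) :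
    ∃ p e, p.Prime ∧ CharP F p ∧ Fintype.card F = p ^ e ∧ P (p % r) e := by
  obtain ⟨p, e, -, h1, ⟨-, h2, h3, -⟩ | ⟨h2, -⟩ | ⟨h2, -⟩⟩ := h.field
  · exact ⟨p, e, h1.1, h1.2.1, h1.2.2.1, minField_arith (h3 ▸ h1) h.symplecticType.prime.one_lt
      (fun a e => e % 2 = 1 → P a e) hP (Nat.odd_iff.1 h2)⟩
  all_goals exact absurd h2 hr

theorem c6_two (h : IsLinearSymplecticTypeData 2 R) (hn : Fintype.card ι ≠ 2) :
    ∃ p, p.Prime ∧ Fintype.card F = p ∧ p % 4 = 1 := by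
  obtain ⟨p, e, -, h1, ⟨h2, -⟩ | ⟨-, rfl, h2, -⟩ | ⟨-, -, h2, -⟩⟩ := h.field
  · exact absurd h2 (by decide)
  · have h3 := h1.2.2.2.1
    have := h1.1.two_le
    rw [h2, pow_one] at h3
    exact ⟨p, h1.1, by simpa using h1.2.2.1, by omega⟩
  · exact absurd h2 hn

theorem eq_of_pow {r m n s : ℕ} (hr : r.Prime) (h : n = r ^ m) (hs : s.Prime) (h1 : s ∣ n) : r = s :=
  ((Nat.prime_dvd_prime_iff_eq hs hr).1 (hs.dvd_of_dvd_pow (h ▸ h1))).symm

theorem pow_cases {m t n : ℕ} (hm : 3 ≤ m) (ht : 2 ≤ t) (h : n = m ^ t) (hn : n < 16) : n = 9 ∧ m = 3 ∧ t = 2 := by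
  have h1 := Nat.pow_le_pow_right (n := m) (by omega) ht
  obtain rfl : m = 3 := by nlinarith
  have : t < 3 := by
    by_contra h2
    have := Nat.pow_le_pow_right (n := 3) (by omega) (not_lt.1 h2)
    omega
  obtain rfl : t = 2 := by omega
  omega

end Cfsg.Agent.H4.As
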