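import Cfsg.Agent.H4.Over
import Cfsg.Agent.H4.Bridge
import Cfsg.Prelude.Def_GeometricClasses

/-! Block systems and decompositions stabilised by projective involutions. -/

set_option autoImplicit false
set_option linter.unusedSectionVars false

namespace Cfsg.Agent.H4

open Module Submodule

theorem exists_inv_block {κ : Type*} [LinearOrder κ] {π : κ → κ} (hπ : Function.Involutive π) {a t : ℕ} (ht : 0 < t)
    {S : Finset κ} (hS : ∀ i ∈ S, π i ∈ S) (h : S.card = a * t) :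
    ∃ A ⊆ S, A.card = a ∧ ((∀ i ∈ A, π i ∈ A) ∨ ∀ i ∈ A, π i ∉ A) := by
  let T := S.filter fun i => i < π i
  have h1 : ∀ A ⊆ T, ∀ i ∈ A, π i ∉ A := fun A hA i h1 h2 =>
    lt_asymm (Finset.mem_filter.1 (hA h1)).2 (by simpa [hπ i] using (Finset.mem_filter.1 (hA h2)).2)
  by_cases h2 : a ≤ T.card
  · obtain ⟨A, h3, h4⟩ := Finset.exists_subset_card_eq h2
    exact ⟨A, h3.trans (Finset.filter_subset _ _), h4, .inr (h1 A h3)⟩
  have h3 : ∀ A ⊆ T, ∀ B ⊆ S.filter fun i => π i = i, (A ∪ A.image π ∪ B).card = 2 * A.card + B.card := fun A hA B hB => by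
    rw [Finset.card_union_of_disjoint, Finset.card_union_of_disjoint, Finset.card_image_of_injective _ hπ.injective, two_mul]
    · exact Finset.disjoint_right.2 fun i hi h => by
        obtain ⟨j, hj, rfl⟩ := Finset.mem_image.1 hi
        exact h1 A hA j hj h
    · refine Finset.disjoint_right.2 fun i hi h => ?_
      have h4 := (Finset.mem_filter.1 (hB hi)).2
      rcases Finset.mem_union.1 h with h | h
      · exact h1 A hA i h (h4.symm ▸ h)
      · obtain ⟨j, hj, rfl⟩ := Finset.mem_image.1 h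
        exact h1 A hA j hj (by rwa [← h4, hπ j])
  have h4 := h3 T le_rfl _ le_rfl
  rw [show T ∪ T.image π ∪ S.filter (fun i => π i = i) = S from Finset.ext fun i => ⟨fun h => by
    simp only [Finset.mem_union, Finset.mem_image, Finset.mem_filter, T] at h
    rcases h with (h | ⟨j, h, rfl⟩) | h
    exacts [h.1, hS _ h.1, h.1], fun h => by
    simp only [Finset.mem_union, Finset.mem_image, Finset.mem_filter, T]
    rcases lt_trichotomy i (π i) with k | k | k
    exacts [.inl (.inl ⟨h, k⟩), .inr ⟨h, k.symm⟩, .inl (.inr ⟨π i, ⟨hS i h, by rwa [hπ i]⟩, hπ i⟩)]⟩] at h4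
  obtain ⟨A, h5, h6⟩ := Finset.exists_subset_card_eq (s := T) (min_le_left T.card (a / 2))
  obtain ⟨B, h7, h8⟩ := Finset.exists_subset_card_eq (s := S.filter fun i => π i = i) (n := a - 2 * A.card) (by
    obtain rfl | ht := (Nat.succ_le_of_lt ht).eq_or_lt
    · omega
    · have := Nat.mul_le_mul_left a (Nat.succ_le_of_lt ht); omega)
  refine ⟨_, fun i hi => ?_, (h3 A h5 B h7).trans (by omega), .inl fun i hi => ?_⟩ <;>
    simp only [Finset.mem_union, Finset.mem_image] at hi ⊢ <;> rcases hi with (h | ⟨j, h, rfl⟩) | h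
  · exact (Finset.mem_filter.1 (h5 h)).1
  · exact hS _ (Finset.mem_filter.1 (h5 h)).1
  · exact (Finset.mem_filter.1 (h7 h)).1
  · exact .inl (.inr ⟨i, h, rfl⟩)
  · exact .inl (.inl (by rwa [hπ j]))
  · exact .inr (by rwa [(Finset.mem_filter.1 (h7 h)).2])

theorem exists_inv_blocks {κ : Type*} [LinearOrder κ] {π : κ → κ} (hπ : Function.Involutive π) {a : ℕ} (ha : 0 < a)
    (t : ℕ) : ∀ S : Finset κ, (∀ i ∈ S, π i ∈ S) → S.card = a * t → ∃ β : κ → ℕ, (∀ i ∈ S, β i < t) ∧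
      (∀ i ∈ S, ∀ i' ∈ S, β i = β i' → β (π i) = β (π i')) ∧ ∀ j < t, (S.filter (β · = j)).card = a := by
  induction t using Nat.strong_induction_on with | _ t ih =>
  intro S hS h
  obtain _ | t := t
  · exact ⟨0, by simp_all, by simp, by simp⟩
  obtain ⟨A, h1, h2, h3 | h3⟩ := exists_inv_block hπ t.succ_pos hS h
  · have h4 : ∀ i, π i ∈ A ↔ i ∈ A := fun i => ⟨fun h => hπ i ▸ h3 _ h, h3 i⟩
    obtain ⟨β, k1, k2, k3⟩ := ih t t.lt_succ_self (S \ A) (by grind) (by
      rw [Finset.card_sdiff_of_subset h1, h, h2, Nat.mul_succ, Nat.add_sub_cancel])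
    refine ⟨fun i => if i ∈ A then t else β i, by grind, by grind, fun j hj => ?_⟩
    by_cases e : j = t
    · rw [← h2]; congr 1; grind
    · rw [← k3 j (by omega)]; congr 1; grind
  have h4 : (A ∪ A.image π).card = 2 * a := by
    rw [Finset.card_union_of_disjoint, Finset.card_image_of_injective _ hπ.injective, h2, two_mul]
    exact Finset.disjoint_right.2 (by grind)
  have h5 : ∀ i, i ∈ A.image π ↔ π i ∈ A := fun i => by
    simp only [Finset.mem_image]; exact ⟨by rintro ⟨j, h, rfl⟩; rwa [hπ j], fun h => ⟨_, h, hπ i⟩⟩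
  have h6 : A ∪ A.image π ⊆ S := by grind
  obtain _ | t := t
  · have := Finset.card_le_card h6; omega
  have h7 : ∀ i, π (π i) = i := hπ
  obtain ⟨β, k1, k2, k3⟩ := ih t (by omega) (S \ (A ∪ A.image π)) (by grind) (by
    rw [Finset.card_sdiff_of_subset h6, h, h4, Nat.mul_succ, Nat.mul_succ]; omega)
  refine ⟨fun i => if i ∈ A then t else if π i ∈ A then t + 1 else β i, by grind, by grind, fun j hj => ?_⟩
  by_cases e : j = t
  · rw [← h2]; congr 1; grind
  by_cases e' : j = t + 1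
  · rw [← h2, ← Finset.card_image_of_injective A hπ.injective]; congr 1; grind
  · rw [← k3 j (by omega)]; congr 1; grind

variable {F : Type*} [Field F] {V : Type*} [AddCommGroup V] [Module F V] [FiniteDimensional F V]

theorem finrank_sup_id_le {S : Finset (Submodule F V)} {c : ℕ} (h : ∀ P ∈ S, finrank F P ≤ c) :
    finrank F (S.sup id :) ≤ c * S.card := by
  classical
  induction S using Finset.induction_on with
  | empty => simp
  | insert P S hP ih =>
    rw [Finset.sup_insert, Finset.card_insert_of_notMem hP, Nat.mul_succ]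
    have := ih fun Q hQ => h Q (Finset.mem_insert_of_mem hQ)
    have := h P (Finset.mem_insert_self _ _)
    have := finrank_add_le_finrank_add_finrank P (S.sup id)
    simp only [id] at *
    omega

theorem indep_of_finrank {t m : ℕ} {D : Fin t → Submodule F V} (h1 : ∀ j, finrank F (D j) ≤ m) (h2 : iSup D = ⊤)
    (h3 : finrank F V = m * t) : (∀ j, finrank F (D j) = m) ∧ iSupIndep D := by
  classical
  have h4 : Function.Surjective (DirectSum.coeLinearMap D) := by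
    rw [← LinearMap.range_eq_top, DirectSum.range_coeLinearMap, h2]
  have h5 := LinearMap.finrank_le_finrank_of_surjective h4
  rw [Module.finrank_directSum] at h5
  have h6 : ∀ j, finrank F (D j) = m := fun j => (Finset.sum_eq_sum_iff_of_le fun j _ => h1 j).1
    ((Finset.sum_le_sum fun j _ => h1 j).antisymm (by simpa [h3, mul_comm] using h5)) j (Finset.mem_univ j)
  exact ⟨h6, DirectSum.IsInternal.submodule_iSupIndep ⟨(LinearMap.injective_iff_surjective_of_finrank_eq_finrank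
    (by simp [Module.finrank_directSum, h6, h3, mul_comm])).2 h4, h4⟩⟩

theorem map_map_of_sq {x : V ≃ₗ[F] V} {z : F} (hx : ∀ v, x (x v) = z • v) (P : Submodule F V) :
    (P.map (x : V →ₗ[F] V)).map (x : V →ₗ[F] V) = P :=
  eq_of_le_of_finrank_eq (by rintro _ ⟨_, ⟨v, hv, rfl⟩, rfl⟩; simpa [hx] using P.smul_mem z hv)
    (by rw [LinearEquiv.finrank_map_eq, LinearEquiv.finrank_map_eq])

theorem decomp_of_pieces {ι : Type} [Fintype ι] [DecidableEq ι] {x : (ι → F) ≃ₗ[F] (ι → F)} {z : F}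
    (hx : ∀ v, x (x v) = z • v) {S : Finset (Submodule F (ι → F))} {c a t : ℕ} (hc : 0 < c) (ha : 0 < a) (ht : 2 ≤ t)
    (h1 : ∀ P ∈ S, finrank F P ≤ c) (h2 : S.sup id = ⊤) (h3 : c * S.card ≤ finrank F (ι → F))
    (h4 : ∀ P ∈ S, P.map (x : (ι → F) →ₗ[F] (ι → F)) ∈ S) (hn : finrank F (ι → F) = c * a * t) :
    ∃ β : Submodule F (ι → F) → ℕ, Geo.IsMDecomposition (c * a) (fun j : Fin t => (S.filter (β · = j)).sup id) ∧
      ∃ σ : Equiv.Perm (Fin t), ∀ j : Fin t, ((S.filter (β · = j)).sup id).map (x : (ι → F) →ₗ[F] (ι → F)) =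
        (S.filter (β · = σ j)).sup id := by
  classical
  have h5 := finrank_sup_id_le h1
  rw [h2, finrank_top] at h5
  obtain ⟨β, k1, k2, k3⟩ := @exists_inv_blocks _ (linearOrderOfSTO WellOrderingRel) _ (map_map_of_sq hx) a ha t S h4
    (Nat.eq_of_mul_eq_mul_left hc (by rw [← mul_assoc]; omega))
  have h6 := indep_of_finrank (D := fun j : Fin t => (S.filter (β · = j)).sup id)
    (fun j => (finrank_sup_id_le fun P hP => h1 P (Finset.mem_filter.1 hP).1).trans_eq (by rw [k3 j j.2]))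
    (top_le_iff.1 (h2 ▸ Finset.sup_le fun P hP => le_iSup_of_le ⟨_, k1 P hP⟩
      (Finset.le_sup (f := id) (Finset.mem_filter.2 ⟨hP, rfl⟩)))) hn
  have h7 : ∀ j : Fin t, ∃ P ∈ S, β P = j := fun j => by
    simpa [Finset.Nonempty] using Finset.card_pos.1 (ha.trans_eq (k3 j j.2).symm)
  choose P h8 h9 using h7
  let σ : Fin t → Fin t := fun j => ⟨_, k1 _ (h4 _ (h8 j))⟩
  have h10 : ∀ j : Fin t, ∀ Q ∈ S, β Q = j → β (Q.map (x : (ι → F) →ₗ[F] (ι → F))) = σ j := fun j Q h h' =>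
    k2 _ h _ (h8 j) (h'.trans (h9 j).symm)
  refine ⟨β, ⟨ht, Nat.mul_pos hc ha, h6.1, h6.2, ?_⟩, Function.Involutive.toPerm σ fun j => Fin.ext ?_, fun j =>
    eq_of_le_of_finrank_eq (map_le_iff_le_comap.2 (Finset.sup_le fun Q hQ => map_le_iff_le_comap.1 ?_)) ?_⟩
  · exact top_le_iff.1 (h2 ▸ Finset.sup_le fun P hP => le_iSup_of_le ⟨_, k1 P hP⟩
      (Finset.le_sup (f := id) (Finset.mem_filter.2 ⟨hP, rfl⟩)))
  · rw [← h10 (σ j) _ (h4 _ (h8 j)) rfl, map_map_of_sq hx, h9]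
  · rw [Finset.mem_filter] at hQ
    exact Finset.le_sup (f := id) (Finset.mem_filter.2 ⟨h4 _ hQ.1, h10 j Q hQ.1 hQ.2⟩)
  · rw [LinearEquiv.finrank_map_eq, h6.1, h6.1]

theorem exists_lines {x : V ≃ₗ[F] V} {z : F} (hx : ∀ v, x (x v) = z • v) : ∃ S : Finset (Submodule F V),
    (∀ P ∈ S, finrank F P ≤ 1) ∧ S.sup id = ⊤ ∧ S.card ≤ finrank F V ∧ ∀ P ∈ S, P.map (x : V →ₗ[F] V) ∈ S := by
  classical
  obtain ⟨W, h1, h2⟩ := wellFounded_gt.has_min {W : Submodule F V | Disjoint W (W.map (x : V →ₗ[F] V))} ⟨⊥, by simp⟩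
  have h3 : ∀ v, ∃ w ∈ W ⊔ W.map (x : V →ₗ[F] V), ∃ γ : F, x (v - w) = γ • (v - w) := fun v => by
    by_cases h0 : v ∈ W ⊔ W.map (x : V →ₗ[F] V)
    · exact ⟨v, h0, 0, by simp⟩
    have := mt (h2 (W ⊔ span F {v})) (not_not.2 (left_lt_sup.2 fun h => h0 (mem_sup_left (h (mem_span_singleton_self v)))))
    obtain ⟨u, ⟨h4, u', h5, h6⟩, h7⟩ := Submodule.exists_mem_ne_zero_of_ne_bot (mt disjoint_iff.2 this)
    obtain ⟨w, hw, _, ⟨α, rfl⟩, rfl⟩ := (by simpa only [SetLike.mem_coe, mem_sup, mem_span_singleton] using h4 :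
      ∃ w ∈ W, ∃ y, (∃ α : F, α • v = y) ∧ w + y = u)
    obtain ⟨w', hw', _, ⟨β, rfl⟩, rfl⟩ := (by simpa only [SetLike.mem_coe, mem_sup, mem_span_singleton] using h5 :
      ∃ w ∈ W, ∃ y, (∃ α : F, α • v = y) ∧ w + y = u')
    simp only [LinearEquiv.coe_coe, map_add, map_smul] at h6
    have h8 := congrArg x h6
    simp only [map_add, map_smul, hx] at h8
    have h9 : ∀ (γ : F) (y y' : V), y ∈ W → y' ∈ W → γ • v = y + x y' → γ = 0 := fun γ y y' k k' e => by_contra fun h =>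
      h0 ((smul_mem_iff _ h).1 (e ▸ add_mem (mem_sup_left k) (mem_sup_right ⟨y', k', rfl⟩)))
    have hβ : β ≠ 0 := by
      rintro rfl
      obtain rfl := h9 α (-w) w' (neg_mem hw) hw' (by linear_combination (norm := module) -h6)
      exact h7 (by simpa using disjoint_def.1 h1 w hw ⟨w', hw', by simpa using h6⟩)
    have h10 := h9 (β * β * z - α * α) (α • w - (β * z) • w') (β • w - α • w') (sub_mem (smul_mem _ _ hw) (smul_mem _ _ hw'))
      (sub_mem (smul_mem _ _ hw) (smul_mem _ _ hw')) (by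
        simp only [map_sub, map_smul]; linear_combination (norm := module) α • h6 + β • h8)
    have h11 : x (β • w - α • w') = 0 := disjoint_def.1 h1 _ (by
      rw [show x (β • w - α • w') = (β * z) • w' - α • w by
        simp only [map_sub, map_smul]; linear_combination (norm := module) -α • h6 - β • h8 + h10 • v]
      exact sub_mem (smul_mem _ _ hw') (smul_mem _ _ hw)) ⟨_, sub_mem (smul_mem _ _ hw) (smul_mem _ _ hw'), rfl⟩
    rw [map_eq_zero_iff _ x.injective] at h11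
    refine ⟨-β⁻¹ • w', mem_sup_left (smul_mem _ _ hw'), α / β, smul_right_injective _ (mul_ne_zero hβ hβ) ?_⟩
    simp only [map_sub, map_smul]
    linear_combination (norm := (match_scalars <;> field_simp <;> ring)) β • h6 + h11
  have hl : ∀ v : V, finrank F (span F {v}) ≤ 1 := fun v => by simpa using finrank_span_le_card ({v} : Set V)
  obtain ⟨N, ⟨h4, S, h5, h6, h7, h8⟩, h9⟩ := wellFounded_gt.has_min {N | W ⊔ W.map (x : V →ₗ[F] V) ≤ N ∧
    ∃ S : Finset (Submodule F V), (∀ P ∈ S, finrank F P ≤ 1) ∧ S.sup id = N ∧ S.card ≤ finrank F N ∧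
      ∀ P ∈ S, P.map (x : V →ₗ[F] V) ∈ S} ⟨_, le_rfl, by
    let S := Finset.univ.image fun i => span F {(finBasis F W i : V)}
    have k : S.sup id = W := by
      refine Eq.trans ?_ W.map_subtype_top
      rw [Finset.sup_image, Finset.sup_univ_eq_iSup, ← (finBasis F W).span_eq, map_span,
        ← Set.range_comp, span_range_eq_iSup]; rfl
    refine ⟨S ∪ S.image (map (x : V →ₗ[F] V)), ?_, ?_, (Finset.card_union_le _ _).trans ?_, ?_⟩
    · simp only [S, Finset.mem_union, Finset.mem_image]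
      rintro _ (⟨i, -, rfl⟩ | ⟨_, ⟨i, -, rfl⟩, rfl⟩)
      exacts [hl _, (LinearEquiv.finrank_map_eq _ _).trans_le (hl _)]
    · rw [Finset.sup_union, k, Finset.sup_image, ← k, Finset.sup_eq_iSup, Finset.sup_eq_iSup]; simp [Submodule.map_iSup]
    · have := finrank_sup_add_finrank_inf_eq W (W.map (x : V →ₗ[F] V))
      rw [h1.eq_bot, finrank_bot, LinearEquiv.finrank_map_eq] at this
      have k1 : S.card ≤ finrank F W := Finset.card_image_le.trans_eq (by simp)
      have := Finset.card_image_le (s := S) (f := map (x : V →ₗ[F] V))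
      omega
    · simp only [Finset.mem_union, Finset.mem_image (s := S)]
      rintro _ (h | ⟨P, h, rfl⟩)
      exacts [.inr ⟨_, h, rfl⟩, .inl (by rwa [map_map_of_sq hx])]⟩
  obtain rfl : N = ⊤ := eq_top_iff.2 fun v _ => by_contra fun hv => by
    obtain ⟨w, hw, γ, h⟩ := h3 v
    have h10 : N < span F {v - w} ⊔ N := right_lt_sup.2 fun k =>
      hv (by simpa using add_mem (k (mem_span_singleton_self _)) (h4 hw))
    refine h9 _ ⟨h4.trans h10.le, insert (span F {v - w}) S, by simpa [hl] using h5, by simp [h6],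
      (Finset.card_insert_le _ _).trans (Nat.succ_le_of_lt (h7.trans_lt (finrank_lt_finrank_of_lt h10))), ?_⟩ h10
    simp only [Finset.mem_insert, forall_eq_or_imp]
    exact ⟨.inl (eq_of_le_of_finrank_eq (by simpa [map_span, h] using smul_mem _ γ (mem_span_singleton_self _))
      (LinearEquiv.finrank_map_eq _ _)), fun P hP => .inr (h8 P hP)⟩
  exact ⟨S, h5, h6, by simpa using h7, h8⟩

namespace CForm

theorem Nondeg.perp_ind {T : FType F} {f : CForm T V} (hf : f.Nondeg) {x : V ≃ₗ[F] V} (hx : x ∈ f.iso)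
    {Φ : Submodule F V → Prop} (h0 : Φ ⊥) (h : ∀ W, W ≠ ⊥ → W ⊓ f.perp W = ⊥ → (∀ v ∈ W, x v ∈ W) →
      ∃ M ≤ W, M ≠ ⊥ ∧ M ⊓ f.perp M = ⊥ ∧ (∀ v ∈ M, x v ∈ M) ∧ ∀ W' ≤ f.perp M, Φ W' → Φ (M ⊔ W')) : Φ ⊤ := by
  suffices ∀ W : Submodule F V, W ⊓ f.perp W = ⊥ → (∀ v ∈ W, x v ∈ W) → Φ W from
    this ⊤ hf.top_inf_perp fun _ _ => trivial
  intro W
  induction W using WellFoundedLT.induction with | _ W ih =>
  intro h1 h2
  by_cases h3 : W = ⊥
  · exact h3 ▸ h0
  obtain ⟨M, h4, h5, h6, h7, h8⟩ := h W h3 h1 h2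
  have h9 : M.map (x : V →ₗ[F] V) = M :=
    eq_of_le_of_finrank_eq (map_le_iff_le_comap.2 h7) (LinearEquiv.finrank_map_eq _ _)
  convert h8 _ inf_le_right (ih (W ⊓ f.perp M) (inf_lt_left.2 fun k => h5 (h6 ▸ (inf_eq_left.2 (h4.trans k)).symm))
    (hf.inf_perp_nondeg h1 h6 h4) fun v hv => ⟨h2 v hv.1, by rw [← h9, ← iso_map_perp hx]; exact ⟨v, hv.2, rfl⟩⟩)
  rw [inf_comm, ← sup_inf_assoc_of_le _ h4, (hf.isCompl_perp h6).sup_eq_top, top_inf_eq]

variable {f : CForm (FType.symp F) V} {x : V ≃ₗ[F] V} {z : F}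

theorem Nondeg.exists_planes (hf : f.Nondeg) (hx : x ∈ f.iso) (hz : ∀ v, x (x v) = z • v) :
    ∃ S : Finset (Submodule F V), (∀ P ∈ S, finrank F P ≤ 2) ∧ S.sup id = ⊤ ∧ 2 * S.card ≤ finrank F V ∧
      (∀ P ∈ S, ∀ Q ∈ S, P ≠ Q → P ≤ f.perp Q) ∧ ∀ P ∈ S, P.map (x : V →ₗ[F] V) ∈ S := by
  classical
  let Ψ : Finset (Submodule F V) → Submodule F V → Prop := fun S W => (∀ P ∈ S, finrank F P ≤ 2) ∧ S.sup id = W ∧
    2 * S.card ≤ finrank F W ∧ ∀ P ∈ S, ∀ Q ∈ S, P ≠ Q → P ≤ f.perp Q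
  have ins : ∀ S W u w, f.B u w ≠ 0 → W ≤ f.perp (span F {u, w}) → Ψ S W →
      Ψ (insert (span F {u, w}) S) (span F {u, w} ⊔ W) := fun S W u w h1 h2 ⟨h3, h4, h5, h6⟩ => by
    have h7 := finrank_span_pair (symp_Q f u) h1
    have h8 := finrank_sup_add_finrank_inf_eq (span F {u, w}) W
    rw [eq_bot_iff.2 ((inf_le_inf_left _ h2).trans_eq (pair_nondeg (symp_Q f u) (symp_Q f w) h1)), finrank_bot] at h8
    have h9 := Finset.card_insert_le (span F {u, w}) S
    have h10 : ∀ P ∈ S, P ≤ f.perp (span F {u, w}) := fun P hP => (Finset.le_sup (f := id) hP).trans (h4.trans_le h2)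
    refine ⟨by simpa [h7] using h3, by simp [h4], by omega, ?_⟩
    simp only [Finset.mem_insert, forall_eq_or_imp]
    exact ⟨⟨fun h => absurd rfl h, fun Q hQ _ => f.le_perp_comm.1 (h10 Q hQ)⟩, fun P hP => ⟨fun _ => h10 P hP, h6 P hP⟩⟩
  have one : ∀ u w, f.B u w ≠ 0 → (∀ v ∈ span F {u, w}, x v ∈ span F {u, w}) → span F {u, w} ≠ ⊥ ∧
      span F {u, w} ⊓ f.perp (span F {u, w}) = ⊥ ∧ (∀ v ∈ span F {u, w}, x v ∈ span F {u, w}) ∧
      ∀ W' ≤ f.perp (span F {u, w}), (∃ S, Ψ S W' ∧ ∀ P ∈ S, P.map (x : V →ₗ[F] V) ∈ S) →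
        ∃ S, Ψ S (span F {u, w} ⊔ W') ∧ ∀ P ∈ S, P.map (x : V →ₗ[F] V) ∈ S := fun u w h1 h2 =>
    ⟨fun h => h1 (by rw [span_eq_bot.1 h u (by simp)]; simp), pair_nondeg (symp_Q f u) (symp_Q f w) h1, h2, fun W' h3 ⟨S, h4, h5⟩ =>
      ⟨_, ins S W' u w h1 h3 h4, by
        simp only [Finset.mem_insert, forall_eq_or_imp]
        exact ⟨.inl (eq_of_le_of_finrank_eq (map_le_iff_le_comap.2 h2) (LinearEquiv.finrank_map_eq _ _)),
          fun P hP => .inr (h5 P hP)⟩⟩⟩
  obtain ⟨S, ⟨h1, h2, h3, h4⟩, h5⟩ := hf.perp_ind hx (Φ := fun W => ∃ S, Ψ S W ∧ ∀ P ∈ S, P.map (x : V →ₗ[F] V) ∈ S)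
    ⟨∅, by simp [Ψ], by simp⟩ fun W h0 h1 h2 => by
    by_cases h3 : ∃ v ∈ W, f.B v (x v) ≠ 0
    · obtain ⟨v, hv, h3⟩ := h3
      exact ⟨_, pair_le hv (h2 v hv), one _ _ h3 fun y hy => (show span F {v, x v} ≤ (span F {v, x v}).comap (x : V →ₗ[F] V) from
        pair_le (subset_span (by simp)) (by simpa [hz] using smul_mem _ z (subset_span (by simp)))) hy⟩
    push Not at h3
    by_cases h4 : ∀ v ∈ W, x v ∈ span F {v}
    · obtain ⟨u, hu, h5⟩ := exists_mem_ne_zero_of_ne_bot h0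
      obtain ⟨w, hw, h6⟩ := exists_B_ne_of_nondeg h1 hu h5
      exact ⟨_, pair_le hu hw, one _ _ h6 fun y hy =>
        (span_singleton_le_iff_mem _ _).2 hy (h4 y (pair_le hu hw hy))⟩
    push Not at h4
    obtain ⟨u, hu, h4⟩ := h4
    obtain ⟨⟨w, hw⟩, h5, h6⟩ := (f.res_nondeg_iff.2 h1).exists_perp_B_eq (U := span F {⟨u, hu⟩}) (v := ⟨x u, h2 u hu⟩)
      (fun h => h4 (by simpa using mem_map_of_mem (f := W.subtype) h)) 1
    replace h5 : f.B w u = 0 := (mem_perp_singleton (f.res W)).1 h5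
    replace h6 : f.B (x u) w ≠ 0 := fun h => one_ne_zero (h6.symm.trans h)
    have h7 : f.B u (x w) = - f.B w (x u) := by
      have := h3 _ (add_mem hu hw)
      simp only [map_add, LinearMap.add_apply, h3 u hu, h3 w hw] at this
      linear_combination this
    have h8 : f.B (x u) (x w) = 0 := by rw [iso_B hx, symp_skew, h5, neg_zero]
    have h9 : f.B u (x w) ≠ 0 := by rwa [h7, ← symp_skew]
    have h10 : ∀ y ∈ ({u, x w} : Set V), y ∈ f.perp (span F {x u, w}) := by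
      simp [mem_perp_pair, h3 u hu, f.B_zero_symm h5, f.B_zero_symm h8, f.B_zero_symm (h3 w hw)]
    have h11 : (span F {x u, w}).map (x : V →ₗ[F] V) = span F {u, x w} := by
      rw [← map_map_of_sq hz (span F {u, x w})]; congr 1
      exact (eq_of_le_of_finrank_eq (map_le_iff_le_comap.2 (pair_le (subset_span (by simp))
        (by simpa [hz] using smul_mem _ z (subset_span (by simp))))) (by
          rw [LinearEquiv.finrank_map_eq, finrank_span_pair (symp_Q f _) h6, finrank_span_pair (symp_Q f _) h9])).symm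
    have h12 : (span F {u, x w}).map (x : V →ₗ[F] V) = span F {x u, w} := by rw [← h11, map_map_of_sq hz]
    refine ⟨span F {x u, w} ⊔ span F {u, x w}, sup_le (pair_le (h2 u hu) hw) (pair_le hu (h2 w hw)),
      fun h => h6 (by rw [span_eq_bot.1 (sup_eq_bot_iff.1 h).1 w (by simp)]; simp), sup_pair_nondeg (pair_nondeg (symp_Q f _) (symp_Q f _) h6) (h10 _ (by simp))
      (h10 _ (by simp)) (symp_Q f _) (symp_Q f _) h9, fun v hv => ?_, fun W' k ⟨S, k1, k2⟩ => ⟨insert (span F {x u, w}) (insert (span F {u, x w}) S), ?_, ?_⟩⟩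
    · have := mem_map_of_mem (f := (x : V →ₗ[F] V)) hv
      rwa [Submodule.map_sup, h11, h12, sup_comm] at this
    · rw [sup_assoc]
      exact ins _ _ _ _ h6 (sup_le (span_le.2 h10) (k.trans (f.perp_anti le_sup_left)))
        (ins S W' _ _ h9 (k.trans (f.perp_anti le_sup_right)) k1)
    · simp only [Finset.mem_insert, forall_eq_or_imp]
      exact ⟨.inr (.inl h11), .inl h12, fun P hP => .inr (.inr (k2 P hP))⟩
  exact ⟨S, h1, h2, by simpa using h3, h4, h5⟩

theorem exists_inv_pair [DecidableEq F] (h2 : (2 : F) ≠ 0) (hx : x ∈ f.iso) (hz : ∀ v, x (x v) = z • v) {W : Submodule F V} (h0 : W ≠ ⊥)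
    (h1 : W ⊓ f.perp W = ⊥) (h3 : ∀ v ∈ W, x v ∈ W) : ∃ u ∈ W, ∃ w ∈ W, f.B u w ≠ 0 ∧
      if z = 1 then x u ∈ span F {u} ∧ x w ∈ span F {w} else x u ∈ span F {w} ∧ x w ∈ span F {u} := by
  obtain ⟨v, hv, h4⟩ := exists_mem_ne_zero_of_ne_bot h0
  split_ifs with e
  · subst e
    obtain ⟨u, hu, h5, c, h6, h7⟩ : ∃ u ∈ W, u ≠ 0 ∧ ∃ c : F, c * c = 1 ∧ x u = c • u := by
      by_cases h : v + x v = 0
      · exact ⟨v, hv, h4, -1, by simp, by linear_combination (norm := module) h⟩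
      · exact ⟨_, add_mem hv (h3 v hv), h, 1, by simp, by simp [hz, add_comm]⟩
    obtain ⟨w, hw, h8⟩ := exists_B_ne_of_nondeg h1 hu h5
    have h9 : f.B u (x w) = c * f.B u w := by rw [← iso_B hx u (x w), hz, h7]; simp
    refine ⟨u, hu, w + c • x w, add_mem hw (smul_mem _ _ (h3 w hw)), ?_, mem_span_singleton.2 ⟨c, h7.symm⟩,
      mem_span_singleton.2 ⟨c, by simp [hz, smul_smul, h6, add_comm]⟩⟩
    simpa [h9, ← mul_assoc, h6, ← two_mul, h2] using h8
  by_contra! h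
  have h5 : ∀ u ∈ W, f.B u (x u) = 0 := fun u hu => by_contra fun k => h u hu _ (h3 u hu) k (mem_span_singleton_self _)
    (mem_span_singleton.2 ⟨z, (hz u).symm⟩)
  obtain ⟨w, hw, h6⟩ := exists_B_ne_of_nondeg h1 (h3 v hv) (by simpa using h4)
  have h7 := h5 _ (add_mem hv hw)
  simp only [map_add, LinearMap.add_apply, h5 v hv, h5 w hw] at h7
  have h8 : f.B (x v) w = z * f.B v (x w) := by rw [← iso_B hx (x v) w, hz]; simp
  rw [f.symp_skew (x v) w] at h7
  exact e (mul_left_cancel₀ h6 (by linear_combination -h8 - z * h7))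

theorem Nondeg.exists_polar (hf : f.Nondeg) (h2 : (2 : F) ≠ 0) (hx : x ∈ f.iso) (hz : ∀ v, x (x v) = z • v) :
    ∃ U W : Submodule F V, IsCompl U W ∧ f.TS U ∧ f.TS W ∧ ((U.map (x : V →ₗ[F] V) = U ∧ W.map (x : V →ₗ[F] V) = W) ∨
      (U.map (x : V →ₗ[F] V) = W ∧ W.map (x : V →ₗ[F] V) = U)) := by
  classical
  obtain ⟨U, W, h1, h3, h4, h5⟩ := hf.perp_ind hx (Φ := fun N => ∃ U W : Submodule F V, f.TS U ∧ f.TS W ∧ U ⊔ W = N ∧
      if z = 1 then U.map (x : V →ₗ[F] V) ≤ U ∧ W.map (x : V →ₗ[F] V) ≤ W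
      else U.map (x : V →ₗ[F] V) ≤ W ∧ W.map (x : V →ₗ[F] V) ≤ U)
    ⟨⊥, ⊥, by simp [TS], by simp [TS], by simp, by simp⟩ fun N h0 h1 h3 => by
    obtain ⟨u, hu, w, hw, h4, h5⟩ := exists_inv_pair h2 hx hz h0 h1 h3
    have k1 : span F {u} ≤ span F {u, w} := span_mono (by simp)
    have k2 : span F {w} ≤ span F {u, w} := span_mono (by simp)
    refine ⟨_, pair_le hu hw, fun h => h4 (by rw [span_eq_bot.1 h u (by simp)]; simp),
      pair_nondeg (symp_Q f u) (symp_Q f w) h4, fun y hy => (show span F {u, w} ≤ (span F {u, w}).comap (x : V →ₗ[F] V) by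
        split_ifs at h5
        exacts [pair_le (k1 h5.1) (k2 h5.2), pair_le (k2 h5.1) (k1 h5.2)]) hy, ?_⟩
    rintro _ h6 ⟨U, W, h7, h8, rfl, h9⟩
    rw [f.le_perp_comm, perp_sup] at h6
    refine ⟨U ⊔ span F {u}, W ⊔ span F {w}, h7.sup_singleton (symp_Q f u) (h6 (k1 (mem_span_singleton_self u))).1,
      h8.sup_singleton (symp_Q f w) (h6 (k2 (mem_span_singleton_self w))).2, by rw [span_insert]; ac_rfl, ?_⟩
    split_ifs at h5 h9 ⊢ <;> simp only [Submodule.map_sup, map_span, Set.image_singleton] <;>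
      exact ⟨sup_le_sup h9.1 ((span_singleton_le_iff_mem _ _).2 h5.1), sup_le_sup h9.2 ((span_singleton_le_iff_mem _ _).2 h5.2)⟩
  have h6 := h1.two_mul_finrank_le hf
  have h7 := h3.two_mul_finrank_le hf
  have h8 := finrank_sup_add_finrank_inf_eq U W
  rw [h4, finrank_top] at h8
  refine ⟨U, W, ⟨disjoint_iff.2 (finrank_eq_zero.1 (by omega)), codisjoint_iff.2 h4⟩, h1, h3, ?_⟩
  split_ifs at h5
  · exact .inl ⟨eq_of_le_of_finrank_eq h5.1 (LinearEquiv.finrank_map_eq _ _),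
      eq_of_le_of_finrank_eq h5.2 (LinearEquiv.finrank_map_eq _ _)⟩
  · exact .inr ⟨eq_of_le_of_finrank_eq h5.1 ((LinearEquiv.finrank_map_eq _ _).trans (by omega)),
      eq_of_le_of_finrank_eq h5.2 ((LinearEquiv.finrank_map_eq _ _).trans (by omega))⟩

end CForm

end Cfsg.Agent.H4
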