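import Cfsg.Agent.H4.Blk1
import Cfsg.Agent.H4.Inv5

/-! Monomial bases for projective involutions; alternating forms they preserve. -/

set_option autoImplicit false
set_option linter.unusedSectionVars false

namespace Cfsg.Agent.H4

open Module Submodule

variable {F : Type*} [Field F] {V : Type*} [AddCommGroup V] [Module F V] [FiniteDimensional F V]

theorem exists_mono_basis {x : V ≃ₗ[F] V} {z : F} (hx : ∀ v, x (x v) = z • v) {n : ℕ} (hn : finrank F V = n) :
    ∃ (b : Basis (Fin n) F V) (π : Fin n → Fin n) (c : Fin n → F), Function.Involutive π ∧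
      (∀ i, x (b i) = c i • b (π i)) ∧ ∀ i, c i * c (π i) = z := by
  obtain ⟨S, h1, h2, h3, h4⟩ := exists_lines hx
  have h5 := finrank_sup_id_le h1
  rw [h2, finrank_top] at h5
  let e := (S.equivFinOfCardEq (n := n) (by omega)).symm
  obtain ⟨h6, h7⟩ := indep_of_finrank (D := fun j => (e j).1) (fun j => h1 _ (e j).2)
    (top_le_iff.1 (h2 ▸ Finset.sup_le fun P hP => le_iSup_of_le (e.symm ⟨P, hP⟩) (by simp))) (by simpa using hn)
  have h8 : ∀ j, ∃ v ∈ (e j).1, v ≠ 0 := fun j => exists_mem_ne_zero_of_ne_bot fun h => by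
    simpa using (h6 j).symm.trans (finrank_eq_zero.2 h)
  choose v h9 h10 using h8
  have h11 : ∀ j, (e j).1 = span F {v j} := fun j =>
    (eq_of_le_of_finrank_eq ((span_singleton_le_iff_mem _ _).2 (h9 j)) (by rw [h6, finrank_span_singleton (h10 j)])).symm
  have h12 := h7.linearIndependent _ h9 h10
  let π := fun j => e.symm ⟨_, h4 _ (e j).2⟩
  have h13 : ∀ j, ∃ c : F, c • v (π j) = x (v j) := fun j => mem_span_singleton.1 (by
    rw [← h11]; simpa [π] using h9 j)
  choose c h14 using h13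
  have h15 : Function.Involutive π := fun j => by simp [π, map_map_of_sq hx]
  refine ⟨basisOfLinearIndependentOfCardEqFinrank' _ h12 (by simp [hn]), π, c, h15, by simp [h14], fun i =>
    smul_left_injective F (h10 i) ?_⟩
  simp only [← hx, ← h14, map_smul, h15 i, mul_smul]

theorem exists_pairing {κ : Type*} [DecidableEq κ] {A : Finset κ} (h : Even A.card) :
    ∃ τ : κ → κ, ∀ i ∈ A, τ i ∈ A ∧ τ i ≠ i ∧ τ (τ i) = i := by
  let e := A.equivFin
  refine ⟨fun i => if h : i ∈ A then e.symm (e ⟨i, h⟩).rev else i, fun i hi => ⟨by simp [hi], fun k => ?_, by simp [hi]⟩⟩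
  simp only [hi, dite_true] at k
  have := congrArg Fin.val ((e.symm_apply_eq).1 (Subtype.ext k : e.symm (e ⟨i, hi⟩).rev = ⟨i, hi⟩))
  have := (e ⟨i, hi⟩).2
  obtain ⟨r, hr⟩ := h
  simp only [Fin.val_rev] at *
  omega

theorem exists_pairing_ext {κ L : Type*} [Fintype κ] [DecidableEq κ] [DecidableEq L] {π : κ → κ}
    (hπ : Function.Involutive π) (c : κ → L) (h : ∀ γ, Even (Finset.univ.filter fun i => π i = i ∧ c i = γ).card) :
    ∃ τ : κ → κ, Function.Involutive τ ∧ ∀ i, τ i ≠ i ∧ (π i = τ i ∨ π i = i ∧ π (τ i) = τ i ∧ c (τ i) = c i) := by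
  choose τ hτ using fun γ => exists_pairing (h γ)
  simp only [Finset.mem_filter, Finset.mem_univ, true_and] at hτ
  refine ⟨fun i => if π i = i then τ (c i) i else π i, fun i => ?_, fun i => ?_⟩ <;> by_cases e : π i = i
  · have := hτ _ i ⟨e, rfl⟩; simp [e, this]
  · simp [e, hπ i, Ne.symm e]
  · have := hτ _ i ⟨e, rfl⟩; simp [e, this]
  · simp [e]

theorem exists_conj_sim {n : ℕ} [NeZero n] {f : CForm (FType.symp F) (Fin n → F)} (hf : f.Nondeg)
    {x : (Fin n → F) ≃ₗ[F] (Fin n → F)} {b : Basis (Fin n) F (Fin n → F)} {π τ : Fin n → Fin n} {c : Fin n → F} {μ : F}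
    (hπ : Function.Involutive π) (hτ : Function.Involutive τ) (hx : ∀ i, x (b i) = c i • b (π i))
    (h : ∀ i, τ i ≠ i ∧ (π i = τ i ∧ c i * c (τ i) = -μ ∨ π i = i ∧ π (τ i) = τ i ∧ c i * c (τ i) = μ)) :
    ∃ P ∈ SLg F (Fin n → F), ∀ u v, f.B ((P⁻¹ * x * P) u) ((P⁻¹ * x * P) v) = μ * f.B u v := by
  let ε : Fin n → F := fun i => if i < τ i then 1 else -1
  have hε : ∀ i, ε (τ i) = -ε i := fun i => by
    rcases (h i).1.lt_or_gt with k | k <;> simp [ε, hτ i, k, k.not_gt]
  have hs : ∀ u v : Fin n → F, ∑ i, ε i * (v i * u (τ i)) = -∑ i, ε i * (u i * v (τ i)) := fun u v => by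
    rw [← Finset.sum_neg_distrib, ← Equiv.sum_comp hτ.toPerm]
    exact Finset.sum_congr rfl fun i _ => by simp [hε, hτ i, mul_comm]
  let J := CForm.mkAlt (fun u v : Fin n → F => ∑ i, ε i * (u i * v (τ i)))
    (fun _ _ _ => by simp [add_mul, mul_add, Finset.sum_add_distrib])
    (fun _ _ _ => by simp [Finset.mul_sum, mul_left_comm, mul_assoc]) hs fun u =>
      Finset.sum_involution (fun i _ => τ i) (fun i _ => by simp [hε, hτ i, mul_comm]) (fun i _ _ => (h i).1) (by simp)
        fun i _ => hτ i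
  have hJ : ∀ i j, J.B (Pi.single i 1) (Pi.single j 1) = if τ i = j then ε i else 0 := fun i j => by
    show ∑ k : Fin n, _ = _
    rw [Finset.sum_eq_single i] <;> simp +contextual [Pi.single_apply]
  have h0 : ∀ i, ε i ≠ 0 := fun i => by simp only [ε]; split_ifs <;> simp
  obtain ⟨e, he⟩ := CForm.Nondeg.symp_isom (f := J) (fun u hu => funext fun i => by
    simpa [J, Pi.single_apply, hτ.injective.eq_iff, h0] using hu (Pi.single (τ i) 1)) hf rfl
  have key : ∀ (b : Basis (Fin n) F (Fin n → F)) (c : Fin n → F), (∀ i, x (b i) = c i • b (π i)) →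
      (∀ i, π i = τ i ∧ c i * c (τ i) = -μ ∨ π i = i ∧ π (τ i) = τ i ∧ c i * c (τ i) = μ) → ∀ u v,
      J.B (b.equivFun (x u)) (b.equivFun (x v)) = μ * J.B (b.equivFun u) (b.equivFun v) := fun b c hx h u v => by
    have h1 : ∀ i, b.equivFun (b i) = Pi.single i 1 := fun i => by ext j; simp [Finsupp.single_apply, Pi.single_apply, eq_comm]
    refine congrArg (· v) (congrArg (· u) (show ((J.B.compl₁₂ (b.equivFun.toLinearMap ∘ₗ x.toLinearMap)
      (b.equivFun.toLinearMap ∘ₗ x.toLinearMap))) = μ • J.B.compl₁₂ b.equivFun.toLinearMap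
      b.equivFun.toLinearMap from b.ext fun i => b.ext fun j => ?_))
    show J.B (b.equivFun (x (b i))) (b.equivFun (x (b j))) = μ * J.B (b.equivFun (b i)) (b.equivFun (b j))
    rw [hx, hx, b.equivFun.map_smul, b.equivFun.map_smul, J.B_smul_left, J.B_smul_right, h1, h1, h1, h1, hJ, hJ]
    by_cases k : τ i = j
    · subst k
      rcases h i with ⟨k1, k2⟩ | ⟨k1, k2, k3⟩
      · rw [if_pos rfl, if_pos (by rw [k1, hτ i, ← k1, hπ i]), k1, hε]; simp; linear_combination -ε i * k2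
      · simp [k1, k2, ← k3]; ring
    · rw [if_neg k, if_neg]; · simp
      rcases h i with ⟨k1, k2⟩ | ⟨k1, k2, k3⟩
      · rw [k1, hτ i]; rintro rfl; exact k (by rw [← k1, hπ j])
      · rw [k1]; exact fun e => k (by rw [← k2, e, hπ j])
  let w : Fin n → Fˣ := Function.update 1 0 (LinearEquiv.det (e.symm.trans b.equivFun.symm))⁻¹
  refine ⟨e.symm.trans (b.unitsSMul w).equivFun.symm, ?_, fun u v => ?_⟩
  · have : e.symm.trans (b.unitsSMul w).equivFun.symm = b.equiv (b.unitsSMul w) (Equiv.refl _) *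
        e.symm.trans b.equivFun.symm := by
      ext1 v; simp [Basis.equivFun_symm_apply, Basis.unitsSMul_apply]
    rw [mem_SLg, this, map_mul, mul_eq_one_iff_eq_inv]
    ext
    rw [LinearEquiv.coe_det, ← LinearMap.det_toMatrix b, show LinearMap.toMatrix b b
      (b.equiv (b.unitsSMul w) (Equiv.refl _)).toLinearMap = Matrix.diagonal fun i => (w i : F) by
        ext i j; simp [LinearMap.toMatrix_apply, Basis.unitsSMul_apply, Units.smul_def, Matrix.diagonal_apply,
          Finsupp.single_apply]; aesop]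
    simp [w, ← Units.coe_prod, Finset.prod_update_of_mem]
  · have := key (b.unitsSMul w) (fun i => w i * c i / w (π i)) (fun i => by
      simp [Basis.unitsSMul_apply, Units.smul_def, hx, smul_smul]) (fun i => (h i).2.imp
        (fun k => ⟨k.1, by rw [← k.2, ← k.1, hπ i]; field_simp⟩) fun k => ⟨k.1, k.2.1, by rw [← k.2.2, k.1, k.2.1]; field_simp⟩)
      ((b.unitsSMul w).equivFun.symm (e.symm u)) ((b.unitsSMul w).equivFun.symm (e.symm v))
    simp only [← he.1, LinearEquiv.apply_symm_apply, LinearEquiv.coe_coe] at this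
    exact this

theorem padicValNat_two_mul_odd (k : ℕ) {m : ℕ} (h : Odd m) : padicValNat 2 (2 ^ k * m) = k := by
  rw [padicValNat.mul (by simp) h.pos.ne', padicValNat.prime_pow,
    padicValNat.eq_zero_of_not_dvd (by simpa [← even_iff_two_dvd] using h), add_zero]

theorem exists_pow_eq_neg_one_iff [Fintype F] (h2 : (2 : F) ≠ 0) {n : ℕ} (hn : n ≠ 0) :
    (∃ c : F, c ^ n = -1) ↔ padicValNat 2 n < padicValNat 2 (Fintype.card F - 1) := by
  obtain ⟨a, m, h1, h3⟩ := Nat.exists_eq_two_pow_mul_odd (Nat.sub_pos_of_lt (Fintype.one_lt_card (α := F))).ne'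
  obtain ⟨b, k, h4, rfl⟩ := Nat.exists_eq_two_pow_mul_odd hn
  rw [h3, padicValNat_two_mul_odd _ h1, padicValNat_two_mul_odd _ h4]
  refine ⟨fun ⟨c, hc⟩ => by_contra fun h => h2 ?_, fun h => ?_⟩
  · obtain ⟨d, rfl⟩ := Nat.exists_eq_add_of_le (not_lt.1 h)
    have h5 := FiniteField.pow_card_sub_one_eq_one c (by rintro rfl; simp [hn] at hc)
    have h6 := congrArg (· ^ m) hc
    simp only [← pow_mul, h1.neg_one_pow, show 2 ^ (a + d) * k * m = 2 ^ a * m * (2 ^ d * k) by ring] at h6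
    rw [← h3, pow_mul, h5, one_pow] at h6
    linear_combination h6
  obtain ⟨d, rfl⟩ := Nat.exists_eq_add_of_lt h
  obtain ⟨g, hg⟩ := IsCyclic.exists_ofOrder_eq_natCard (α := Fˣ)
  rw [Nat.card_units, Nat.card_eq_fintype_card, h3, ← orderOf_units] at hg
  refine ⟨g ^ (2 ^ d * m), ?_⟩
  rw [← pow_mul, show 2 ^ d * m * (2 ^ b * k) = 2 ^ (b + d) * m * k by ring, pow_mul, ← h4.neg_one_pow]
  congr 1
  refine (mul_self_eq_one_iff.1 ?_).resolve_left (pow_ne_one_of_lt_orderOf (by simp [h1.pos.ne']) ?_)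
  · rw [← pow_add, ← pow_orderOf_eq_one (g : F), hg]; ring
  · rw [hg, pow_succ, mul_right_comm]; have := Nat.mul_pos (Nat.two_pow_pos (b + d)) h1.pos; omega

/-- a projective involution of determinant one with a square "square" has even eigenspaces -/
theorem exists_even_eig [Fintype F] [DecidableEq F] (h2 : (2 : F) ≠ 0) {x : V ≃ₗ[F] V} {γ : F}
    (hx : ∀ v, x (x v) = (γ * γ) • v) (hd : x ∈ SLg F V) (he : Even (finrank F V))
    (h : ∀ c : F, c ^ finrank F V ≠ -1) : ∃ (b : Basis (Fin (finrank F V)) F V) (c : Fin (finrank F V) → F),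
      (∀ i, x (b i) = c i • b i ∧ c i * c i = γ * γ) ∧ ∀ δ, Even (Finset.univ.filter fun i => c i = δ).card := by
  by_cases h0 : γ = 0
  · have : Subsingleton V := ⟨fun a b => x.injective (x.injective (by simp [hx, h0]))⟩
    have : IsEmpty (Fin (finrank F V)) := by rw [finrank_zero_of_subsingleton]; infer_instance
    exact ⟨finBasis F V, 0, by simp, by simp⟩
  let y := CForm.scal V (Units.mk0 γ h0)⁻¹ * x
  have h1 : y * y = 1 := by ext v; simp [y, hx, smul_smul, h0]
  obtain ⟨b, d, h3⟩ := exists_eig_basis (A := Subgroup.zpowers y) h2 (by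
    rintro _ ⟨i, rfl⟩ _ ⟨j, rfl⟩; exact zpow_mul_comm y i j) (by
    rintro _ ⟨i, rfl⟩; rw [← (Commute.refl y).mul_zpow, h1, one_zpow])
  replace h3 := h3 ⟨y, Subgroup.mem_zpowers y⟩
  generalize d ⟨y, Subgroup.mem_zpowers y⟩ = d at h3
  have h4 : ∀ i, x (b i) = (γ * d i) • b i := fun i => by rw [mul_smul, ← (h3 i).1]; simp [y, smul_smul, h0]
  have h5 : ∏ i, γ * d i = 1 := by
    rw [← Matrix.det_diagonal, ← show LinearMap.toMatrix b b x = Matrix.diagonal fun i => γ * d i by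
      ext i j; simp [LinearMap.toMatrix_apply, h4, Matrix.diagonal_apply, Finsupp.single_apply]; aesop,
      LinearMap.det_toMatrix]
    exact (LinearEquiv.coe_det _).symm.trans (congrArg Units.val hd)
  have h6 : Even (Finset.univ.filter fun i => ¬ d i = 1).card := Nat.not_odd_iff_even.1 fun k => h γ (by
    rw [Finset.prod_mul_distrib, ← Finset.prod_filter_mul_prod_filter_not _ (d · = 1) d,
      Finset.prod_congr rfl fun i hi => (Finset.mem_filter.1 hi).2, Finset.prod_congr rfl fun i hi =>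
        (h3 i).2.resolve_left (Finset.mem_filter.1 hi).2] at h5
    simp [k.neg_one_pow] at h5
    linear_combination -h5)
  have h7 : Even (Finset.univ.filter fun i => d i = 1).card := by
    have := Finset.card_filter_add_card_filter_not (s := Finset.univ) (d · = 1)
    rw [Finset.card_univ, Fintype.card_fin] at this
    exact (Nat.even_add.1 (this.symm ▸ he :)).2 h6
  refine ⟨b, _, fun i => ⟨h4 i, by rcases (h3 i).2 with k | k <;> simp [k]⟩, fun δ => ?_⟩
  have h8 : (-1 : F) ≠ 1 := fun h => h2 (by linear_combination -h)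
  by_cases e : δ = γ
  · simpa [e, h0] using h7
  by_cases e' : δ = -γ
  · convert h6 using 3 with i
    rcases (h3 i).2 with k | k <;> simp [e', k, h8, Ne.symm (e' ▸ e)]
  · rw [Finset.filter_false_of_mem fun i _ => by rcases (h3 i).2 with k | k <;> simp [k, Ne.symm e, Ne.symm e']]
    simp

theorem even_fixed {n : ℕ} (hn : Even n) {π : Fin n → Fin n} (hπ : Function.Involutive π) :
    Even (Finset.univ.filter fun i => π i = i).card := by
  have := Equiv.Perm.card_fixedPoints_modEq (f := π) (p := 2) (n := 1) (funext hπ)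
  rw [Fintype.card_fin, Fintype.card_subtype] at this
  exact Nat.even_iff.2 (Eq.trans this.symm (Nat.even_iff.1 hn))

theorem exists_conj_sim' [Fintype F] {n : ℕ} [NeZero n] {f : CForm (FType.symp F) (Fin n → F)} (hf : f.Nondeg)
    {x : (Fin n → F) ≃ₗ[F] (Fin n → F)} {z : F} (hx : ∀ v, x (x v) = z • v) (hd : x ∈ SLg F _) (he : Even n)
    (h : (2 : F) ≠ 0 → ∀ c : F, c ^ n ≠ -1) :
    ∃ μ : F, ∃ P ∈ SLg F (Fin n → F), ∀ u v, f.B ((P⁻¹ * x * P) u) ((P⁻¹ * x * P) v) = μ * f.B u v := by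
  classical
  obtain ⟨b, π, c, h1, h3, h4⟩ := exists_mono_basis hx (finrank_fin_fun F)
  by_cases h2 : (2 : F) = 0
  · obtain ⟨τ, h5, h6⟩ := exists_pairing_ext h1 (fun _ => ()) fun _ => by simpa using even_fixed he h1
    refine ⟨z, exists_conj_sim hf h1 h5 h3 fun i => ⟨(h6 i).1, (h6 i).2.imp
      (fun k => ⟨k, by rw [← k, h4]; linear_combination z * h2⟩) fun k => ⟨k.1, k.2.1, ?_⟩⟩⟩
    have h7 := h4 i
    have h8 := h4 (τ i)
    rw [k.1] at h7
    rw [k.2.1] at h8
    rw [← h7, show c (τ i) = c i from sub_eq_zero.1 (pow_eq_zero_iff two_ne_zero |>.1 (by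
      linear_combination h8 - h7 + (c i ^ 2 - c i * c (τ i)) * h2))]
  by_cases h5 : IsSquare z
  · obtain ⟨γ, rfl⟩ := h5
    have := exists_even_eig h2 hx hd (by simpa using he) (by simpa using h h2)
    rw [finrank_fin_fun] at this
    obtain ⟨b, c, h5, h6⟩ := this
    obtain ⟨τ, h7, h8⟩ := exists_pairing_ext (π := id) (fun _ => rfl) c (by simpa using h6)
    exact ⟨_, exists_conj_sim hf (π := id) (fun _ => rfl) h7 (fun i => (h5 i).1) fun i => ⟨(h8 i).1, .inr ⟨rfl, rfl, by
      rw [((h8 i).2.resolve_left (h8 i).1.symm).2.2, (h5 i).2]⟩⟩⟩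
  · exact ⟨-z, exists_conj_sim hf h1 h1 h3 fun i => ⟨fun k => h5 ⟨c i, by rw [← h4 i, k]⟩, .inl ⟨rfl, by simp [h4]⟩⟩⟩

theorem exists_srefl (h2 : (2 : F) ≠ 0) {n : ℕ} [NeZero n] (hn : 2 ≤ n) {c : F} (hc : c ^ n = -1) :
    ∃ x : Matrix.SpecialLinearGroup (Fin n) F, (∃ z : F, (x ^ 2).1 = z • (1 : Matrix (Fin n) (Fin n) F)) ∧
      (∀ z : F, x.1 ≠ z • (1 : Matrix (Fin n) (Fin n) F)) ∧ ∀ u i, (slE x).1 u i = if i = 0 then -(c * u i) else c * u i := by
  have hc0 : c ≠ 0 := by rintro rfl; simp [NeZero.ne n] at hc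
  obtain ⟨x, hx⟩ : ∃ x : Matrix.SpecialLinearGroup (Fin n) F,
      x.1 = Matrix.diagonal fun i => (if i = 0 then -1 else 1) * c := ⟨⟨Matrix.diagonal _, by
    rw [Matrix.det_diagonal, Finset.prod_mul_distrib]; simp [hc]⟩, rfl⟩
  refine ⟨x, ⟨c ^ 2, ?_⟩, fun z k => ?_, fun u i => ?_⟩
  · rw [Matrix.SpecialLinearGroup.coe_pow, hx, Matrix.diagonal_pow, Matrix.smul_one_eq_diagonal]
    congr 1; ext i; by_cases e : i = 0 <;> simp [e]
  · rw [hx, Matrix.smul_one_eq_diagonal, Matrix.diagonal_eq_diagonal_iff] at k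
    have k1 := k 0
    have k2 := k ⟨1, hn⟩
    rw [if_pos rfl] at k1
    rw [if_neg fun h => one_ne_zero (congrArg Fin.val h)] at k2
    exact mul_ne_zero h2 hc0 (by linear_combination k2 - k1)
  · rw [slE_apply, hx, Matrix.mulVec_diagonal]; split_ifs <;> simp

theorem slE_sq {n : ℕ} {x : Matrix.SpecialLinearGroup (Fin n) F} {z : F}
    (hz : (x ^ 2).1 = z • (1 : Matrix (Fin n) (Fin n) F)) (v) : (slE x).1 ((slE x).1 v) = z • v := by
  rw [slE_apply, slE_apply, Matrix.mulVec_mulVec, ← sq, ← Matrix.SpecialLinearGroup.coe_pow, hz]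
  simp [Matrix.smul_mulVec]

theorem slE_conj {n : ℕ} (P x : Matrix.SpecialLinearGroup (Fin n) F) (v) :
    (P⁻¹ * x * P).1.mulVec v = ((slE P).1⁻¹ * (slE x).1 * (slE P).1) v := by
  rw [← slE_apply]; simp

theorem two_ne_zero_of_padic [Fintype F] {k : ℕ} (h : k < padicValNat 2 (Fintype.card F - 1)) : (2 : F) ≠ 0 :=
  two_ne_zero_of_odd (Nat.not_even_iff_odd.1 fun k => by
    rw [padicValNat.eq_zero_of_not_dvd (by have := Fintype.card_pos (α := F); obtain ⟨r, k⟩ := k; omega)] at h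
    simp at h)

end Cfsg.Agent.H4
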