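import Cfsg.Agent.H4.Linear
import Cfsg.Agent.GS.Cj3

/-! The Cayley transform in a commutative ring with involution. -/

set_option autoImplicit false

namespace Cfsg.Agent.H4

open Matrix Polynomial

theorem card_cayley {R : Type*} [CommRing R] [Nontrivial R] (h2 : IsUnit (2 : R)) (τ : R →+* R)
    (hτ : ∀ x, τ (τ x) = x) (hs : ∀ x, τ x = -x → IsNilpotent x)
    (hu : ∀ g, g * τ g = 1 → IsNilpotent (g - 1) ∨ IsNilpotent (g + 1)) :
    Nat.card {g // g * τ g = 1} = 2 * Nat.card {x // τ x = -x} := by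
  have h1 : ∀ x : {x // τ x = -x}, ∃ y, (1 - x.1) * y = 1 := fun x => (hs _ x.2).isUnit_one_sub.exists_right_inv
  choose y hy using h1
  have h3 : ∀ x : {x // τ x = -x}, (1 + x.1) * τ (y x) = 1 := fun x => by
    simpa [x.2] using congrArg τ (hy x)
  have h4 : ∀ g, g * τ g = 1 → IsNilpotent (g - 1) → ∃ x : {x // τ x = -x}, (1 + x.1) * y x = g := fun g hg hn => by
    obtain ⟨z, hz⟩ := (hn.isUnit_add_left_of_commute h2 (Commute.all _ _)).exists_right_inv
    have h5 := congrArg τ hz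
    simp only [map_mul, map_add, map_sub, map_one, map_ofNat] at h5
    refine ⟨⟨(g - 1) * z, ?_⟩, ?_⟩
    · rw [map_mul, map_sub, map_one]
      linear_combination (-(τ g - 1) * τ z) * hz + (-(g - 1) * z) * h5 + 2 * z * τ z * hg
    · generalize_proofs p
      have := hy ⟨_, p⟩
      simp only at this ⊢
      linear_combination g * this + (g - 1) * y ⟨_, p⟩ * hz
  rw [← Nat.card_eq_fintype_card.trans Fintype.card_bool, ← Nat.card_prod]
  refine (Nat.card_congr (Equiv.ofBijective (fun p : Bool × {x // τ x = -x} =>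
    (⟨cond p.1 1 (-1) * ((1 + p.2.1) * y p.2), by
      obtain ⟨_ | _, x⟩ := p <;> simp [x.2] <;> linear_combination ((1 + x.1) * τ (y x)) * hy x + h3 x⟩ : {g // g * τ g = 1}))
    ⟨fun p p' h => ?_, fun g => ?_⟩)).symm
  · have h6 := congrArg Subtype.val h
    obtain ⟨b, x⟩ := p
    obtain ⟨b', x'⟩ := p'
    have h7 : cond b 1 (-1) * ((1 + x.1) * (1 - x'.1)) = cond b' 1 (-1) * ((1 + x'.1) * (1 - x.1)) := by
      simp only at h6
      linear_combination ((1 - x.1) * (1 - x'.1)) * h6 - cond b 1 (-1) * (1 + x.1) * (1 - x'.1) * hy x +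
        cond b' 1 (-1) * (1 + x'.1) * (1 - x.1) * hy x'
    have h8 : 2 * (1 - x.1 * x'.1) ≠ 0 :=
      (h2.mul ((Commute.all _ _).isNilpotent_mul_right (hs _ x.2)).isUnit_one_sub).ne_zero
    cases b <;> cases b' <;> simp only [cond_true, cond_false] at h7
    · exact Prod.ext rfl (Subtype.ext (h2.mul_left_cancel (by simp only; linear_combination -h7)))
    · exact absurd (by linear_combination -h7) h8
    · exact absurd (by linear_combination h7) h8
    · exact Prod.ext rfl (Subtype.ext (h2.mul_left_cancel (by simp only; linear_combination h7)))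
  · obtain h | h := hu _ g.2
    · obtain ⟨x, hx⟩ := h4 _ g.2 h
      exact ⟨(true, x), Subtype.ext (by simp [hx])⟩
    · obtain ⟨x, hx⟩ := h4 (-g.1) (by simpa using g.2) (by rw [← neg_add']; exact h.neg)
      exact ⟨(false, x), Subtype.ext (by simp [hx])⟩

variable {F : Type*} [Field F]

theorem isNilpotent_aeval_sub {A : Type*} [Ring A] [Algebra F A] {s : A} (hs : IsNilpotent s) (p : F[X]) :
    IsNilpotent (aeval s p - algebraMap F A (p.coeff 0)) := by
  conv => enter [1, 1, 2]; rw [← X_mul_divX_add p]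
  rw [map_add, aeval_C, add_sub_cancel_right, map_mul, aeval_X]
  refine Commute.isNilpotent_mul_right ?_ hs
  simpa using (Commute.all X p.divX).map (aeval s)

theorem linearIndependent_pow_nil {A : Type*} [Ring A] [Algebra F A] {s : A} {n : ℕ} (h : s ^ (n + 1) = 0) (h1 : s ^ n ≠ 0) :
    LinearIndependent F fun i : Fin (n + 1) => s ^ (i : ℕ) := by
  have h2 : minpoly F s ∣ X ^ (n + 1) := minpoly.dvd F s (by simpa using h)
  obtain ⟨k, hk, h3⟩ := (dvd_prime_pow prime_X _).1 h2
  have h4 : s ^ k = 0 := by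
    obtain ⟨c, hc⟩ := h3.dvd
    simpa only [map_pow, aeval_X] using show aeval s (X ^ k : F[X]) = 0 by rw [hc, map_mul, minpoly.aeval, zero_mul]
  have h5 : k = n + 1 := by
    by_contra h6
    exact h1 (pow_eq_zero_of_le (by omega) h4)
  have h6 := linearIndependent_pow (K := F) s
  rwa [natDegree_eq_of_degree_eq (degree_eq_degree_of_associated h3), natDegree_X_pow, h5] at h6

variable {m : ℕ}

/-- the symplectic adjoint -/
def spAdj : Matrix (Fin m ⊕ Fin m) (Fin m ⊕ Fin m) F →ₗ[F] Matrix (Fin m ⊕ Fin m) (Fin m ⊕ Fin m) F where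
  toFun X := -(J (Fin m) F * Xᵀ * J (Fin m) F)
  map_add' X Y := by simp [mul_add, add_mul, add_comm]
  map_smul' a X := by simp

theorem spAdj_apply (X : Matrix (Fin m ⊕ Fin m) (Fin m ⊕ Fin m) F) : spAdj X = -(J (Fin m) F * Xᵀ * J (Fin m) F) := rfl

theorem spAdj_mul (X Y : Matrix (Fin m ⊕ Fin m) (Fin m ⊕ Fin m) F) : spAdj (X * Y) = spAdj Y * spAdj X := by
  have : ∀ Z : Matrix (Fin m ⊕ Fin m) (Fin m ⊕ Fin m) F, J (Fin m) F * (J (Fin m) F * Z) = -Z := fun Z => by
    rw [← mul_assoc, J_squared, neg_mul, one_mul]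
  simp [spAdj_apply, mul_assoc, this]

theorem spAdj_one : spAdj (1 : Matrix (Fin m ⊕ Fin m) (Fin m ⊕ Fin m) F) = 1 := by
  simp [spAdj_apply, J_squared]

theorem spAdj_spAdj (X : Matrix (Fin m ⊕ Fin m) (Fin m ⊕ Fin m) F) : spAdj (spAdj X) = X := by
  have : ∀ Z : Matrix (Fin m ⊕ Fin m) (Fin m ⊕ Fin m) F, J (Fin m) F * (J (Fin m) F * Z) = -Z := fun Z => by
    rw [← mul_assoc, J_squared, neg_mul, one_mul]
  simp [spAdj_apply, mul_assoc, this, J_squared]

theorem mem_Sp_spAdj {X : Matrix (Fin m ⊕ Fin m) (Fin m ⊕ Fin m) F} : X ∈ symplecticGroup (Fin m) F ↔ X * spAdj X = 1 := by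
  rw [SymplecticGroup.mem_iff, spAdj_apply, mul_neg, ← mul_assoc, ← mul_assoc]
  refine ⟨fun h => by rw [h, J_squared, neg_neg], fun h => ?_⟩
  have := congrArg (· * J (Fin m) F) h
  simpa [mul_assoc, J_squared] using this

theorem spAdj_pow {t : Matrix (Fin m ⊕ Fin m) (Fin m ⊕ Fin m) F} (k : ℕ) : spAdj (t ^ k) = spAdj t ^ k := by
  induction k with
  | zero => simp [spAdj_one]
  | succ k ih => rw [pow_succ, spAdj_mul, ih, pow_succ']

theorem spAdj_aeval (t : Matrix (Fin m ⊕ Fin m) (Fin m ⊕ Fin m) F) (p : F[X]) : spAdj (aeval t p) = aeval (spAdj t) p := by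
  simp only [aeval_eq_sum_range, map_sum, map_smul, spAdj_pow]

end Cfsg.Agent.H4
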