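import Cfsg.Agent.H4.Cay1

/-! Regular unipotent elements of symplectic groups. -/

set_option autoImplicit false

namespace Cfsg.Agent.H4

open Matrix Polynomial Cfsg.Agent.GS

variable {F : Type*} [Field F] {m : ℕ}

theorem exists_sp_nil (F : Type*) [Field F] (k : ℕ) : ∃ t : Matrix (Fin (k + 1) ⊕ Fin (k + 1)) (Fin (k + 1) ⊕ Fin (k + 1)) F,
    spAdj t = -t ∧ t ^ (2 * (k + 1)) = 0 ∧ t.rank = 2 * (k + 1) - 1 := by
  let N : Matrix (Fin (k + 1)) (Fin (k + 1)) F := of fun i j => if j.val = i.val + 1 then 1 else 0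
  let t := fromBlocks N (single (Fin.last k) (Fin.last k) (1 : F)) 0 (-N)ᵀ
  have h1 : N.BlockTriangular id := fun i j h => if_neg (by have : j.val < i.val := h; omega)
  refine ⟨t, ?_, ?_, ?_⟩
  · simp [spAdj_apply, t, J, fromBlocks_transpose, fromBlocks_multiply, fromBlocks_neg]
  · have := aeval_self_charpoly t
    rw [charpoly_fromBlocks_zero₂₁, charpoly_transpose, charpoly_of_upperTriangular _ h1,
      charpoly_of_upperTriangular _ h1.neg] at this
    simpa [N, two_mul, pow_add] using this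
  · have h2 : LinearMap.ker t.mulVecLin = Submodule.span F {Pi.single (.inl 0) 1} := by
      refine le_antisymm (fun v hv => Submodule.mem_span_singleton.2 ⟨v (.inl 0), ?_⟩)
        ((Submodule.span_singleton_le_iff_mem _ _).2 ?_)
      · have h3 : ∀ i, (t *ᵥ v) i = 0 := congrFun hv
        have h4 : ∀ i : Fin k, v (.inr i.castSucc) = 0 := fun i => by
          have := h3 (.inr i.succ)
          simp only [t, N, mulVec, dotProduct, Fintype.sum_sum_type] at this
          rw [Finset.sum_eq_zero (by simp), Finset.sum_eq_single i.castSucc (fun j _ h => by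
            simp [Fin.ext_iff] at h ⊢; omega) (by simp)] at this
          simpa using this
        have h5 : v (.inr (Fin.last k)) = 0 := by
          have := h3 (.inl (Fin.last k))
          simp only [t, N, mulVec, dotProduct, Fintype.sum_sum_type] at this
          rw [Finset.sum_eq_zero (fun j _ => by have := j.2; simp; omega),
            Finset.sum_eq_single (Fin.last k) (fun j _ h => by simp [h.symm]) (by simp)] at this
          simpa using this
        have h6 : ∀ i, v (.inr i) = 0 := Fin.lastCases h5 h4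
        have h7 : ∀ i : Fin k, v (.inl i.succ) = 0 := fun i => by
          have := h3 (.inl i.castSucc)
          simp only [t, N, mulVec, dotProduct, Fintype.sum_sum_type, h6, mul_zero, Finset.sum_const_zero] at this
          rw [Finset.sum_eq_single i.succ (fun j _ h => by simp [Fin.ext_iff] at h ⊢; omega) (by simp)] at this
          simpa using this
        ext (i | i)
        · refine Fin.cases ?_ (fun i => ?_) i <;> simp [h7]
        · simp [h6]
      · ext (i | i) <;> simp [t, N]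
    have h3 := t.mulVecLin.finrank_range_add_finrank_ker
    rw [h2, finrank_span_singleton (by simp), Module.finrank_fintype_fun_eq_card] at h3
    simp only [Fintype.card_sum, Fintype.card_fin] at h3
    rw [Matrix.rank]
    omega

theorem exists_sp_RU (h2 : (2 : F) ≠ 0) (hm : 1 ≤ m) : ∃ u : symplecticGroup (Fin m) F, RU u.1 := by
  obtain ⟨k, rfl⟩ : ∃ k, m = k + 1 := ⟨m - 1, by omega⟩
  obtain ⟨t, h1, h3, h4⟩ := exists_sp_nil F k
  obtain ⟨y, hy⟩ := (IsNilpotent.isUnit_one_sub ⟨_, h3⟩).exists_right_inv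
  have h5 := congrArg spAdj hy
  rw [spAdj_mul, map_sub, spAdj_one, h1, sub_neg_eq_add, mul_eq_one_comm] at h5
  have h6 : (1 + t) * y - 1 = t * ((2 : F) • y) := by
    rw [sub_eq_iff_eq_add, two_smul]; nth_rewrite 2 [← hy]; noncomm_ring
  have h7 : Commute t y := by
    have := mul_eq_one_comm.1 hy
    show t * y = y * t
    rw [← sub_right_inj (a := y)]
    calc y - t * y = (1 - t) * y := by noncomm_ring
      _ = y * (1 - t) := hy.trans this.symm
      _ = _ := by noncomm_ring
  refine ⟨⟨(1 + t) * y, mem_Sp_spAdj.2 ?_⟩, ?_, ?_⟩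
  · rw [spAdj_mul, map_add, spAdj_one, h1, ← mul_assoc, ← sub_eq_add_neg, mul_eq_one_comm, ← mul_assoc, ← mul_assoc,
      show (1 - t) * (1 + t) = (1 + t) * (1 - t) by noncomm_ring, mul_assoc (1 + t), hy, mul_one, h5]
  · simp only [h6, Fintype.card_sum, Fintype.card_fin, ← two_mul]
    rw [(h7.smul_right _).mul_pow, h3, zero_mul]
  · simp only [h6, Fintype.card_sum, Fintype.card_fin, ← two_mul]
    exact (rank_mul_eq_left_of_isUnit_det _ _ ((isUnit_iff_isUnit_det _).1
      ((IsUnit.of_mul_eq_one_right _ hy).smul (Units.mk0 2 h2)))).trans h4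

variable (m F) in
/-- symplectic similitudes with their multipliers -/
def GSpM : Subgroup (GL (Fin m ⊕ Fin m) F × Fˣ) where
  carrier := {x | spAdj x.1.1 * x.1.1 = (x.2 : F) • 1}
  mul_mem' {a b} ha hb := by
    simp only [Set.mem_setOf_eq, Prod.fst_mul, Prod.snd_mul, Units.val_mul, spAdj_mul] at *
    rw [mul_assoc, ← mul_assoc (spAdj a.1.1), ha, smul_mul_assoc, one_mul, mul_smul_comm, hb, smul_smul]
  one_mem' := by simp [spAdj_one]
  inv_mem' {a} ha := by
    simp only [Set.mem_setOf_eq, Prod.fst_inv, Prod.snd_inv] at *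
    have h1 := congrArg (fun x => (a.2⁻¹ : Fˣ).1 • (spAdj (a.1⁻¹).1 * x * (a.1⁻¹).1)) ha
    simp only [← mul_assoc, ← spAdj_mul, Units.mul_inv, spAdj_one, one_mul, mul_smul_comm, smul_mul_assoc, smul_smul,
      Units.inv_mul, one_smul, mul_one] at h1
    exact h1.symm

theorem exists_GSpM [Finite F] (h2 : (2 : F) ≠ 0) (hm : 1 ≤ m) {u v : symplecticGroup (Fin m) F} (hu : RU u.1) (hv : RU v.1) :
    ∃ g : GSpM F m, g.1.1.1 * u.1 = v.1 * g.1.1.1 := by
  have : Nonempty (Fin m) := ⟨⟨0, hm⟩⟩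
  obtain ⟨c, hc⟩ := hu.isConj_iff.1 hv
  have h1 : spAdj c.1 * v.1 = u.1 * spAdj c.1 := by
    have h3 := congrArg spAdj hc.eq
    rw [spAdj_mul, spAdj_mul] at h3
    rw [← one_mul (spAdj c.1 * v.1), ← mem_Sp_spAdj.1 u.2, mul_assoc, ← mul_assoc (spAdj u.1), h3, mul_assoc,
      mul_eq_one_comm.1 (mem_Sp_spAdj.1 v.2), mul_one]
  have h3 : Commute (spAdj c.1 * c.1) u.1 := by
    show _ * _ = _ * _
    rw [mul_assoc, hc.eq, ← mul_assoc, h1, mul_assoc]
  obtain ⟨p, hp⟩ := hu.eq_aeval h3
  have h4 := isNilpotent_aeval_sub ⟨_, hu.1⟩ p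
  rw [hp] at h4
  generalize p.coeff 0 = a at h4
  have ha : a ≠ 0 := by
    rintro rfl
    have h5 : IsUnit (spAdj c.1) := IsUnit.of_mul_eq_one (spAdj c⁻¹.1) (by rw [← spAdj_mul, Units.inv_mul, spAdj_one])
    exact (h5.mul c.isUnit).not_isNilpotent (by simpa using h4)
  obtain ⟨N, hN⟩ := h4.smul a⁻¹
  obtain ⟨w, hw⟩ : ∃ w, w = a⁻¹ • (spAdj c.1 * c.1) := ⟨_, rfl⟩
  have : Fact (ringChar F).Prime := ⟨CharP.char_is_prime F _⟩
  have h5 : w ^ ringChar F ^ N = 1 := by
    rw [show w = a⁻¹ • (spAdj c.1 * c.1 - algebraMap F _ a) + 1 by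
      rw [hw, smul_sub, Algebra.algebraMap_eq_smul_one, smul_smul, inv_mul_cancel₀ ha, one_smul, sub_add_cancel],
      add_pow_char_pow_of_commute _ _ (Commute.one_right _), pow_eq_zero_of_le (Nat.lt_pow_self this.out.one_lt).le hN]
    simp
  obtain ⟨j, hj⟩ := (this.out.odd_of_ne_two fun h => h2 (by
    have := ringChar.Nat.cast_ringChar (R := F); rw [h] at this; exact_mod_cast this)).pow (n := N)
  have h6 : spAdj w = w := by rw [hw, map_smul, spAdj_mul, spAdj_spAdj]
  have h7 : w ^ j * w * w ^ j = 1 := by rw [← h5, hj, ← pow_succ, ← pow_add]; congr 1; ring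
  refine ⟨⟨(c * (IsUnit.of_mul_eq_one_right _ h7).unit, Units.mk0 a ha), ?_⟩, ?_⟩
  · show spAdj (c.1 * w ^ j) * (c.1 * w ^ j) = a • 1
    rw [spAdj_mul, spAdj_pow, h6, ← h7, ← smul_mul_assoc, ← mul_smul_comm, hw, smul_smul, mul_inv_cancel₀ ha, one_smul]
    simp only [mul_assoc]
  · show c.1 * w ^ j * u.1 = v.1 * (c.1 * w ^ j)
    rw [mul_assoc, ((hw ▸ h3.smul_left a⁻¹ : Commute w u.1).pow_left j).eq, ← mul_assoc, hc.eq, mul_assoc]

end Cfsg.Agent.H4
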