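import Cfsg.Agent.H4.Linear
import Cfsg.Agent.GS.Cj3

/-! Elements of large prime order commuting with unipotent elements. -/

set_option autoImplicit false

namespace Cfsg.Agent.H4

open Module LinearMap

variable {F : Type*} [Field F] [Fintype F] {s m : ℕ}

theorem end_eq_one_of_pow {V : Type*} [AddCommGroup V] [Module F V] [FiniteDimensional F V] (hs : s.Prime)
    (h1 : ¬ s ∣ Fintype.card F) (h2 : ∀ j, 0 < j → j ≤ m → ¬ s ∣ Fintype.card F ^ j - 1) {T : End F V}
    (hT : T ^ s = 1) (hm : finrank F V ≤ m) : T = 1 := by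
  let e := toMatrixAlgEquiv (finBasis F V)
  obtain ⟨u, hu⟩ := IsUnit.of_pow_eq_one (show e T ^ s = 1 by rw [← map_pow, hT, map_one]) hs.ne_zero
  have h3 : u ^ s = 1 := Units.ext (by rw [Units.val_pow_eq_pow_val, hu, ← map_pow, hT, map_one, Units.val_one])
  by_contra h
  have : Fact s.Prime := ⟨hs⟩
  have h4 := orderOf_eq_prime h3 (fun h5 => h (e.injective (by rw [← hu, h5, map_one, Units.val_one]))) ▸ orderOf_dvd_natCard u
  rw [Matrix.card_GL_field] at h4
  obtain ⟨i, -, hi⟩ := (hs.prime.dvd_finset_prod_iff _).1 h4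
  obtain ⟨d, hd⟩ := Nat.exists_eq_add_of_lt i.2
  rw [show Fintype.card F ^ finrank F V - Fintype.card F ^ i.1 = Fintype.card F ^ i.1 * (Fintype.card F ^ (d + 1) - 1) by
    rw [Nat.mul_sub_one, ← pow_add, ← add_assoc, ← hd]] at hi
  exact ((Nat.Prime.dvd_mul hs).1 hi).elim (fun h => h1 (hs.dvd_of_dvd_pow h)) (h2 _ (by omega) (by omega))

theorem sub_mem_of_pow {V : Type*} [AddCommGroup V] [Module F V] [FiniteDimensional F V] (hs : s.Prime)
    (h1 : ¬ s ∣ Fintype.card F) (h2 : ∀ j, 0 < j → j ≤ m → ¬ s ∣ Fintype.card F ^ j - 1) {T : End F V}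
    (hT : T ^ s = 1) {W U : Submodule F V} (hW : ∀ x ∈ W, T x ∈ W) (hU : ∀ x ∈ U, T x ∈ U) (hWU : W ≤ U)
    (hm : finrank F U ≤ finrank F W + m) {x : V} (hx : x ∈ U) : (T - 1) x ∈ W := by
  have h3 : W.submoduleOf U ≤ (W.submoduleOf U).comap (T.restrict hU) := fun y hy => hW _ hy
  have h4 := end_eq_one_of_pow hs h1 h2 (T := (W.submoduleOf U).mapQ _ (T.restrict hU) h3)
    (by rw [← Submodule.mapQ_pow _ h3]
        have : T.restrict hU ^ s = 1 := by
          rw [Module.End.pow_restrict _ hU]; exact LinearMap.ext fun y => Subtype.ext (LinearMap.congr_fun hT y.1)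
        simp only [this]
        exact Submodule.linearMap_qext _ rfl) (by
      have := (W.submoduleOf U).finrank_quotient_add_finrank
      rw [(Submodule.submoduleOfEquivOfLe hWU).finrank_eq] at this
      omega)
  exact (Submodule.Quotient.eq (W.submoduleOf U)).1 (LinearMap.congr_fun h4 (Submodule.Quotient.mk ⟨x, hx⟩))

theorem unip_of_comm {V : Type*} [AddCommGroup V] [Module F V] [FiniteDimensional F V] (hs : s.Prime)
    (h1 : ¬ s ∣ Fintype.card F) (h2 : ∀ j, 0 < j → j ≤ finrank F V - 2 → ¬ s ∣ Fintype.card F ^ j - 1) {T N : End F V}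
    (hT : T ^ s = 1) (hc : Commute T N) (hN : IsNilpotent N) (h0 : N ≠ 0) (h4 : 4 ≤ finrank F V) : (T - 1) ^ 3 = 0 := by
  have a1 : ∀ x ∈ range N, T x ∈ range N := by rintro _ ⟨y, rfl⟩; exact ⟨T y, (LinearMap.congr_fun hc y).symm⟩
  have a2 : ∀ x ∈ ker N, T x ∈ ker N := fun x hx => by
    rw [mem_ker, ← End.mul_apply, ← hc, End.mul_apply, mem_ker.1 hx, map_zero]
  have a3 : range N ⊓ ker N ≠ ⊥ := fun h => by
    have : ∀ k, N ^ (k + 1) = 0 → N = 0 := fun k => by
      induction k with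
      | zero => simp
      | succ k ih => exact fun hk => ih (LinearMap.ext fun x => (Submodule.eq_bot_iff _).1 h _
          ⟨⟨(N ^ k) x, by rw [pow_succ']; rfl⟩, mem_ker.2 (by rw [← End.mul_apply, ← pow_succ', hk]; rfl)⟩)
    obtain ⟨k, hk⟩ := hN
    exact h0 (this k (pow_eq_zero_of_le k.le_succ hk))
  have a4 := Submodule.finrank_sup_add_finrank_inf_eq (range N) (ker N)
  have a5 := N.finrank_range_add_finrank_ker
  have a6 : 0 < finrank F (range N ⊓ ker N : Submodule F V) := Nat.pos_of_ne_zero (mt Submodule.finrank_eq_zero.1 a3)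
  have a7 := Submodule.finrank_mono (inf_le_left : range N ⊓ ker N ≤ _)
  have a8 := Submodule.finrank_mono (inf_le_right : range N ⊓ ker N ≤ _)
  have b1 : ∀ x ∈ range N ⊓ ker N, T x ∈ range N ⊓ ker N := fun x hx => ⟨a1 x hx.1, a2 x hx.2⟩
  have b2 : ∀ x ∈ range N ⊔ ker N, T x ∈ range N ⊔ ker N := fun x hx => by
    obtain ⟨y, hy, z, hz, rfl⟩ := Submodule.mem_sup.1 hx
    exact map_add T y z ▸ Submodule.add_mem_sup (a1 y hy) (a2 z hz)
  exact LinearMap.ext fun x => (Submodule.mem_bot F).1 (sub_mem_of_pow hs h1 h2 hT (by simp) b1 bot_le (by simp; omega)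
    (sub_mem_of_pow hs h1 h2 hT b1 b2 inf_le_sup (by omega)
      (sub_mem_of_pow hs h1 h2 hT b2 (U := ⊤) (by simp) le_top (by rw [finrank_top]; omega) trivial)))

theorem dvd_card_SL (hm : 2 ≤ m) : Fintype.card F ∣ Nat.card (Matrix.SpecialLinearGroup (Fin m) F) ∧
    ∀ j, 0 < j → j ≤ m → Fintype.card F ^ j - 1 ∣ Nat.card (Matrix.SpecialLinearGroup (Fin m) F) := by
  obtain ⟨k, rfl⟩ : ∃ k, m = k + 2 := ⟨m - 2, by omega⟩
  have h := card_SL (F := F) (k + 2) (by omega)
  have hq : 1 < Fintype.card F := Fintype.one_lt_card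
  rw [Fin.prod_univ_castSucc, Fin.val_last, show Fintype.card F ^ (k + 2) - Fintype.card F ^ (k + 1) =
    Fintype.card F ^ (k + 1) * (Fintype.card F - 1) by rw [Nat.mul_sub_one, ← pow_succ], ← mul_assoc, mul_comm] at h
  rw [Nat.eq_of_mul_eq_mul_right (by omega) h]
  have h1 : ∀ j, 2 ≤ j → j ≤ k + 2 → Fintype.card F ^ j - 1 ∣
      ∏ i : Fin (k + 1), (Fintype.card F ^ (k + 2) - Fintype.card F ^ (i.castSucc : ℕ)) := fun j a b =>
    Dvd.dvd.trans ⟨Fintype.card F ^ (k + 2 - j), by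
      rw [Nat.sub_one_mul, ← pow_add, Nat.add_sub_cancel' b]; rfl⟩ (Finset.dvd_prod_of_mem _ (Finset.mem_univ ⟨k + 2 - j, by omega⟩))
  refine ⟨(dvd_pow_self _ (by omega)).mul_left _, fun j a b => Dvd.dvd.mul_right ?_ _⟩
  obtain rfl | h := (show j = 1 ∨ 2 ≤ j by omega)
  · exact (Nat.pow_sub_one_dvd_pow_sub_one _ (one_dvd 2)).trans (h1 2 le_rfl (by omega))
  · exact h1 j h b

end Cfsg.Agent.H4
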