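import Cfsg.Agent.H4.Inv2
import Cfsg.Agent.H4.Basis
import Cfsg.Agent.H4.Block

/-! Fixed-point-free elements of prime order in even characteristic orthogonal groups. -/

set_option autoImplicit false
set_option linter.unusedSectionVars false

namespace Cfsg.Agent.H4.CForm

open Module Submodule

variable {F : Type*} [Field F] [Fintype F] {V : Type*} [AddCommGroup V] [Module F V] [FiniteDimensional F V]
  {f : CForm (FType.orth F) V} {d r : ℕ}

theorem Nondeg.cnt_one (hf : f.Nondeg) (h2 : (2 : F) = 0) (hd : finrank F V = 2 * d) :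
    (Fintype.card F : ℤ) * f.cnt 1 = Fintype.card F ^ d * (Fintype.card F ^ d - if f.wi = d then 1 else -1) := by
  classical
  have h1 : ∀ t : F, t ≠ 0 → f.cnt t = f.cnt 1 := fun t ht => by
    obtain ⟨s, rfl⟩ := isSquare_of_two_eq_zero h2 t
    exact (Nat.card_congr ((LinearEquiv.smulOfNeZero F V s (left_ne_zero_of_mul ht)).toEquiv.subtypeEquiv fun x => by
      simp [Q_smul, ht])).symm
  have h3 := sum_cnt (f := f)
  rw [← Finset.add_sum_erase _ _ (Finset.mem_univ 0), Finset.sum_congr rfl fun t ht => h1 t (Finset.ne_of_mem_erase ht),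
    Finset.sum_const, Finset.card_erase_of_mem (Finset.mem_univ _), Finset.card_univ, smul_eq_mul, hd] at h3
  have h4 := Fintype.one_lt_card (α := F)
  zify [h4.le] at h3
  refine mul_left_cancel₀ (show (Fintype.card F : ℤ) - 1 ≠ 0 by omega) ?_
  have h5 := hf.orth_finrank_le
  have h6 := hf.two_mul_wi_le
  split_ifs with e
  · have := hf.orth_cnt.1 (by omega)
    rw [e] at this
    linear_combination Fintype.card F * h3 - this
  · obtain rfl : d = f.wi + 1 := by omega
    linear_combination Fintype.card F * h3 - Fintype.card F * hf.orth_cnt.2.2 (by omega)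

theorem dvd_cnt [Fact r.Prime] {x : V ≃ₗ[F] V} (hx : x ∈ f.iso) (h : x ^ r = 1) (h0 : fixS x = ⊥) : r ∣ f.cnt 1 := by
  classical
  have : Finite V := Module.finite_of_finite F
  have := Fintype.ofFinite V
  let φ : Function.End {v // f.Q v = 1} := fun v => ⟨x v, by rw [iso_Q hx, v.2]⟩
  have h1 : ∀ k v, ((φ ^ k) v).1 = (x ^ k) v := fun k => by
    induction k with
    | zero => exact fun _ => rfl
    | succ k ih => exact fun v => by rw [pow_succ, pow_succ]; exact ih _
  have := Equiv.Perm.card_fixedPoints_modEq (f := φ) (p := r) (n := 1) (funext fun v => Subtype.ext (by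
    rw [h1, pow_one, h]; rfl))
  rw [(Fintype.card_eq_zero_iff (α := φ.fixedPoints)).2 ⟨fun v => by
    simpa [show v.1.1 = 0 from h0.le (congrArg Subtype.val v.2)] using v.1.2⟩] at this
  rw [cnt, Nat.card_eq_fintype_card]
  exact Nat.modEq_zero_iff_dvd.1 this

theorem Nondeg.pow_eq_of_dvd [Fact r.Prime] (hf : f.Nondeg) (h2 : (2 : F) = 0) (hd : finrank F V = 2 * d) (hr : r ≠ 2) :
    r ∣ f.cnt 1 ↔ (Fintype.card F : ZMod r) ^ d = if f.wi = d then 1 else -1 := by
  have h0 : (Fintype.card F : ZMod r) ≠ 0 := by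
    obtain ⟨k, -, hk⟩ := FiniteField.card F (ringChar F)
    rw [hk, ringChar_eq_two h2, Ne, ZMod.natCast_eq_zero_iff]
    exact fun h => hr ((Nat.prime_dvd_prime_iff_eq Fact.out Nat.prime_two).1 ((Fact.out : r.Prime).dvd_of_dvd_pow h))
  have := congrArg (Int.cast : ℤ → ZMod r) (hf.cnt_one h2 hd)
  push_cast at this
  rw [← ZMod.natCast_eq_zero_iff, ← mul_eq_zero_iff_left h0, this, mul_eq_zero_iff_left (pow_ne_zero _ h0), sub_eq_zero]

theorem neg_one_ne_one_zmod [Fact r.Prime] (hr : r ≠ 2) : (-1 : ZMod r) ≠ 1 := fun h =>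
  hr ((Nat.prime_dvd_prime_iff_eq Fact.out Nat.prime_two).1 ((ZMod.natCast_eq_zero_iff 2 r).1
    (by push_cast; linear_combination -h)))

theorem Nondeg.fpf_of [Fact r.Prime] (hf : f.Nondeg) (h2 : (2 : F) = 0) (hd : finrank F V = 2 * d) (hr : r ≠ 2)
    (h : r ∣ f.cnt 1) {V' : Type*} [AddCommGroup V'] [Module F V'] [FiniteDimensional F V'] {g : CForm (FType.orth F) V'}
    (hg : g.Nondeg) (hd' : finrank F V' = 2 * d) {y : V' ≃ₗ[F] V'} (hy : y ∈ g.iso) (h1 : y ^ r = 1) (h0 : fixS y = ⊥) :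
    ∃ x ∈ f.iso, x ^ r = 1 ∧ fixS x = ⊥ := by
  have h3 := ((hf.pow_eq_of_dvd h2 hd hr).1 h).symm.trans ((hg.pow_eq_of_dvd h2 hd' hr).1 (dvd_cnt hy h1 h0))
  have := neg_one_ne_one_zmod hr
  obtain ⟨e, he⟩ := hg.orth_isom_even hf ⟨d, by omega⟩ (by omega) (by
    have := hf.orth_finrank_le
    have := hf.two_mul_wi_le
    have := hg.orth_finrank_le
    have := hg.two_mul_wi_le
    split_ifs at h3 <;> first | omega | exact absurd h3.symm ‹_› | exact absurd h3 ‹_›)
  refine ⟨conjE e y, he.conjE_mem.1 hy, by rw [← map_pow, h1, map_one], eq_bot_iff.2 fun v hv => ?_⟩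
  simpa using h0.le (show e.symm v ∈ fixS y from e.injective (by simpa [mem_fixS] using hv))

theorem exists_order {E : Type*} [Field E] [Fintype E] [Fact r.Prime] (h : (Fintype.card E : ZMod r) = 1) :
    ∃ ζ : E, ζ ≠ 0 ∧ ζ ≠ 1 ∧ ζ ^ r = 1 := by
  classical
  obtain ⟨ζ, h1⟩ := exists_prime_orderOf_dvd_card (G := Eˣ) r (by
    rw [Fintype.card_units, ← ZMod.natCast_eq_zero_iff, Nat.cast_sub Fintype.card_pos, h]; simp)
  exact ⟨ζ, ζ.ne_zero, fun e => (Fact.out : r.Prime).ne_one (by rw [← h1, Units.val_eq_one.1 e, orderOf_one]),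
    by rw [← Units.val_pow_eq_pow_val, ← h1, pow_orderOf_eq_one, Units.val_one]⟩

variable (F) in
theorem exists_ext_field {n : ℕ} (hn : n ≠ 0) :
    ∃ (E : Type) (_ : Field E) (_ : Fintype E) (_ : Algebra F E), finrank F E = n := by
  obtain ⟨p, _, k, hp, hq⟩ := FiniteField.card' F
  have := Fact.mk hp
  have : NeZero n := ⟨hn⟩
  exact ⟨FiniteField.Extension F p n, inferInstance, Fintype.ofFinite _, inferInstance, FiniteField.finrank_extension F p n⟩

theorem Nondeg.exists_fpf [Fact r.Prime] (hf : f.Nondeg) (h2 : (2 : F) = 0) (hd : finrank F V = 2 * d) (h0 : d ≠ 0)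
    (hr : r ≠ 2) (h : r ∣ f.cnt 1) : ∃ x ∈ f.iso, x ^ r = 1 ∧ fixS x = ⊥ := by
  have h1 := (hf.pow_eq_of_dvd h2 hd hr).1 h
  split_ifs at h1
  · obtain ⟨E, _, _, _, hn⟩ := exists_ext_field F h0
    obtain ⟨ζ, h3, h4, h5⟩ := exists_order (E := E) (r := r) (by
      rw [Module.card_eq_pow_finrank (K := F), hn]; simpa using h1)
    let g := mkQuad (fun v : E × E => Algebra.trace F E (v.1 * v.2)) (fun a x => by simp [smul_smul, sq])
      (fun x y z => by simp [QuadraticMap.polar, mul_add, add_mul]; ring)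
      fun a x y => by simp [QuadraticMap.polar, mul_add, add_mul]; ring
    let y := ((LinearEquiv.smulOfNeZero E E ζ h3).prodCongr
      (LinearEquiv.smulOfNeZero E E ζ⁻¹ (inv_ne_zero h3))).restrictScalars F
    have hy : ∀ k v, (y ^ k) v = (ζ ^ k * v.1, ζ⁻¹ ^ k * v.2) := fun k => by
      induction k with
      | zero => simp
      | succ k ih => exact fun v => by rw [pow_succ, LinearEquiv.mul_apply, ih]; simp [y, pow_succ, mul_assoc]
    refine hf.fpf_of h2 hd hr h (g := g) (fun v hv => Prod.ext ((traceForm_nondegenerate F E).1 _ fun w => ?_)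
      ((traceForm_nondegenerate F E).1 _ fun w => ?_)) (by simp [hn, two_mul]) (y := y)
      (orth_mem_iso.2 fun v => ?_) (by ext1 v; simp [hy, h5]) (eq_bot_iff.2 fun v hv => ?_)
    · simpa [g, QuadraticMap.polar, mul_add] using hv (0, w)
    · simpa [g, QuadraticMap.polar, add_mul, mul_comm w] using hv (w, 0)
    · simp only [g, mkQuad_Q]; simp [y]; rw [mul_mul_mul_comm, mul_inv_cancel₀ h3, one_mul]
    · simpa [mem_fixS, y, Prod.ext_iff, h4, mul_left_eq_self₀] using hv
  obtain ⟨E, _, _, _, hn⟩ := exists_ext_field F (n := 2 * d) (by omega)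
  have hE : Fintype.card E = (Fintype.card F ^ d) ^ 2 := by
    rw [Module.card_eq_pow_finrank (K := F), hn, ← pow_mul, mul_comm]
  obtain ⟨ζ, h3, h4, h5⟩ := exists_order (E := E) (r := r) (by simp [hE, h1])
  let σ := FiniteField.frobeniusAlgEquivOfAlgebraic F E ^ d
  have h6 : ∀ a, σ a = a ^ Fintype.card F ^ d := fun a => by
    simp only [σ, AlgEquiv.coe_pow, FiniteField.coe_frobeniusAlgEquivOfAlgebraic_iterate]
  have h7 : ∀ a, σ (σ a) = a := fun a => by rw [h6, h6, ← pow_mul, ← sq, ← hE, FiniteField.pow_card]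
  have h8 : ζ * σ ζ = 1 := by
    obtain ⟨c, hc⟩ := (ZMod.natCast_eq_zero_iff (Fintype.card F ^ d + 1) r).1 (by simp [h1])
    rw [h6, ← pow_succ', hc, pow_mul, h5, one_pow]
  obtain ⟨l, hl⟩ := exists_trace_eq (σ := (σ : E →+* E)) (fun e => pow_ne_one_of_lt_orderOf h0 (by
    rw [FiniteField.orderOf_frobeniusAlgEquivOfAlgebraic, hn]; omega)
    (AlgEquiv.ext fun a => RingHom.congr_fun e a : σ = 1)) h7 (map_one _)
  have h9 : ∀ u v, QuadraticMap.polar (fun v : E => Algebra.trace F E (l * (v * σ v))) u v =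
      Algebra.trace F E (u * σ v) := fun u v => by
    rw [← one_mul (u * σ v), ← show l + σ l = 1 from hl, add_mul, map_add, ← Algebra.trace_eq_of_algEquiv σ (σ l * _)]
    simp only [QuadraticMap.polar, ← map_sub, ← map_add (Algebra.trace F E), map_mul, map_add σ, h7, RingHom.coe_coe]
    congr 1; ring
  let g := mkQuad (fun v : E => Algebra.trace F E (l * (v * σ v))) (fun a x => by simp [smul_smul, sq])
    (fun x y z => by simp [h9, add_mul]) fun a x y => by simp [h9]
  let y := (LinearEquiv.smulOfNeZero E E ζ h3).restrictScalars F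
  have hy : ∀ k v, (y ^ k) v = ζ ^ k * v := fun k => by
    induction k with
    | zero => simp
    | succ k ih => exact fun v => by rw [pow_succ, LinearEquiv.mul_apply, ih]; simp [y, pow_succ, mul_assoc]
  refine hf.fpf_of h2 hd hr h (g := g) (fun v hv => (traceForm_nondegenerate F E).1 _ fun w => ?_)
    hn (y := y)
    (orth_mem_iso.2 fun v => ?_) (by ext1 v; simp [hy, h5]) (eq_bot_iff.2 fun v hv => ?_)
  · simpa [g, h9, h7] using hv (σ w)
  · simp only [g, mkQuad_Q]; simp [y]; rw [mul_mul_mul_comm, h8, one_mul]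
  · simpa [mem_fixS, y, h4, mul_left_eq_self₀] using hv

theorem card_ns_points (h2 : (2 : F) = 0) :
    Nat.card {W : Submodule F V // finrank F W = 1 ∧ ∃ v ∈ W, f.Q v ≠ 0} = f.cnt 1 := by
  have h0 : ∀ v : {v // f.Q v = 1}, v.1 ≠ 0 := fun v h => by simpa [h] using v.2
  refine (Nat.card_congr (Equiv.ofBijective (fun v : {v // f.Q v = 1} => ⟨span F {v.1}, finrank_span_singleton (h0 v),
    v, mem_span_singleton_self _, by simp [v.2]⟩) ⟨fun u v h => ?_, fun ⟨W, h1, v, hv, h3⟩ => ?_⟩)).symm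
  · obtain ⟨c, hc⟩ := (span_singleton_eq_span_singleton).1 (congrArg Subtype.val h)
    have h1 := v.2
    rw [← hc, Units.smul_def, Q_smul, u.2, mul_one] at h1
    refine Subtype.ext (by
      rw [← hc, Units.smul_def, (mul_self_eq_one_iff.1 h1).elim id fun h => by linear_combination h - h2, one_smul])
  obtain ⟨s, hs⟩ := isSquare_of_two_eq_zero h2 (f.Q v)⁻¹
  have h4 : f.Q (s • v) = 1 := by rw [Q_smul]; exact (congrArg (· * f.Q v) hs).symm.trans (inv_mul_cancel₀ h3)
  exact ⟨⟨_, h4⟩, Subtype.ext (eq_of_le_of_finrank_eq ((span_singleton_le_iff_mem _ _).2 (W.smul_mem s hv))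
    (by rw [h1, finrank_span_singleton (h0 ⟨_, h4⟩)]))⟩

theorem fix_of_point (h2 : (2 : F) = 0) {x : V ≃ₗ[F] V} (hx : x ∈ f.iso) :
    (∃ W : Submodule F V, (finrank F W = 1 ∧ ∃ v ∈ W, f.Q v ≠ 0) ∧ W.map (x : V →ₗ[F] V) ≤ W) ↔ ¬ f.TS (fixS x) := by
  simp only [orth_TS_iff, not_forall]
  refine ⟨fun ⟨W, ⟨h1, v, hv, h3⟩, h4⟩ => ⟨v, ?_, h3⟩, fun ⟨v, h1, h3⟩ => ⟨span F {v}, ⟨finrank_span_singleton
    fun h => h3 (by simp [h]), v, mem_span_singleton_self _, h3⟩, by simp [map_span, mem_fixS.1 h1]⟩⟩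
  obtain ⟨c, hc⟩ := (finrank_eq_one_iff_of_nonzero' (⟨v, hv⟩ : W) fun h => h3 (by simp [show v = 0 from
    congrArg Subtype.val h])).1 h1 ⟨x v, h4 ⟨v, hv, rfl⟩⟩
  replace hc : c • v = x v := congrArg Subtype.val hc
  have h5 := iso_Q hx v
  rw [← hc, Q_smul, mul_eq_right₀ h3] at h5
  rw [mem_fixS, ← hc, (mul_self_eq_one_iff.1 h5).elim id fun h => by linear_combination h - h2, one_smul]

theorem Nondeg.of_TS_fixS (hf : f.Nondeg) (h2 : (2 : F) = 0) (hd : finrank F V = 2 * d) {x : V ≃ₗ[F] V}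
    (h1 : x * x = 1) (h : f.TS (fixS x)) : f.wi = d ∧ finrank F (rg x) = d := by
  have := h.le_wi
  have := hf.two_mul_wi_le
  have := finrank_fixS_add_rank x
  have := finrank_mono (rg_le_fixS h2 h1)
  simp only [rg] at *
  omega

theorem Nondeg.elusive_ns {ι : Type} [Fintype ι] [DecidableEq ι] {f : CForm (FType.orth F) (ι → F)} (hf : f.Nondeg)
    (h2 : (2 : F) = 0) (hd : finrank F (ι → F) = 2 * d) (h3 : 3 ≤ d) [Fact r.Prime]
    (hr : r ∣ Nat.card {W : Submodule F (ι → F) // finrank F W = 1 ∧ ∃ v ∈ W, f.Q v ≠ 0}) :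
    (∀ x : GL ι F, x ∈ Geo.omegaGL f.Q → (∃ z : F, ((x ^ r : GL ι F) : Matrix ι ι F) = z • (1 : Matrix ι ι F)) →
      (∀ z : F, (x : Matrix ι ι F) ≠ z • (1 : Matrix ι ι F)) →
      ∃ W : Submodule F (ι → F), (finrank F W = 1 ∧ ∃ v ∈ W, f.Q v ≠ 0) ∧ W.map (Matrix.toLin' (x : Matrix ι ι F)) ≤ W) ↔
    r = 2 ∧ (f.wi = d → Odd d) := by
  have h4 : N24 F (ι → F) := .inr (by omega)
  obtain ⟨u, hu⟩ := hf.orth_represents (by omega) 1
  have h5 : ∀ z : F, f.Q (z • u) = f.Q u → z = 1 := fun z h => by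
    rw [Q_smul, hu, mul_one] at h
    exact (mul_self_eq_one_iff.1 h).elim id fun h => by linear_combination h - h2
  have key : ∀ x ∈ f.iso, x ^ r = 1 → dk x = 1 → f.TS (fixS x) → ¬ ∀ x : GL ι F, x ∈ Geo.omegaGL f.Q →
      (∃ z : F, ((x ^ r : GL ι F) : Matrix ι ι F) = z • (1 : Matrix ι ι F)) →
      (∀ z : F, (x : Matrix ι ι F) ≠ z • (1 : Matrix ι ι F)) → ∃ W : Submodule F (ι → F),
        (finrank F W = 1 ∧ ∃ v ∈ W, f.Q v ≠ 0) ∧ W.map (Matrix.toLin' (x : Matrix ι ι F)) ≤ W := fun x hx k1 k2 k3 h => by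
    obtain ⟨x, rfl⟩ := glE.surjective x
    refine (fix_of_point h2 hx).1 (h x (mem_omegaGL.2 ((hf.orth_mem_commutator_even h2 h4 hx).2 k2)) ⟨1, by
      rw [← map_pow, map_eq_one_iff _ glE.injective] at k1; simp [k1]⟩ fun z hz => ?_) k3
    have k4 : glE x u = z • u := by simp [hz, Matrix.smul_mulVec]
    simpa [hu] using k3.1 u (by rw [mem_fixS, k4, h5 z (k4 ▸ iso_Q hx u), one_smul])
  refine ⟨fun h => ?_, ?_⟩
  · obtain rfl : r = 2 := by_contra fun e => by
      obtain ⟨x, k1, k2, k3⟩ := hf.exists_fpf h2 hd (by omega) e (card_ns_points (f := f) h2 ▸ hr)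
      exact key x k1 k2 (by rw [dk, k3, hd]; simp [pow_mul]) (by simp [k3, TS]) h
    refine ⟨rfl, fun k => Nat.not_even_iff_odd.1 fun ⟨m, hm⟩ => ?_⟩
    obtain ⟨e, he⟩ := hf.isom_plusF hd k
    let φ : (Fin d ⊕ Fin d → F) →ₗ[F] (Fin d ⊕ Fin d → F) :=
      LinearMap.id + LinearMap.pi (Sum.elim (fun i => LinearMap.proj (.inr i.rev)) 0)
    have k1 : ∀ v i, φ v (.inl i) = v (.inl i) + v (.inr i.rev) := fun _ _ => rfl
    have k2 : ∀ v i, φ v (.inr i) = v (.inr i) := fun _ _ => add_zero _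
    have k3 : Function.Involutive φ := fun v => funext fun i => by
      rcases i with i | i <;> simp [k1, k2]; linear_combination v (.inr i.rev) * h2
    have k4 : LinearEquiv.ofInvolutive φ k3 ∈ (plusF F d).iso := orth_mem_iso.2 fun v => by
      show quadFormPlus d F (φ v) = quadFormPlus d F v
      simp only [quadFormPlus, k1, k2, add_mul, Finset.sum_add_distrib, add_eq_left]
      exact Finset.sum_involution (fun i _ => i.rev) (fun i _ => by simp; linear_combination v (.inr i.rev) * v (.inr i) * h2)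
        (fun i _ _ h => by have := congrArg Fin.val h; have := i.2; simp at *; omega) (by simp) (by simp)
    have k5 : fixS (LinearEquiv.ofInvolutive φ k3) = inlSub F d := Submodule.ext fun v => by
      simp only [mem_fixS, mem_inlSub, LinearEquiv.coe_ofInvolutive, funext_iff, Sum.forall, k1, k2, add_eq_left]
      exact ⟨fun h i => by simpa using h.1 i.rev, fun h => by simp [h]⟩
    have k6 : f.TS (fixS (conjE e.symm (LinearEquiv.ofInvolutive φ k3))) := orth_TS_iff.2 fun v hv => by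
      rw [← he.Q]
      exact (plusF_TS_inlSub d).1 _ (k5.le (e.symm.injective (by simpa [mem_fixS] using hv)))
    have k7 : conjE e.symm (LinearEquiv.ofInvolutive φ k3) ^ 2 = 1 := by ext1 v; simp [sq, k3 _]
    exact key _ (he.symm.conjE_mem.1 k4) k7 (by
      rw [dk_eq_rank, (hf.of_TS_fixS h2 hd (by rwa [← sq]) k6).2, hm, ← two_mul, pow_mul]; simp) k6 h
  rintro ⟨rfl, h⟩ x hx ⟨z, hz⟩ -
  replace hx := mem_omegaGL.1 hx
  have k1 := commutator_le_self _ hx
  have k2 : ∀ v, (glE x * glE x) v = z • v := fun v => by rw [← map_mul, ← sq, glE_apply, hz]; simp [Matrix.smul_mulVec]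
  refine (fix_of_point h2 k1).2 fun k => ?_
  obtain ⟨k3, k4⟩ := hf.of_TS_fixS h2 hd (by
    ext1 v; rw [k2, h5 z (k2 u ▸ iso_Q (mul_mem k1 k1) u)]; simp) k
  rw [hf.orth_mem_commutator_even h2 h4 k1, dk_eq_rank, k4, (h k3).neg_one_pow] at hx
  exact absurd hx (by decide)

end Cfsg.Agent.H4.CForm
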