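import Cfsg.Agent.H4.Elu1

/-! Quadratic forms polarising to a given symplectic form in even characteristic. -/

set_option autoImplicit false
set_option linter.unusedSectionVars false

namespace Cfsg.Agent.H4.CForm

open Module Submodule

variable {F : Type*} [Field F] [Fintype F] {V : Type*} [AddCommGroup V] [Module F V] [FiniteDimensional F V]
  {f : CForm (FType.orth F) V} {d r : ℕ} {x : V ≃ₗ[F] V}

theorem polar_addSq (h2 : (2 : F) = 0) (a u v : V) :
    QuadraticMap.polar (fun v => f.Q v + f.B v a ^ 2) u v = f.B u v := by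
  simp only [QuadraticMap.polar, B_add_left, f.orth_B_eq u v]
  linear_combination f.B u a * f.B v a * h2

/-- `Q + B(·, a)²` -/
def addSq (h2 : (2 : F) = 0) (f : CForm (FType.orth F) V) (a : V) : CForm (FType.orth F) V :=
  mkQuad (fun v => f.Q v + f.B v a ^ 2) (fun c v => by simp [Q_smul]; ring) (by simp [polar_addSq h2])
    (by simp [polar_addSq h2])

@[simp] theorem addSq_B (h2 : (2 : F) = 0) (a u v : V) : (f.addSq h2 a).B u v = f.B u v := polar_addSq h2 a u v
@[simp] theorem addSq_Q (h2 : (2 : F) = 0) (a v : V) : (f.addSq h2 a).Q v = f.Q v + f.B v a ^ 2 := rfl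

theorem Nondeg.addSq (hf : f.Nondeg) (h2 : (2 : F) = 0) (a : V) : (f.addSq h2 a).Nondeg := fun u h =>
  hf u (by simpa using h)

theorem Nondeg.exists_addSq_fix (hf : f.Nondeg) (h2 : (2 : F) = 0) (hx : x ∈ (f.toSymp h2).iso) (h1 : x * x = 1) :
    ∃ a, x ∈ (f.addSq h2 a).iso := by
  have h3 : ∀ u v, f.B (x u) (x v) = f.B u v := hx.1
  choose s hs using fun v => isSquare_of_two_eq_zero h2 (f.Q (x v) - f.Q v)
  have h4 : ∀ a b : F, a * a = b * b → a = b := fun a b h =>
    (mul_self_eq_mul_self_iff.1 h).elim id fun h => by linear_combination h - b * h2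
  obtain ⟨w, hw⟩ := hf.exists_rep ⟨⟨s, fun u v => h4 _ _ (by
    rw [← hs, map_add, Q_add, Q_add, h3]; linear_combination hs u + hs v - s u * s v * h2)⟩, fun c v => h4 _ _ (by
    rw [← hs, map_smul, Q_smul, Q_smul]; simp; linear_combination c * c * hs v)⟩
  have hf' : (f.toSymp h2).Nondeg := hf
  obtain ⟨a, rfl⟩ : w ∈ rg x := by
    rw [← hf'.perp_perp (rg x), hf'.perp_rg hx, mem_perp']
    exact fun u hu => (hw u).symm.trans (h4 _ _ (by simp [← hs, mem_fixS.1 hu]))
  refine ⟨a, orth_mem_iso.2 fun v => ?_⟩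
  have h5 : s v = f.B v (x a) - f.B v a := by simpa using hw v
  rw [addSq_Q, addSq_Q, ← h3 (x v), show x (x v) = v from congrArg (· v) h1]
  linear_combination hs v + (s v + f.B v (x a) - f.B v a) * h5 + f.B v (x a) * (f.B v (x a) - f.B v a) * h2

theorem Nondeg.exists_addSq_ne (hf : f.Nondeg) (h2 : (2 : F) = 0) (hd : finrank F V = 2 * d) (h0 : d ≠ 0) {b : V}
    (hb : f.Q b ≠ 0) : ∃ c : F, ¬ ((f.addSq h2 (c • b)).wi = d ↔ f.wi = d) := by
  classical
  by_contra! h
  have : Finite V := Module.finite_of_finite F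
  have h4 : ∀ a b : F, a ^ 2 = b ^ 2 → a = b := fun a b h =>
    (sq_eq_sq_iff_eq_or_eq_neg.1 h).elim id fun h => by linear_combination h - b * h2
  have h5 : f.B b b = 0 := by rw [orth_B_self, h2, zero_mul]
  have h1 := Nat.card_congr (Equiv.ofBijective (fun p : Σ c : F, {v // (f.addSq h2 (c • b)).Q v = 0} =>
    if f.B p.2.1 b = 0 then p.2.1 + p.1 • b else p.2.1) ⟨?_, fun v => ?_⟩)
  · rw [Nat.card_sigma, card_vec (F := F), hd] at h1
    have h3 := Fintype.one_lt_card (α := F)
    have h6 : ∀ c : F, (Fintype.card F : ℤ) * (f.addSq h2 (c • b)).cnt 0 = Fintype.card F ^ (2 * d) +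
        (if f.wi = d then 1 else -1) * (Fintype.card F ^ d * (Fintype.card F - 1)) := fun c => by
      have h7 := (hf.addSq h2 (c • b)).orth_cnt
      have := (hf.addSq h2 (c • b)).orth_finrank_le
      have := (hf.addSq h2 (c • b)).two_mul_wi_le
      split_ifs with e
      · rw [(h c).2 e] at h7; linear_combination h7.1 hd
      · have := mt (h c).1 e
        obtain rfl : d = (f.addSq h2 (c • b)).wi + 1 := by omega
        linear_combination Fintype.card F * h7.2.2 (by omega)
    have h7 := Finset.sum_congr (s₁ := Finset.univ) rfl fun c _ => h6 c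
    rw [← Finset.mul_sum, Finset.sum_const, Finset.card_univ, nsmul_eq_mul, ← Nat.cast_sum] at h7
    erw [h1] at h7
    have h8 : (Fintype.card F : ℤ) * (Fintype.card F ^ d * (Fintype.card F - 1)) ≠ 0 := by
      have : (Fintype.card F : ℤ) - 1 ≠ 0 := by omega
      positivity
    split_ifs at h7
    · exact h8 (by push_cast at h7; linear_combination -h7)
    · exact h8 (by push_cast at h7; linear_combination h7)
  · rintro ⟨c, v, hv⟩ ⟨c', v', hv'⟩ k
    simp only [addSq_Q, B_smul_right, FType.orth_σ] at hv hv' k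
    obtain ⟨rfl, rfl⟩ : c = c' ∧ v = v' := by
      split_ifs at k with e e' e'
      · have k1 := congrArg f.Q k
        rw [f.Q_add_of_perp (by simp [e]), f.Q_add_of_perp (by simp [e']), Q_smul, Q_smul] at k1
        simp only [e, e', mul_zero, ne_eq, two_ne_zero, not_false_eq_true, zero_pow, add_zero] at hv hv'
        obtain rfl : c = c' := h4 _ _ (mul_right_cancel₀ hb (by simp only [FType.orth_σ] at k1; linear_combination k1 - hv + hv'))
        exact ⟨rfl, add_right_cancel k⟩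
      · exact absurd (by simp [← k, e, h5]) e'
      · exact absurd (by simp [k, e', h5]) e
      · subst k
        exact ⟨mul_right_cancel₀ e (h4 _ _ (by linear_combination hv - hv')), rfl⟩
    rfl
  by_cases e : f.B v b = 0
  · obtain ⟨c, hc⟩ := isSquare_of_two_eq_zero h2 (f.Q v / f.Q b)
    refine ⟨⟨c, v - c • b, ?_⟩, by simp [e, h5]⟩
    rw [addSq_Q, sub_eq_add_neg, f.Q_add_of_perp (by simp [e]), Q_neg, Q_smul]
    simp [e, h5, ← hc, hb]; linear_combination f.Q v * h2
  · obtain ⟨c, hc⟩ := isSquare_of_two_eq_zero h2 (f.Q v / f.B v b ^ 2)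
    refine ⟨⟨c, v, ?_⟩, by simp [e]⟩
    simp [mul_pow, sq c, ← hc, e]; linear_combination f.Q v * h2

theorem Nondeg.exists_ad (hf : f.Nondeg) (h2 : (2 : F) = 0) (hd : finrank F V = 2 * d) (k : f.wi = d) (he : Even d) :
    ∃ x ∈ f.iso, x * x = 1 ∧ f.TS (fixS x) := by
  obtain ⟨m, hm⟩ := he
  obtain ⟨e, he⟩ := hf.isom_plusF hd k
  let φ : (Fin d ⊕ Fin d → F) →ₗ[F] (Fin d ⊕ Fin d → F) :=
    LinearMap.id + LinearMap.pi (Sum.elim (fun i => LinearMap.proj (.inr i.rev)) 0)
  have k1 : ∀ v i, φ v (.inl i) = v (.inl i) + v (.inr i.rev) := fun _ _ => rfl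
  have k2 : ∀ v i, φ v (.inr i) = v (.inr i) := fun _ _ => add_zero _
  have k3 : Function.Involutive φ := fun v => funext fun i => by
    rcases i with i | i <;> simp [k1, k2]; linear_combination v (.inr i.rev) * h2
  have k4 : LinearEquiv.ofInvolutive φ k3 ∈ (plusF F d).iso := orth_mem_iso.2 fun v => by
    show quadFormPlus d F (φ v) = quadFormPlus d F v
    simp only [quadFormPlus, k1, k2, add_mul, Finset.sum_add_distrib, add_eq_left]
    exact Finset.sum_involution (fun i _ => i.rev) (fun i _ => by simp; linear_combination v (.inr i.rev) * v (.inr i) * h2)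
      (fun i _ _ h => by have := congrArg Fin.val h; have := i.2; simp at *; omega) (by simp) (by simp)
  have k5 : fixS (LinearEquiv.ofInvolutive φ k3) = inlSub F d := Submodule.ext fun v => by
    simp only [mem_fixS, mem_inlSub, LinearEquiv.coe_ofInvolutive, funext_iff, Sum.forall, k1, k2, add_eq_left]
    exact ⟨fun h i => by simpa using h.1 i.rev, fun h => by simp [h]⟩
  refine ⟨_, he.symm.conjE_mem.1 k4, by ext1 v; simp [k3 _], orth_TS_iff.2 fun v hv => ?_⟩
  rw [← he.Q]
  exact (plusF_TS_inlSub d).1 _ (k5.le (e.symm.injective (by simpa [mem_fixS] using hv)))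

theorem Nondeg.conj_iso_iff (hf : f.Nondeg) (h2 : (2 : F) = 0) (hd : finrank F V = 2 * d) :
    (∃ g ∈ (f.toSymp h2).iso, g⁻¹ * x * g ∈ f.iso) ↔ ∃ f' : CForm (FType.orth F) V, (∀ u v, f'.B u v = f.B u v) ∧
      (f'.wi = d ↔ f.wi = d) ∧ x ∈ f'.iso := by
  refine ⟨fun ⟨g, h1, h3⟩ => ⟨f.comap (g⁻¹ : V ≃ₗ[F] V), (inv_mem h1).1, by rw [(isom_comap _).wi_eq],
    orth_mem_iso.2 fun v => by simpa using h3.2 (g⁻¹ v)⟩, fun ⟨f', h1, h3, h4⟩ => ?_⟩
  have hf' : f'.Nondeg := fun u h => hf u (by simpa [h1] using h)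
  obtain ⟨e, he⟩ := hf.orth_isom_even hf' ⟨d, by omega⟩ rfl (by
    have := hf.orth_finrank_le
    have := hf.two_mul_wi_le
    have := hf'.orth_finrank_le
    have := hf'.two_mul_wi_le
    omega)
  exact ⟨e, symp_mem_iso.2 fun u v => (h1 _ _).symm.trans (he.B u v), he.symm.conjE_mem.1 h4⟩

theorem Nondeg.elusive_sp [Fact r.Prime] (hf : f.Nondeg) (h2 : (2 : F) = 0) (hd : finrank F V = 2 * d) (h0 : d ≠ 0)
    (h4 : N24 F V) (hr : r ∣ f.iso.relIndex (f.toSymp h2).iso) :
    (∀ x ∈ (f.toSymp h2).iso, (∃ z : F, ∀ v, (x ^ r) v = z • v) → (∀ z : F, ¬ ∀ v, x v = z • v) →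
      ∃ g ∈ (f.toSymp h2).iso, g⁻¹ * x * g ∈ f.iso) ↔ r = 2 ∧ (f.wi = d ∨ Odd d) := by
  simp only [hf.conj_iso_iff h2 hd]
  have nd : ∀ f' : CForm (FType.orth F) V, (∀ u v, f'.B u v = f.B u v) → f'.Nondeg := fun f' h1 u h =>
    hf u (by simpa [h1] using h)
  obtain ⟨b, hb⟩ := hf.orth_represents (by omega) 1
  obtain ⟨w, hw⟩ := hf.exists_B_eq (v := b) (by rintro rfl; simp at hb) 1
  have sc : ∀ x ∈ (f.toSymp h2).iso, ∀ z : F, (∀ v, x v = z • v) → x = 1 := fun x hx z h => by
    have : z * z = 1 := by simpa [h, hw] using hx.1 b w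
    ext1 v
    rw [h, (mul_self_eq_one_iff.1 this).elim id fun h => by linear_combination h - h2]; simp
  obtain ⟨c, hc⟩ := hf.exists_addSq_ne h2 hd h0 (b := b) (by simp [hb])
  have le : ∀ a, (f.addSq h2 a).iso ≤ (f.toSymp h2).iso := fun a x hx => symp_mem_iso.2 (by simpa using hx.1)
  refine ⟨fun h => ?_, ?_⟩
  · obtain rfl : r = 2 := by_contra fun e => by
      have h5 := neg_one_ne_one_zmod e
      have h6 : (Fintype.card F : ZMod r) ^ d = if (f.addSq h2 (c • b)).wi = d then 1 else -1 := by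
        have k1 := (f.iso.subgroupOf (f.toSymp h2).iso).card_mul_index
        rw [Nat.card_congr (Subgroup.subgroupOfEquivOfLe (H := f.iso) (K := (f.toSymp h2).iso) fun x hx => symp_mem_iso.2 hx.1).toEquiv,
          Nondeg.symp_card_iso (f := f.toSymp h2) hf hd] at k1
        obtain ⟨d, rfl⟩ := Nat.exists_eq_add_one_of_ne_zero h0
        replace k1 := congrArg (Nat.cast : ℕ → ℤ) k1
        rw [Nat.cast_mul, Nat.cast_mul, cast_prod_sub_one, Finset.prod_range_succ] at k1
        have k2 := Fintype.one_lt_card (α := F)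
        have k3 : ∏ i ∈ Finset.range d, ((Fintype.card F : ℤ) ^ (2 * (i + 1)) - 1) ≠ 0 := Finset.prod_ne_zero_iff.2 fun i _ =>
          (sub_pos.2 (one_lt_pow₀ (by exact_mod_cast k2) (by omega))).ne'
        have k4 := (sub_pos.2 (one_lt_pow₀ (show (1 : ℤ) < Fintype.card F by exact_mod_cast k2) h0)).ne'
        have k5 : (Fintype.card F : ZMod r) ≠ 0 := by
          obtain ⟨k, -, hk⟩ := FiniteField.card F (ringChar F)
          rw [hk, ringChar_eq_two h2, Ne, ZMod.natCast_eq_zero_iff]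
          exact fun h => e ((Nat.prime_dvd_prime_iff_eq Fact.out Nat.prime_two).1 ((Fact.out : r.Prime).dvd_of_dvd_pow h))
        obtain ⟨t, ht⟩ := hr
        rw [show (f.iso.subgroupOf (f.toSymp h2).iso).index = r * t from ht] at k1
        have := hf.orth_finrank_le
        have := hf.two_mul_wi_le
        by_cases k : f.wi = d + 1
        · rw [hf.orth_card_iso_int.1 d k hd] at k1
          have k6 := congrArg (Int.cast : ℤ → ZMod r) (mul_left_cancel₀ (mul_ne_zero (mul_ne_zero k3 k4)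
            (pow_ne_zero ((d + 1) * d) (show (Fintype.card F : ℤ) ≠ 0 by omega))) (show _ * (2 * (r * t : ℤ)) =
              _ * (Fintype.card F ^ (d + 1) * (Fintype.card F ^ (d + 1) + 1)) by push_cast at k1; linear_combination k1))
          simpa [k5, add_eq_zero_iff_eq_neg, mt (iff_of_true · k) hc] using k6.symm
        · obtain rfl : d = f.wi := by omega
          rw [hf.orth_card_iso_int.2.2 (by omega)] at k1
          have k6 := congrArg (Int.cast : ℤ → ZMod r) (mul_left_cancel₀ (mul_ne_zero (mul_ne_zero k3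
            (show (Fintype.card F : ℤ) ^ (f.wi + 1) + 1 ≠ 0 by positivity))
            (pow_ne_zero ((f.wi + 1) * f.wi) (show (Fintype.card F : ℤ) ≠ 0 by omega))) (show _ * (2 * (r * t : ℤ)) =
              _ * (Fintype.card F ^ (f.wi + 1) * (Fintype.card F ^ (f.wi + 1) - 1)) by
                push_cast at k1; linear_combination k1))
          simpa [k5, sub_eq_zero, not_not.1 (mt (iff_of_false · k) hc)] using k6.symm
      obtain ⟨x, k1, k2, k3⟩ := (hf.addSq h2 _).exists_fpf h2 hd h0 e (((hf.addSq h2 _).pow_eq_of_dvd h2 hd e).2 h6)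
      obtain ⟨f', k4, k5, k6⟩ := h x (le _ k1) ⟨1, by simp [k2]⟩ fun z hz => by
        simpa [show b = 0 from k3.le (by simp [sc x (le _ k1) z hz])] using hb
      rw [((nd f' k4).pow_eq_of_dvd h2 hd e).1 (dvd_cnt k6 k2 k3)] at h6
      split_ifs at h6 <;> first | tauto | exact h5 h6.symm
    refine ⟨rfl, by_contra fun k => ?_⟩
    rw [not_or, Nat.not_odd_iff_even] at k
    obtain ⟨x, k1, k2, k3⟩ := (hf.addSq h2 (c • b)).exists_ad h2 hd (by tauto) k.2
    obtain ⟨k4, k5⟩ := (hf.addSq h2 _).of_TS_fixS h2 hd k2 k3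
    obtain ⟨f', k6, k7, k8⟩ := h x (le _ k1) ⟨1, by simp [sq, k2]⟩ fun z hz => by
      rw [sc x (le _ k1) z hz, rg_eq_bot.2 rfl, finrank_bot] at k5; omega
    have k9 := (show f'.TS (rg x) from orth_TS_iff.2 (by
      rintro _ ⟨v, rfl⟩
      have := k3.1 _ (rg_le_fixS h2 k2 (sub_mem_rg x v))
      show f'.Q (x v - v) = 0
      simp only [sub_eq_add_neg, neg_of_two h2, Q_add, iso_Q k1, iso_Q k8, k6, FType.orth_τ] at this ⊢
      rw [addSq_B] at this
      linear_combination this + (f'.Q v - (f.addSq h2 (c • b)).Q v) * h2)).le_wi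
    have := (nd f' k6).two_mul_wi_le
    exact k.1 (k7.1 (by omega))
  rintro ⟨rfl, h⟩ x hx ⟨z, hz⟩ -
  have k1 : x * x = 1 := sq x ▸ sc _ (pow_mem hx 2) z hz
  obtain ⟨a, ha⟩ := hf.exists_addSq_fix h2 hx k1
  by_cases k2 : (f.addSq h2 a).wi = d ↔ f.wi = d
  · exact ⟨_, by simp, k2, ha⟩
  by_cases k3 : (f.addSq h2 a).TS (fixS x)
  · obtain ⟨k4, k5⟩ := (hf.addSq h2 a).of_TS_fixS h2 hd k1 k3
    have := finrank_fixS_add_rank x
    have k6 := (hf.addSq h2 a).dk_of_stab h4 k3 (by simp only [rg] at k5; omega) ha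
      (mem_stab_iff_le.2 fun v hv => by rwa [mem_fixS.1 hv])
    rw [dk_eq_rank, k5, (h.resolve_left (by tauto)).neg_one_pow] at k6
    exact absurd k6 (by decide)
  simp only [orth_TS_iff, not_forall] at k3
  obtain ⟨b, k3, k4⟩ := k3
  obtain ⟨c, k5⟩ := (hf.addSq h2 a).exists_addSq_ne h2 hd h0 k4
  refine ⟨_, by simp, (by tauto : ((f.addSq h2 a).addSq h2 (c • b)).wi = d ↔ _), orth_mem_iso.2 fun v => ?_⟩
  rw [addSq_Q, addSq_Q _ _ v, iso_Q ha, ← iso_B ha v, x.map_smul, mem_fixS.1 k3]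

end Cfsg.Agent.H4.CForm
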