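import Cfsg.Agent.H4.Sim

/-! Extension field subgroups of symplectic type in symplectic groups. -/

namespace Cfsg.Agent.H4.Ex
open Module Submodule CForm

variable {F K : Type*} [Field F] [Field K] [Algebra F K] {V : Type*} [AddCommGroup V] [Module F V]
  [Module K V] [IsScalarTower F K V]

theorem tr_ext {τ : K →ₗ[F] F} (hτ : τ ≠ 0) {a b : K} (h : ∀ k, τ (k * a) = τ (k * b)) : a = b :=
  by_contra fun e => hτ (LinearMap.ext fun k => by
    have := h (k / (a - b))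
    rw [← sub_eq_zero, ← map_sub, ← mul_sub, div_mul_cancel₀ _ (sub_ne_zero.2 e)] at this
    exact this)

/-- `f` is the "trace" of `b` -/
structure TrF {T : FType F} {T' : FType K} (τ : K →ₗ[F] F) (f : CForm T V) (b : CForm T' V) : Prop where
  ne : τ ≠ 0
  eq : ∀ (k : K) x y, τ (k * b.B x y) = f.B (k • x) y

theorem exists_tr [FiniteDimensional F K] {T : FType F} {τ : K →ₗ[F] F} (hτ : τ ≠ 0) (f : CForm T V) :
    ∃ b : V → V → K, (∀ x y z, b (x + y) z = b x z + b y z) ∧ (∀ (a : K) x y, b (a • x) y = a * b x y) ∧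
      ∀ (k : K) x y, τ (k * b x y) = f.B (k • x) y := by
  choose ψ h using fun y => exists_psi hτ (f.fn y)
  exact ⟨fun x y => ψ y x, by simp, by simp, fun k x y => h y k x⟩

namespace TrF
variable {T : FType F} {T' : FType K} {τ : K →ₗ[F] F} {f : CForm T V} {b : CForm T' V} (h : TrF τ f b)
include h

theorem B (x y : V) : f.B x y = τ (b.B x y) := by simpa using (h.eq 1 x y).symm

theorem nondeg (hf : f.Nondeg) : b.Nondeg := fun x hx => hf x fun y => by simp [h.B, hx]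

theorem rs_B {g : V ≃ₗ[K] V} (hg : g ∈ b.iso) (x y : V) : f.B (g x) (g y) = f.B x y := by
  rw [h.B, h.B, iso_B hg]

end TrF

variable [Fintype F] [Finite K] [FiniteDimensional F V] {M : Subgroup (V ≃ₗ[F] V)}

theorem exists_maxpair (h2 : 2 ≤ finrank K V) (h : ¬ M ≤ NK F K V) : ∃ g ∈ M, ∃ p v : V, p ≠ 0 ∧ v ≠ 0 ∧
    ∃ W, (pt F K p).map (g : V →ₗ[F] V) = W ∧ pt F K v ≠ W ∧ ∃ x, x ≠ 0 ∧ x ∈ pt F K v ⊓ W ∧ ∀ a ∈ M,
      finrank F (pt F K v ⊓ W :) < finrank F (W ⊓ W.map (a : V →ₗ[F] V) :) → W = W.map (a : V →ₗ[F] V) := by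
  obtain ⟨g, hg, hg'⟩ := SetLike.not_le_iff_exists.1 h
  obtain ⟨v, k, hk⟩ : ∃ v k, g (k • v) ∉ pt F K (g v) := by
    by_contra! e; exact hg' (mem_NK_of_pts h2 e)
  have v0 : v ≠ 0 := by rintro rfl; simp at hk
  let P : Submodule F V → Prop := fun W => ∃ g ∈ M, ∃ v, v ≠ 0 ∧ (pt F K v).map (g : V →ₗ[F] V) = W
  have Pm : ∀ a ∈ M, ∀ W, P W → P (W.map (a : V →ₗ[F] V)) := by
    rintro a ha _ ⟨g, hg, v, hv, rfl⟩
    exact ⟨a * g, mul_mem ha hg, v, hv, map_comp _ _ _⟩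
  obtain ⟨_, B, ⟨a, ha, u, hu, rfl⟩, hB, h3, h4, h5⟩ := exists_max (P := P) ⟨1, one_mem _, g v, by simpa, map_id _⟩
    ⟨g, hg, v, v0, rfl⟩ fun e => hk (e.ge (mem_map_of_mem (smul_mem_pt k v)))
  obtain ⟨b, hb, p, hp, hW⟩ := Pm _ (inv_mem ha) _ hB
  have e1 : finrank F (pt F K u ⊓ B.map ((a⁻¹ : V ≃ₗ[F] V) : V →ₗ[F] V) :) =
      finrank F ((pt F K u).map (a : V →ₗ[F] V) ⊓ B :) := by
    rw [← a⁻¹.finrank_map_eq ((pt F K u).map _ ⊓ B), map_inf _ a⁻¹.injective, mapi]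
  obtain ⟨x, hx, x0⟩ := exists_notMem_of_finrank_lt (U := ⊥)
    (W := pt F K u ⊓ B.map ((a⁻¹ : V ≃ₗ[F] V) : V →ₗ[F] V)) (by
      rw [e1, finrank_bot]
      refine lt_of_lt_of_le (Nat.pos_of_ne_zero fun e => v0 ?_) h4
      simpa using (finrank_eq_zero.1 e).le ⟨self_mem_pt (g v), mem_map_of_mem (self_mem_pt v)⟩)
  refine ⟨b, hb, p, u, hp, hu, _, hW, fun e => h3 ?_, x, by simpa using x0, hx, fun c hc e =>
    h5 _ _ (Pm _ (inv_mem ha) _ hB) (Pm _ hc _ (Pm _ (inv_mem ha) _ hB)) (e1 ▸ e)⟩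
  rw [e]; exact mapi a⁻¹ B

omit [Fintype F] [Finite K] in
theorem fullT_of [Finite F] {f : CForm (FType.symp F) V} {p : V} {c : F} (hc : c ≠ 0)
    (h : ∀ a : F, f.tv (a • p) c ∈ M) : f.FullT M p := fun t => by
  obtain ⟨x, y, rfl⟩ := exists_binary_eq hc hc t
  rw [← tv_mul_tv (symp_B_self f p)]
  exact mul_mem (by simpa [tv_smul, pow_two, mul_comm] using h x) (by simpa [tv_smul, pow_two, mul_comm] using h y)

namespace TrF
variable {τ : K →ₗ[F] F} {f : CForm (FType.symp F) V} {b : CForm (FType.symp K) V} (h : TrF τ f b)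
  (hf : f.Nondeg) (hM : NK F K V ⊓ f.iso ≤ M)
include h hM

omit [Fintype F] [Finite K] [FiniteDimensional F V] in
theorem rs_mem {g : V ≃ₗ[K] V} (hg : g ∈ b.iso) : rs F g ∈ M := hM ⟨rs_mem_NK g, symp_mem_iso.2 (h.rs_B hg)⟩

omit hM [Fintype F] [Finite K] [FiniteDimensional F V] in
theorem eq' (k : K) (x y : V) : τ (k * b.B x y) = f.B x (k • y) := by rw [h.B]; simp

include hf

theorem iso_of_tv {p : V} (hp : p ≠ 0) {c : F} (hc : c ≠ 0) (ht : f.tv p c ∈ M) : f.iso ≤ M := by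
  haveI := Module.Finite.of_restrictScalars_finite F K V
  refine hf.symp_iso_le fun x => fullT_of hc fun a => ?_
  by_cases e : a • x = 0
  · simp [e]
  obtain ⟨g, hg, e'⟩ := (h.nondeg hf).witt_vec hp e (by rw [symp_Q, symp_Q])
  rw [← e', ← rs_apply (F := F), ← tv_conj (symp_mem_iso.2 (h.rs_B hg))]
  exact mul_mem (mul_mem (h.rs_mem hM hg) ht) (inv_mem (h.rs_mem hM hg))

theorem special (hτ : ∀ k, algebraMap F K (τ k) = k + k ^ 2) (c2 : (2 : K) = 0) (k4 : ∀ k : K, k ^ 4 = k)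
    (h3 : 3 ≤ finrank K V) (hM' : M ≤ f.iso) {ω : K} (hω : ω ^ 2 + ω + 1 = 0) {g : V ≃ₗ[F] V} (hg : g ∈ M)
    {x : V} (he : g (ω • x) ∉ span K {g x}) : f.iso ≤ M := by
  haveI := Module.Finite.of_restrictScalars_finite F K V
  have hb := h.nondeg hf
  have f0 : ∀ (k : K) y, f.B (k • y) y = 0 := fun k y => by simp [← h.eq, symp_B_self]
  have hτ' : ∀ k (v : V), τ k • v = (k + k ^ 2) • v := fun k v => by rw [← hτ, algebraMap_smul]
  have h1 : f.eich x (ω • x) 1 = rs F (b.tv x 1) := LinearEquiv.ext fun y => by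
    rw [(symp_eichOk (f0 _ _) 1).apply, rs_apply, symp_tv_apply, ← h.eq', h.B, hτ', hτ']
    have := k4 (b.B y x)
    simp only [FType.symp_ε]
    match_scalars <;> grind
  have h2 := mul_mem (mul_mem hg (h1 ▸ h.rs_mem hM (symp_tv_mem_iso x 1))) (inv_mem hg)
  rw [eich_conj (hM' hg)] at h2
  have e0 : f.B (g (ω • x)) (g x) = 0 := by rw [iso_B (hM' hg), f0]
  have p0 : g x ≠ 0 := fun e => he (by simp [show x = 0 by simpa using e])
  generalize g x = p at *
  generalize g (ω • x) = e at *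
  have orb : ∀ e', e' ∉ span K {p} → b.B e' p = b.B e p → f.eich p e' 1 ∈ M := fun e' a1 a2 => by
    obtain ⟨s, hs, s1, rfl⟩ := hb.witt_core (span K {p}) he a1 (by rw [symp_Q, symp_Q]) fun y hy => by
      obtain ⟨k, rfl⟩ := mem_span_singleton.1 hy
      simp [symp_skew b e' p, symp_skew b e p, a2]
    have := mul_mem (mul_mem (h.rs_mem hM hs) h2) (inv_mem (h.rs_mem hM hs))
    rwa [eich_conj (symp_mem_iso.2 (h.rs_B hs)), rs_apply, s1 _ (mem_span_singleton_self p)] at this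
  have F2 : (2 : F) = 0 := (algebraMap F K).injective (by rw [map_ofNat, c2, map_zero])
  have pp := symp_B_self f p
  have fin : ∀ u c, f.B u p = 0 → f.eich p u c ∈ M → f.eich p u (c + 1) ∈ M → f.iso ≤ M := fun u c a1 a2 a3 => by
    refine h.iso_of_tv hf hM p0 (c := -1) (by simp) ?_
    have := mul_mem (inv_mem a2) a3
    rw [eich_inv pp a1, eich_mul pp (by simp [a1]) a1] at this
    rw [← eich_zero_eq_tv pp]
    simpa [symp_B_self] using this
  have ω0 : ω ≠ 0 := by rintro rfl; simp at hω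
  have nm : ∀ {y} {k : K}, k ≠ 0 → y ∉ span K {p} → k • y ∉ span K {p} := fun k0 a1 a2 =>
    a1 ((smul_mem_iff _ k0).1 a2)
  by_cases e1 : b.B e p = 0
  · have a1 : ∀ k : K, f.B (k • e) p = 0 := fun k => by simp [← h.eq, e1]
    refine fin (e + ω • e) 1 (by simp [e0, a1]) ?_ ?_
    · exact orb _ (by rw [show e + ω • e = (1 + ω) • e by module]; exact nm (by grind) he) (by simp [e1])
    · simpa [f0, eich_mul pp e0 (a1 ω)] using mul_mem h2 (orb _ (nm ω0 he) (by simp [e1]))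
  obtain ⟨w, hw, hw'⟩ := hb.exists_pair p0 (symp_Q _ _)
  have := hb.finrank_perp_pair (symp_Q b p) (w := w) (by simp [hw'])
  obtain ⟨u, hu, u0⟩ := exists_notMem_of_finrank_lt (U := ⊥) (W := b.perp (span K {p, w})) (by
    rw [finrank_bot]; omega)
  obtain ⟨u', hu', a1⟩ := exists_partner_of_nondeg (hb.perp_inf_perp_perp (pair_nondeg (symp_Q _ _) hw (by
    simp [hw']))) hu (by simpa using u0) (symp_Q _ _)
  have u1 := (b.mem_perp_pair.1 hu).1
  have u2 := (b.mem_perp_pair.1 hu').1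
  have o : ∀ z, b.B z p = 0 → f.eich p (e + z) 1 ∈ M := fun z hz => orb _ (fun hh => by
    obtain ⟨k, hk⟩ := mem_span_singleton.1 hh
    have := congrArg (b.B · p) hk
    simp [symp_B_self, hz] at this; exact e1 this.symm) (by simp [hz])
  have f1 : f.B u p = 0 := by simp [h.B, u1]
  have f2 : f.B (ω • u') p = 0 := by simp [← h.eq, u2]
  have f3 : f.B u (ω • u') = 1 := (algebraMap F K).injective (by rw [← h.eq', a1.2, hτ, map_one]; grind)
  have m1 := mul_mem h2 (o u u1)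
  have m2 := mul_mem (o (ω • u') (by simp [u2])) (o (ω • u' + u) (by simp [u1, u2]))
  rw [eich_mul pp e0 (by simp [e0, f1])] at m1
  rw [eich_mul pp (by simp [e0, f2]) (by simp [e0, f1, f2])] at m2
  have two : ∀ y : V, y + y = 0 := fun y => by rw [← two_smul F, F2, zero_smul]
  refine fin u (1 + 1 - f.B u e - 1) f1 ?_ ?_
  · convert m2 using 2
    · linear_combination (norm := abel) -two e - two (ω • u')
    · simp [symp_B_self, f3, symp_skew f e (ω • u')]; ring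
  · convert m1 using 2
    · linear_combination (norm := abel) -two e
    · simp [symp_B_self]; ring

theorem sp_pair (hr : (finrank F K).Prime) (hq : 3 ≤ finrank F K ∨ ∃ c : F, c ≠ 0 ∧ c ≠ 1) (hM' : M ≤ f.iso)
    {g : V ≃ₗ[F] V} (hg : g ∈ M) {p v : V} (hp : p ≠ 0) (hv : v ≠ 0) {W : Submodule F V}
    (hW : (pt F K p).map (g : V →ₗ[F] V) = W) (hne : pt F K v ≠ W) {x₀ : V} (h0 : x₀ ≠ 0)
    (hx₀ : x₀ ∈ pt F K v ⊓ W) (hmax : ∀ a ∈ M, finrank F (pt F K v ⊓ W :) <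
      finrank F (W ⊓ W.map (a : V →ₗ[F] V) :) → W = W.map (a : V →ₗ[F] V)) : f.iso ≤ M := by
  haveI := Module.Finite.of_restrictScalars_finite F K V
  have hb := h.nondeg hf
  have dW : finrank F W = finrank F K := by rw [← hW, LinearEquiv.finrank_map_eq, finrank_pt hp]
  have hJ : pt F K v ⊓ W < pt F K v := lt_of_le_of_ne inf_le_left fun e =>
    hne (eq_of_le_of_finrank_eq (inf_eq_left.1 e) (by rw [dW, finrank_pt hv]))
  have st : ∀ w ∈ W, w ∉ pt F K v → ∀ a ∈ M, (∀ x ∈ pt F K v ⊓ W, a x = x) → a w ∈ W → ∀ y ∈ W, a y ∈ W :=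
    fun w hw hw' a ha a1 a2 y hy => (hmax a ha (lt_finrank_inf_map inf_le_right hw (fun h => hw' h.1)
      (fun x hx => (a1 x hx).symm ▸ hx.2) a2)).ge (mem_map_of_mem hy)
  have inF : ∀ w ∈ W, w ∉ pt F K v → ∀ ψ : V →ₗ[K] K, ψ v = 0 → ψ w = 1 →
      (∀ x ∈ pt F K v ⊓ W, ∃ a ∈ M, ∀ y ∈ W, a y = y + ψ y • x) → ∀ y ∈ W, ∃ c : F, algebraMap F K c = ψ y :=
    fun w hw hw' ψ h1 h2 h3 y hy => mem_bot_of_stab hr hJ hx₀ h0 fun x hx => by
      obtain ⟨a, ha, e⟩ := h3 x hx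
      exact ⟨by obtain ⟨k, rfl⟩ := mem_pt.1 hx.1; rw [smul_smul]; exact smul_mem_pt _ _, by
        simpa [e y hy] using sub_mem (st w hw hw' a ha (fun z hz => by simp [e z hz.2, ker_pt hz.1 h1])
          (by simpa [e w hw, h2] using add_mem hw hx.2) y hy) hy⟩
  obtain ⟨ω, hω⟩ := exists_notMem_bot hr.two_le
  obtain ⟨w, hw, hw', ψ, ψ1, ψ2, hA, hK⟩ : ∃ w ∈ W, w ∉ pt F K v ∧ ∃ ψ : V →ₗ[K] K, ψ v = 0 ∧ ψ w = 1 ∧
      (∀ x ∈ pt F K v ⊓ W, ∃ a ∈ M, ∀ y ∈ W, a y = y + ψ y • x) ∧ ∀ y ∈ W, ψ y = 0 → y ∈ pt F K v := by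
    by_cases e : ∃ w ∈ W, w ∉ pt F K v ∧ b.B w v = 0
    · obtain ⟨w, hw, hw', e⟩ := e
      have a1 : ∀ y ∈ W, b.B y v = 0 := fun y hy => by_contra fun e' => hJ.not_ge fun z hz => ⟨hz, by
        obtain ⟨k, rfl⟩ := mem_pt.1 hz
        simpa [symp_tv_apply, e'] using sub_mem (st w hw hw' _ (h.rs_mem hM (symp_tv_mem_iso v (k / b.B y v)))
          (fun x hx => tv_fix _ (ker_pt hx.1 (ψ := b.fn v) (symp_B_self b v))) ((tv_fix _ e).symm ▸ hw :) y hy) hy⟩
      have a2 : ∀ ψ : V →ₗ[K] K, ψ v = 0 → ∀ x ∈ pt F K v ⊓ W, ∃ a ∈ M, ∀ y ∈ W, a y = y + ψ y • x := by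
        intro ψ h1 x hx
        obtain ⟨u, hu⟩ := hb.exists_rep ψ
        obtain ⟨k, rfl⟩ := mem_pt.1 hx.1
        have := symp_eichOk (f := b) (u := k • v) (v := u) (by simp [symp_skew b v u, ← hu, h1]) 0
        exact ⟨_, h.rs_mem hM this.mem_iso, fun y hy => by simp [this.apply, a1 y hy, hu]⟩
      obtain ⟨ψ, ψ1, ψ2⟩ := exists_dual_pair (F := K) (u := v) (v := w) hw' 1
      refine ⟨w, hw, hw', ψ, ψ1, ψ2, a2 ψ ψ1, fun y hy e1 => ?_⟩
      by_cases e : y ∈ span K {v} ⊔ span K {w}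
      · obtain ⟨z, hz, b, rfl⟩ := mem_sup_span_singleton.1 e
        simp [ker_pt (F := F) hz ψ1, ψ2] at e1
        simpa [e1, pt] using hz
      · obtain ⟨ψ', a3, a4, a5⟩ := exists_dual_two (U := span K {v}) hw' e 1 ω
        have a6 := a3 _ (mem_span_singleton_self v)
        obtain ⟨c, hc⟩ := inF w hw hw' ψ' a6 a4 (a2 _ a6) _ hy
        exact absurd (hc.trans a5) (hω c)
    push Not at e
    obtain ⟨w, hw, hw'⟩ : ∃ w ∈ W, w ∉ pt F K v := by
      by_contra! h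
      exact hne (eq_of_le_of_finrank_eq h (by rw [dW, finrank_pt hv])).symm
    have a1 := e w hw hw'
    refine ⟨w, hw, hw', (b.B w v)⁻¹ • b.fn v, by simp [symp_B_self], by simp [a1], fun x hx => ?_,
      fun y hy e1 => by_contra fun e2 => e y hy e2 (by simpa [a1] using e1)⟩
    obtain ⟨k, rfl⟩ := mem_pt.1 hx.1
    exact ⟨_, h.rs_mem hM (symp_tv_mem_iso v (k / b.B w v)), fun y _ => by
      simp [symp_tv_apply, smul_smul]; congr 1; ring⟩
  replace inF := inF w hw hw' ψ ψ1 ψ2 hA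
  obtain ⟨τ₁, hτ⟩ := exists_dual_of_ne (F := F) (one_ne_zero (α := K)) 1
  have gW : ∀ y ∈ W, g⁻¹ y ∈ pt F K p := fun y hy => mem_map_equiv'.1 (hW.ge hy)
  have Wg : ∀ y ∈ pt F K p, g y ∈ W := fun y hy => hW.le (mem_map_of_mem hy)
  let φ : V →ₗ[F] F := tc τ₁ ψ ∘ₗ g
  have hφ : ∀ y ∈ pt F K p, ψ (g y) = algebraMap F K (φ y) := fun y hy => by
    obtain ⟨c, hc⟩ := inF _ (Wg y hy)
    simp [φ, ← hc, Algebra.algebraMap_eq_smul_one, hτ]
  have φw : φ (g⁻¹ w) = 1 := by simp [φ, ψ2, hτ]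
  obtain ⟨s, hs⟩ := exists_psi h.ne φ
  have s0 : s p ≠ 0 := fun e => by
    obtain ⟨k, hk⟩ := mem_pt.1 (gW w hw)
    simp [← hk, ← hs, e] at φw
  have hS : ∀ x ∈ pt F K p, φ x = 0 → ∀ z ∈ pt F K p, (f.fn x).smulRight z + (f.fn z).smulRight x +
      φ z • (f.fn x).smulRight x ∈ Lam M (pt F K p) := fun x hx e z hz => by
    obtain ⟨a, ha, a1⟩ := hA (g x) ⟨hK _ (Wg x hx) (by simp [hφ x hx, e]), Wg x hx⟩
    have a2 : ∀ y ∈ pt F K p, (g⁻¹ * a * g) y = y + φ y • x := fun y hy => by simp [a1 _ (Wg y hy), hφ y hy]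
    have aM := mul_mem (mul_mem (inv_mem hg) ha) hg
    generalize g⁻¹ * a * g = a at a2 aM
    obtain ⟨k, rfl⟩ := mem_pt.1 hz
    have l : (((k / s p) • b.fn p).smulRight p).restrictScalars F ∈ Lam M (pt F K p) :=
      ⟨fun y => smul_mem_pt _ _, fun y hy => by simp [ker_pt hy (ψ := b.fn p) (symp_B_self b p), -fn_apply], _,
        h.rs_mem hM (symp_tv_mem_iso p (k / s p)), fun y => by simp [symp_tv_apply]⟩
    have a3 : ∀ y, ∀ z ∈ pt F K p, f.B (a y) z = f.B y z - φ z * f.B y x := fun y z hz => by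
      have e1 := iso_B (hM' aM) y z
      have e2 := iso_B (hM' aM) y x
      rw [a2 z hz] at e1; rw [a2 x hx] at e2
      simp [e] at e1 e2
      rw [← e1, e2]; ring
    have a4 : ∀ y, b.B (a y) p = b.B y p - f.B y x • s p := fun y => tr_ext h.ne fun k => by
      rw [mul_sub, map_sub, h.eq', h.eq', a3 _ _ (smul_mem_pt k p), mul_smul_comm, τ.map_smul, hs]; simp [mul_comm]
    have := Lam.conj' l aM (map_eq_of_le (fun y hy => by rw [a2 y hy]; exact add_mem hy (smul_mem _ _ hx)) le_rfl)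
      (ρ' := (((k / s p) • b.fn p).smulRight p).restrictScalars F + ((f.fn x).smulRight (k • p) +
        (f.fn (k • p)).smulRight x + φ (k • p) • (f.fn x).smulRight x)) fun y => by
        have : φ ((k / s p * b.B y p) • p) = f.B y (k • p) := by
          rw [← hs, ← h.eq']; congr 1; field_simp
        simp only [LinearMap.add_apply, LinearMap.restrictScalars_apply, LinearMap.smulRight_apply,
          LinearMap.smul_apply, fn_apply, a2 _ (smul_mem_pt _ _), smul_eq_mul, this, a4, a3 _ _ hx,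
          a3 _ _ (smul_mem_pt k p), e]
        match_scalars
        · simp only [Algebra.smul_def]; field_simp; simp
        · ring
    simpa using sub_mem this l
  have x1 := gW _ hx₀.2
  have x2 : φ (g⁻¹ x₀) = 0 := by simp [φ, ker_pt hx₀.1 ψ1]
  have x3 : g⁻¹ x₀ ≠ 0 := by simpa
  have z1 := gW _ hw
  generalize g⁻¹ x₀ = x at *
  generalize g⁻¹ w = z at *
  have fin : ∀ c : F, c ≠ 0 → c • (f.fn x).smulRight x ∈ Lam M (pt F K p) → f.iso ≤ M := fun c c0 hc =>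
    h.iso_of_tv hf hM x3 c0 (f.tv_eq_dt _ _ ▸ (Lam.dt (by convert hc using 1; ext; simp [mul_smul]) x3 x1).2)
  rcases hq with hq | ⟨c, c0, c1⟩
  · obtain ⟨k, hk, k0⟩ := (Submodule.ne_bot_iff _).1 (LinearMap.ker_ne_bot_of_finrank_lt
      (f := (φ ∘ₗ (LinearMap.toSpanSingleton K V x).restrictScalars F).prod
        (φ ∘ₗ (LinearMap.toSpanSingleton K V z).restrictScalars F)) (by simp; omega))
    have k1 : φ (k • x) = 0 := congr(($hk).1)
    have k2 : φ (k • z) = 0 := congr(($hk).2)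
    have sm : ∀ y ∈ pt F K p, k • y ∈ pt F K p := fun y hy => by
      obtain ⟨c, rfl⟩ := mem_pt.1 hy; rw [smul_smul]; exact smul_mem_pt _ _
    obtain ⟨t, ht, t1⟩ := hb.witt_vec (smul_ne_zero k0 hp) hp (by rw [symp_Q, symp_Q])
    have t2 : ∀ y ∈ pt F K p, t (k • y) = y := fun y hy => by
      obtain ⟨c, rfl⟩ := mem_pt.1 hy; rw [smul_comm, map_smul, t1]
    have t3 : ∀ y' y, y ∈ pt F K p → f.B (t y') y = f.B y' (k • y) := fun y' y hy => by
      rw [← h.rs_B ht y', t2 y hy]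
    have t4 : ∀ (c : F) y, t (c • y) = c • t y := (rs F t).map_smul
    have := Lam.conj' (hS _ (sm x x1) k1 _ (sm z z1)) (h.rs_mem hM ht) (W' := pt F K p)
      (map_eq_of_le (fun y hy => by
        obtain ⟨c, rfl⟩ := mem_pt.1 hy
        rw [show c • p = k • (c / k) • p by rw [smul_smul, mul_div_cancel₀ _ k0], rs_apply, t2 _ (smul_mem_pt _ _)]
        exact smul_mem_pt _ _) le_rfl) (ρ' := (f.fn x).smulRight z + (f.fn z).smulRight x) fun y => by
        simp [k2, t3 _ _ x1, t3 _ _ z1, t2 _ x1, t2 _ z1, t4, -map_smul]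
    exact fin 1 one_ne_zero (by simpa [φw] using sub_mem (hS _ x1 x2 _ z1) this)
  · refine fin (c * c - c) (by rw [← mul_sub_one]; simp [c0, sub_eq_zero, c1]) ?_
    convert sub_mem (hS _ (smul_mem _ c x1) (by simp [x2]) _ z1) (hS _ x1 x2 _ (smul_mem _ c z1)) using 1
    ext y; simp [φw]; module

end TrF

theorem sp_isMaximalIn_NK [Nontrivial V] {f : CForm (FType.symp F) V} (hf : f.Nondeg) (hr : (finrank F K).Prime)
    (hsa : ∀ (k : K) x y, f.B (k • x) y = f.B x (k • y)) (halt : ∀ (k : K) x, f.B (k • x) x = 0)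
    (hq : (3 ≤ finrank F K ∨ ∃ c : F, c ≠ 0 ∧ c ≠ 1) ∨ 3 ≤ finrank K V) :
    Geo.IsMaximalIn f.iso (NK F K V ⊓ f.iso) := by
  haveI := Module.Finite.of_restrictScalars_finite F K V
  haveI := Fintype.ofFinite K
  have τ0 : Algebra.trace F K ≠ 0 := fun e => by
    obtain ⟨k, hk⟩ := Algebra.trace_surjective F K 1
    simp [e] at hk
  obtain ⟨b₀, b1, b2, b3⟩ := exists_tr τ0 f
  have h : TrF (Algebra.trace F K) f (mkAlt b₀ b1 b2 (fun x y => tr_ext τ0 fun k => by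
      rw [mul_neg, map_neg, b3, b3, hsa, symp_skew]) fun x => tr_ext τ0 fun k => by simp [b3, halt]) := ⟨τ0, b3⟩
  generalize mkAlt b₀ b1 b2 _ _ = b at h
  have h2 : 2 ≤ finrank K V := by
    have := (h.nondeg hf).symp_finrank
    have := finrank_pos (R := K) (M := V)
    omega
  obtain ⟨ω, hω⟩ := exists_notMem_bot hr.two_le
  obtain ⟨p, hp⟩ := exists_ne (0 : V)
  refine isMaximalIn_of inf_le_right ⟨f.tv p 1, symp_tv_mem_iso _ _, fun hh => ?_⟩ fun M h1 h3 g hg hH => ?_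
  · obtain ⟨k, hk⟩ := hh.1.1 ω
    obtain rfl : ω = k := smul_left_injective K hp (by simpa [symp_tv_apply, halt, symp_B_self] using hk p)
    obtain ⟨v, -, hv⟩ := hf.exists_pair hp (symp_Q _ _)
    exact hω (-f.B (ω • v) p) (smul_left_injective K hp (by
      have := hk v
      simp [symp_tv_apply, symp_skew f p v, hv] at this
      simp [this]))
  have hN : ¬ M ≤ NK F K V := fun e => hH ⟨e hg, h3 hg⟩
  by_cases hq' : 3 ≤ finrank F K ∨ ∃ c : F, c ≠ 0 ∧ c ≠ 1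
  · obtain ⟨g, hg, p, v, hp, hv, W, a1, a2, x, a3, a4, a5⟩ := exists_maxpair h2 hN
    exact h.sp_pair hf h1 hr hq' h3 hg hp hv a1 a2 a3 a4 a5
  replace hq := hq.resolve_left hq'
  push Not at hq'
  have := hr.two_le
  have r2 : finrank F K = 2 := by omega
  have q2 : Fintype.card F = 2 := by
    classical
    rw [← Finset.card_univ, ← Finset.card_pair (zero_ne_one (α := F))]
    congr 1; ext a
    simpa [or_iff_not_imp_left] using hq'.2 a
  have k4 : ∀ k : K, k ^ 4 = k := fun k => by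
    simpa [Module.card_eq_pow_finrank (K := F) (V := K), q2, r2] using FiniteField.pow_card k
  have c2 : (2 : K) = 0 := by
    have := congrArg (algebraMap F K) (FiniteField.cast_card_eq_zero F)
    rwa [q2, map_natCast, map_zero] at this
  have ω0 : ω ≠ 0 := fun e => hω 0 (by simp [e])
  have ω1 : ω ≠ 1 := fun e => hω 1 (by simp [e])
  have hω2 : ω ^ 2 + ω + 1 = 0 := by have := k4 ω; grind
  have kk : ∀ k : K, k = 0 ∨ k = 1 ∨ k = ω ∨ k = ω + 1 := fun k => by have := k4 k; grind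
  obtain ⟨v, hv⟩ : ∃ v, g (ω • v) ∉ pt F K (g v) := by
    by_contra! e
    refine hH ⟨mem_NK_of_pts h2 fun v k => ?_, h3 hg⟩
    rcases kk k with rfl | rfl | rfl | rfl
    · simp
    · simpa using self_mem_pt _
    · exact e v
    · simpa [add_smul] using add_mem (e v) (self_mem_pt _)
  exact h.special hf h1 (fun k => by
    simp [FiniteField.algebraMap_trace_eq_sum_pow, r2, q2, Finset.sum_range_succ]) c2 k4 hq h3 hω2 hg hv

theorem geo_sp {m r : ℕ} {A : Subalgebra F (Matrix (Fin m ⊕ Fin m) (Fin m ⊕ Fin m) F)} (hm : 0 < m)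
    (hA : Geo.IsFieldSubalgebra r A) (hr : r.Prime) (hsa : Geo.IsSelfAdjointFor (sympForm m F) A)
    (halt : ∀ k ∈ A, ∀ v, sympForm m F (Matrix.mulVec k v) v = 0) (hq : 3 ≤ m ∨ ∃ c : F, c ≠ 0 ∧ c ≠ 1) :
    Geo.IsMaximalIn (spGL m F) (Geo.subalgebraNormalizer A ⊓ spGL m F) := by
  haveI : Nonempty (Fin m) := ⟨⟨0, hm⟩⟩
  letI := (isField hA).toField
  letI md := modA A
  haveI := @IsScalarTower.mk F A (_ → F) _ md.toSMul _ fun c k v => Matrix.smul_mulVec c k.1 v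
  have e := hA.finrank_eq
  have h := finrank_mul_finrank F A (Fin m ⊕ Fin m → F)
  rw [finrank_pi, Fintype.card_sum, Fintype.card_fin] at h
  refine isMaximalIn_of_glE (H' := NK F A _ ⊓ (spF F m).iso) (fun g => mem_spGL)
    (fun g => and_congr (mem_norm fun _ _ => rfl) mem_spGL) (sp_isMaximalIn_NK (K := A) (spF_nondeg m) (e ▸ hr)
      (fun k => hsa k k.2) (fun k => halt k k.2) ?_)
  have := hr.two_le
  rcases hq with hq | hq
  · by_cases h3 : 3 ≤ finrank F A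
    · exact .inl (.inl h3)
    · rw [show finrank F A = 2 by omega] at h; right; omega
  · exact .inl (.inr hq)

end Cfsg.Agent.H4.Ex
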