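import Cfsg.Agent.H4.Linear

/-! Steinberg's generators of `SL_{n+1}(K)`. -/

set_option autoImplicit false

namespace Cfsg.Agent.H4

open Matrix hiding transvection
open Matrix.SpecialLinearGroup

variable {K : Type*} [Field K] {n : ℕ}

theorem cox_eq {w : Matrix (Fin (n + 1)) (Fin (n + 1)) K}
    (hw : w = Matrix.of (fun i j => if j.val = i.val + 1 then 1 else if i.val = n ∧ j.val = 0 then (-1) ^ n else 0))
    (i j : Fin (n + 1)) : w i j = if j = i + 1 then (if i.val = n then (-1) ^ n else 1) else 0 := by
  have := i.2
  have := j.2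
  simp only [hw, of_apply, Fin.ext_iff, Fin.val_add_one, Fin.val_last]
  split_ifs <;> first | rfl | omega

theorem SL_top_of_cox (H : Subgroup (SpecialLinearGroup (Fin (n + 1)) K)) {w : SpecialLinearGroup (Fin (n + 1)) K}
    (hw : (w : Matrix (Fin (n + 1)) (Fin (n + 1)) K) =
      Matrix.of (fun i j => if j.val = i.val + 1 then 1 else if i.val = n ∧ j.val = 0 then (-1) ^ n else 0))
    (h1 : w ∈ H) (h2 : ∀ (h : (0 : Fin (n + 1)) ≠ 1) c, transvection h c ∈ H) : H = ⊤ := by
  let s : Fin (n + 1) → K := fun i => if i.val = n then (-1) ^ n else 1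
  have hs : ∀ i, s i * s i = 1 := fun i => by simp only [s]; split_ifs <;> simp [← mul_pow]
  have h3 : ∀ i j : Fin (n + 1), (∀ (h : i ≠ j) c, transvection h c ∈ H) →
      ∀ (h : i + 1 ≠ j + 1) c, transvection h c ∈ H := fun i j k h c => by
    have h' : i ≠ j := fun e => h (by rw [e])
    suffices e : w * transvection h c = transvection h' (s i * c * s j) * w from
      (H.mul_mem_cancel_left h1).1 (e ▸ H.mul_mem (k _ _) h1)
    apply Subtype.ext
    simp only [coe_mul, transvection_coe, mul_add, add_mul, mul_one, one_mul, add_right_inj]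
    ext a b
    have hw' : ∀ a b, w.1 a b = if b = a + 1 then s a else 0 := cox_eq hw
    by_cases e : j + 1 = b <;> by_cases e' : i = a
    · subst e e'; simp [hw', mul_assoc, hs]
    · subst e; simp [hw', e', Ne.symm e']
    · subst e'; simp [hw', e, Ne.symm e]
    · simp [e', Ne.symm e, Ne.symm e']
  have h4 : ∀ i : Fin (n + 1), ∀ (h : i ≠ i + 1) c, transvection h c ∈ H := fun i => by
    induction i using Fin.induction with
    | zero => simpa using h2
    | succ i ih => simpa using h3 _ _ ih
  have h5 : ∀ k i : Fin (n + 1), ∀ (h : i ≠ i + k) c, transvection h c ∈ H := fun k => by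
    induction k using Fin.induction with
    | zero => simp
    | succ k ih =>
      rw [← Fin.coeSucc_eq_succ]
      intro i h c
      by_cases e : k.castSucc = 0
      · simpa [e] using h4 i (by simpa [e] using h) c
      have e' : i + k.castSucc ≠ i + (k.castSucc + 1) := by
        rw [Ne, add_right_inj, Fin.coeSucc_eq_succ]; exact k.castSucc_lt_succ.ne
      rw [← mul_one c, ← commutator_transvection (j := i + k.castSucc) (by simpa using e) e' h]
      have k1 := ih i (by simpa using e) c
      have k2 : transvection e' 1 ∈ H := by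
        revert e'; rw [← add_assoc]; exact fun e' => h4 _ e' 1
      exact H.mul_mem (H.mul_mem (H.mul_mem k1 k2) (H.inv_mem k1)) (H.inv_mem k2)
  exact SL_eq_top_of_transvection_mem H fun i j h c => by simpa using h5 (j - i) i (by simpa using h) c

theorem diag_mul_tv {ι : Type*} [Fintype ι] [DecidableEq ι] {g : SpecialLinearGroup ι K} {d : ι → K}
    (hg : g.1 = diagonal d) {i j : ι} (h : i ≠ j) {c c' : K} (hc : d i * c = c' * d j) :
    g * transvection h c = transvection h c' * g := by
  apply Subtype.ext
  simp only [coe_mul, transvection_coe, mul_add, add_mul, mul_one, one_mul, add_right_inj, hg]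
  ext a b
  simp only [diagonal_mul, mul_diagonal, single_apply]
  split_ifs with e
  · rw [← e.1, ← e.2, hc]
  · simp

theorem cox_conj_diag {w g : SpecialLinearGroup (Fin (n + 1)) K}
    (hw : (w : Matrix (Fin (n + 1)) (Fin (n + 1)) K) =
      Matrix.of (fun i j => if j.val = i.val + 1 then 1 else if i.val = n ∧ j.val = 0 then (-1) ^ n else 0))
    {d : Fin (n + 1) → K} (hg : g.1 = diagonal d) : (w * g * w⁻¹).1 = diagonal fun i => d (i + 1) := by
  have : w.1 * g.1 = diagonal (fun i => d (i + 1)) * w.1 := by
    ext a b
    rw [hg, diagonal_mul, mul_diagonal, cox_eq hw]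
    split_ifs with e <;> simp [e, mul_comm]
  rw [coe_mul, coe_mul, this, mul_assoc, ← coe_mul, mul_inv_cancel, coe_one, mul_one]

end Cfsg.Agent.H4
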