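import Cfsg.Agent.H4.Mn4

/-! Decomposition stabilisers in `SL` are maximal. -/

namespace Cfsg.Agent.H4.Mn
open Module Submodule
open scoped commutatorElement

variable {F : Type*} [Field F] {V : Type*} [AddCommGroup V] [Module F V] [FiniteDimensional F V]
  {τ : Type} [Fintype τ] [DecidableEq τ] {D : τ → Submodule F V} {π : τ → V →ₗ[F] V}
  {M : Subgroup (V ≃ₗ[F] V)}

variable (D) in
/-- functionals living on one block -/
def Lc (i : τ) (φ : V →ₗ[F] F) : Prop := ∀ j, j ≠ i → ∀ x ∈ D j, φ x = 0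

omit [FiniteDimensional F V] [DecidableEq τ] in
theorem lc_comp (h : Dec D π) (i : τ) (φ : V →ₗ[F] F) : Lc D i (φ ∘ₗ π i) := fun j e x hx => by
  simp [h.other i j e.symm x hx]

omit [Fintype τ] [DecidableEq τ] in
theorem Lc.dstab {i : τ} {φ : V →ₗ[F] F} (h : Lc D i φ) {a : V} (ha : a ∈ D i) : dt φ a ∈ dstab D :=
  mem_dstab_of_stab fun j => by
    by_cases e : j = i
    · exact dt_mem_stab_of_mem φ (e ▸ ha)
    · exact dt_mem_stab_of_ker a (h j e)

omit [DecidableEq τ] in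
theorem exists_basis {m : ℕ} (h : Dec D π) (hm : ∀ i, finrank F (D i) = m) :
    ∃ b : Basis (τ × Fin m) F V, (∀ i s, b (i, s) ∈ D i) ∧ ∀ p, Lc D p.1 (b.coord p) := by
  classical
  have hi : DirectSum.IsInternal D := DirectSum.isInternal_submodule_of_iSupIndep_of_iSup_eq_top
    (fun i => disjoint_def.2 fun x hx hx' => by
      rw [← h.same i x hx]
      refine iSup_induction' _ (motive := fun x _ => π i x = 0) (fun j x hx => ?_) (map_zero _)
        (fun x y _ _ a c => by rw [map_add, a, c, add_zero]) hx'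
      by_cases e : j = i
      · subst e; simp at hx; simp [hx]
      · rw [iSup_pos e] at hx; exact h.other i j (Ne.symm e) x hx)
    (h.eq_top_of fun i => le_iSup D i)
  let b := (hi.collectedBasis fun i => finBasisOfFinrankEq F (D i) (hm i)).reindex (Equiv.sigmaEquivProd τ (Fin m))
  have h1 : ∀ i s, b (i, s) = finBasisOfFinrankEq F (D i) (hm i) s := fun i s => by simp [b]; rfl
  refine ⟨b, fun i s => by rw [h1]; exact Subtype.prop _, fun p j e x hx => ?_⟩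
  have : b.coord p ∘ₗ (D j).subtype = 0 := (finBasisOfFinrankEq F (D j) (hm j)).ext fun s => by
    rw [LinearMap.comp_apply, subtype_apply, ← h1, cb_ne fun e' => e (by rw [e'])]; rfl
  exact congr($this ⟨x, hx⟩)

structure Bl (D : τ → Submodule F V) (π : τ → V →ₗ[F] V) (m : ℕ) (M : Subgroup (V ≃ₗ[F] V)) : Prop where
  dec : Dec D π
  rk : ∀ i, finrank F (D i) = m
  two : 2 ≤ m
  le : dstab D ⊓ SLg F V ≤ M

namespace Bl
variable {m : ℕ} (h : Bl D π m M)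
include h

omit [DecidableEq τ] in
theorem tr {i : τ} {φ : V →ₗ[F] F} (h1 : Lc D i φ) {a : V} (ha : a ∈ D i) (h2 : φ a = 0) : dt φ a ∈ M :=
  h.le ⟨h1.dstab ha, dt_mem_SLg h2⟩

omit [DecidableEq τ] in
theorem exists_notMem (i : τ) (v : V) : ∃ a ∈ D i, a ∉ span F {v} :=
  exists_notMem_of_finrank_lt (by have := finrank_span_singleton_le (F := F) v; have := h.two; rw [h.rk]; omega)

omit [FiniteDimensional F V] [DecidableEq τ] in
theorem exists_lc {i : τ} {u v : V} (hu : u ∈ D i) (hv : v ∈ D i) (h1 : v ∉ span F {u}) (c : F) :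
    ∃ φ, Lc D i φ ∧ φ u = 0 ∧ φ v = c := by
  obtain ⟨φ, a1, a2⟩ := exists_dual_pair h1 c
  exact ⟨_, lc_comp h.dec i φ, by simp [h.dec.same i u hu, a1], by simp [h.dec.same i v hv, a2]⟩

theorem SL_of {i j : τ} (ij : j ≠ i) {a x : V} {φ : V →ₗ[F] F} (ha : a ∈ D i) (a0 : a ≠ 0)
    (hφ : φ ∈ axs M a) (hx : x ∈ D j) (x0 : φ x ≠ 0) : SLg F V ≤ M := by
  have h1 : ∀ y ∈ D j, φ y ≠ 0 → ∀ ψ, Lc D j ψ → ψ y = 0 → ψ ∈ axs M a := fun y hy y0 ψ l1 l2 => by
    have l3 : Lc D j ((φ y)⁻¹ • ψ) := fun k e z hz => by simp [l1 k e z hz]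
    have l4 : ((φ y)⁻¹ • ψ) y = 0 := by simp [l2]
    have l5 : ((φ y)⁻¹ • ψ) a = 0 := l3 i ij.symm a ha
    have : φ ∘ₗ (dt ((φ y)⁻¹ • ψ) y : V →ₗ[F] V) ∈ axs M a := by
      refine ⟨by simp [dt_fix y l5, hφ.1], ?_⟩
      have := dt_mem_of_conj (inv_mem (h.tr l3 hy l4)) hφ.2
      rwa [inv_inv, dt_inv_apply l4, l5, zero_smul, sub_zero] at this
    convert sub_mem this hφ using 1
    ext z; simp [dt_apply l4]; field_simp
  have h2 : ∀ ψ, Lc D j ψ → ψ ∈ axs M a := fun ψ l1 => by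
    obtain ⟨z, hz, z0⟩ := h.exists_notMem j x
    obtain ⟨y, hy, y0, y1⟩ : ∃ y ∈ D j, φ y ≠ 0 ∧ y ∉ span F {x} := by
      by_cases e : φ z = 0
      · exact ⟨z + x, add_mem hz hx, by simpa [e], fun e' => z0 (by
          simpa using sub_mem e' (mem_span_singleton_self x))⟩
      · exact ⟨z, hz, e, z0⟩
    obtain ⟨χ, c1, c2, c3⟩ := h.exists_lc hx hy y1 (ψ y)
    simpa using add_mem (h1 x hx x0 χ c1 c2)
      (h1 y hy y0 (ψ - χ) (fun k e z hz => by simp [l1 k e z hz, c1 k e z hz]) (by simp [c3]))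
  have h3 : ∀ ψ, Lc D j ψ → ∀ y ∈ D i, y ∈ cns M ψ := fun ψ l1 => by
    have key : ∀ y ∈ D i, y ∉ span F {a} → y ∈ cns M ψ := fun y hy y0 => by
      obtain ⟨χ, c1, c2, c3⟩ := h.exists_lc hy ha (by
        simpa using notMem_sup_span_swap (U := ⊥) (by simpa using a0) (by simpa using y0)) 1
      have : dt χ y a ∈ cns M ψ := by
        refine ⟨l1 i ij.symm _ ((dt_mem_stab_of_mem χ hy a).1 ha), dt_mem_of_conj' (h.tr c1 hy c2) ?_⟩
        convert (h2 ψ l1).2 using 2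
        ext z; simp [dt_apply c2, l1 i ij.symm y hy]
      simpa [dt_apply c2, c3] using sub_mem this (show a ∈ cns M ψ from h2 ψ l1)
    intro y hy
    by_cases e : y ∈ span F {a}
    · obtain ⟨z, hz, z0⟩ := h.exists_notMem i a
      simpa using sub_mem (key (y + z) (add_mem hy hz) fun e' => z0 (by simpa using sub_mem e' e)) (key z hz z0)
    · exact key y hy e
  obtain ⟨b, b1, b2⟩ := exists_basis h.dec h.rk
  refine SLg_le_of_basis b fun p p' e c => ?_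
  by_cases e' : p.1 = p'.1
  · exact h.tr (b2 p') (smul_mem _ _ (e' ▸ b1 p.1 p.2)) (by simp [cb_ne e.symm, -Basis.coord_apply])
  obtain ⟨s, hs⟩ := Equiv.Perm.exists_extending_pair (f := ![i, j]) (g := ![p.1, p'.1])
    (fun a a' => by fin_cases a <;> fin_cases a' <;> simp [ij, ij.symm])
    (fun a a' => by fin_cases a <;> fin_cases a' <;> simp [e', Ne.symm e'])
  have s1 : s i = p.1 := hs 0
  have s2 : s j = p'.1 := hs 1
  haveI : Nonempty (τ × Fin m) := ⟨p⟩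
  obtain ⟨g, hg, hg'⟩ := exists_perm (b := b) (s.prodCongr (Equiv.refl (Fin m)))
  have hgM : g ∈ M := by
    refine h.le ⟨h.dec.mem_dstab h.rk (by have := h.two; omega) fun k x hx => ⟨s k, ?_⟩, hg.2⟩
    rw [← b.sum_repr x, map_sum]
    refine sum_mem fun t _ => ?_
    by_cases e : k = t.1
    · obtain ⟨c, -, h1⟩ := hg' t
      rw [map_smul, h1, e]
      exact smul_mem _ _ (smul_mem _ _ (b1 _ _))
    · rw [show b.repr x t = 0 from b2 t k e x hx]; simp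
  obtain ⟨e1, -, -, e2⟩ := coord_of_perm hg' (j, p'.2)
  obtain ⟨e', e0', e1'⟩ := hg' (i, p.2)
  simp only [Equiv.prodCongr_apply, Prod.map_apply, s1, s2, Equiv.coe_refl, id] at e2 e1'
  have := dt_mem_of_conj' hgM (φ := b.coord p') (a := (c / e') • b (i, p.2)) (by
    rw [show b.coord p' ∘ₗ (g : V →ₗ[F] V) = e1 • b.coord (j, p'.2) from LinearMap.ext e2, dt_smul]
    exact (h3 _ (b2 (j, p'.2)) _ (smul_mem _ _ (smul_mem _ _ (b1 _ _)))).2)
  rwa [map_smul, e1', smul_smul, div_mul_cancel₀ _ e0'] at this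

theorem lc (hM : ¬ SLg F V ≤ M) {φ : V →ₗ[F] F} {v : V} (hφ : φ ∈ axs M v) {i : τ} (hv : π i v ≠ 0)
    {a : V} (ha : a ∈ D i) (h1 : a ∉ span F {π i v}) (h2 : φ a = 0) : Lc D i φ := fun j e x hx => by
  have a0 : a ≠ 0 := fun e => h1 (e ▸ zero_mem _)
  obtain ⟨ψ, c1, c2⟩ := exists_dual_pair (show π i v ∉ span F {a} by
    simpa using notMem_sup_span_swap (U := ⊥) (by simpa using hv) (by simpa using h1)) (-1)
  have c3 : (ψ ∘ₗ π i) a = 0 := by simp [h.dec.same i a ha, c1]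
  have h3 := h.tr (lc_comp h.dec i ψ) ha c3
  have h4 : ⁅dt φ v, dt (ψ ∘ₗ π i) a⁆ ∈ M :=
    mul_mem (mul_mem (mul_mem hφ.2 h3) (inv_mem hφ.2)) (inv_mem h3)
  rw [commutator_dt hφ.1 c3 h2, LinearMap.comp_apply, c2, neg_neg, one_smul] at h4
  exact by_contra fun x0 => hM (h.SL_of e ha a0 ⟨h2, h4⟩ hx x0)

theorem mem_blk (hM : ¬ SLg F V ≤ M) (hex : m = 2 → (∃ c : F, c ≠ 0 ∧ c ≠ 1) ∧ 3 ≤ Fintype.card τ)
    {φ : V →ₗ[F] F} {v : V} (hφ : φ ∈ axs M v) (h0 : φ ≠ 0) : ∃ i, v ∈ D i := by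
  by_contra! hv
  have hne : Nonempty τ := by
    by_contra e
    refine h0 (LinearMap.ext fun x => ?_)
    rw [← h.dec.sum x, Finset.sum_eq_zero fun i _ => (e ⟨i⟩).elim]; simp
  obtain ⟨i, j, ij, hi, hj⟩ := h.dec.exists_two (x := v) (fun e => hv hne.some (e ▸ zero_mem _)) hv
  have key : ∀ ψ ∈ axs M v, (∀ x ∈ D j, ψ x = 0) → ∀ x ∈ D i, ψ x = 0 := fun ψ hψ h1 => by
    obtain ⟨a, ha, h2⟩ := h.exists_notMem j (π j v)
    exact h.lc hM hψ hj ha h2 (h1 a ha) i ij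
  by_cases e : ∃ a ∈ D i, a ∉ span F {π i v} ∧ φ a = 0
  · obtain ⟨a, ha, h1, h2⟩ := e
    have h3 := h.lc hM hφ hi ha h1 h2
    refine h0 (LinearMap.ext fun x => ?_)
    rw [← h.dec.sum x, map_sum]
    refine Finset.sum_eq_zero fun k _ => ?_
    by_cases e : k = i
    · exact key φ hφ (h3 j ij.symm) _ (e ▸ h.dec.mem k x)
    · exact h3 k e _ (h.dec.mem k x)
  push Not at e
  obtain ⟨⟨c, c0, c1⟩, h3⟩ := hex (by
    by_contra h2
    obtain ⟨a, ha, h1⟩ := exists_notMem_of_finrank_lt (U := span F {π i v}) (W := D i ⊓ LinearMap.ker φ) (by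
      have := finrank_inf_ge (D i) (LinearMap.ker φ)
      have := finrank_ker_dual_ge φ
      have := finrank_span_singleton_le (F := F) (π i v)
      have := h.rk i
      have := h.two
      omega)
    exact e a ha.1 h1 ha.2)
  obtain ⟨k, k1, k2⟩ := exists_third (i := i) (j := j) h3
  obtain ⟨u, hu, u1⟩ := h.exists_notMem i (π i v)
  obtain ⟨u', hu', u1'⟩ := h.exists_notMem k (π k v)
  obtain ⟨χ, x1, x2⟩ := exists_dual_pair u1 (c - 1)
  obtain ⟨χ', y1, y2⟩ := exists_dual_pair u1' (c⁻¹ - 1)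
  have a1 : 1 + (χ ∘ₗ π i) u ≠ 0 := by simpa [h.dec.same i u hu, x2]
  have a2 : 1 + (χ' ∘ₗ π k) u' ≠ 0 := by simpa [h.dec.same k u' hu', y2]
  have hg : dt (χ ∘ₗ π i) u * dt (χ' ∘ₗ π k) u' ∈ M := by
    refine h.le ⟨mul_mem ((lc_comp h.dec i χ).dstab hu) ((lc_comp h.dec k χ').dstab hu'),
      mem_SLg.2 (Units.ext ?_)⟩
    rw [map_mul, Units.val_mul, det_dt a1, det_dt a2]
    simp [h.dec.same i u hu, x2, h.dec.same k u' hu', y2, c0]
  have hgv : (dt (χ ∘ₗ π i) u * dt (χ' ∘ₗ π k) u') v = v := by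
    rw [LinearEquiv.mul_apply, dt_fix u' (by simpa), dt_fix u (by simpa)]
  have : φ ∘ₗ (dt (χ ∘ₗ π i) u * dt (χ' ∘ₗ π k) u' : V ≃ₗ[F] V).toLinearMap ∈ axs M v := by
    refine ⟨by rw [LinearMap.comp_apply, LinearEquiv.coe_coe, hgv]; exact hφ.1, ?_⟩
    have := dt_mem_of_conj (inv_mem hg) hφ.2
    rwa [inv_inv, show (dt (χ ∘ₗ π i) u * dt (χ' ∘ₗ π k) u')⁻¹ v = v by
      rw [LinearEquiv.coe_inv, LinearEquiv.symm_apply_eq, hgv]] at this
  have := key _ (sub_mem this hφ) (fun x hx => by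
    simp [dt_apply' a1, dt_apply' a2, h.dec.other i j ij x hx, h.dec.other k j k2 x hx]) u hu
  simp [dt_apply' a1, dt_apply' a2, h.dec.other k i k1 u hu, h.dec.same i u hu, x2, sub_ne_zero.2 c1,
    e u hu u1] at this

end Bl

theorem isMaximalIn_dec [Fintype F] [Nontrivial τ] (h : Dec D π) {m : ℕ} (hm : ∀ i, finrank F (D i) = m)
    (h0 : 0 < m) (h1 : m = 1 → 5 ≤ Fintype.card F ∧ 5 ≤ Fintype.card τ)
    (h2 : m = 2 → 3 ≤ Fintype.card F ∧ 3 ≤ Fintype.card τ) :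
    Geo.IsMaximalIn (SLg F V) (dstab D ⊓ SLg F V) := by
  obtain ⟨b, b1, b2⟩ := exists_basis h hm
  by_cases e : m = 1
  · subst e
    have : D = fr (b.reindex (Equiv.prodUnique τ (Fin 1))) := funext fun i => by
      refine (eq_of_le_of_finrank_eq ?_ (by rw [finrank_fr, hm])).symm
      simpa [fr] using b1 i default
    rw [this]
    exact isMaximalIn_fr (h1 rfl).1 (h1 rfl).2
  have hB : ∀ {M}, dstab D ⊓ SLg F V ≤ M → Bl D π m M := fun hM => ⟨h, hm, by omega, hM⟩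
  have ex : ∀ i, ∀ x ∈ D i, ∃ φ, Lc D i φ ∧ φ ≠ 0 ∧ φ x = 0 := fun i x hx => by
    obtain ⟨a, ha, h1⟩ := (hB le_rfl).exists_notMem i x
    obtain ⟨φ, c1, c2, c3⟩ := (hB le_rfl).exists_lc hx ha h1 1
    exact ⟨φ, c1, fun e => by simp [e] at c3, c2⟩
  have hex : m = 2 → (∃ c : F, c ≠ 0 ∧ c ≠ 1) ∧ 3 ≤ Fintype.card τ := fun e => by
    classical
    obtain ⟨c, c1, c2⟩ : ∃ c : F, c ≠ 0 ∧ c ≠ 1 := by
      by_contra! h3
      have := Finset.card_le_card (show Finset.univ ⊆ ({0, 1} : Finset F) from fun x _ => by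
        have := h3 x; simp only [Finset.mem_insert, Finset.mem_singleton]; tauto)
      have := Finset.card_le_two (a := (0 : F)) (b := 1)
      have := (h2 e).1
      simp only [Finset.card_univ] at *
      omega
    exact ⟨⟨c, c1, c2⟩, (h2 e).2⟩
  refine isMaximalIn_of inf_le_right ?_ fun M h1 h2 g hg hH => by_contra fun hM => hH ⟨?_, h2 hg⟩
  · obtain ⟨i, j, e⟩ := exists_pair_ne τ
    have e' : ((i, ⟨0, h0⟩) : τ × Fin m) ≠ (j, ⟨0, h0⟩) := by simp [e]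
    refine ⟨dt (b.coord (i, ⟨0, h0⟩)) (b (j, ⟨0, h0⟩)), dt_mem_SLg (cb_ne e'), fun ⟨⟨s, hs⟩, _⟩ => ?_⟩
    have := mem_map_of_mem (f := (dt (b.coord (i, ⟨0, h0⟩)) (b (j, ⟨0, h0⟩)) : V →ₗ[F] V)) (b1 i ⟨0, h0⟩)
    rw [hs, LinearEquiv.coe_coe, dt_apply (cb_ne e'), cb_self, one_smul] at this
    by_cases e1 : s i = i
    · simpa [cb_ne e'.symm, -Basis.coord_apply, cb_self] using b2 (j, ⟨0, h0⟩) _ (e1.trans_ne e) _ this
    · simpa [cb_ne e', -Basis.coord_apply, cb_self] using b2 (i, ⟨0, h0⟩) _ e1 _ this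
  · refine h.mem_dstab hm h0 fun i x hx => ?_
    obtain ⟨φ, c1, c2, c3⟩ := ex i x hx
    refine (hB h1).mem_blk hM hex (φ := φ ∘ₗ ((g⁻¹ : V ≃ₗ[F] V) : V →ₗ[F] V))
      ⟨by simpa using c3, dt_mem_of_conj hg ((hB h1).tr c1 hx c3)⟩ fun e => c2 (LinearMap.ext fun y => ?_)
    simpa using congr($e (g y))

theorem geo_dec [Fintype F] {ι : Type} [Fintype ι] [DecidableEq ι] {t m : ℕ} {D : Fin t → Submodule F (ι → F)}
    (hD : Geo.IsMDecomposition m D) (h5 : 5 ≤ Fintype.card ι) (h1 : m = 1 → 5 ≤ Fintype.card F)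
    (h2 : m = 2 → 3 ≤ Fintype.card F) : Geo.IsMaximalIn (Geo.specialLinear ι F)
      (Geo.decompositionStabilizer D ⊓ Geo.specialLinear ι F) := by
  obtain ⟨π, hπ⟩ := exists_dec hD.indep hD.iSup_eq_top
  haveI : Nontrivial (Fin t) := Fin.nontrivial_iff_two_le.2 hD.two_le
  obtain ⟨b, -⟩ := exists_basis hπ hD.finrank_eq
  have := finrank_eq_card_basis b
  simp only [finrank_pi, Fintype.card_prod, Fintype.card_fin] at this
  exact isMaximalIn_dstab_of_glE (fun g => mem_specialLinear) (isMaximalIn_dec hπ hD.finrank_eq hD.pos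
    (fun e => ⟨h1 e, by subst e; simp; omega⟩) fun e => ⟨h2 e, by subst e; simp; omega⟩)

end Cfsg.Agent.H4.Mn
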