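import Cfsg.Agent.H4.Sf1

/-! Overgroups of subfield subgroups in `SL_n`. -/

set_option autoImplicit false

namespace Cfsg.Agent.H4.Sf

open Module Submodule
open scoped commutatorElement

variable {F : Type*} [Field F] {V : Type*} [AddCommGroup V] [Module F V]
  {ι : Type} [Fintype ι] [DecidableEq ι] {F₀ : Type*} [Field F₀] {φ : F₀ →+* F}
  {k : (ι → F) ≃ₗ[F] V} {M : Subgroup (V ≃ₗ[F] V)}

section aux
variable {W : Type*} [AddCommGroup W] [Module F₀ W] [FiniteDimensional F₀ W]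

theorem exists_ker2 (h : 3 ≤ finrank F₀ W) (ψ ρ : W →ₗ[F₀] F₀) : ∃ a, a ≠ 0 ∧ ψ a = 0 ∧ ρ a = 0 := by
  obtain ⟨x, -, h0, hx⟩ := exists_mem_ker_of_lt (W := ⊤) ![ψ, ρ] (by rw [finrank_top]; omega)
  exact ⟨x, h0, hx 0, hx 1⟩

theorem exists_ker_notMem (h : 3 ≤ finrank F₀ W) (ψ : W →ₗ[F₀] F₀) (u : W) :
    ∃ a, ψ a = 0 ∧ a ∉ span F₀ {u} :=
  exists_notMem_of_finrank_lt (U := span F₀ {u}) (W := LinearMap.ker ψ) (by
    have := finrank_ker_dual_ge ψ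
    have := finrank_span_singleton_le (F := F₀) u
    omega)

theorem exists_dual2 (h : 3 ≤ finrank F₀ W) (a u : W) :
    ∃ ψ : W →ₗ[F₀] F₀, ψ ≠ 0 ∧ ψ a = 0 ∧ ψ u = 0 := by
  obtain ⟨v, -, hv⟩ := exists_notMem_of_finrank_lt (U := span F₀ {a, u}) (W := ⊤) (by
    have := finrank_span_pair_le (F := F₀) a u
    rw [finrank_top]; omega)
  obtain ⟨ψ, h1, h2⟩ := exists_dual_of_notMem hv (1 : F₀)
  exact ⟨ψ, fun e => by simp [e] at h2, h1 _ (subset_span (by simp)), h1 _ (subset_span (by simp))⟩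

theorem exists_dual22 (h : 4 ≤ finrank F₀ W) (a u : W) :
    ∃ ψ ρ : W →ₗ[F₀] F₀, ψ a = 0 ∧ ψ u = 0 ∧ ρ a = 0 ∧ ρ u = 0 ∧
      ∀ s t : F₀, s • ψ + t • ρ = 0 → s = 0 ∧ t = 0 := by
  have h2 := finrank_span_pair_le (F := F₀) a u
  obtain ⟨v, -, hv⟩ := exists_notMem_of_finrank_lt (U := span F₀ {a, u}) (W := ⊤) (by
    rw [finrank_top]; omega)
  obtain ⟨w, -, hw⟩ := exists_notMem_of_finrank_lt (U := span F₀ {a, u} ⊔ span F₀ {v}) (W := ⊤) (by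
    have := finrank_sup_span_le (span F₀ {a, u}) v
    rw [finrank_top]; omega)
  obtain ⟨ψ, h1, h2, h3⟩ := exists_dual_two hv hw (1 : F₀) 0
  obtain ⟨ρ, h4, h5, h6⟩ := exists_dual_two hv hw (0 : F₀) 1
  refine ⟨ψ, ρ, h1 _ (subset_span (by simp)), h1 _ (subset_span (by simp)),
    h4 _ (subset_span (by simp)), h4 _ (subset_span (by simp)), fun s t e => ⟨?_, ?_⟩⟩
  · simpa [h2, h5] using LinearMap.congr_fun e v
  · simpa [h3, h6] using LinearMap.congr_fun e w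

end aux

theorem comm_mem {G : Type*} [Group G] {M : Subgroup G} {a b : G} (ha : a ∈ M) (hb : b ∈ M) :
    ⁅a, b⁆ ∈ M := by
  rw [commutatorElement_def]
  exact M.mul_mem (M.mul_mem (M.mul_mem ha hb) (M.inv_mem ha)) (M.inv_mem hb)

variable (φ k M) in
structure LS : Prop where
  four : 4 ≤ finrank F₀ (ι → F₀)
  tr : ∀ u (ψ : (ι → F₀) →ₗ[F₀] F₀), ψ u = 0 → dt (lf φ k ψ) (jv φ k u) ∈ M

variable (φ k M) in
def LΛ (c : F) : Prop := ∀ u (ψ : (ι → F₀) →ₗ[F₀] F₀), ψ u = 0 → dt (lf φ k ψ) (c • jv φ k u) ∈ M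

namespace LS
variable (h : LS φ k M)
include h

theorem three : 3 ≤ finrank F₀ (ι → F₀) := (Nat.le_succ 3).trans h.four

theorem step1 {c : F} {u : ι → F₀} {ψ : (ι → F₀) →ₗ[F₀] F₀} (h0 : u ≠ 0) (hu : ψ u = 0)
    (hm : dt (lf φ k ψ) (c • jv φ k u) ∈ M) {u' : ι → F₀} (hu' : ψ u' = 0) :
    dt (lf φ k ψ) (c • jv φ k u') ∈ M := by
  have key : ∀ a, ψ a = 0 → a ∉ span F₀ {u} → dt (lf φ k ψ) (c • jv φ k a) ∈ M := by
    intro a ha hn
    have hn' : u ∉ span F₀ {a} := fun hm => by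
      obtain ⟨s, rfl⟩ := mem_span_singleton.1 hm
      have : s ≠ 0 := fun e => h0 (by simp [e])
      exact hn (mem_span_singleton.2 ⟨s⁻¹, by simp [smul_smul, this]⟩)
    obtain ⟨ρ, h1, h2⟩ := exists_dual_pair hn' (-1 : F₀)
    have := comm_mem hm (h.tr a ρ h1)
    rw [commutator_dt (by simp [hu]) (by simp [h1]) (by simp [ha])] at this
    simpa [h2] using this
  by_cases hn : u' ∈ span F₀ {u}
  · obtain ⟨a, ha, hn'⟩ := exists_ker_notMem h.three ψ u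
    have h1 := key a ha hn'
    have h2 := key (u' + a) (by simp [ha, hu']) fun e => hn' (by simpa using sub_mem e hn)
    have m1 : c • jv φ k a ∈ cns M (lf φ k ψ) := ⟨by simp [ha], h1⟩
    have m2 : c • jv φ k (u' + a) ∈ cns M (lf φ k ψ) := ⟨by simp [ha, hu'], h2⟩
    have := (sub_mem m2 m1).2
    rwa [jv_add, smul_add, add_sub_cancel_right] at this
  · exact key u' hu' hn

theorem step2 {c : F} {u : ι → F₀} {ψ : (ι → F₀) →ₗ[F₀] F₀} (h0 : u ≠ 0) (hψ : ψ ≠ 0) (hu : ψ u = 0)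
    (hm : dt (lf φ k ψ) (c • jv φ k u) ∈ M) {ψ' : (ι → F₀) →ₗ[F₀] F₀} (hu' : ψ' u = 0) :
    dt (lf φ k ψ') (c • jv φ k u) ∈ M := by
  by_cases ha : ∃ a, ψ' a = 0 ∧ ψ a ≠ 0
  · obtain ⟨a, h1, h2⟩ := ha
    have := comm_mem (h.tr ((-(ψ a)⁻¹) • a) ψ' (by simp [h1])) hm
    rw [commutator_dt (by simp [h1]) (by simp [hu]) (by simp [hu'])] at this
    have h3 : φ (ψ a) ≠ 0 := (map_ne_zero φ).2 h2
    simpa [h3] using this
  push Not at ha
  by_cases h' : ψ' = 0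
  · have : lf φ k ψ' = 0 := ext_jv φ k fun x => by simp [h']
    rw [this, dt_zero_left]; exact M.one_mem
  obtain ⟨y, hy⟩ : ∃ y, ψ' y = 1 := by
    obtain ⟨y, hy⟩ := DFunLike.ne_iff.1 h'
    exact ⟨(ψ' y)⁻¹ • y, by simpa using inv_mul_cancel₀ (by simpa using hy)⟩
  have e : ψ = ψ y • ψ' := LinearMap.ext fun x => by
    have := ha (x - ψ' x • y) (by simp [hy])
    simp only [map_sub, map_smul, smul_eq_mul] at this
    simp only [LinearMap.smul_apply, smul_eq_mul]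
    linear_combination this
  have s0 : ψ y ≠ 0 := fun e' => hψ (by rw [e, e', zero_smul])
  have := h.step1 h0 hu hm (u' := (ψ y)⁻¹ • u) (by simp [hu])
  rw [e, lf_smul, dt_smul, ← e, jv_smul, smul_smul, smul_smul] at this
  have h3 : φ (ψ y) ≠ 0 := (map_ne_zero φ).2 s0
  convert this using 3
  rw [map_inv₀]; field_simp

theorem one {c : F} {u : ι → F₀} {ψ : (ι → F₀) →ₗ[F₀] F₀} (h0 : u ≠ 0) (hψ : ψ ≠ 0) (hu : ψ u = 0)
    (hm : dt (lf φ k ψ) (c • jv φ k u) ∈ M) : LΛ φ k M c := by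
  intro u' ψ' hu'
  obtain ⟨a, a0, h1, h2⟩ := exists_ker2 h.three ψ ψ'
  exact h.step1 a0 h2 (h.step2 a0 hψ h1 (h.step1 h0 hu hm h1) h2) hu'

theorem of_cns {ψ : (ι → F₀) →ₗ[F₀] F₀} (hψ : ψ ≠ 0) {v : V} (hv : v ∈ cns M (lf φ k ψ))
    (ρ : (ι → F₀) →ₗ[F₀] F₀) : LΛ φ k M (-lf φ k ρ v) := by
  obtain ⟨a, a0, h1, h2⟩ := exists_ker2 h.three ψ ρ
  have := comm_mem hv.2 (h.tr a ρ h2)
  rw [commutator_dt hv.1 (by simp [h2]) (by simp [h1])] at this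
  exact h.one a0 hψ h1 this

theorem of_axs {u : ι → F₀} (h0 : u ≠ 0) {χ : V →ₗ[F] F} (hχ : χ ∈ axs M (jv φ k u)) (a : ι → F₀) :
    LΛ φ k M (-χ (jv φ k a)) := by
  obtain ⟨ψ, hψ, h1, h2⟩ := exists_dual2 h.three a u
  have := comm_mem (h.tr a ψ h1) hχ.2
  rw [commutator_dt (by simp [h1]) hχ.1 (by simp [h2])] at this
  exact h.one h0 hψ h2 this

def ring : Subring F where
  carrier := {c | LΛ φ k M c}
  zero_mem' u ψ _ := by simp [M.one_mem]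
  one_mem' u ψ hu := by simpa using h.tr u ψ hu
  add_mem' {a b} ha hb u ψ hu := by
    rw [add_smul, dt_add_right (by simp [hu]) (by simp [hu])]
    exact M.mul_mem (ha u ψ hu) (hb u ψ hu)
  neg_mem' {a} ha u ψ hu := by
    rw [neg_smul, dt_neg_right (by simp [hu])]
    exact M.inv_mem (ha u ψ hu)
  mul_mem' {a b} ha hb u ψ hu := by
    obtain ⟨y, h1, h2⟩ := exists_ker_notMem h.three ψ u
    obtain ⟨ρ, h3, h4⟩ := exists_dual_pair h2 (-1 : F₀)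
    have := comm_mem (ha y ψ h1) (hb u ρ h3)
    rw [commutator_dt (by simp [h1]) (by simp [h3]) (by simp [hu])] at this
    simpa [h4, smul_smul] using this

theorem dich [FiniteDimensional F V] (hp : PD φ) : SLg F V ≤ M ∨ ∀ c, LΛ φ k M c → ∃ a, φ a = c := by
  rcases hp h.ring (fun a u ψ hu => by rw [← jv_smul]; exact h.tr _ _ (by simp [hu])) with e | e
  · exact Or.inr e
  · left
    refine SLg_le_of_basis (jb k) fun i j hij c => ?_
    have : (jb k).coord j = lf φ k (LinearMap.proj j) := (jb k).ext fun i => by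
      rw [jb_apply φ k i, lf_jv, ← jb_apply φ k i]
      simp [Finsupp.single_apply, Pi.single_apply, eq_comm, apply_ite φ]
    rw [this, jb_apply φ k i]
    exact e c _ _ (by simp [Pi.single_apply, hij.symm])

variable (hR : ∀ c, LΛ φ k M c → ∃ a, φ a = c)
include hR

theorem rat_cns {ψ : (ι → F₀) →ₗ[F₀] F₀} (hψ : ψ ≠ 0) {v : V} (hv : v ∈ cns M (lf φ k ψ)) :
    ∃ y, v = jv φ k y := exists_jv_of_lf φ k fun ρ => by
  obtain ⟨a, ha⟩ := hR _ (h.of_cns hψ hv ρ)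
  exact ⟨-a, by simp [ha]⟩

theorem rat_axs {u : ι → F₀} (h0 : u ≠ 0) {χ : V →ₗ[F] F} (hχ : χ ∈ axs M (jv φ k u)) (y : ι → F₀) :
    ∃ a, φ a = χ (jv φ k y) := by
  obtain ⟨a, ha⟩ := hR _ (h.of_axs h0 hχ y)
  exact ⟨-a, by simp [ha]⟩

theorem pt_of_ker {χ : V →ₗ[F] F} {v : V} (hχ : χ ≠ 0) (hv : χ v = 0) (hm : dt χ v ∈ M)
    {ψ : (ι → F₀) →ₗ[F₀] F₀} (hψ : ψ ≠ 0) (hψv : lf φ k ψ v = 0) : Pt φ k v := by
  by_cases hu : ∃ u, ψ u = 0 ∧ χ (jv φ k u) ≠ 0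
  · obtain ⟨u, h1, h2⟩ := hu
    have m := dt_mem_of_conj' hm (φ := lf φ k ψ) (a := jv φ k u) (by
      have : lf φ k ψ ∘ₗ (dt χ v : V →ₗ[F] V) = lf φ k ψ := LinearMap.ext fun x => by
        simp [dt_apply hv, hψv]
      rw [this]; exact h.tr u ψ h1)
    obtain ⟨y, hy⟩ := h.rat_cns hR hψ (v := dt χ v (jv φ k u)) ⟨by simp [dt_apply hv, hψv, h1], m⟩
    rw [dt_apply hv] at hy
    refine ⟨(χ (jv φ k u))⁻¹, y - u, ?_⟩
    rw [jv_sub, ← hy, add_sub_cancel_left, smul_smul, inv_mul_cancel₀ h2, one_smul]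
  · push Not at hu
    obtain ⟨s, hs⟩ := smul_eq_of_ker φ k hψ hu
    have s0 : s ≠ 0 := fun e => hχ (by rw [hs, e, zero_smul])
    rw [hs, dt_smul] at hm
    obtain ⟨y, hy⟩ := h.rat_cns hR hψ (v := s • v) ⟨by simp [hψv], hm⟩
    exact ⟨s⁻¹, y, by rw [← hy, smul_smul, inv_mul_cancel₀ s0, one_smul]⟩

theorem pt [Finite F] {χ : V →ₗ[F] F} {v : V} (hχ : χ ≠ 0) (hv : χ v = 0) (hm : dt χ v ∈ M) :
    Pt φ k v := by
  by_contra hn
  have gp : ∀ ψ, lf φ k ψ v = 0 → ψ = 0 := fun ψ e => by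
    by_contra h0
    exact hn (h.pt_of_ker hR hχ hv hm h0 e)
  obtain ⟨e, he⟩ := exists_jv_ne φ k hχ
  have e0 : e ≠ 0 := fun h0 => he (by simp [h0])
  set Y : Submodule F V := span F {jv φ k e, v} with hY
  have y1 : jv φ k e ∈ Y := subset_span (by simp)
  have y2 : v ∈ Y := subset_span (by simp)
  let S : Subgroup (V ≃ₗ[F] V) :=
    { carrier := {g | ∀ w, g w - w ∈ Y}
      one_mem' := fun w => by simp
      mul_mem' := fun {a b} ha hb w => by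
        have := add_mem (ha (b w)) (hb w)
        simpa using this
      inv_mem' := fun {a} ha w => by
        have := neg_mem (ha (a⁻¹ w))
        simpa using this }
  have dS : ∀ (ψ : V →ₗ[F] F) a, a ∈ Y → dt ψ a ∈ S := fun ψ a ha w =>
    (span_singleton_le_iff_mem _ _).2 ha (dt_sub_mem ψ a w)
  have two : ∀ a, ∃ ψ ρ : (ι → F₀) →ₗ[F₀] F₀, ψ a = 0 ∧ ψ e = 0 ∧ ρ a = 0 ∧ ρ e = 0 ∧
      ∀ s t : F₀, φ s * lf φ k ψ v + φ t * lf φ k ρ v = 0 → s = 0 ∧ t = 0 := fun a => by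
    obtain ⟨ψ, ρ, h1, h2, h3, h4, h5⟩ := exists_dual22 h.four a e
    exact ⟨ψ, ρ, h1, h2, h3, h4, fun s t e => h5 s t (gp _ (by simpa [lf_add, lf_smul] using e))⟩
  obtain ⟨ψ, ρ, -, h1, -, h2, h3⟩ := two 0
  have up : ∀ ψ : (ι → F₀) →ₗ[F₀] F₀, ψ e = 0 → ∃ g ∈ M ⊓ S,
      Act ⊥ g (jv φ k e) v 1 (lf φ k ψ v) 0 1 ∧ Act ⊥ g (jv φ k e) v 1 (lf φ k ψ v) 0 1 := fun ψ h1 => by
    have : lf φ k ψ (jv φ k e) = 0 := by simp [h1]
    refine ⟨_, ⟨h.tr e ψ h1, dS _ _ y1⟩, ?_, ?_⟩ <;> simp [Act, dt_apply this, this]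
  have hx : Act ⊥ (dt χ v) (jv φ k e) v 1 0 (χ (jv φ k e)) 1 := by simp [Act, dt_apply hv, hv]
  refine noGen (M ⊓ S) (R := ⊥) (fun g _ r hr => by rw [(mem_bot F).1 hr]; simp) _ _ _ _ ?_
    ⟨hm, dS _ _ y2⟩ he hx hx (fun e => one_ne_zero (h3 1 0 (by simp [e])).1)
    (fun e => one_ne_zero (h3 0 1 (by simp [e])).2)
    (fun e => one_ne_zero (h3 1 (-1) (by simp [e])).1) (up ψ h1) (up ρ h2)
  rintro g ⟨hg, hS⟩ α β δ hd ⟨a1, a2⟩ -
  simp only [zero_smul, sub_zero, mem_bot, sub_eq_zero] at a1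
  have α0 : α ≠ 0 := left_ne_zero_of_mul_eq_one hd
  have r : ∀ ψ : (ι → F₀) →ₗ[F₀] F₀, ψ e = 0 → ∀ a, ∃ t, φ t = α * lf φ k ψ (g⁻¹ (jv φ k a)) := by
    intro ψ h1 a
    have m := dt_mem_of_conj hg (h.tr e ψ h1)
    rw [a1, ← dt_smul] at m
    have i1 : g⁻¹ (jv φ k e) = α⁻¹ • jv φ k e := g.injective (by
      simp [a1, smul_smul, α0])
    exact h.rat_axs hR e0 ⟨by
      rw [LinearMap.smul_apply, LinearMap.comp_apply, LinearEquiv.coe_coe, i1]; simp [h1], m⟩ a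
  have z : ∀ a, g⁻¹ (jv φ k a) - jv φ k a ∈ span F {jv φ k e} := by
    intro a
    obtain ⟨s, t, hst⟩ := mem_span_pair.1 (S.inv_mem hS (jv φ k a))
    obtain ⟨ψ, ρ, h1, h2, h3, h4, h5⟩ := two a
    obtain ⟨t1, e1⟩ := r ψ h2 a
    obtain ⟨t2, e2⟩ := r ρ h4 a
    have e3 : g⁻¹ (jv φ k a) = jv φ k a + s • jv φ k e + t • v := by rw [add_assoc, hst]; simp
    simp only [e3, map_add, map_smul, lf_jv, h1, h2, h3, h4, map_zero, smul_eq_mul] at e1 e2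
    obtain ⟨-, z1⟩ := h5 t2 (-t1) (by rw [map_neg, e1, e2]; ring)
    have : t = 0 := by
      rw [neg_eq_zero.1 z1, map_zero] at e1
      by_contra t0
      have : lf φ k ψ v = 0 := by
        have : α * t * lf φ k ψ v = 0 := by linear_combination -e1
        simpa [α0, t0] using this
      exact one_ne_zero (h5 1 0 (by simp [this])).1
    rw [← hst, this, zero_smul, add_zero]
    exact smul_mem _ _ (mem_span_singleton_self _)
  have z' : ∀ w, g⁻¹ w - w ∈ span F {jv φ k e} := jv_induction φ k z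
    (fun x y hx hy => by simpa [add_sub_add_comm] using add_mem hx hy)
    (fun a x hx => by simpa [smul_sub] using smul_mem _ a hx)
  obtain ⟨s, hs⟩ := mem_span_singleton.1 (z' (g v))
  rw [mem_bot] at a2
  have e1 : (1 - δ) • v = (s + β) • jv φ k e := by
    rw [show g⁻¹ (g v) = v by simp] at hs
    linear_combination (norm := module) -hs + a2
  have := congrArg (lf φ k ψ) e1
  simp only [map_smul, lf_jv, h1, map_zero, smul_eq_mul, mul_zero, mul_eq_zero] at this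
  rcases this with e2 | e2
  · rw [← hd, ← sub_eq_zero.1 e2, mul_one]
  · exact (one_ne_zero (h3 1 0 (by simp [e2])).1).elim

theorem le_RN [Finite F] : M ≤ RN φ k := by
  intro g hg
  obtain ⟨μ, h0, hμ⟩ := frame_sub (φ := φ) (k := k) (g := g) (W := ⊤) fun u _ => by
    obtain ⟨ψ, hψ, h1, -⟩ := exists_dual2 h.three u u
    refine h.pt hR (fun e => hψ (LinearMap.ext fun x => φ.injective ?_)) (by simp [h1])
      (dt_mem_of_conj hg (h.tr u ψ h1))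
    simpa using LinearMap.congr_fun e (g (jv φ k x))
  exact ⟨μ, h0, fun x => hμ x mem_top⟩

end LS

theorem bk_dt {u : ι → F₀} {ψ : (ι → F₀) →ₗ[F₀] F₀} (h : ψ u = 0) :
    bk φ k (dt ψ u) = dt (lf φ k ψ) (jv φ k u) :=
  bk_eq φ k fun x => by rw [dt_apply h, dt_apply (by simp [h])]; simp

theorem isMaximalIn_SL [Finite F] [FiniteDimensional F V] (hp : PD φ) (hs : ∃ x, ∀ a, φ a ≠ x)
    (h4 : 4 ≤ finrank F₀ (ι → F₀)) : Geo.IsMaximalIn (SLg F V) (RN φ k ⊓ SLg F V) := by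
  have ls : ∀ M : Subgroup (V ≃ₗ[F] V), RN φ k ⊓ SLg F V ≤ M → LS φ k M := fun M hM =>
    ⟨h4, fun u ψ hu => hM ⟨bk_dt (φ := φ) (k := k) hu ▸ bk_mem_RN φ k _, dt_mem_SLg (by simp [hu])⟩⟩
  refine isMaximalIn_of inf_le_right ?_ fun M h1 h2 g hg hn => ?_
  · obtain ⟨x, hx⟩ := hs
    obtain ⟨u, u0, -⟩ := exists_ker2 (F₀ := F₀) (W := ι → F₀) (by omega) 0 0
    obtain ⟨ψ, hψ, h1, -⟩ := exists_dual2 (F₀ := F₀) (W := ι → F₀) (by omega) u u
    have h2 : lf φ k ψ (x • jv φ k u) = 0 := by simp [h1]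
    refine ⟨dt (lf φ k ψ) (x • jv φ k u), dt_mem_SLg h2, fun ⟨⟨μ, h0, hμ⟩, _⟩ => ?_⟩
    obtain ⟨y, hy⟩ : ∃ y, ψ y = 1 := by
      obtain ⟨y, hy⟩ := DFunLike.ne_iff.1 hψ
      exact ⟨(ψ y)⁻¹ • y, by simpa using inv_mul_cancel₀ (by simpa using hy)⟩
    obtain ⟨z, hz⟩ := hμ y
    rw [dt_apply h2, lf_jv, hy, map_one, one_smul, ← one_smul F (jv φ k y)] at hz
    have n1 : u ∉ span F₀ {y} := fun hm => by
      obtain ⟨s, rfl⟩ := mem_span_singleton.1 hm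
      simp [hy] at h1
      simp [h1] at u0
    have n2 : y ∉ span F₀ {u} := fun hm => by
      obtain ⟨s, rfl⟩ := mem_span_singleton.1 hm
      simp [h1] at hy
    obtain ⟨t, ht⟩ := ratio n1 hz
    obtain ⟨t', ht'⟩ := ratio n2 ((add_comm _ _).trans hz)
    refine hx (t / t') ?_
    rw [map_div₀, ht, div_eq_iff (right_ne_zero_of_mul_eq_one ht'.symm)]
    linear_combination φ t * ht'
  · rcases (ls M h1).dich hp with e | e
    · exact e
    · exact (hn ⟨(ls M h1).le_RN e hg, h2 hg⟩).elim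

end Cfsg.Agent.H4.Sf
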