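import Cfsg.Agent.H4.Tn2
import Cfsg.Agent.H4.Mn5
import Cfsg.Agent.H4.Sf2

/-! The geometric classes in `SL`, in the language of the statements. -/

namespace Cfsg.Agent.H4.GeoL
open Module Geo

variable {F : Type*} [Field F] [Fintype F] {n : ℕ}

theorem sub (W : Submodule F (Fin n → F)) (h0 : W ≠ ⊥) (h1 : W ≠ ⊤) :
    IsMaximalIn (specialLinear (Fin n) F) (subspaceStabilizer W ⊓ specialLinear (Fin n) F) :=
  isMaximalIn_stab_of_glE (fun _ => mem_specialLinear) (isMaximalIn_SLg_stab h0 h1)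

theorem subf (hn : 4 ≤ n) (F₀ : Subfield F) (r : ℕ) (P : GL (Fin n) F) (hr : r.Prime)
    (hc : Fintype.card F = Nat.card F₀ ^ r) :
    IsMaximalIn (specialLinear (Fin n) F) (subfieldSubgroup F₀ P ⊓ specialLinear (Fin n) F) :=
  isMaximalIn_of_glE (H' := Sf.RN F₀.subtype (glE P) ⊓ SLg F _) (fun _ => mem_specialLinear)
    (fun g => and_congr (Sf.mem_subfieldSubgroup F₀ P g) mem_specialLinear)
    (Sf.isMaximalIn_SL (Sf.pd_of_prime F₀ hr hc) (Sf.not_surj_of_prime F₀ hr hc) (by simpa))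

theorem symp (h : ∀ B : CForm (FType.symp F) (Fin n → F), B.Nondeg → IsMaximalIn (SLg F _) (B.simB ⊓ SLg F _))
    (f : (Fin n → F) → (Fin n → F) → F) (hf : IsSymplecticForm f) :
    IsMaximalIn (specialLinear (Fin n) F) (similarityGroup f ⊓ specialLinear (Fin n) F) := by
  let B := CForm.mkAlt f hf.bilinear.add_left hf.bilinear.smul_left (fun x y => hf.skew y x)
    hf.alternating
  have hB : B.Nondeg := fun x hx => by
    by_contra h
    obtain ⟨y, hy⟩ := (hf.nondegenerate x h).2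
    exact hy (hx y)
  refine isMaximalIn_of_glE (fun g => mem_specialLinear) (fun g => ?_) (h B hB)
  refine and_congr ?_ mem_specialLinear
  exact ⟨fun ⟨c, hc⟩ => ⟨c, c.ne_zero, hc⟩, fun ⟨c, h0, hc⟩ => ⟨Units.mk0 c h0, hc⟩⟩

theorem unit (h : ∀ (σ : F →+* F) hσσ, σ ≠ RingHom.id F → ∀ B : CForm (FType.unit σ hσσ) (Fin n → F),
      B.Nondeg → IsMaximalIn (SLg F _) (B.simB ⊓ SLg F _))
    (σ : F ≃+* F) (f : (Fin n → F) → (Fin n → F) → F) (hf : IsUnitaryForm σ f) :
    IsMaximalIn (specialLinear (Fin n) F) (similarityGroup f ⊓ specialLinear (Fin n) F) := by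
  have hσ : (σ : F →+* F) ≠ RingHom.id F := fun e => hf.ne_refl (RingEquiv.ext fun x => congr($e x))
  let B := CForm.mkHerm (σ : F →+* F) hf.involutive hσ f hf.add_left hf.smul_left
    (fun x y => hf.herm y x)
  have hB : B.Nondeg := fun x hx => by
    by_contra h
    obtain ⟨y, hy⟩ := (hf.nondegenerate x h).2
    exact hy (hx y)
  refine isMaximalIn_of_glE (fun g => mem_specialLinear) (fun g => ?_) (h _ _ hσ B hB)
  refine and_congr ?_ mem_specialLinear
  exact ⟨fun ⟨c, hc⟩ => ⟨c, c.ne_zero, hc⟩, fun ⟨c, h0, hc⟩ => ⟨Units.mk0 c h0, hc⟩⟩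

theorem orth (h : (2 : F) ≠ 0 → ∀ B : CForm (FType.orth F) (Fin n → F), B.Nondeg →
      IsMaximalIn (SLg F _) (B.simB ⊓ SLg F _)) (hodd : Odd (Fintype.card F))
    (Q : (Fin n → F) → F) (hQ : IsNondegenerateQuadraticForm Q) :
    IsMaximalIn (specialLinear (Fin n) F) (quadSimilarityGroup Q ⊓ specialLinear (Fin n) F) := by
  have hB := geoQuad_nondeg hQ
  have h2 := two_ne_zero_of_odd hodd
  refine isMaximalIn_of_glE (fun g => mem_specialLinear) (fun g => ?_) (h h2 _ hB)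
  refine and_congr ?_ mem_specialLinear
  constructor
  · rintro ⟨c, hc⟩
    refine ⟨c, c.ne_zero, fun x y => ?_⟩
    rw [CForm.orth_B_eq, CForm.orth_B_eq, ← map_add]
    change Q _ - Q _ - Q _ = c * (Q _ - Q _ - Q _)
    simp only [glE_apply, hc]; ring
  · rintro ⟨c, h0, hc⟩
    refine ⟨Units.mk0 c h0, fun v => mul_left_cancel₀ h2 ?_⟩
    have := hc v v
    rw [CForm.orth_B_self, CForm.orth_B_self] at this
    exact this.trans (mul_left_comm _ _ _)

end Cfsg.Agent.H4.GeoL
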