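import Cfsg.Agent.H4.Par1
import Cfsg.Agent.H4.Std1
import Cfsg.Agent.H5.Hc1
import Cfsg.Agent.H8.GLp

/-! Homocyclic Sylow subgroups of linear groups. -/

set_option autoImplicit false

namespace Cfsg.Agent.H4

open Matrix

theorem sylow_of_homo {G : Type*} [Group G] [Finite G] {r k a : ℕ} [Fact r.Prime] (P : Sylow r G)
    (h : padicValNat r (Nat.card G) = k * a) (φ : (Fin a → Multiplicative (ZMod (r ^ k))) →* G)
    (hφ : Function.Injective φ) : Nonempty (P ≃* (Fin a → Multiplicative (ZMod (r ^ k)))) := by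
  refine ⟨(P.equiv (Sylow.ofCard φ.range ?_)).trans (MonoidHom.ofInjective hφ).symm⟩
  rw [← Nat.card_congr (MonoidHom.ofInjective hφ).toEquiv, Nat.factorization_def _ Fact.out, h, Nat.card_fun]
  simp [pow_mul]

variable {F : Type*} [Field F] [Fintype F]

theorem exists_homo_GL {d a n m : ℕ} (hd : 0 < d) (hn : d * a ≤ n) (hm : m ∣ Fintype.card F ^ d - 1) :
    ∃ φ : (Fin a → Multiplicative (ZMod m)) →* GL (Fin n) F, Function.Injective φ := by
  obtain ⟨A, hA, -⟩ := Rp.exists_singer (F := F) hd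
  have h0 : 0 < Fintype.card F ^ d - 1 := Nat.sub_pos_of_lt (Nat.one_lt_pow hd.ne' Fintype.one_lt_card)
  obtain ⟨u, rfl⟩ := (orderOf_pos_iff.1 (hA ▸ h0)).isUnit
  rw [orderOf_units] at hA
  obtain ⟨c, hc⟩ := hm
  have h1 : orderOf (u ^ c) = m := by
    have : c ≠ 0 := by rintro rfl; omega
    rw [orderOf_pow_of_dvd this (by rw [hA, hc]; simp), hA, hc, Nat.mul_div_cancel _ (by omega)]
  have : NeZero m := ⟨by rintro rfl; omega⟩
  let ψ := (Units.coeHom _).comp ((Subgroup.zpowers (u ^ c)).subtype.comp (mulEquivOfCyclicCardEq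
    (G := Multiplicative (ZMod m)) (G' := Subgroup.zpowers (u ^ c)) (by simp [h1])).toMonoidHom)
  have hψ : Function.Injective ψ := Units.val_injective.comp (Subtype.val_injective.comp (MulEquiv.injective _))
  let e : (Fin d × Fin a) ⊕ Fin (n - d * a) ≃ Fin n := Fintype.equivFinOfCardEq (by simp; omega)
  let Φ : (Fin a → Multiplicative (ZMod m)) →* Matrix (Fin n) (Fin n) F :=
    { toFun x := reindex e e (fromBlocks (blockDiagonal fun i => ψ (x i)) 0 0 1)
      map_one' := by simp [← Pi.one_def]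
      map_mul' x y := by simp [fromBlocks_multiply, ← blockDiagonal_mul] }
  refine ⟨Φ.toHomUnits, fun x y h => funext fun i => hψ ?_⟩
  have h2 := (fromBlocks_inj.1 ((reindex e e).injective (congrArg Units.val h))).1
  exact congrFun (blockDiagonal_injective h2) i

theorem val_range {q r n s : ℕ} [Fact r.Prime] (hq : 2 ≤ q) (h : ¬ r ∣ q) (hn : n + s < r) :
    (∏ i ∈ Finset.range n, (q ^ (i + 1 + s) - 1)) ≠ 0 ∧ padicValNat r (∏ i ∈ Finset.range n, (q ^ (i + 1 + s) - 1)) =
      padicValNat r (q ^ orderOf (q : ZMod r) - 1) * ((Finset.range n).filter fun i => orderOf (q : ZMod r) ∣ i + 1 + s).card := by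
  by_cases hr : r = 2
  · subst hr
    obtain rfl | rfl : n = 0 ∨ n = 1 := by omega
    · simp
    obtain rfl : s = 0 := by omega
    have : (q : ZMod 2) = 1 := (ZMod.natCast_eq_one_iff_odd).2 (Nat.odd_iff.2 (by omega))
    simp [this]; omega
  have := H5.val_list hq h hr (L := (List.range n).map (· + 1 + s)) (fun h => by
    obtain ⟨x, hx, h1⟩ := (Prime.dvd_prod_iff (Fact.out : r.Prime).prime).1 h
    obtain ⟨y, hy, rfl⟩ := List.mem_map.1 hx
    have := Nat.le_of_dvd (by omega) h1
    have := List.mem_range.1 hy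
    omega)
  rw [List.map_map, List.filter_map, List.length_map] at this
  exact this

theorem card_GL_prod (n : ℕ) : Nat.card (GL (Fin n) F) =
    Fintype.card F ^ (∑ i ∈ Finset.range n, i) * ∏ i ∈ Finset.range n, (Fintype.card F ^ (i + 1 + 0) - 1) := by
  obtain ⟨k, hk⟩ : ∃ k, Fintype.card F = k + 1 := ⟨Fintype.card F - 1, by have := Fintype.card_pos (α := F); omega⟩
  rw [card_GL_geom hk, hk, Fintype.card_fin, mul_assoc, show k ^ n = ∏ _ ∈ Finset.range n, k by simp, ← Finset.prod_mul_distrib]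
  congr 1
  exact Finset.prod_congr rfl fun i _ => by rw [add_zero, ← geom_sum_mul_add k (i + 1), Nat.add_sub_cancel, mul_comm]

end Cfsg.Agent.H4
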