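import Cfsg.Agent.H4.Hcy1
import Cfsg.Agent.H4.Bridge2

/-! Homocyclic subgroups of symplectic groups. -/

set_option autoImplicit false

namespace Cfsg.Agent.H4

open Matrix

variable {F : Type*} [Field F] {Z : Type*} [Group Z]

theorem exists_homo_Sp {e a n : ℕ} (hn : e * a ≤ n) (ψ : Z →* symplecticGroup (Fin e) F) (hψ : Function.Injective ψ) :
    ∃ φ : (Fin a → Z) →* symplecticGroup (Fin n) F, Function.Injective φ := by
  let ε : (Fin e × Fin a) ⊕ Fin (n - e * a) ≃ Fin n := Fintype.equivFinOfCardEq (by simp; omega)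
  let E : ((Fin e ⊕ Fin e) × Fin a) ⊕ (Fin (n - e * a) ⊕ Fin (n - e * a)) ≃ Fin n ⊕ Fin n :=
    ((Equiv.sumProdDistrib _ _ _).sumCongr (Equiv.refl _)).trans ((Equiv.sumSumSumComm _ _ _ _).trans (ε.sumCongr ε))
  have hJ : J (Fin n) F = reindex E E (fromBlocks (blockDiagonal fun _ => J (Fin e) F) 0 0 (J (Fin (n - e * a)) F)) := by
    rw [← Equiv.symm_apply_eq]
    ext (⟨i | i, k⟩ | i | i) (⟨j | j, l⟩ | j | j) <;>
      simp [E, J, one_apply, blockDiagonal_apply, Equiv.sumSumSumComm] <;> split_ifs <;> simp_all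
  let Φ : (Fin a → Z) →* Matrix (Fin n ⊕ Fin n) (Fin n ⊕ Fin n) F :=
    { toFun x := reindex E E (fromBlocks (blockDiagonal fun i => (ψ (x i)).1) 0 0 1)
      map_one' := by simp [← Pi.one_def]
      map_mul' x y := by simp [fromBlocks_multiply, ← blockDiagonal_mul] }
  refine ⟨Φ.codRestrict _ fun x => SymplecticGroup.mem_iff.2 ?_, fun x y h => funext fun i => hψ (Subtype.ext ?_)⟩
  · have := fun i => SymplecticGroup.mem_iff.1 (ψ (x i)).2
    rw [hJ]
    simp [Φ, fromBlocks_multiply, fromBlocks_transpose, ← blockDiagonal_mul, this]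
  · have h2 := (fromBlocks_inj.1 ((reindex E E).injective (congrArg Subtype.val h))).1
    exact congrFun (blockDiagonal_injective h2) i

/-- the Siegel Levi subgroup -/
def glSp (n : ℕ) : GL (Fin n) F →* symplecticGroup (Fin n) F where
  toFun g := ⟨fromBlocks g.1 0 0 (g⁻¹).1ᵀ, SymplecticGroup.mem_iff.2 (by
    simp only [J, fromBlocks_transpose, fromBlocks_multiply]
    simp [← transpose_mul])⟩
  map_one' := Subtype.ext (by simp)
  map_mul' g h := Subtype.ext (by simp [fromBlocks_multiply, Matrix.mul_inv_rev])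

theorem glSp_injective (n : ℕ) : Function.Injective (glSp (F := F) n) := fun _ _ h =>
  Units.ext (fromBlocks_inj.1 (congrArg Subtype.val h)).1

theorem val_Sp [Fintype F] {r : ℕ} [Fact r.Prime] (hr2 : r ≠ 2) {n : ℕ} (hrn : n < r) (hrq : ¬ r ∣ Fintype.card F) :
    padicValNat r (Nat.card (symplecticGroup (Fin n) F)) =
      padicValNat r (Fintype.card F ^ orderOf (Fintype.card F : ZMod r) - 1) *
        ((Finset.Icc 1 n).filter fun i => orderOf (Fintype.card F : ZMod r) ∣ 2 * i).card := by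
  have h0 : 2 ≤ Fintype.card F := Fintype.one_lt_card
  have := H5.val_list h0 hrq hr2 (L := (List.range n).map fun i => 2 * (i + 1)) (fun h => by
    obtain ⟨x, hx, h1⟩ := (Prime.dvd_prod_iff (Fact.out : r.Prime).prime).1 h
    obtain ⟨y, hy, rfl⟩ := List.mem_map.1 hx
    have := List.mem_range.1 hy
    rcases (Nat.Prime.dvd_mul Fact.out).1 h1 with h | h
    · exact hr2 ((Nat.prime_dvd_prime_iff_eq Fact.out Nat.prime_two).1 h)
    · have := Nat.le_of_dvd (by omega) h
      omega)
  rw [List.map_map, List.filter_map, List.length_map] at this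
  obtain ⟨h1, h2⟩ : (∏ i ∈ Finset.range n, (Fintype.card F ^ (2 * (i + 1)) - 1)) ≠ 0 ∧
      padicValNat r (∏ i ∈ Finset.range n, (Fintype.card F ^ (2 * (i + 1)) - 1)) =
      padicValNat r (Fintype.card F ^ orderOf (Fintype.card F : ZMod r) - 1) *
        ((Finset.range n).filter fun i => orderOf (Fintype.card F : ZMod r) ∣ 2 * (i + 1)).card := this
  rw [card_Sp, padicValNat.mul (by positivity) h1, h2,
    padicValNat.eq_zero_of_not_dvd (mt (Fact.out : r.Prime).dvd_of_dvd_pow hrq), zero_add]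
  congr 1
  exact Finset.card_bij (fun i _ => i + 1) (fun i hi => by simp at hi ⊢; exact ⟨by omega, hi.2⟩) (fun _ _ _ _ h => by omega)
    fun j hj => by
      simp at hj
      obtain ⟨i, rfl⟩ : ∃ i, j = i + 1 := ⟨j - 1, by omega⟩
      exact ⟨i, by simp; exact ⟨by omega, hj.2⟩, rfl⟩

end Cfsg.Agent.H4
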