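import Cfsg.Agent.H4.Over2
import Mathlib.GroupTheory.SpecificGroups.Alternating.Simple

/-! Monomial subgroups of `SL`: basic tools. -/

namespace Cfsg.Agent.H4.Mn
open Module Submodule

variable {F : Type*} [Field F] {V : Type*} [AddCommGroup V] [Module F V]
  {κ : Type} [Fintype κ] [DecidableEq κ] (b : Basis κ F V)

/-- `v` is a multiple of a basis vector. -/
def Bm (v : V) : Prop := ∃ j, ∀ i, i ≠ j → b.coord i v = 0

/-- the frame of a basis -/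
def fr (i : κ) : Submodule F V := span F {b i}

/-- a one-parameter torus -/
noncomputable def T2 (a c : κ) (l : F) : V ≃ₗ[F] V :=
  dt ((l - 1) • b.coord a) (b a) * dt ((l⁻¹ - 1) • b.coord c) (b c)

/-- twisted permutations -/
noncomputable def pw (d : κ → Fˣ) : Equiv.Perm κ →* (V ≃ₗ[F] V) where
  toFun s := (b.unitsSMul d).equiv (b.unitsSMul d) s
  map_one' := by
    refine LinearEquiv.toLinearMap_injective ((b.unitsSMul d).ext fun i => ?_)
    simp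
  map_mul' s t := by
    refine LinearEquiv.toLinearMap_injective ((b.unitsSMul d).ext fun i => ?_)
    simp

variable {b}

omit [Fintype κ] in
theorem cb (i j : κ) : b.coord i (b j) = if j = i then 1 else 0 := by
  simp [Finsupp.single_apply]

omit [Fintype κ] [DecidableEq κ] in
theorem cb_self (i : κ) : b.coord i (b i) = 1 := by simp

omit [Fintype κ] [DecidableEq κ] in
theorem cb_ne {i j : κ} (h : i ≠ j) : b.coord i (b j) = 0 := by
  simp [Finsupp.single_eq_of_ne h]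

omit [Fintype κ] [DecidableEq κ] in
theorem ext_c {v w : V} (h : ∀ i, b.coord i v = b.coord i w) : v = w := b.ext_elem h

omit [Fintype κ] [DecidableEq κ] in
theorem eq_smul_of {v : V} {j : κ} (h : ∀ i, i ≠ j → b.coord i v = 0) : v = b.coord j v • b j :=
  ext_c (b := b) fun i => by
    by_cases e : i = j
    · subst e; rw [map_smul, cb_self, smul_eq_mul, mul_one]
    · rw [map_smul, cb_ne e, h i e, smul_zero]

omit [Fintype κ] [DecidableEq κ] in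
theorem bm_smul (c : F) (j : κ) : Bm b (c • b j) := ⟨j, fun i h => by rw [map_smul, cb_ne h, smul_zero]⟩

omit [Fintype κ] [DecidableEq κ] in
theorem Bm.smul {v : V} (h : Bm b v) (c : F) : Bm b (c • v) :=
  let ⟨j, h⟩ := h; ⟨j, fun i e => by rw [map_smul, h i e, smul_zero]⟩

omit [Fintype κ] [DecidableEq κ] in
theorem Bm.eq {v : V} (h : Bm b v) {i j : κ} (hi : b.coord i v ≠ 0) (hj : b.coord j v ≠ 0) : i = j := by
  obtain ⟨k, h⟩ := h
  have h1 : i = k := by_contra fun e => hi (h i e)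
  have h2 : j = k := by_contra fun e => hj (h j e)
  rw [h1, h2]

omit [Fintype κ] [DecidableEq κ] in
theorem Bm.zero {v : V} (h : Bm b v) {i j : κ} (hi : b.coord i v ≠ 0) (hj : j ≠ i) : b.coord j v = 0 :=
  by_contra fun e => hj (h.eq e hi)

omit [Fintype κ] [DecidableEq κ] in
theorem mem_fr {i : κ} {v : V} : v ∈ fr b i ↔ ∀ j, j ≠ i → b.coord j v = 0 := by
  refine ⟨fun h j e => ?_, fun h => ?_⟩
  · obtain ⟨c, rfl⟩ := mem_span_singleton.1 h
    rw [map_smul, cb_ne e, smul_zero]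
  · rw [eq_smul_of h]; exact smul_mem _ _ (mem_span_singleton_self _)

theorem dec_fr : Dec (fr b) fun i => (b.coord i).smulRight (b i) where
  mem i x := smul_mem _ _ (mem_span_singleton_self _)
  sum x := by simpa using b.sum_repr x
  same i x hx := (eq_smul_of (mem_fr.1 hx)).symm
  other i j h x hx := by simp only [LinearMap.smulRight_apply]; rw [mem_fr.1 hx i h, zero_smul]

omit [Fintype κ] [DecidableEq κ] in
theorem finrank_fr (i : κ) : finrank F (fr b i) = 1 := finrank_span_singleton (b.ne_zero i)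

theorem mem_H {g : V ≃ₗ[F] V} : g ∈ dstab (fr b) ↔ ∀ i, Bm b (g (b i)) := by
  haveI := b.finiteDimensional_of_finite
  refine ⟨fun ⟨s, h⟩ i => ⟨s i, mem_fr.1 ?_⟩, fun h => dec_fr.mem_dstab finrank_fr one_pos fun i x hx => ?_⟩
  · rw [← h]; exact mem_map_of_mem (mem_span_singleton_self _)
  · obtain ⟨c, rfl⟩ := mem_span_singleton.1 hx
    obtain ⟨j, h⟩ := (h i).smul c
    exact ⟨j, mem_fr.2 (by rwa [map_smul])⟩

omit [Fintype κ] [DecidableEq κ] in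
theorem T2_apply {a c : κ} (h : a ≠ c) {l : F} (hl : l ≠ 0) (x : V) :
    T2 b a c l x = x + ((l - 1) * b.coord a x) • b a + ((l⁻¹ - 1) * b.coord c x) • b c := by
  rw [T2, LinearEquiv.mul_apply, dt_apply' (by simpa using hl), dt_apply' (by simpa using hl)]
  simp only [LinearMap.smul_apply, map_add, map_smul, cb_ne h, smul_eq_mul, mul_zero, add_zero]
  abel

omit [Fintype κ] [DecidableEq κ] in
theorem conj_T2 (g : V ≃ₗ[F] V) {a c : κ} (h : a ≠ c) {l : F} (hl : l ≠ 0) (x : V) :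
    (g * T2 b a c l * g⁻¹) x = x + ((l - 1) * b.coord a (g⁻¹ x)) • g (b a) +
      ((l⁻¹ - 1) * b.coord c (g⁻¹ x)) • g (b c) := by
  simp only [LinearEquiv.mul_apply, T2_apply h hl, map_add, map_smul]
  simp

omit [Fintype κ] [DecidableEq κ] in
theorem T2_inv {a c : κ} (h : a ≠ c) {l : F} (hl : l ≠ 0) : (T2 b a c l)⁻¹ = T2 b a c l⁻¹ := by
  refine inv_eq_of_mul_eq_one_right (LinearEquiv.ext fun x => ?_)
  simp only [LinearEquiv.mul_apply, T2_apply h hl, T2_apply h (inv_ne_zero hl), map_add, map_smul,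
    cb_self, cb_ne h, cb_ne h.symm, smul_eq_mul, LinearEquiv.coe_one, id, inv_inv]
  match_scalars <;> field_simp <;> ring

theorem T2_mem {a c : κ} (h : a ≠ c) {l : F} (hl : l ≠ 0) : T2 b a c l ∈ dstab (fr b) ⊓ SLg F V := by
  haveI := b.finiteDimensional_of_finite
  refine ⟨mem_H.2 fun i => ⟨i, fun j e => ?_⟩, mem_SLg.2 (Units.ext ?_)⟩
  · simp only [T2_apply h hl, map_add, map_smul, cb, smul_eq_mul]
    split_ifs <;> simp_all
  · rw [T2, map_mul, Units.val_mul, det_dt (by simpa using hl), det_dt (by simpa using hl)]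
    simp [hl]

omit [Fintype κ] [DecidableEq κ] in
theorem pw_b (d : κ → Fˣ) (s : Equiv.Perm κ) (i : κ) :
    pw b d s (b i) = (((d i)⁻¹ * d (s i) : Fˣ) : F) • b (s i) := by
  have : pw b d s (b.unitsSMul d i) = b.unitsSMul d (s i) := Basis.equiv_apply _ _ _ _
  rw [Basis.unitsSMul_apply, Basis.unitsSMul_apply, Units.smul_def, map_smul, Units.smul_def] at this
  rw [Units.val_mul, mul_smul, ← this, smul_smul]; simp

theorem coord_pw (d : κ → Fˣ) (s : Equiv.Perm κ) (i : κ) (x : V) :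
    b.coord (s i) (pw b d s x) = (((d i)⁻¹ * d (s i) : Fˣ) : F) * b.coord i x := by
  have : b.coord (s i) ∘ₗ (pw b d s : V →ₗ[F] V) = (((d i)⁻¹ * d (s i) : Fˣ) : F) • b.coord i :=
    b.ext fun j => by
      simp only [LinearMap.comp_apply, LinearEquiv.coe_coe, pw_b, map_smul, cb, LinearMap.smul_apply,
        s.injective.eq_iff]
      split_ifs with e
      · rw [e]
      · simp
  exact congr($this x)

theorem pw_mem_H (d : κ → Fˣ) (s : Equiv.Perm κ) : pw b d s ∈ dstab (fr b) :=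
  mem_H.2 fun i => by rw [pw_b]; exact bm_smul _ _

theorem det_pw (d : κ → Fˣ) (s : Equiv.Perm κ) :
    ((LinearEquiv.det (pw b d s) : Fˣ) : F) = (Equiv.Perm.sign s : ℤ) := by
  rw [LinearEquiv.coe_det, ← LinearMap.det_toMatrix (b.unitsSMul d), ← Matrix.det_transpose,
    ← Matrix.det_permutation]
  congr 1
  ext i j
  have : pw b d s (b.unitsSMul d i) = b.unitsSMul d (s i) := Basis.equiv_apply _ _ _ _
  simp [LinearMap.toMatrix_apply, this, Finsupp.single_apply, Equiv.Perm.permMatrix, PEquiv.toMatrix_apply]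

theorem pw_mem (d : κ → Fˣ) {s : Equiv.Perm κ} (h : Equiv.Perm.sign s = 1) :
    pw b d s ∈ dstab (fr b) ⊓ SLg F V :=
  ⟨pw_mem_H d s, mem_SLg.2 (Units.ext (by rw [det_pw, h]; simp))⟩

theorem exists_perm [Nonempty κ] (s : Equiv.Perm κ) :
    ∃ g ∈ dstab (fr b) ⊓ SLg F V, ∀ i, ∃ c : F, c ≠ 0 ∧ g (b i) = c • b (s i) := by
  haveI := b.finiteDimensional_of_finite
  obtain ⟨k⟩ := ‹Nonempty κ›
  set u := LinearEquiv.det (pw b 1 s)
  have h0 : 1 + ((((u⁻¹ : Fˣ) : F) - 1) • b.coord k) (b k) ≠ 0 := by simp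
  have h1 : ∀ i, ∃ c : F, c ≠ 0 ∧ (pw b 1 s * dt ((((u⁻¹ : Fˣ) : F) - 1) • b.coord k) (b k)) (b i) =
      c • b (s i) := fun i => by
    rw [LinearEquiv.mul_apply, dt_apply' h0]
    by_cases e : k = i
    · subst e; exact ⟨_, (u⁻¹).ne_zero, by simp [pw_b, sub_smul]⟩
    · exact ⟨1, one_ne_zero, by simp [pw_b, cb_ne e]⟩
  refine ⟨_, ⟨mem_H.2 fun i => ?_, mem_SLg.2 (Units.ext ?_)⟩, h1⟩
  · obtain ⟨c, -, h⟩ := h1 i; rw [h]; exact bm_smul _ _
  · rw [map_mul, Units.val_mul, det_dt h0, LinearMap.smul_apply, cb_self, smul_eq_mul, mul_one,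
      add_sub_cancel, Units.mul_inv, Units.val_one]

omit [Fintype κ] [DecidableEq κ] in
theorem coord_of_perm {g : V ≃ₗ[F] V} {s : Equiv.Perm κ} (h : ∀ i, ∃ c : F, c ≠ 0 ∧ g (b i) = c • b (s i))
    (i : κ) : ∃ c : F, c ≠ 0 ∧ g (b i) = c • b (s i) ∧ ∀ x, b.coord (s i) (g x) = c * b.coord i x := by
  obtain ⟨c, h0, h1⟩ := h i
  refine ⟨c, h0, h1, fun x => ?_⟩
  have : b.coord (s i) ∘ₗ (g : V →ₗ[F] V) = c • b.coord i := b.ext fun j => by
    by_cases e : i = j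
    · subst e; simp [h1]
    · obtain ⟨c', -, h2⟩ := h j
      simp [h2, cb_ne e, cb_ne (s.injective.ne e)]
  exact congr($this x)

theorem quad3 {A B C x y z : F} (h1 : x ≠ y) (h2 : x ≠ z) (h3 : y ≠ z) (hx : A * x ^ 2 + B * x + C = 0)
    (hy : A * y ^ 2 + B * y + C = 0) (hz : A * z ^ 2 + B * z + C = 0) : A = 0 ∧ C = 0 := by
  have e1 : A * (x + y) + B = 0 := mul_left_cancel₀ (sub_ne_zero.2 h1) (by linear_combination hx - hy)
  have e2 : A * (x + z) + B = 0 := mul_left_cancel₀ (sub_ne_zero.2 h2) (by linear_combination hx - hz)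
  have e3 : A = 0 := mul_left_cancel₀ (sub_ne_zero.2 h3) (by linear_combination e1 - e2)
  subst e3
  have : B = 0 := by linear_combination e1
  subst this
  exact ⟨rfl, by linear_combination hx⟩

theorem exists_four [Fintype F] (hq : 5 ≤ Fintype.card F) : ∃ x y z : F, x ≠ 0 ∧ y ≠ 0 ∧ z ≠ 0 ∧
    x ≠ 1 ∧ y ≠ 1 ∧ z ≠ 1 ∧ x ≠ y ∧ x ≠ z ∧ y ≠ z := by
  classical
  have key : ∀ s : Finset F, s.card ≤ 4 → ∃ x, x ∉ s := fun s hs => by
    by_contra! h
    have := Finset.card_le_card (show Finset.univ ⊆ s from fun x _ => h x)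
    rw [Finset.card_univ] at this; omega
  obtain ⟨x, hx⟩ := key {0, 1} (Finset.card_le_two.trans (by omega))
  obtain ⟨y, hy⟩ := key {0, 1, x} (Finset.card_le_three.trans (by omega))
  obtain ⟨z, hz⟩ := key {0, 1, x, y} Finset.card_le_four
  simp only [Finset.mem_insert, Finset.mem_singleton, not_or] at hx hy hz
  exact ⟨x, y, z, hx.1, hy.1, hz.1, hx.2, hy.2.1, hz.2.1, Ne.symm hy.2.2, Ne.symm hz.2.2.1,
    Ne.symm hz.2.2.2⟩

theorem pl1 {p1 p2 p3 p4 r1 r2 r3 r4 : Prop} (a1 : p1 → ¬ p2) (a2 : p1 → ¬ p3) (a3 : p1 → ¬ p4)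
    (a4 : p2 → ¬ p3) (a5 : p2 → ¬ p4) (a6 : p3 → ¬ p4)
    (a7 : (r1 → r2 → ¬ r3) ∧ (r1 → r2 → ¬ r4) ∧ (r1 → r3 → ¬ r4) ∧ (r2 → r3 → ¬ r4))
    (b1 : p1 ∨ r1) (b2 : p2 ∨ r2) (b3 : p3 ∨ r3) (b4 : p4 ∨ r4) : False := by
  grind

theorem pl2 {p1 p2 p3 p4 r1 r2 r3 r4 s1 s2 s3 s4 : Prop}
    (a1 : (p1 → p2 → ¬ p3) ∧ (p1 → p2 → ¬ p4) ∧ (p1 → p3 → ¬ p4) ∧ (p2 → p3 → ¬ p4))
    (a2 : (r1 → r2 → ¬ r3) ∧ (r1 → r2 → ¬ r4) ∧ (r1 → r3 → ¬ r4) ∧ (r2 → r3 → ¬ r4))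
    (a3 : (s1 → s2 → ¬ s3) ∧ (s1 → s2 → ¬ s4) ∧ (s1 → s3 → ¬ s4) ∧ (s2 → s3 → ¬ s4))
    (c1 : (r1 ∨ s1) ∧ (p1 ∨ r1) ∧ (p1 ∨ s1)) (c2 : (r2 ∨ s2) ∧ (p2 ∨ r2) ∧ (p2 ∨ s2))
    (c3 : (r3 ∨ s3) ∧ (p3 ∨ r3) ∧ (p3 ∨ s3)) (c4 : (r4 ∨ s4) ∧ (p4 ∨ r4) ∧ (p4 ∨ s4)) : False := by
  grind

omit [Fintype κ] [DecidableEq κ] in
theorem conic [Fintype F] (hq : 5 ≤ Fintype.card F) {A B C : V}
    (h : ∀ l : F, l ≠ 0 → Bm b (l ^ 2 • A + l • B + C)) {j j' : κ} (hj : j ≠ j') (h1 : b.coord j A ≠ 0)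
    (h2 : b.coord j' A ≠ 0) : b.coord j C ≠ 0 ∧ b.coord j' C ≠ 0 ∧
      ∀ i, i ≠ j → i ≠ j' → b.coord i A = 0 ∧ b.coord i C = 0 := by
  obtain ⟨x, y, z, x0, y0, z0, x1, y1, z1, xy, xz, yz⟩ := exists_four hq
  let P : κ → F → Prop := fun i l => b.coord i A * l ^ 2 + b.coord i B * l + b.coord i C = 0
  have hP : ∀ l, l ≠ 0 → ∀ i i', i ≠ i' → P i l ∨ P i' l := fun l hl i i' e => by
    by_contra! h3
    refine e ((h l hl).eq ?_ ?_)
    · simpa [P, mul_comm] using h3.1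
    · simpa [P, mul_comm] using h3.2
  have q : ∀ i, ¬ (b.coord i A = 0 ∧ b.coord i C = 0) → ∀ x y z, x ≠ y → x ≠ z → y ≠ z → P i x → P i y →
      ¬ P i z := fun i hi x y z a1 a2 a3 a4 a5 a6 => hi (quad3 a1 a2 a3 a4 a5 a6)
  have q4 : ∀ i, ¬ (b.coord i A = 0 ∧ b.coord i C = 0) → (P i 1 → P i x → ¬ P i y) ∧
      (P i 1 → P i x → ¬ P i z) ∧ (P i 1 → P i y → ¬ P i z) ∧ (P i x → P i y → ¬ P i z) := fun i hi =>
    ⟨q i hi _ _ _ x1.symm y1.symm xy, q i hi _ _ _ x1.symm z1.symm xz, q i hi _ _ _ y1.symm z1.symm yz,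
      q i hi _ _ _ xy xz yz⟩
  have q2 : ∀ i, b.coord i A ≠ 0 → b.coord i C = 0 → ∀ x y, x ≠ 0 → y ≠ 0 → x ≠ y → P i x → ¬ P i y :=
    fun i hi hc x y a1 a2 a3 => q i (fun e => hi e.1) 0 x y a1.symm a2.symm a3 (by simp only [P, hc]; ring)
  have key : ∀ j j', j ≠ j' → b.coord j A ≠ 0 → b.coord j' A ≠ 0 → b.coord j C ≠ 0 := by
    intro j j' hj h1 h2 hc
    have a1 := q2 j h1 hc _ _ one_ne_zero x0 x1.symm
    have a2 := q2 j h1 hc _ _ one_ne_zero y0 y1.symm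
    have a3 := q2 j h1 hc _ _ one_ne_zero z0 z1.symm
    have a4 := q2 j h1 hc _ _ x0 y0 xy
    have a5 := q2 j h1 hc _ _ x0 z0 xz
    have a6 := q2 j h1 hc _ _ y0 z0 yz
    have a7 := q4 j' fun e => h2 e.1
    have b1 := hP 1 one_ne_zero j j' hj
    have b2 := hP x x0 j j' hj
    have b3 := hP y y0 j j' hj
    have b4 := hP z z0 j j' hj
    exact pl1 a1 a2 a3 a4 a5 a6 a7 b1 b2 b3 b4
  refine ⟨key j j' hj h1 h2, key j' j hj.symm h2 h1, fun i e e' => by_contra fun hi => ?_⟩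
  have a1 := q4 i hi
  have a2 := q4 j fun e => h1 e.1
  have a3 := q4 j' fun e => h2 e.1
  have b1 := fun l hl => And.intro (hP l hl j j' hj) (And.intro (hP l hl i j e) (hP l hl i j' e'))
  have c1 := b1 1 one_ne_zero
  have c2 := b1 x x0
  have c3 := b1 y y0
  have c4 := b1 z z0
  exact pl2 a1 a2 a3 c1 c2 c3 c4

end Cfsg.Agent.H4.Mn
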