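import Cfsg.Agent.H4.Mn1

/-! Monomial subgroups of `SL`: frames with a maximal number of common points. -/

namespace Cfsg.Agent.H4.Mn
open Module Submodule

variable {F : Type*} [Field F] {V : Type*} [AddCommGroup V] [Module F V]
  {κ : Type} [Fintype κ] [DecidableEq κ] (b : Basis κ F V)

open Classical in
/-- number of frame points sent to frame points -/
noncomputable def cm (x : V ≃ₗ[F] V) : Finset κ := Finset.univ.filter fun i => Bm b (x (b i))

/-- the stabiliser of the points in `C` -/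
def MC (M : Subgroup (V ≃ₗ[F] V)) (C : Finset κ) : Subgroup (V ≃ₗ[F] V) := M ⊓ ⨅ c : C, stab (fr b c)

structure St [Fintype F] (M : Subgroup (V ≃ₗ[F] V)) (N : ℕ) : Prop where
  le : dstab (fr b) ⊓ SLg F V ≤ M
  mx : ∀ x ∈ M, N < (cm b x).card → x ∈ dstab (fr b)
  q : 5 ≤ Fintype.card F
  n : 5 ≤ Fintype.card κ

variable {b} {M : Subgroup (V ≃ₗ[F] V)} {C : Finset κ} {N : ℕ}

omit [DecidableEq κ] in
theorem mem_cm {x : V ≃ₗ[F] V} {i : κ} : i ∈ cm b x ↔ Bm b (x (b i)) := by simp [cm]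

omit [DecidableEq κ] in
theorem mem_MC {x : V ≃ₗ[F] V} :
    x ∈ MC b M C ↔ x ∈ M ∧ ∀ c ∈ C, ∀ r, r ≠ c → b.coord r (x (b c)) = 0 := by
  haveI := b.finiteDimensional_of_finite
  simp only [MC, Subgroup.mem_inf, Subgroup.mem_iInf, Subtype.forall]
  refine and_congr Iff.rfl (forall₂_congr fun c _ => ⟨fun h => mem_fr.1 ((h _).1
    (mem_span_singleton_self _)), fun h => CForm.mem_stab_of_map_le ?_⟩)
  rw [fr, map_span, span_le, Set.image_singleton, Set.singleton_subset_iff]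
  exact mem_fr.2 h

omit [DecidableEq κ] in
theorem coord_MC {x : V ≃ₗ[F] V} (hx : x ∈ MC b M C) {v : V} (hv : ∀ s ∉ C, b.coord s v = 0) {r : κ}
    (hr : r ∉ C) : b.coord r (x v) = 0 := by
  rw [← b.sum_repr v, map_sum, map_sum]
  refine Finset.sum_eq_zero fun s _ => ?_
  rw [map_smul, map_smul]
  by_cases h : s ∈ C
  · rw [(mem_MC.1 hx).2 s h r (fun e => hr (e ▸ h)), smul_zero]
  · rw [show b.repr v s = 0 from hv s h, zero_smul]

omit [DecidableEq κ] in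
theorem exists_row (x : V ≃ₗ[F] V) (p : κ) : ∃ k, b.coord p (x (b k)) ≠ 0 := by
  by_contra! h
  have : b.coord p ∘ₗ (x : V →ₗ[F] V) = 0 := b.ext h
  simpa using congr($this (x⁻¹ (b p)))

theorem exists_notMem (h : 5 ≤ Fintype.card κ) (a c d e : κ) : ∃ x, x ≠ a ∧ x ≠ c ∧ x ≠ d ∧ x ≠ e := by
  by_contra! h1
  have := Finset.card_le_card (show Finset.univ ⊆ ({a, c, d, e} : Finset κ) from fun x _ => by
    have := h1 x; simp only [Finset.mem_insert, Finset.mem_singleton]; tauto)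
  rw [Finset.card_univ] at this
  have := Finset.card_le_four (a := a) (b := c) (c := d) (d := e)
  omega

variable [Fintype F] (h : St b M N) (hC : C.card = N)
include h

namespace St

theorem T2_MC {a c : κ} (e : a ≠ c) {l : F} (hl : l ≠ 0) : T2 b a c l ∈ MC b M C :=
  mem_MC.2 ⟨h.le (T2_mem e hl), fun i _ j e' => by
    simp only [T2_apply e hl, map_add, map_smul, cb, smul_eq_mul]
    split_ifs <;> simp_all⟩

theorem conj_MC {g : V ≃ₗ[F] V} (hg : g ∈ MC b M C) {a c : κ} (e : a ≠ c) {l : F} (hl : l ≠ 0) :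
    g * T2 b a c l * g⁻¹ ∈ MC b M C := mul_mem (mul_mem hg (h.T2_MC e hl)) (inv_mem hg)

include hC

theorem K {x : V ≃ₗ[F] V} (hx : x ∈ MC b M C) {i : κ} (hi : i ∉ C) (h1 : Bm b (x (b i))) :
    x ∈ dstab (fr b) := by
  refine h.mx x hx.1 ?_
  rw [← hC]
  refine Finset.card_lt_card ⟨fun c hc => mem_cm.2 ⟨c, (mem_MC.1 hx).2 c hc⟩, fun e => hi (e (mem_cm.2 h1))⟩

theorem K' {x a : V ≃ₗ[F] V} (hx : x ∈ MC b M C) (ha : a ∈ MC b M C) {i : κ} (hi : i ∉ C) {c : F}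
    (h1 : a (x (b i)) = c • x (b i)) : x⁻¹ * a * x ∈ dstab (fr b) :=
  h.K hC (mul_mem (mul_mem (inv_mem hx) ha) hx) hi (by simpa [h1] using bm_smul c i)

theorem Z1 {x : V ≃ₗ[F] V} (hx : x ∈ MC b M C) (hH : x ∉ dstab (fr b)) {i p p' : κ} (hi : i ∉ C)
    (hp : p ∉ C) (e : p ≠ p') (h1 : b.coord p (x (b i)) = 0) (h2 : b.coord p' (x (b i)) = 0) :
    ∃ j j', j ≠ j' ∧ b.coord j (x⁻¹ (b p)) ≠ 0 ∧ b.coord j' (x⁻¹ (b p)) ≠ 0 ∧
      b.coord j (x⁻¹ (b p')) ≠ 0 ∧ b.coord j' (x⁻¹ (b p')) ≠ 0 ∧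
      ∀ r, r ≠ j → r ≠ j' → b.coord r (x⁻¹ (b p)) = 0 ∧ b.coord r (x⁻¹ (b p')) = 0 := by
  obtain ⟨k, hk⟩ := exists_row (b := b) x p
  have hu : ¬ Bm b (x⁻¹ (b p)) := fun e => hH (by simpa using inv_mem (h.K hC (inv_mem hx) hp e))
  simp only [Bm, not_exists, not_forall] at hu
  obtain ⟨j, -, hj⟩ := hu p
  obtain ⟨j', e', hj'⟩ := hu j
  have := conic (b := b) h.q (A := b.coord p (x (b k)) • x⁻¹ (b p))
    (B := b k - b.coord p (x (b k)) • x⁻¹ (b p) - b.coord p' (x (b k)) • x⁻¹ (b p'))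
    (C := b.coord p' (x (b k)) • x⁻¹ (b p')) (fun l hl => by
      have h3 := mem_H.1 (h.K' hC hx (h.T2_MC e hl) hi (c := 1) (by rw [T2_apply e hl, h1, h2]; simp)) k
      have h4 := conj_T2 (b := b) x⁻¹ e hl (b k)
      rw [inv_inv] at h4
      convert h3.smul l using 1
      rw [h4]; match_scalars <;> field_simp <;> ring) (Ne.symm e')
    (by rw [map_smul]; exact mul_ne_zero hk hj) (by rw [map_smul]; exact mul_ne_zero hk hj')
  simp only [map_smul, smul_eq_mul, ne_eq, mul_eq_zero, not_or] at this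
  obtain ⟨h3, h4, h5⟩ := this
  exact ⟨j, j', Ne.symm e', hj, hj', h3.2, h4.2, fun r a1 a2 =>
    ⟨(h5 r a1 a2).1.resolve_left hk, (h5 r a1 a2).2.resolve_left h3.1⟩⟩

theorem Z2 {x : V ≃ₗ[F] V} (hx : x ∈ MC b M C) (hH : x ∉ dstab (fr b)) {i p p' p'' : κ} (hi : i ∉ C)
    (hp : p ∉ C) (e : p ≠ p') (e' : p ≠ p'') (e'' : p' ≠ p'') (h1 : b.coord p (x (b i)) = 0)
    (h2 : b.coord p' (x (b i)) = 0) (h3 : b.coord p'' (x (b i)) = 0) : False := by
  obtain ⟨j, j', hj, a1, a2, -, a4, a5⟩ := h.Z1 hC hx hH hi hp e h1 h2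
  obtain ⟨k, k', hk, c1, c2, -, -, c5⟩ := h.Z1 hC hx hH hi hp e' h1 h3
  have d : ∀ r, r ≠ j → r ≠ j' → b.coord r (x⁻¹ (b p'')) = 0 := fun r r1 r2 => by
    have d1 : k = j ∨ k = j' := by by_contra! d; exact c1 (a5 k d.1 d.2).1
    have d2 : k' = j ∨ k' = j' := by by_contra! d; exact c2 (a5 k' d.1 d.2).1
    exact (c5 r (by grind) (by grind)).2
  set u := x⁻¹ (b p)
  set u' := x⁻¹ (b p')
  set u'' := x⁻¹ (b p'')
  have e1 : (b.coord j u' * b.coord j' u'' - b.coord j u'' * b.coord j' u') • u +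
      (b.coord j u'' * b.coord j' u - b.coord j u * b.coord j' u'') • u' +
      (b.coord j u * b.coord j' u' - b.coord j u' * b.coord j' u) • u'' = 0 := ext_c (b := b) fun r => by
    simp only [map_add, map_smul, smul_eq_mul, map_zero]
    by_cases r1 : r = j
    · subst r1; ring
    by_cases r2 : r = j'
    · subst r2; ring
    rw [(a5 r r1 r2).1, (a5 r r1 r2).2, d r r1 r2]; ring
  have e2 := congr(b.coord p'' (x $e1))
  simp only [u, u', u'', map_add, map_smul, LinearEquiv.coe_inv, LinearEquiv.apply_symm_apply, cb_self,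
    cb_ne e'.symm, cb_ne e''.symm, smul_zero, zero_add, smul_eq_mul, mul_one, map_zero] at e2
  have e3 : b.coord j' u' • u - b.coord j' u • u' = 0 := ext_c (b := b) fun r => by
    simp only [map_sub, map_smul, smul_eq_mul, map_zero]
    by_cases r1 : r = j
    · subst r1; simp only [u, u', LinearEquiv.coe_inv]; linear_combination e2
    by_cases r2 : r = j'
    · subst r2; ring
    rw [(a5 r r1 r2).1, (a5 r r1 r2).2]; ring
  have e4 := congr(b.coord p (x $e3))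
  simp only [u, u', map_sub, map_smul, LinearEquiv.coe_inv, LinearEquiv.apply_symm_apply, cb_self,
    cb_ne e, mul_zero, sub_zero, smul_eq_mul, mul_one, map_zero] at e4
  exact a4 e4

theorem Z {x : V ≃ₗ[F] V} (hx : x ∈ MC b M C) (hH : x ∉ dstab (fr b)) {i p p' : κ} (hi : i ∉ C)
    (hp : p ∉ C) (e : p ≠ p') (h1 : b.coord p (x (b i)) = 0) (h2 : b.coord p' (x (b i)) = 0) : False := by
  obtain ⟨j, j', hj, a1, a2, a3, a4, a5⟩ := h.Z1 hC hx hH hi hp e h1 h2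
  have hR : ∀ r ∉ C, r = j ∨ r = j' := fun r hr => by
    by_contra! d
    obtain ⟨r', c1, c2, c3, -⟩ := exists_notMem h.n j j' r r
    obtain ⟨r'', d1, d2, d3, d4⟩ := exists_notMem h.n j j' r r'
    exact h.Z2 hC (inv_mem hx) (fun e => hH (by simpa using inv_mem e)) hp hr c3.symm d3.symm d4.symm
      (a5 r d.1 d.2).1 (a5 r' c1 c2).1 (a5 r'' d1 d2).1
  have hp' : p' ∉ C := fun e => hj (Bm.eq ⟨p', (mem_MC.1 (inv_mem hx)).2 p' e⟩ a3 a4)
  have := coord_MC (inv_mem hx) (v := x (b i)) (fun s hs => by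
    have c1 := hR s hs
    have c2 := hR p hp
    have c3 := hR p' hp'
    have : s = p ∨ s = p' := by grind
    rcases this with rfl | rfl <;> assumption) hi
  simp at this

theorem I1 {c r r' : κ} (hc : c ∈ C) (hr : r ∉ C) (hr' : r' ∉ C) (e : r ≠ r') {x : V ≃ₗ[F] V}
    (hx : x ∈ MC b M C) (hH : x ∉ dstab (fr b)) {a i : κ} (ha : a ∉ C) (hi : i ∉ C) :
    b.coord a (x (b i)) ≠ 0 := by
  intro h0
  obtain ⟨l, -, -, l0, -, -, l1, -⟩ := exists_four h.q
  have ac : a ≠ c := fun e => ha (e ▸ hc)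
  obtain ⟨p, hp, pi⟩ : ∃ p ∉ C, p ≠ i := by
    by_cases e' : r = i
    · exact ⟨r', hr', e' ▸ e.symm⟩
    · exact ⟨r, hr, e'⟩
  obtain ⟨p', c1, c2, c3, -⟩ := exists_notMem h.n i p c c
  have hy := h.conj_MC (inv_mem hx) ac l0
  have h1 := conj_T2 (b := b) x⁻¹ ac l0 (b i)
  rw [inv_inv, h0, mul_zero, zero_smul, add_zero] at h1
  rw [inv_inv] at hy
  have h2 := (mem_MC.1 (inv_mem hx)).2 c hc
  have ic : i ≠ c := fun e => hi (e ▸ hc)
  have h3 : x⁻¹ * T2 b a c l * x ∈ dstab (fr b) := by_contra fun h3 =>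
    h.Z hC hy h3 hi hp c2.symm
      (by rw [h1, map_add, map_smul, cb_ne pi, h2 p (fun e => hp (e ▸ hc))]; simp)
      (by rw [h1, map_add, map_smul, cb_ne c1, h2 p' c3]; simp)
  have h4 := (mem_H.1 h3 i).zero (i := i) (j := c)
    (by rw [h1, map_add, map_smul, cb_self, h2 i ic]; simp) ic.symm
  rw [h1, map_add, map_smul, cb_ne ic.symm, zero_add, smul_eq_mul] at h4
  refine h.Z hC hx hH hi ha ac h0 ?_
  refine ((mul_eq_zero.1 h4).resolve_right fun e => ?_) |> mul_eq_zero.1 |>.resolve_left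
    (sub_ne_zero.2 (by simpa using l1))
  have := eq_smul_of h2
  rw [e, zero_smul] at this
  exact b.ne_zero c (by simpa using this)

theorem I2 {c r r' r'' : κ} (hc : c ∈ C) (hr : r ∉ C) (hr' : r' ∉ C) (hr'' : r'' ∉ C) (e : r ≠ r')
    (e' : r ≠ r'') (e'' : r' ≠ r'') {g : V ≃ₗ[F] V} (hg : g ∈ MC b M C) : g ∈ dstab (fr b) := by
  by_contra hH
  have nz := fun {x} (hx : x ∈ MC b M C) hH {a i} => h.I1 hC hc hr hr' e hx hH (a := a) (i := i)
  have hinv : ∀ {x : V ≃ₗ[F] V}, x ∉ dstab (fr b) → x⁻¹ ∉ dstab (fr b) := fun h1 h2 =>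
    h1 (by simpa using inv_mem h2)
  have ent : ∀ {x}, x ∈ MC b M C → ∀ {a i s}, a ∉ C → s ∉ C → ∀ {l : F}, l ≠ 0 →
      b.coord s ((x * T2 b a c l * x⁻¹) (b i)) =
        b.coord s (b i) + (l - 1) * b.coord a (x⁻¹ (b i)) * b.coord s (x (b a)) :=
    fun {x} hx {a i s} ha hs {l} hl => by
      rw [conj_T2 _ (ne_of_mem_of_not_mem hc ha).symm hl, map_add, map_add, map_smul, map_smul,
        (mem_MC.1 hx).2 c hc s (fun e => hs (e ▸ hc))]
      simp
  have nH : ∀ {x}, x ∈ MC b M C → x ∉ dstab (fr b) → ∀ {a}, a ∉ C → ∀ {l : F}, l ≠ 0 → l ≠ 1 →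
      x * T2 b a c l * x⁻¹ ∉ dstab (fr b) := fun {x} hx hH {a} ha {l} l0 l1 h1 => by
    refine e'' ((mem_H.1 h1 r).eq ?_ ?_)
    · rw [ent hx ha hr' l0, cb_ne e.symm, zero_add]
      exact mul_ne_zero (mul_ne_zero (sub_ne_zero.2 l1) (nz (inv_mem hx) (hinv hH) ha hr)) (nz hx hH hr' ha)
    · rw [ent hx ha hr'' l0, cb_ne e'.symm, zero_add]
      exact mul_ne_zero (mul_ne_zero (sub_ne_zero.2 l1) (nz (inv_mem hx) (hinv hH) ha hr)) (nz hx hH hr'' ha)
  have one : ∀ {x}, x ∈ MC b M C → x ∉ dstab (fr b) → ∀ {a i}, a ∉ C → i ∉ C →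
      b.coord a (x⁻¹ (b i)) * b.coord i (x (b a)) = 1 := fun {x} hx hH {a i} ha hi => by
    by_contra h1
    have h0 := mul_ne_zero (nz (inv_mem hx) (hinv hH) ha hi) (nz hx hH hi ha)
    set z := b.coord a (x⁻¹ (b i)) * b.coord i (x (b a)) with hz
    have l0 : 1 - z⁻¹ ≠ 0 := sub_ne_zero.2 fun e => h1 (by simpa using e.symm)
    have l1 : 1 - z⁻¹ ≠ 1 := by simpa using h0
    refine nz (h.conj_MC hx (ne_of_mem_of_not_mem hc ha).symm l0) (nH hx hH ha l0 l1) hi hi ?_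
    rw [ent hx ha hi l0, cb_self, mul_assoc, ← hz]; field_simp; ring
  have rc : r ≠ c := fun e => hr (e ▸ hc)
  have key : ∀ l : F, l ≠ 0 → l ≠ 1 → 1 * l ^ 2 + (-1) * l + 1 = 0 := fun l l0 l1 => by
    have h1 := one (h.conj_MC hg rc l0) (nH hg hH hr l0 l1) hr hr'
    have : (g * T2 b r c l * g⁻¹)⁻¹ = g * T2 b r c l⁻¹ * g⁻¹ := by rw [← T2_inv rc l0]; group
    rw [this, ent hg hr hr (inv_ne_zero l0), ent hg hr hr' l0, cb_ne e, cb_ne e.symm] at h1
    have h2 := one hg hH hr hr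
    have h3 := one hg hH hr hr'
    have h4 : (l⁻¹ - 1) * (l - 1) = 1 := by
      linear_combination h1 - (l⁻¹ - 1) * (l - 1) * (b.coord r (g⁻¹ (b r)) * b.coord r (g (b r))) * h3 -
        (l⁻¹ - 1) * (l - 1) * h2
    field_simp at h4
    linear_combination -h4
  obtain ⟨x, y, z, x0, y0, z0, x1, y1, z1, xy, xz, yz⟩ := exists_four h.q
  exact one_ne_zero (quad3 xy xz yz (key x x0 x1) (key y y0 y1) (key z z0 z1)).1

end St
end Cfsg.Agent.H4.Mn
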