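import Cfsg.Agent.H4.Mn2

/-! Monomial subgroups of `SL` are maximal. -/

namespace Cfsg.Agent.H4.Mn
open Module Submodule

variable {F : Type*} [Field F] {V : Type*} [AddCommGroup V] [Module F V]
  {κ : Type} [Fintype κ] [DecidableEq κ] {b : Basis κ F V}
  {M : Subgroup (V ≃ₗ[F] V)} {C : Finset κ} {N : ℕ}

variable (b M) in
/-- homologies of Hadamard type in characteristic five -/
def Hm (i k c : κ) (t s : F) : Prop := ∃ y ∈ M, ∀ z, y z =
  z + (3 * (b.coord i z + s * b.coord k z)) • (b i + t • b k) + (2 * b.coord c z) • b c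

omit [Fintype κ] [DecidableEq κ] in
theorem Hm.conj {i k c : κ} {t s : F} (h : Hm b M i k c t s) {g : V ≃ₗ[F] V} (hg : g ∈ M)
    {p : Equiv.Perm κ} {d : κ → F} (h0 : ∀ j, d j ≠ 0) (h1 : ∀ j, g (b j) = d j • b (p j)) :
    Hm b M (p i) (p k) (p c) (t * d k / d i) (s * d i / d k) := by
  obtain ⟨y, hy, h⟩ := h
  refine ⟨g * y * g⁻¹, mul_mem (mul_mem hg hy) (inv_mem hg), fun z => ?_⟩
  obtain ⟨z, rfl⟩ := g.surjective z
  have h2 : ∀ j, b.coord (p j) (g z) = d j * b.coord j z := fun j => by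
    obtain ⟨e, -, e1, e2⟩ := coord_of_perm (fun j => ⟨d j, h0 j, h1 j⟩) j
    rw [e2, smul_left_injective F (b.ne_zero _) (e1.symm.trans (h1 j))]
  have := h0 i
  have := h0 k
  simp only [LinearEquiv.mul_apply, LinearEquiv.coe_inv, LinearEquiv.symm_apply_apply, h, map_add,
    map_smul, h1, h2]
  match_scalars <;> field_simp

variable [Fintype F] (h : St b M N) (hC : C.card = N)
include h

namespace St

theorem hm_any {i k c : κ} {t s : F} (h1 : Hm b M i k c t s) (ik : i ≠ k) (ic : i ≠ c) (kc : k ≠ c)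
    (h2 : t * s = 1) {t' s' : F} (h3 : t' * s' = 1) : Hm b M i k c t' s' := by
  have t0 : t' * s ≠ 0 := mul_ne_zero (left_ne_zero_of_mul_eq_one h3) (right_ne_zero_of_mul_eq_one h2)
  have := h1.conj (h.le (T2_mem kc t0)) (p := 1)
    (d := fun j => if j = k then t' * s else if j = c then (t' * s)⁻¹ else 1)
    (fun j => by split_ifs <;> simp [left_ne_zero_of_mul_eq_one h3, right_ne_zero_of_mul_eq_one h2])
    (fun j => by
      simp only [T2_apply kc t0, cb, Equiv.Perm.coe_one, id]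
      split_ifs with e1 e2 e2
      · exact absurd (e1.symm.trans e2) kc
      · subst e1; module
      · subst e2; module
      · module)
  simp only [Equiv.Perm.coe_one, id, if_neg ik, if_neg ic, if_true] at this
  convert this using 1
  · linear_combination (-t') * h2
  · rw [eq_div_iff t0]; linear_combination s * h3

include hC

theorem S2 {r r' : κ} (hr : r ∉ C) (hr' : r' ∉ C) (e : r ≠ r') (hR : ∀ s ∉ C, s = r ∨ s = r')
    {x : V ≃ₗ[F] V} (hx : x ∈ MC b M C) (hH : x ∉ dstab (fr b)) {a : κ} (ha : a ∉ C) :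
    2 * (b.coord a (x⁻¹ (b r)) * b.coord r (x (b a))) = 1 ∧
    2 * (b.coord a (x⁻¹ (b r')) * b.coord r' (x (b a))) = 1 ∧ ∀ c ∈ C, b.coord c (x (b a)) = 0 := by
  have key : ∀ c, c ≠ r → c ≠ r' → 2 * (b.coord a (x⁻¹ (b r)) * b.coord r (x (b a))) = 1 ∧
      2 * (b.coord a (x⁻¹ (b r')) * b.coord r' (x (b a))) = 1 ∧
      ∀ c', c' ≠ r → c' ≠ r' → c' ≠ c → b.coord c' (x (b a)) = 0 := fun c c1 c2 => by
    have hc : c ∈ C := by_contra fun e => by grind
    have nz := fun {x} (hx : x ∈ MC b M C) hH {a i} => h.I1 hC hc hr hr' e hx hH (a := a) (i := i)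
    have hi : x⁻¹ ∉ dstab (fr b) := fun h2 => hH (by simpa using inv_mem h2)
    have ac := (ne_of_mem_of_not_mem hc ha).symm
    have a1 := nz (inv_mem hx) hi ha hr
    have a2 := nz (inv_mem hx) hi ha hr'
    have a3 := nz hx hH hr ha
    have a4 := nz hx hH hr' ha
    have sum : b.coord a (x⁻¹ (b r)) * b.coord r (x (b a)) +
        b.coord a (x⁻¹ (b r')) * b.coord r' (x (b a)) = 1 := by
      have := coord_MC (inv_mem hx) (v := x (b a) - b.coord r (x (b a)) • b r - b.coord r' (x (b a)) • b r')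
        (fun s hs => by rcases hR s hs with rfl | rfl <;> simp [cb_ne e, cb_ne e.symm, -Basis.coord_apply, cb_self]) ha
      simp only [map_sub, map_smul, LinearEquiv.coe_inv, LinearEquiv.symm_apply_apply, cb_self,
        smul_eq_mul] at this ⊢
      linear_combination -this
    have z0 := mul_ne_zero a1 a3
    have z1 := mul_ne_zero a2 a4
    set z := b.coord a (x⁻¹ (b r)) * b.coord r (x (b a)) with hz
    set z' := b.coord a (x⁻¹ (b r')) * b.coord r' (x (b a)) with hz'
    have l0 : 1 - z⁻¹ ≠ 0 := sub_ne_zero.2 fun e => z1 (by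
      have : z = 1 := by simpa using e.symm
      linear_combination sum - this)
    have l1 : 1 - z⁻¹ - 1 ≠ 0 := by simpa using z0
    have ent : ∀ i s, s ≠ c → b.coord s ((x * T2 b a c (1 - z⁻¹) * x⁻¹) (b i)) =
        b.coord s (b i) + (1 - z⁻¹ - 1) * b.coord a (x⁻¹ (b i)) * b.coord s (x (b a)) := fun i s hs => by
      rw [conj_T2 _ ac l0, map_add, map_add, map_smul, map_smul, (mem_MC.1 hx).2 c hc s hs]
      simp
    have hy : x * T2 b a c (1 - z⁻¹) * x⁻¹ ∈ dstab (fr b) := by_contra fun hy =>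
      nz (h.conj_MC hx ac l0) hy hr hr (by
        rw [ent _ _ c1.symm, cb_self, mul_assoc, ← hz]; field_simp; ring)
    have h1 := (mem_H.1 hy r').zero (i := r) (j := r') (by
      rw [ent _ _ c1.symm, cb_ne e, zero_add]; exact mul_ne_zero (mul_ne_zero l1 a2) a3) e.symm
    rw [ent _ _ c2.symm, cb_self, mul_assoc, ← hz'] at h1
    have h2 : z = z' := by field_simp at h1; linear_combination h1
    refine ⟨by linear_combination sum + h2, by linear_combination sum - h2, fun c' d1 d2 d3 => ?_⟩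
    have h3 := (mem_H.1 hy r).zero (i := r') (j := c') (by
      rw [ent _ _ c2.symm, cb_ne e.symm, zero_add]; exact mul_ne_zero (mul_ne_zero l1 a1) a4) d2
    rw [ent _ _ d3, cb_ne d1, zero_add] at h3
    exact (mul_eq_zero.1 h3).resolve_left (mul_ne_zero l1 a1)
  obtain ⟨c, c1, c2, -⟩ := exists_notMem h.n r r' r r
  refine ⟨(key c c1 c2).1, (key c c1 c2).2.1, fun c' hc' => ?_⟩
  obtain ⟨c, c1, c2, c3, -⟩ := exists_notMem h.n r r' c' r
  exact (key c c1 c2).2.2 c' (ne_of_mem_of_not_mem hc' hr) (ne_of_mem_of_not_mem hc' hr') c3.symm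

theorem five {r r' : κ} (hr : r ∉ C) (hr' : r' ∉ C) (e : r ≠ r') (hR : ∀ s ∉ C, s = r ∨ s = r')
    {x : V ≃ₗ[F] V} (hx : x ∈ MC b M C) (hH : x ∉ dstab (fr b)) : (5 : F) = 0 := by
  classical
  obtain ⟨c, c1, c2, -⟩ := exists_notMem h.n r r' r r
  have hc : c ∈ C := by_contra fun e => by grind
  obtain ⟨a1, a2, -⟩ := h.S2 hC hr hr' e hR hx hH hr
  have ent : ∀ {l : F}, l ≠ 0 → ∀ i s, s ≠ c → b.coord s ((x * T2 b r c l * x⁻¹) (b i)) =
      b.coord s (b i) + (l - 1) * b.coord r (x⁻¹ (b i)) * b.coord s (x (b r)) := fun l0 i s hs => by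
    rw [conj_T2 _ c1.symm l0, map_add, map_add, map_smul, map_smul, (mem_MC.1 hx).2 c hc s hs]
    simp
  have key : ∀ l : F, l ≠ 0 → l ≠ 1 → l ≠ -1 → 1 * l ^ 2 + 0 * l + 1 = 0 := fun l l0 l1 l2 => by
    have hy : x * T2 b r c l * x⁻¹ ∉ dstab (fr b) := fun hy => e ((mem_H.1 hy r).eq (by
        rw [ent l0 _ _ c1.symm, cb_self]
        exact fun e => l2 (by linear_combination 2 * e - (l - 1) * a1)) (by
        rw [ent l0 _ _ c2.symm, cb_ne e.symm, zero_add]
        exact mul_ne_zero (mul_ne_zero (sub_ne_zero.2 l1)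
          (left_ne_zero_of_mul (right_ne_zero_of_mul_eq_one a1)))
          (right_ne_zero_of_mul (right_ne_zero_of_mul_eq_one a2))))
    have h1 := (h.S2 hC hr hr' e hR (h.conj_MC hx c1.symm l0) hy hr').1
    have : (x * T2 b r c l * x⁻¹)⁻¹ = x * T2 b r c l⁻¹ * x⁻¹ := by rw [← T2_inv c1.symm l0]; group
    rw [this, ent l0 _ _ c1.symm, ent (inv_ne_zero l0) _ _ c2.symm, cb_ne e, cb_ne e.symm] at h1
    have h4 : (l⁻¹ - 1) * (l - 1) = 2 := by
      linear_combination 2 * h1 - (l⁻¹ - 1) * (l - 1) *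
        (2 * (b.coord r (x⁻¹ (b r)) * b.coord r (x (b r)))) * a2 - (l⁻¹ - 1) * (l - 1) * a1
    field_simp at h4
    linear_combination -h4
  have hq : Fintype.card F = 5 := by
    refine le_antisymm (by_contra fun hq => ?_) h.q
    have ex : ∀ s : Finset F, s.card ≤ 5 → ∃ x, x ∉ s := fun s hs => by
      by_contra! h
      have := Finset.card_le_card (show Finset.univ ⊆ s from fun x _ => h x)
      rw [Finset.card_univ] at this; omega
    obtain ⟨u, hu⟩ := ex {0, 1, -1} (Finset.card_le_three.trans (by omega))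
    obtain ⟨v, hv⟩ := ex {0, 1, -1, u} (Finset.card_le_four.trans (by omega))
    obtain ⟨w, hw⟩ := ex {0, 1, -1, u, v} Finset.card_le_five
    simp only [Finset.mem_insert, Finset.mem_singleton, not_or] at hu hv hw
    exact one_ne_zero (quad3 (Ne.symm hv.2.2.2) (Ne.symm hw.2.2.2.1) (Ne.symm hw.2.2.2.2)
      (key u hu.1 hu.2.1 hu.2.2) (key v hv.1 hv.2.1 hv.2.2.1) (key w hw.1 hw.2.1 hw.2.2.1)).1
  simpa [hq] using FiniteField.cast_card_eq_zero F

theorem I3 {r r' : κ} (hr : r ∉ C) (hr' : r' ∉ C) (e : r ≠ r') (hR : ∀ s ∉ C, s = r ∨ s = r')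
    {x : V ≃ₗ[F] V} (hx : x ∈ MC b M C) : x ∈ dstab (fr b) := by
  by_contra hH
  have h5 := h.five hC hr hr' e hR hx hH
  obtain ⟨c, c1, c2, -⟩ := exists_notMem h.n r r' r r
  obtain ⟨u, u1, u2, u3, -⟩ := exists_notMem h.n r r' c r
  have hc : c ∈ C := by_contra fun e => by grind
  have hu : u ∈ C := by_contra fun e => by grind
  have hi : x⁻¹ ∉ dstab (fr b) := fun h2 => hH (by simpa using inv_mem h2)
  obtain ⟨a1, a2, a3⟩ := h.S2 hC hr hr' e hR hx hH hr
  have a4 := (h.S2 hC hr hr' e hR (inv_mem hx) hi hr).2.2 c hc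
  have a5 := (h.S2 hC hr hr' e hR (inv_mem hx) hi hr').2.2 c hc
  have two : (2 : F) ≠ 0 := left_ne_zero_of_mul_eq_one a1
  have i2 : (2 : F)⁻¹ = 3 := inv_eq_of_mul_eq_one_right (by linear_combination h5)
  have v0 := right_ne_zero_of_mul (right_ne_zero_of_mul_eq_one a1)
  have v1 := right_ne_zero_of_mul (right_ne_zero_of_mul_eq_one a2)
  have hv : x (b r) = b.coord r (x (b r)) • b r + b.coord r' (x (b r)) • b r' := ext_c (b := b) fun s => by
    rw [map_add, map_smul, map_smul]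
    by_cases hs : s ∈ C
    · rw [a3 s hs, cb_ne (ne_of_mem_of_not_mem hs hr), cb_ne (ne_of_mem_of_not_mem hs hr')]; simp
    · rcases hR s hs with rfl | rfl <;> simp [cb_ne e, cb_ne e.symm, -Basis.coord_apply, cb_self]
  have H1 : Hm b M r r' c (b.coord r' (x (b r)) / b.coord r (x (b r)))
      (b.coord r (x (b r)) / b.coord r' (x (b r))) := by
    refine ⟨_, (h.conj_MC hx c1.symm two).1, fun z => ?_⟩
    have e1 : b.coord r ∘ₗ (x⁻¹ : V ≃ₗ[F] V).toLinearMap =
        b.coord r (x⁻¹ (b r)) • b.coord r + b.coord r (x⁻¹ (b r')) • b.coord r' := b.ext fun s => by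
      simp only [LinearMap.comp_apply, LinearEquiv.coe_coe, LinearMap.add_apply, LinearMap.smul_apply]
      by_cases hs : s ∈ C
      · rw [(mem_MC.1 (inv_mem hx)).2 s hs r (ne_of_mem_of_not_mem hs hr).symm,
          cb_ne (ne_of_mem_of_not_mem hs hr).symm, cb_ne (ne_of_mem_of_not_mem hs hr').symm]; simp
      · rcases hR s hs with rfl | rfl <;> simp [cb_ne e, cb_ne e.symm, -Basis.coord_apply, cb_self]
    have e2 : (b.coord c ∘ₗ (x⁻¹ : V ≃ₗ[F] V).toLinearMap).smulRight (x (b c)) =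
        (b.coord c).smulRight (b c) := b.ext fun s => by
      simp only [LinearMap.comp_apply, LinearEquiv.coe_coe, LinearMap.smulRight_apply]
      by_cases hs : s ∈ C
      · by_cases sc : s = c
        · subst sc
          rw [← map_smul, ← eq_smul_of ((mem_MC.1 (inv_mem hx)).2 s hs)]; simp
        · rw [(mem_MC.1 (inv_mem hx)).2 s hs c (Ne.symm sc), cb_ne (Ne.symm sc)]; simp
      · rcases hR s hs with rfl | rfl
        · rw [a4, cb_ne c1]; simp
        · rw [a5, cb_ne c2]; simp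
    have e3 : b.coord r (x⁻¹ z) = b.coord r (x⁻¹ (b r)) * b.coord r z + b.coord r (x⁻¹ (b r')) * b.coord r' z :=
      congr($e1 z)
    have e4 : b.coord c (x⁻¹ z) • x (b c) = b.coord c z • b c := congr($e2 z)
    rw [conj_T2 _ c1.symm two, mul_smul _ (b.coord c (x⁻¹ z)), e4, e3, i2]
    set p := b.coord r (x (b r))
    set p' := b.coord r' (x (b r))
    have f1 : b.coord r (x⁻¹ (b r)) = 3 / p := by
      rw [eq_div_iff v0]; linear_combination 3 * a1 - (b.coord r (x⁻¹ (b r)) * p) * h5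
    have f2 : b.coord r (x⁻¹ (b r')) = 3 / p' := by
      rw [eq_div_iff v1]; linear_combination 3 * a2 - (b.coord r (x⁻¹ (b r')) * p') * h5
    rw [f1, f2, hv]
    match_scalars <;> field_simp <;> ring
  have H2 := h.hm_any H1 e c1.symm c2.symm (by field_simp) (t' := 1) (s' := 1) (by simp)
  obtain ⟨yA', hA', A'⟩ := h.hm_any H1 e c1.symm c2.symm (by field_simp) (t' := 2) (s' := 3)
    (by linear_combination h5)
  haveI : Nonempty κ := ⟨r⟩
  obtain ⟨g, hg, hg'⟩ := exists_perm (b := b) (Equiv.swap r' u)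
  choose d d0 d1 using hg'
  have H3 := H2.conj (h.le hg) d0 d1
  rw [Equiv.swap_apply_of_ne_of_ne e u1.symm, Equiv.swap_apply_left,
    Equiv.swap_apply_of_ne_of_ne c2 u3.symm] at H3
  obtain ⟨yB, hB, B⟩ := h.hm_any H3 u1.symm c1.symm u3 (by have := d0 r; have := d0 r'; field_simp)
    (t' := 1) (s' := 1) (by simp)
  obtain ⟨yA, hA, A⟩ := H2
  have hcard : (Finset.univ \ {r', u}).card = N := by
    rw [← hC, show C = Finset.univ \ {r, r'} from by ext s; simp; grind]
    simp [Finset.card_sdiff, Finset.card_pair e, Finset.card_pair u2.symm]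
  have k0 : (yA * yB * yA' * yB) (b r) = (4 : F) • b r := by
    simp only [LinearEquiv.mul_apply, A, B, A', map_add, map_smul, cb_self, cb_ne e, cb_ne e.symm,
      cb_ne c1, cb_ne c1.symm, cb_ne c2, cb_ne c2.symm, cb_ne u1, cb_ne u1.symm, cb_ne u2, cb_ne u2.symm,
      cb_ne u3, cb_ne u3.symm, smul_eq_mul]
    match_scalars <;> grind
  have k1 : (yA * yB * yA' * yB) (b r') = b r + (4 : F) • b r' + (2 : F) • b u := by
    simp only [LinearEquiv.mul_apply, A, B, A', map_add, map_smul, cb_self, cb_ne e, cb_ne e.symm,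
      cb_ne c1, cb_ne c1.symm, cb_ne c2, cb_ne c2.symm, cb_ne u1, cb_ne u1.symm, cb_ne u2, cb_ne u2.symm,
      cb_ne u3, cb_ne u3.symm, smul_eq_mul]
    match_scalars <;> grind
  have hy : yA * yB * yA' * yB ∈ MC b M (Finset.univ \ {r', u}) := by
    refine mem_MC.2 ⟨mul_mem (mul_mem (mul_mem hA hB) hA') hB, fun s hs j hj => ?_⟩
    simp only [Finset.mem_sdiff, Finset.mem_univ, Finset.mem_insert, Finset.mem_singleton, true_and,
      not_or] at hs
    by_cases sr : s = r
    · subst sr; rw [k0, map_smul, cb_ne hj, smul_zero]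
    by_cases sc : s = c
    · subst sc
      simp [A, B, A', cb_ne c1.symm, cb_ne c2.symm, cb_ne u3, cb_ne hj, -Basis.coord_apply]
    · simp [A, B, A', cb_ne (Ne.symm sr), cb_ne (Ne.symm hs.1), cb_ne (Ne.symm hs.2), cb_ne (Ne.symm sc),
        cb_ne hj, -Basis.coord_apply]
  have n1 : b.coord r ((yA * yB * yA' * yB) (b r')) = 1 := by
    rw [k1]; simp [cb_ne e, cb_ne u1.symm, -Basis.coord_apply, cb_self]
  have := (h.S2 hcard (r := r') (r' := u) (by simp) (by simp) u2.symm (by simp; tauto) hy (fun hy => u1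
    ((mem_H.1 hy r').eq (by rw [k1]; simpa [cb_ne u1, cb_ne u2, -Basis.coord_apply, cb_self] using two)
      (by rw [n1]; exact one_ne_zero))) (a := r') (by simp)).2.2 r (by simp [e, u1.symm])
  exact one_ne_zero (n1.symm.trans this)

end St
end Cfsg.Agent.H4.Mn
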