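import Cfsg.Agent.H4.Mn3

/-! Monomial subgroups of `SL` are maximal; decomposition stabilisers in `SL`. -/

namespace Cfsg.Agent.H4.Mn
open Module Submodule

variable {F : Type*} [Field F] {V : Type*} [AddCommGroup V] [Module F V]
  {κ : Type} [Fintype κ] [DecidableEq κ] {b : Basis κ F V}
  {M : Subgroup (V ≃ₗ[F] V)} {C : Finset κ} {N : ℕ}

variable (b) in
/-- the permutation induced by a monomial element -/
noncomputable def pm : dstab (fr b) →* Equiv.Perm κ := MonoidHom.mk' (fun g => g.2.choose) fun g g' =>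
  Equiv.ext fun i => dec_fr.injective (fun i e => by
    have := finrank_fr (b := b) i; rw [e] at this; simp at this) (by
    rw [← (g * g').2.choose_spec, Equiv.Perm.mul_apply, ← g.2.choose_spec, ← g'.2.choose_spec,
      Subgroup.coe_mul, map_mul_eq])

theorem pm_spec (g : dstab (fr b)) (i : κ) : ∃ c : F, c ≠ 0 ∧ g.1 (b i) = c • b (pm b g i) := by
  have : g.1 (b i) ∈ fr b (pm b g i) := by
    change _ ∈ fr b (g.2.choose i)
    rw [← g.2.choose_spec]; exact mem_map_of_mem (mem_span_singleton_self _)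
  obtain ⟨c, h⟩ := mem_span_singleton.1 this
  exact ⟨c, by rintro rfl; exact b.ne_zero i (by simpa using h.symm), h.symm⟩

theorem pw_fix {d : κ → Fˣ} {s : Equiv.Perm κ} {v : V}
    (h : ∀ r, (d (s r) : F) * b.coord r v = d r * b.coord (s r) v) : pw b d s v = v :=
  ext_c (b := b) fun r => by
    obtain ⟨r, rfl⟩ := s.surjective r
    rw [coord_pw, Units.val_mul, mul_assoc, h]; simp

theorem pw_one {d : κ → Fˣ} {s : Equiv.Perm κ} {w : V} {c : F} (h : pw b d s w = c • w) {r : κ}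
    (h1 : s r = r) (h2 : b.coord r w ≠ 0) : c = 1 := by
  have := coord_pw (b := b) d s r w
  rw [h1, h, map_smul, inv_mul_cancel, Units.val_one] at this
  exact mul_right_cancel₀ h2 this

omit [Fintype κ] in
theorem cyc {a c e : κ} (h1 : a ≠ c) (h2 : a ≠ e) (h3 : c ≠ e) : (Equiv.swap a e * Equiv.swap a c) a = c ∧
    ∀ r, r ≠ a → r ≠ c → r ≠ e → (Equiv.swap a e * Equiv.swap a c) r = r :=
  ⟨by simp [Equiv.swap_apply_of_ne_of_ne h1.symm h3], fun r a1 a2 a3 => by
    simp [Equiv.swap_apply_of_ne_of_ne, a1, a2, a3]⟩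

theorem cyc_sign {a c e : κ} (h1 : a ≠ c) (h2 : a ≠ e) :
    Equiv.Perm.sign (Equiv.swap a e * Equiv.swap a c) = 1 := by simp [h1, h2]

omit [DecidableEq κ] in
theorem mem_MC0 {x : V ≃ₗ[F] V} : x ∈ MC b M ∅ ↔ x ∈ M := by simp [mem_MC]

variable [Fintype F]

namespace St
section zero
variable (h : St b M 0) {x : V ≃ₗ[F] V} (hx : x ∈ M) (hH : x ∉ dstab (fr b))
include h hx hH

theorem Z0 {i p p' : κ} (h1 : b.coord p (x (b i)) = 0) (h2 : b.coord p' (x (b i)) = 0) : p = p' :=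
  by_contra fun e => h.Z rfl (mem_MC0.2 hx) hH (by simp) (by simp) e h1 h2

omit hH in
theorem K0 {d : κ → Fˣ} {s : Equiv.Perm κ} (hs : Equiv.Perm.sign s = 1) {i : κ}
    (h1 : pw b d s (x (b i)) = x (b i)) : x⁻¹ * pw b d s * x ∈ dstab (fr b) :=
  h.K' rfl (mem_MC0.2 hx) (mem_MC0.2 (h.le (pw_mem d hs))) (i := i) (by simp) (c := 1) (by simpa using h1)

theorem II1 (i : κ) : ∃ p, b.coord p (x (b i)) = 0 := by
  by_contra! h0
  let d : κ → Fˣ := fun r => Units.mk0 _ (h0 r)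
  have hd : ∀ s, pw b d s (x (b i)) = x (b i) := fun s => pw_fix fun r => mul_comm _ _
  let f₀ : alternatingGroup κ →* dstab (fr b) := (((MulAut.conj x⁻¹).toMonoidHom.comp (pw b d)).comp
    (alternatingGroup κ).subtype).codRestrict _ fun s => by
      simpa using h.K0 hx (Equiv.Perm.mem_alternatingGroup.1 s.2) (hd s)
  have hf : ∀ s k, ∃ c : F, pw b d s.1 (x (b k)) = c • x (b (pm b (f₀ s) k)) := fun s k => by
    obtain ⟨c, -, h1⟩ := pm_spec (f₀ s) k
    exact ⟨c, by rw [← map_smul, ← h1]; simp [f₀]⟩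
  have hi : ∀ s, pm b (f₀ s) i = i := fun s => by
    obtain ⟨c, h1⟩ := hf s i
    rw [hd, ← map_smul, x.injective.eq_iff] at h1
    by_contra e
    simpa [cb_ne (Ne.symm e), -Basis.coord_apply, cb_self] using congr(b.coord i $h1)
  haveI := alternatingGroup.isSimpleGroup (α := κ) (by simpa using h.n)
  rcases (((pm b).comp f₀).normal_ker).eq_bot_or_eq_top with e | e
  · have h1 := Nat.card_le_card_of_injective
      (((pm b).comp f₀).codRestrict (MulAction.stabilizer (Equiv.Perm κ) i) fun s => hi s)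
      fun s t e' => (MonoidHom.ker_eq_bot_iff _).1 e (congrArg Subtype.val e')
    haveI : Nontrivial κ := Fintype.one_lt_card_iff_nontrivial.1 (by have := h.n; omega)
    have h2 := two_mul_nat_card_alternatingGroup (α := κ)
    have h3 := (MulAction.stabilizer (Equiv.Perm κ) i).index_mul_card
    rw [MulAction.index_stabilizer_of_transitive, Nat.card_eq_fintype_card] at h3
    have h4 : 0 < Nat.card (MulAction.stabilizer (Equiv.Perm κ) i) := Nat.card_pos
    have := h.n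
    nlinarith
  · obtain ⟨a, a1, -⟩ := exists_notMem h.n i i i i
    obtain ⟨c, c1, c2, -⟩ := exists_notMem h.n i a i i
    obtain ⟨r, r1, r2, r3, -⟩ := exists_notMem h.n i a c i
    obtain ⟨r', s1, s2, s3, s4⟩ := exists_notMem h.n i a c r
    obtain ⟨e1, e2⟩ := cyc a1.symm c1.symm c2.symm
    let s : alternatingGroup κ := ⟨_, Equiv.Perm.mem_alternatingGroup.2 (cyc_sign a1.symm c1.symm)⟩
    have h1 : pm b (f₀ s) = 1 := (e ▸ Subgroup.mem_top s : s ∈ ((pm b).comp f₀).ker)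
    have h2 : (pw b d s.1 : V →ₗ[F] V) = LinearMap.id := (b.map x).ext fun k => by
      obtain ⟨c, h2⟩ := hf s k
      rw [h1, Equiv.Perm.one_apply] at h2
      have : c = 1 := by
        by_cases e : b.coord r (x (b k)) = 0
        · exact pw_one h2 (e2 r' s1 s2 s3) fun e' => s4 (h.Z0 hx hH e' e)
        · exact pw_one h2 (e2 r r1 r2 r3) e
      simpa [this] using h2
    have h3 := congr(b.coord i ($h2 (b i)))
    simp only [LinearEquiv.coe_coe, pw_b, s, e1, map_smul, cb_ne a1.symm, LinearMap.id_apply, cb_self,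
      smul_zero, zero_ne_one] at h3

theorem tw {p : κ → κ} (hp : ∀ k r, b.coord r (x (b k)) = 0 ↔ r = p k) (k₁ : κ) :
    ∃ d : κ → Fˣ, (∀ r, r ≠ p k₁ → (d r : F) = b.coord r (x (b k₁))) ∧ ∀ s : Equiv.Perm κ,
      Equiv.Perm.sign s = 1 → s (p k₁) = p k₁ → ∀ k, ∃ (k' : κ) (c : F),
        pw b d s (x (b k)) = c • x (b k') ∧ p k' = s (p k) := by
  let d : κ → Fˣ := fun r => if e : r = p k₁ then 1 else Units.mk0 _ (fun e' => e ((hp _ _).1 e'))
  have hd : ∀ r, r ≠ p k₁ → (d r : F) = b.coord r (x (b k₁)) := fun r e => by simp [d, e]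
  refine ⟨d, hd, fun s h1 h2 k => ?_⟩
  have h3 := h.K0 hx (d := d) h1 (i := k₁) (pw_fix fun r => by
    by_cases e : r = p k₁
    · subst e; rw [h2]
    · rw [hd r e, hd (s r) fun e' => e (s.injective (e'.trans h2.symm)), mul_comm])
  obtain ⟨c, c0, h4⟩ := pm_spec ⟨_, h3⟩ k
  have h5 : pw b d s (x (b k)) = c • x (b (pm b ⟨_, h3⟩ k)) := by rw [← map_smul, ← h4]; simp
  refine ⟨_, c, h5, ((hp _ _).1 ?_).symm⟩
  have := coord_pw (b := b) d s (p k) (x (b k))
  rw [h5, (hp k (p k)).2 rfl, mul_zero, map_smul] at this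
  exact (smul_eq_zero.1 this).resolve_left c0

theorem bij : ∃ p : κ → κ, Function.Injective p ∧ ∀ k r, b.coord r (x (b k)) = 0 ↔ r = p k := by
  choose p hp using h.II1 hx hH
  have hp' : ∀ k r, b.coord r (x (b k)) = 0 ↔ r = p k := fun k r =>
    ⟨fun e => h.Z0 hx hH e (hp k), fun e => e ▸ hp k⟩
  refine ⟨p, Finite.injective_iff_surjective.2 fun r => ?_, hp'⟩
  obtain ⟨d, -, hd⟩ := h.tw hx hH hp' r
  obtain ⟨k, hk⟩ := exists_row (b := b) x (p r)
  have hk' : p k ≠ p r := fun e => hk ((hp' _ _).2 e.symm)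
  by_cases e1 : r = p r
  · exact ⟨r, e1.symm⟩
  by_cases e2 : p k = r
  · exact ⟨k, e2⟩
  obtain ⟨s, s1, s2, s3, -⟩ := exists_notMem h.n (p r) (p k) r r
  obtain ⟨a1, a2⟩ := cyc e2 s2.symm s3.symm
  obtain ⟨k', -, -, h1⟩ := hd _ (cyc_sign e2 s2.symm) (a2 _ hk'.symm (Ne.symm e1) s1.symm) k
  exact ⟨k', h1.trans a1⟩

theorem II : False := by
  obtain ⟨p, pi, hp⟩ := h.bij hx hH
  obtain ⟨p', pi', hp'⟩ := h.bij (inv_mem hx) fun h2 => hH (by simpa using inv_mem h2)
  haveI : Nontrivial κ := Fintype.one_lt_card_iff_nontrivial.1 (by have := h.n; omega)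
  obtain ⟨k₁, k₂, hk⟩ := exists_pair_ne κ
  obtain ⟨d, hd, tw⟩ := h.tw hx hH hp k₁
  have p12 : p k₁ ≠ p k₂ := pi.ne hk
  have nz : ∀ k r, r ≠ p k → b.coord r (x (b k)) ≠ 0 := fun k r e e' => e ((hp _ _).1 e')
  have rat : ∀ r r', r ≠ p k₁ → r ≠ p k₂ → r' ≠ p k₁ → r' ≠ p k₂ →
      b.coord r' (x (b k₂)) * b.coord r (x (b k₁)) = b.coord r (x (b k₂)) * b.coord r' (x (b k₁)) := by
    intro r r' a1 a2 a3 a4
    by_cases e : r = r'
    · rw [e]
    obtain ⟨s, s1, s2, s3, s4⟩ := exists_notMem h.n (p k₁) (p k₂) r r'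
    obtain ⟨c1, c2⟩ := cyc e s3.symm s4.symm
    have c3 := c2 _ a1.symm a3.symm s1.symm
    obtain ⟨k', c, h1, h2⟩ := tw _ (cyc_sign e s3.symm) c3 k₂
    rw [c2 _ a2.symm a4.symm s2.symm, pi.eq_iff] at h2
    subst h2
    have h3 := pw_one h1 c3 (nz _ _ p12)
    have h4 := coord_pw (b := b) d (Equiv.swap r s * Equiv.swap r r') r (x (b k'))
    rw [h1, c1, h3, one_smul, Units.val_mul, Units.val_inv_eq_inv_val, hd r a1, hd r' a3] at h4
    have := nz _ _ a1
    rw [h4]; field_simp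
  obtain ⟨j₁, e1⟩ := Finite.injective_iff_surjective.1 pi' k₁
  obtain ⟨j₂, e2⟩ := Finite.injective_iff_surjective.1 pi' k₂
  obtain ⟨i, i1, i2, i3, i4⟩ := exists_notMem h.n (p k₁) (p k₂) j₁ j₂
  obtain ⟨r, r1, r2, r3, -⟩ := exists_notMem h.n (p k₁) (p k₂) i i
  obtain ⟨r', s1, s2, s3, s4⟩ := exists_notMem h.n (p k₁) (p k₂) i r
  have x0 : b.coord k₁ (x⁻¹ (b i)) ≠ 0 := fun e => i3 (pi' (((hp' _ _).1 e).symm.trans e1.symm))
  have z0 : b.coord k₂ (x⁻¹ (b i)) ≠ 0 := fun e => i4 (pi' (((hp' _ _).1 e).symm.trans e2.symm))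
  have key : ∀ l : F, l ≠ 0 → l ≠ 1 → (b.coord k₁ (x⁻¹ (b i)) * b.coord i (x (b k₁))) * l ^ 2 +
      (1 - b.coord k₁ (x⁻¹ (b i)) * b.coord i (x (b k₁)) - b.coord k₂ (x⁻¹ (b i)) * b.coord i (x (b k₂))) * l +
      b.coord k₂ (x⁻¹ (b i)) * b.coord i (x (b k₂)) = 0 := fun l l0 l1 => by
    have ent : ∀ s, b.coord s ((x * T2 b k₁ k₂ l * x⁻¹) (b i)) = b.coord s (b i) +
        (l - 1) * b.coord k₁ (x⁻¹ (b i)) * b.coord s (x (b k₁)) +
        (l⁻¹ - 1) * b.coord k₂ (x⁻¹ (b i)) * b.coord s (x (b k₂)) := fun s => by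
      rw [conj_T2 _ hk l0]; simp
    have n1 : b.coord (p k₁) ((x * T2 b k₁ k₂ l * x⁻¹) (b i)) ≠ 0 := by
      rw [ent, cb_ne i1.symm, (hp _ _).2 rfl, mul_zero, zero_add, zero_add]
      exact mul_ne_zero (mul_ne_zero (sub_ne_zero.2 (by simpa using l1)) z0) (nz _ _ p12)
    have n2 : b.coord (p k₂) ((x * T2 b k₁ k₂ l * x⁻¹) (b i)) ≠ 0 := by
      rw [ent, cb_ne i2.symm, (hp k₂ _).2 rfl, mul_zero, zero_add, add_zero]
      exact mul_ne_zero (mul_ne_zero (sub_ne_zero.2 l1) x0) (nz _ _ p12.symm)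
    have hy := mem_MC0.1 (h.conj_MC (mem_MC0.2 hx) hk l0)
    have hy' : x * T2 b k₁ k₂ l * x⁻¹ ∉ dstab (fr b) := fun e => p12 ((mem_H.1 e i).eq n1 n2)
    obtain ⟨t, ht⟩ := h.II1 hy hy' i
    have t1 : t ≠ p k₁ := fun e => n1 (e ▸ ht)
    have t2 : t ≠ p k₂ := fun e => n2 (e ▸ ht)
    by_cases ti : t = i
    · subst ti
      rw [ent, cb_self] at ht
      field_simp at ht
      linear_combination ht
    · have : ∀ s, s ≠ p k₁ → s ≠ p k₂ → s ≠ i → b.coord s ((x * T2 b k₁ k₂ l * x⁻¹) (b i)) = 0 :=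
        fun s a1 a2 a3 => by
          rw [ent, cb_ne ti] at ht
          rw [ent, cb_ne a3]
          refine mul_left_cancel₀ (nz _ _ t1) ?_
          linear_combination b.coord s (x (b k₁)) * ht +
            (l⁻¹ - 1) * b.coord k₂ (x⁻¹ (b i)) * rat t s t1 t2 a1 a2
      exact absurd (h.Z0 hy hy' (this r' s1 s2 s3) (this r r1 r2 r3)) s4
  obtain ⟨x, y, z, x0', y0, z0, x1, y1, z1, xy, xz, yz⟩ := exists_four h.q
  exact mul_ne_zero x0 (nz _ _ i1) (quad3 xy xz yz (key x x0' x1) (key y y0 y1) (key z z0 z1)).1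

end zero

variable (h : St b M N) (hC : C.card = N)
include h

theorem SL_of {r c : κ} (rc : r ≠ c) {z : F} (z0 : z ≠ 0) (hz : z • b c ∈ cns M (b.coord r)) :
    SLg F V ≤ M := by
  haveI : Nonempty κ := ⟨r⟩
  have h1 : ∀ t : F, t • b c ∈ cns M (b.coord r) := fun t => by
    by_cases t0 : t = 0
    · simp [t0]
    obtain ⟨a, a1, a2, -⟩ := exists_notMem h.n r c c c
    have l0 := div_ne_zero t0 z0
    refine ⟨by simp [cb_ne rc, -Basis.coord_apply], ?_⟩
    have := dt_mem_of_conj' (h.le (T2_mem (b := b) a2.symm l0)) (φ := b.coord r) (a := z • b c) (by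
      convert hz.2 using 2
      ext x; simp [T2_apply a2.symm l0, cb_ne rc, cb_ne a1.symm, -Basis.coord_apply])
    convert this using 2
    rw [T2_apply a2.symm l0]
    simp only [map_smul, cb_self, cb_ne a2, smul_eq_mul]
    match_scalars <;> field_simp <;> ring
  refine SLg_le_of_basis b fun i j ij t => ?_
  obtain ⟨s, s1, s2⟩ : ∃ s : Equiv.Perm κ, s c = i ∧ s r = j := by
    obtain ⟨s, hs⟩ := Equiv.Perm.exists_extending_pair (f := ![c, r]) (g := ![i, j])
      (fun a a' => by fin_cases a <;> fin_cases a' <;> simp [rc, rc.symm])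
      (fun a a' => by fin_cases a <;> fin_cases a' <;> simp [ij, ij.symm])
    exact ⟨s, hs 0, hs 1⟩
  obtain ⟨g, hg, hg'⟩ := exists_perm (b := b) s
  obtain ⟨e, e0, -, e2⟩ := coord_of_perm hg' r
  obtain ⟨e', e0', e1'⟩ := hg' c
  have := dt_mem_of_conj' (h.le hg) (φ := b.coord j) (a := (t / e') • b c) (by
    rw [show b.coord j ∘ₗ (g : V →ₗ[F] V) = e • b.coord r from LinearMap.ext fun x => s2 ▸ e2 x,
      dt_smul, smul_smul]
    exact (h1 _).2)
  rwa [map_smul, e1', smul_smul, div_mul_cancel₀ _ e0', s1] at this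

include hC

theorem S1 {r : κ} (hr : r ∉ C) (hR : ∀ s ∉ C, s = r) {x : V ≃ₗ[F] V} (hx : x ∈ MC b M C)
    (hH : x ∉ dstab (fr b)) : SLg F V ≤ M := by
  obtain ⟨c₀, c1, c2⟩ : ∃ c₀, c₀ ≠ r ∧ b.coord c₀ (x (b r)) ≠ 0 := by
    by_contra! e; exact hH (h.K hC hx hr ⟨r, e⟩)
  obtain ⟨c, d1, d2, -⟩ := exists_notMem h.n r c₀ r r
  have hc : ∀ {s}, s ≠ r → s ∈ C := fun e => by_contra fun e' => e (hR _ e')
  obtain ⟨l, -, -, l0, -, -, l1, -⟩ := exists_four h.q
  have one : b.coord r (x⁻¹ (b r)) * b.coord r (x (b r)) = 1 := by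
    have := coord_MC (inv_mem hx) (v := x (b r) - b.coord r (x (b r)) • b r)
      (fun s hs => by rw [hR s hs]; simp) hr
    simp only [map_sub, map_smul, LinearEquiv.coe_inv, LinearEquiv.symm_apply_apply, cb_self,
      smul_eq_mul] at this ⊢
    linear_combination -this
  have hi := (mem_MC.1 (inv_mem hx)).2
  have e0 := eq_smul_of ((mem_MC.1 hx).2 c (hc d1))
  obtain ⟨w, hw'⟩ : ∃ w, w = (x * T2 b r c l * x⁻¹ * T2 b r c l⁻¹) (b r) - b r := ⟨_, rfl⟩
  have w1 : b.coord r w = 0 := by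
    rw [hw', LinearEquiv.mul_apply, conj_T2 _ d1.symm l0, T2_apply d1.symm (inv_ne_zero l0), e0]
    simp only [map_add, map_sub, map_smul, cb_self, cb_ne d1, cb_ne d1.symm, smul_eq_mul]
    field_simp
    linear_combination (l - 1) * l * one
  have w2 : b.coord c₀ w ≠ 0 := by
    rw [hw', LinearEquiv.mul_apply, conj_T2 _ d1.symm l0, T2_apply d1.symm (inv_ne_zero l0), e0]
    simp only [map_add, map_sub, map_smul, cb_self, cb_ne d1, cb_ne c1, cb_ne d2.symm, smul_eq_mul]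
    have := mul_ne_zero (mul_ne_zero (mul_ne_zero (sub_ne_zero.2 l1) (inv_ne_zero l0))
      (left_ne_zero_of_mul_eq_one one)) c2
    convert this using 1; ring
  have w3 : x * T2 b r c l * x⁻¹ * T2 b r c l⁻¹ = dt (b.coord r) w := by
    refine LinearEquiv.toLinearMap_injective (b.ext fun s => ?_)
    simp only [LinearEquiv.coe_coe, dt_apply w1]
    by_cases sr : s = r
    · subst sr; rw [hw', cb_self]; module
    rw [LinearEquiv.mul_apply, conj_T2 _ d1.symm l0, T2_apply d1.symm (inv_ne_zero l0)]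
    by_cases sc : s = c
    · subst sc
      have : b.coord s (x⁻¹ (b s)) • x (b s) = b s := by
        rw [← map_smul, ← eq_smul_of (hi s (hc sr))]; simp
      simp only [map_add, map_smul, cb_self, cb_ne (Ne.symm sr), hi s (hc sr) r (Ne.symm sr), inv_inv,
        smul_eq_mul]
      have k0 : b.coord s (x⁻¹ (b s)) ≠ 0 := fun e => b.ne_zero s (by rw [← this, e, zero_smul])
      rw [(eq_inv_smul_iff₀ k0).2 this]
      match_scalars <;> field_simp <;> ring
    · simp only [cb_ne (Ne.symm sr), cb_ne (Ne.symm sc), hi s (hc sr) r (Ne.symm sr),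
        hi s (hc sr) c (Ne.symm sc), mul_zero, zero_smul, add_zero]
  have hw : w ∈ cns M (b.coord r) :=
    ⟨w1, w3 ▸ mul_mem (h.conj_MC hx d1.symm l0).1 (h.le (T2_mem d1.symm (inv_ne_zero l0)))⟩
  have st : ∀ {a a' : κ}, a ≠ r → a' ≠ r → a ≠ a' → ∀ w ∈ cns M (b.coord r),
      ((l - 1) * b.coord a w) • b a + ((l⁻¹ - 1) * b.coord a' w) • b a' ∈ cns M (b.coord r) :=
    fun {a a'} a1 a2 a3 w hw => by
      have : T2 b a a' l w ∈ cns M (b.coord r) := by
        refine ⟨by simp [T2_apply a3 l0, cb_ne a1.symm, cb_ne a2.symm, hw.1, -Basis.coord_apply],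
          dt_mem_of_conj' (h.le (T2_mem a3 l0)) ?_⟩
        convert hw.2 using 2
        ext x; simp [T2_apply a3 l0, cb_ne a1.symm, cb_ne a2.symm, -Basis.coord_apply]
      convert sub_mem this hw using 1
      rw [T2_apply a3 l0]; abel
  obtain ⟨c', f1, f2, f3, -⟩ := exists_notMem h.n r c₀ c r
  have := st c1 f1 f2.symm _ (st c1 d1 d2.symm _ hw)
  simp only [map_add, map_smul, cb_self, cb_ne d2.symm, cb_ne f2, cb_ne f3, smul_eq_mul, mul_zero,
    add_zero, zero_smul, mul_one] at this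
  exact h.SL_of c1.symm (mul_ne_zero (sub_ne_zero.2 l1) (mul_ne_zero (sub_ne_zero.2 l1) w2)) this

theorem SL_le {x : V ≃ₗ[F] V} (hx : x ∈ MC b M C) (hH : x ∉ dstab (fr b)) : SLg F V ≤ M := by
  obtain ⟨r, hr⟩ : ∃ r, r ∉ C := by
    by_contra! e; exact hH (mem_H.2 fun i => ⟨i, (mem_MC.1 hx).2 i (e i)⟩)
  by_cases h1 : ∀ s ∉ C, s = r
  · exact h.S1 hC hr h1 hx hH
  push Not at h1
  obtain ⟨r', hr', e⟩ := h1
  by_cases h2 : ∀ s ∉ C, s = r ∨ s = r'
  · exact absurd (h.I3 hC hr hr' e.symm h2 hx) hH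
  push Not at h2
  obtain ⟨r'', hr'', e', e''⟩ := h2
  rcases C.eq_empty_or_nonempty with rfl | ⟨c, hc⟩
  · subst hC; exact (h.II hx.1 hH).elim
  · exact absurd (h.I2 hC hc hr hr' hr'' e.symm e'.symm e''.symm hx) hH

end St

theorem isMaximalIn_fr (hq : 5 ≤ Fintype.card F) (hn : 5 ≤ Fintype.card κ) :
    Geo.IsMaximalIn (SLg F V) (dstab (fr b) ⊓ SLg F V) := by
  haveI := b.finiteDimensional_of_finite
  haveI : Nontrivial κ := Fintype.one_lt_card_iff_nontrivial.1 (by omega)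
  refine isMaximalIn_of inf_le_right ?_ fun M h1 h2 g hg hH => ?_
  · obtain ⟨i, j, e⟩ := exists_pair_ne κ
    refine ⟨dt (b.coord i) (b j), dt_mem_SLg (cb_ne e), fun h => e ((mem_H.1 h.1 i).eq ?_ ?_)⟩ <;>
      simp [dt_apply (cb_ne e), cb_ne e, cb_ne e.symm, -Basis.coord_apply, cb_self]
  · classical
    have ex : ∃ n, ∃ x ∈ M, x ∉ dstab (fr b) ∧ Fintype.card κ - (cm b x).card = n :=
      ⟨_, g, hg, fun e => hH ⟨e, h2 hg⟩, rfl⟩
    obtain ⟨x, hx, hx', e⟩ := Nat.find_spec ex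
    have h : St b M (cm b x).card := ⟨h1, fun y hy hl => by_contra fun hy' => by
      have := Nat.find_min' ex ⟨y, hy, hy', rfl⟩
      have := Finset.card_le_univ (cm b y)
      omega, hq, hn⟩
    choose ρ hρ using fun c : cm b x => mem_cm.1 c.2
    obtain ⟨s, hs⟩ := Equiv.Perm.exists_extending_pair (f := ρ) (g := Subtype.val) (fun c c' e' => by
      by_contra ne
      have e1 := eq_smul_of (hρ c)
      have e2 := eq_smul_of (hρ c')
      have : b.coord (ρ c') (x (b c')) • b c = b.coord (ρ c) (x (b c)) • b c' := x.injective (by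
        rw [map_smul, map_smul]
        conv_lhs => rw [e1]
        conv_rhs => rw [e2]
        rw [e', smul_comm])
      have h3 := congr(b.coord c $this)
      rw [map_smul, map_smul, cb_self, cb_ne (Subtype.coe_ne_coe.2 ne), smul_zero, smul_eq_mul, mul_one] at h3
      rw [h3, zero_smul] at e2
      exact b.ne_zero _ (by simpa using e2)) Subtype.val_injective
    obtain ⟨k, hk, hk'⟩ := exists_perm (b := b) s
    refine h.SL_le (C := cm b x) rfl (x := k * x) (mem_MC.2 ⟨mul_mem (h1 hk) hx, fun c hc r hr => ?_⟩)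
      fun e => hx' (by simpa using mul_mem (inv_mem (Subgroup.mem_inf.1 hk).1) e)
    obtain ⟨t, -, ht⟩ := hk' (ρ ⟨c, hc⟩)
    rw [LinearEquiv.mul_apply, eq_smul_of (hρ ⟨c, hc⟩), map_smul, ht, hs, map_smul, map_smul, cb_ne hr]
    simp

end Cfsg.Agent.H4.Mn
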