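import Cfsg.Agent.H4.Count

/-! The number of nilpotent endomorphisms (Fine–Herstein). -/

set_option autoImplicit false
set_option linter.unusedSectionVars false

namespace Cfsg.Agent.H4

open Module Submodule

variable {F : Type*} [Field F] {V : Type*} [AddCommGroup V] [Module F V] [FiniteDimensional F V]

theorem card_nil_congr {V' : Type*} [AddCommGroup V'] [Module F V'] [FiniteDimensional F V']
    (h : finrank F V = finrank F V') :
    Nat.card {S : End F V // IsNilpotent S} = Nat.card {S : End F V' // IsNilpotent S} :=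
  Nat.card_congr ((LinearEquiv.ofFinrankEq V V' h).conjAlgEquiv F |>.toEquiv.subtypeEquiv fun _ =>
    (IsNilpotent.map_iff (AlgEquiv.injective _)).symm)

/-- the endomorphism with blocks `S`, `g` -/
noncomputable def fitMap {K I : Submodule F V} (h : IsCompl K I) (S : End F K) (g : I ≃ₗ[F] I) : End F V :=
  LinearMap.ofIsCompl h (K.subtype ∘ₗ S) (I.subtype ∘ₗ g.toLinearMap)

theorem fitMap_pow {K I : Submodule F V} (h : IsCompl K I) (S : End F K) (g : I ≃ₗ[F] I) (k : ℕ) (u : K) (w : I) :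
    (fitMap h S g ^ k) (u + w) = (S ^ k) u + (g ^ k) w := by
  induction k with
  | zero => simp
  | succ k ih => rw [pow_succ', End.mul_apply, ih]; simp [fitMap, pow_succ']

theorem fitMap_fit {K I : Submodule F V} (h : IsCompl K I) {S : End F K} (g : I ≃ₗ[F] I) (hS : IsNilpotent S) :
    (⨆ k, LinearMap.ker (fitMap h S g ^ k), ⨅ k, LinearMap.range (fitMap h S g ^ k)) = (K, I) := by
  obtain ⟨m, hm⟩ := hS
  refine Prod.ext (le_antisymm (iSup_le fun k x hx => ?_) fun u hu => mem_iSup_of_mem m ?_)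
    (le_antisymm (iInf_le_of_le m ?_) (le_iInf fun k w hw => ⟨(g ^ k)⁻¹ ⟨w, hw⟩, ?_⟩))
  · obtain ⟨u, w, rfl⟩ := exists_add_of_isCompl h x
    rw [LinearMap.mem_ker, fitMap_pow, add_eq_zero_iff_neg_eq] at hx
    obtain rfl : w = 0 := by
      simpa using disjoint_def.1 h.disjoint _ (by rw [← hx]; exact neg_mem ((S ^ k) u).2) ((g ^ k) w).2
    simp
  · simpa [hm] using fitMap_pow h S g m ⟨u, hu⟩ 0
  · rintro _ ⟨x, rfl⟩
    obtain ⟨u, w, rfl⟩ := exists_add_of_isCompl h x
    simp [-map_add, fitMap_pow, hm]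
  · simpa using fitMap_pow h S g k 0 ((g ^ k)⁻¹ ⟨w, hw⟩)

theorem exists_fitMap {K I : Submodule F V} (h : IsCompl K I) {T : End F V} (h5 : ⨆ k, LinearMap.ker (T ^ k) = K)
    (h6 : ⨅ k, LinearMap.range (T ^ k) = I) : ∃ S g, IsNilpotent S ∧ fitMap h S g = T := by
  have h2 : K ≤ LinearMap.ker (T ^ finrank F V) := h5.ge.trans (iSup_le (End.ker_pow_le_ker_pow_finrank T))
  have h7 : ∀ k, LinearMap.ker (T ^ k) ≤ K := fun k => (le_iSup (fun k => LinearMap.ker (T ^ k)) k).trans h5.le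
  have h3 : ∀ x ∈ K, T x ∈ K := fun x hx => h7 (finrank F V) (by
    rw [LinearMap.mem_ker, ← End.mul_apply, ← pow_succ, pow_succ', End.mul_apply, h2 hx, map_zero])
  have h4 : ∀ x ∈ I, T x ∈ I := fun x hx => h6.le ((mem_iInf _).2 fun k => by
    obtain ⟨y, rfl⟩ := (mem_iInf _).1 (h6.ge hx) k
    exact ⟨T y, by rw [← End.mul_apply, ← pow_succ, pow_succ', End.mul_apply]⟩)
  refine ⟨T.restrict h3, LinearEquiv.ofInjectiveEndo (T.restrict h4) ((injective_iff_map_eq_zero _).2 fun w hw =>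
    Subtype.ext (disjoint_def.1 h.disjoint _ (h7 1 ?_) w.2)), ⟨finrank F V, LinearMap.ext fun u => Subtype.ext ?_⟩,
    LinearMap.ofIsCompl_eq h (fun _ => rfl) fun _ => rfl⟩
  · simpa using congrArg Subtype.val hw
  · rw [End.pow_restrict]; exact h2 u.2

theorem card_fit {K I : Submodule F V} (h : IsCompl K I) :
    Nat.card {T : End F V // (⨆ k, LinearMap.ker (T ^ k), ⨅ k, LinearMap.range (T ^ k)) = (K, I)} =
      Nat.card {S : End F K // IsNilpotent S} * Nat.card (I ≃ₗ[F] I) := by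
  rw [← Nat.card_prod]
  refine (Nat.card_congr (Equiv.ofBijective (fun p : {S : End F K // IsNilpotent S} × (I ≃ₗ[F] I) =>
    ⟨fitMap h p.1.1 p.2, fitMap_fit h _ p.1.2⟩) ⟨fun p p' e => ?_, fun T => ?_⟩)).symm
  · replace e : fitMap h p.1.1 p.2 = fitMap h p'.1.1 p'.2 := congrArg Subtype.val e
    exact Prod.ext (Subtype.ext (LinearMap.ext fun u => Subtype.ext (by simpa [fitMap] using congrArg (· u.1) e)))
      (LinearEquiv.ext fun w => Subtype.ext (by simpa [fitMap] using congrArg (· w.1) e))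
  obtain ⟨S, g, h1, h2⟩ := exists_fitMap h (congrArg Prod.fst T.2) (congrArg Prod.snd T.2)
  exact ⟨⟨⟨S, h1⟩, g⟩, Subtype.ext h2⟩

theorem card_compl_pairs [Fintype F] {k : ℕ} (hk : k ≤ finrank F V) :
    Nat.card (V ≃ₗ[F] V) = Nat.card {p : Submodule F V × Submodule F V // IsCompl p.1 p.2 ∧ finrank F p.1 = k} *
      ((∏ i : Fin k, (Fintype.card F ^ k - Fintype.card F ^ (i : ℕ))) *
        ∏ i : Fin (finrank F V - k), (Fintype.card F ^ (finrank F V - k) - Fintype.card F ^ (i : ℕ))) := by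
  obtain ⟨v, hv⟩ := exists_linearIndependent_of_le_finrank hk
  obtain ⟨K, hK⟩ : ∃ K : Submodule F V, finrank F K = k := ⟨_, (finrank_span_eq_card hv).trans (Fintype.card_fin k)⟩
  obtain ⟨I, h⟩ := K.exists_isCompl
  have h1 := finrank_add_eq_of_isCompl h
  letI := subAction F V
  rw [← Subgroup.card_top, card_eq_orbit_mul ⊤ (K, I) (fun p => IsCompl p.1 p.2 ∧ finrank F p.1 = k) (fun p =>
    ⟨fun ⟨h2, h3⟩ => ?_, ?_⟩) (ext2 h).range fun g => ⟨?_, fun ⟨_, h2⟩ => ⟨_, ext2_resE h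
      (mem_stab_iff_map.2 (congrArg Prod.fst h2)) (mem_stab_iff_map.2 (congrArg Prod.snd h2))⟩⟩,
    ← Nat.card_congr (MonoidHom.ofInjective (ext2_injective h)).toEquiv, Nat.card_prod, card_linearEquiv hK,
    card_linearEquiv (by omega : finrank F I = finrank F V - k)]
  · have h4 := finrank_add_eq_of_isCompl h2
    refine ⟨glue h h2 (LinearEquiv.ofFinrankEq _ _ (by omega)) (LinearEquiv.ofFinrankEq _ _ (by omega)), trivial,
      Prod.ext (eq_of_le_of_finrank_eq ?_ ((LinearEquiv.finrank_map_eq _ K).trans (by omega)))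
        (eq_of_le_of_finrank_eq ?_ ((LinearEquiv.finrank_map_eq _ I).trans (by omega)))⟩ <;> rintro _ ⟨x, hx, rfl⟩
    · simp [glue_of_mem_left _ _ _ _ hx]
    · simp [glue_of_mem_right _ _ _ _ hx]
  · rintro ⟨g, -, rfl⟩
    exact ⟨(orderIsoMapComap g).isCompl h, (LinearEquiv.finrank_map_eq _ _).trans hK⟩
  · rintro ⟨p, rfl⟩
    exact ⟨trivial, Prod.ext (mem_stab_iff_map.1 (ext2_mem_stab_left h p)) (mem_stab_iff_map.1 (ext2_mem_stab_right h p))⟩

theorem sum_card_nil [Fintype F] (n : ℕ) : (Fintype.card F : ℚ) ^ (n * n) /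
    (∏ i : Fin n, (Fintype.card F ^ n - Fintype.card F ^ (i : ℕ)) : ℕ) = ∑ k ∈ Finset.range (n + 1),
      (Nat.card {S : End F (Fin k → F) // IsNilpotent S} : ℚ) /
        (∏ i : Fin k, (Fintype.card F ^ k - Fintype.card F ^ (i : ℕ)) : ℕ) := by
  classical
  have h0 : ∀ k, ((∏ i : Fin k, (Fintype.card F ^ k - Fintype.card F ^ (i : ℕ)) : ℕ) : ℚ) ≠ 0 := fun k => by
    have : Finite ((Fin k → F) ≃ₗ[F] (Fin k → F)) := DFunLike.finite _
    rw [← card_linearEquiv (finrank_fin_fun F)]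
    exact_mod_cast Nat.card_pos.ne'
  have : Finite (End F (Fin n → F)) := DFunLike.finite _
  have : Fintype (Submodule F (Fin n → F)) := Fintype.ofFinite _
  have h1 := Nat.card_congr (Equiv.sigmaFiberEquiv fun T : End F (Fin n → F) =>
    (⨆ k, LinearMap.ker (T ^ k), ⨅ k, LinearMap.range (T ^ k)))
  rw [Nat.card_sigma, card_vec (F := F), finrank_linearMap, finrank_fin_fun,
    ← Finset.sum_subset (Finset.filter_subset (fun p => IsCompl p.1 p.2) _) (fun p _ hp => by
      have : IsEmpty {T : End F (Fin n → F) // (⨆ k, LinearMap.ker (T ^ k), ⨅ k, LinearMap.range (T ^ k)) = p} :=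
        ⟨fun ⟨T, hT⟩ => hp (by simpa [← hT] using T.isCompl_iSup_ker_pow_iInf_range_pow)⟩
      exact Nat.card_of_isEmpty),
    ← Finset.sum_fiberwise_of_maps_to (t := Finset.range (n + 1)) (g := fun p => finrank F p.1) fun p _ =>
      Finset.mem_range.2 (Nat.lt_succ_of_le (by simpa using p.1.finrank_le))] at h1
  rw [div_eq_iff (h0 n), Finset.sum_mul, ← Nat.cast_pow, ← h1, Nat.cast_sum]
  refine Finset.sum_congr rfl fun k hk => ?_
  have h2 := card_compl_pairs (F := F) (V := Fin n → F) (k := k) (by simpa [Nat.lt_succ_iff] using hk)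
  rw [card_linearEquiv (finrank_fin_fun F), finrank_fin_fun, Nat.card_eq_fintype_card, Fintype.card_subtype] at h2
  rw [Finset.filter_filter, Finset.sum_congr rfl fun p hp => (card_fit (Finset.mem_filter.1 hp).2.1).trans (by
    have h3 := Finset.mem_filter.1 hp
    have := finrank_add_eq_of_isCompl h3.2.1
    rw [card_nil_congr (V' := Fin k → F) (by simp [h3.2.2]), card_linearEquiv (k := n - k) (by simp at this; omega)]),
    Finset.sum_const, h2, div_mul_eq_mul_div, eq_div_iff (h0 k)]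
  push_cast [smul_eq_mul]
  ring

theorem card_nil [Fintype F] (n : ℕ) :
    Nat.card {S : End F (Fin n → F) // IsNilpotent S} = Fintype.card F ^ (n * (n - 1)) := by
  have h0 : ∀ k, ((∏ i : Fin k, (Fintype.card F ^ k - Fintype.card F ^ (i : ℕ)) : ℕ) : ℚ) ≠ 0 := fun k => by
    have : Finite ((Fin k → F) ≃ₗ[F] (Fin k → F)) := DFunLike.finite _
    rw [← card_linearEquiv (finrank_fin_fun F)]
    exact_mod_cast Nat.card_pos.ne'
  have h1 := sum_card_nil (F := F) n
  obtain _ | n := n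
  · simp
  have h2 := h0 n
  have h3 := h0 (n + 1)
  have h4 : ∏ i : Fin (n + 1), (Fintype.card F ^ (n + 1) - Fintype.card F ^ (i : ℕ)) = (Fintype.card F ^ (n + 1) - 1) *
      (Fintype.card F ^ n * ∏ i : Fin n, (Fintype.card F ^ n - Fintype.card F ^ (i : ℕ))) := by
    simp [Fin.prod_univ_succ, pow_succ', ← Nat.mul_sub, Finset.prod_mul_distrib]
  rw [Finset.sum_range_succ, ← sum_card_nil, ← sub_eq_iff_eq_add', eq_div_iff h3, sub_mul, div_mul_cancel₀ _ h3, h4,
    Nat.cast_mul, Nat.cast_mul, Nat.cast_sub (Nat.one_le_pow _ _ Fintype.card_pos)] at h1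
  refine Nat.cast_injective (R := ℚ) (h1.symm.trans ?_)
  field_simp
  push_cast
  ring

end Cfsg.Agent.H4
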