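import Cfsg.Agent.H4.Orth2
import Cfsg.Agent.H4.Std1

/-! Small orthogonal groups as images of special linear groups. -/

set_option autoImplicit false

namespace Cfsg.Agent.H4

open Matrix Matrix.SpecialLinearGroup
open scoped commutatorElement

theorem quot_equiv_of_hom {G P H : Type*} [Group G] [Group P] [Group H] (π : G →* P)
    (hπ : Function.Surjective π) (φ : G →* H) (N : Subgroup H) [Finite (N ⧸ Subgroup.center N)]
    (h1 : ∀ g, φ g ∈ N) (h2 : ∀ z, π z = 1 → ∀ n ∈ N, n * φ z = φ z * n)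
    (h3 : ∀ g, (∀ x, φ ((x * g)⁻¹ * (g * x)) = 1) → π g = 1)
    (hc : Nat.card P = Nat.card (N ⧸ Subgroup.center N)) :
    Nonempty ((N ⧸ Subgroup.center N) ≃* P) := by
  let ψ := (QuotientGroup.mk' (Subgroup.center N)).comp (φ.codRestrict N h1)
  have h4 : ψ.ker = π.ker := by
    ext g
    simp only [ψ, MonoidHom.mem_ker, MonoidHom.comp_apply, QuotientGroup.mk'_apply,
      QuotientGroup.eq_one_iff, Subgroup.mem_center_iff]
    refine ⟨fun h => h3 g fun x => ?_, fun h n => Subtype.ext (h2 g h n n.2)⟩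
    have : φ x * φ g = φ g * φ x := congrArg Subtype.val (h ⟨φ x, h1 x⟩)
    rw [map_mul, map_inv, map_mul, map_mul, this, inv_mul_cancel]
  have e := (QuotientGroup.quotientMulEquivOfEq h4).trans (QuotientGroup.quotientKerEquivOfSurjective π hπ)
  have h5 : ψ.range = ⊤ := Subgroup.eq_top_of_card_eq _ (by
    rw [← hc, ← Nat.card_congr e.toEquiv, Nat.card_congr (QuotientGroup.quotientKerEquivRange ψ).toEquiv])
  exact ⟨(QuotientGroup.quotientKerEquivOfSurjective ψ (MonoidHom.range_eq_top.1 h5)).symm.trans e⟩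

variable {F : Type*} [Field F]

theorem SL2_mem_center {g : SpecialLinearGroup (Fin 2) F} (hb : g 0 1 = 0) (hc : g 1 0 = 0)
    (ha : g 0 0 = g 1 1) : g ∈ Subgroup.center (SpecialLinearGroup (Fin 2) F) :=
  Subgroup.mem_center_iff.2 fun x => Subtype.ext (by
    ext i j
    fin_cases i <;> fin_cases j <;> simp [mul_apply, Fin.sum_univ_two, hb, hc, ha, mul_comm])

theorem SL2_center_two {g : SpecialLinearGroup (Fin 2) F}
    (h : ∀ x, (x * g)⁻¹ * (g * x) ∈ Subgroup.center (SpecialLinearGroup (Fin 2) F)) :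
    g ∈ Subgroup.center (SpecialLinearGroup (Fin 2) F) := by
  have h1 : ∀ x : SpecialLinearGroup (Fin 2) F, ∃ r : F, g.1 * x.1 = r • (x.1 * g.1) := fun x => by
    obtain ⟨r, -, h2⟩ := mem_center_iff.1 (h x)
    refine ⟨r, ?_⟩
    have : g * x = (x * g) * ((x * g)⁻¹ * (g * x)) := by group
    rw [← coe_mul, this, coe_mul, ← h2, coe_mul]
    simp [scalar_apply, ← smul_one_eq_diagonal]
  obtain ⟨r, h2⟩ := h1 ⟨!![1, 1; 0, 1], by simp⟩
  obtain ⟨s, h3⟩ := h1 ⟨!![1, 0; 1, 1], by simp⟩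
  have h4 := g.det_coe
  rw [det_fin_two] at h4
  simp only [← Matrix.ext_iff, Fin.forall_fin_two, mul_apply, Matrix.smul_apply, Fin.sum_univ_two] at h2 h3
  simp at h2 h3
  clear h h1
  refine SL2_mem_center ?_ ?_ ?_ <;> grind

theorem SL2_mem_comm {H : Type*} [Group H] (hF : ∃ a : F, a ≠ 0 ∧ a ≠ 1) (ψ : SpecialLinearGroup (Fin 2) F →* H)
    (K : Subgroup H) (hK : ∀ A, ψ A ∈ K)
    (h : ∀ P : GL (Fin 2) F, ∃ T ∈ K, ∀ A B : SpecialLinearGroup (Fin 2) F, B.1 * P.1 = P.1 * A.1 → ψ B * T = T * ψ A)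
    (A : SpecialLinearGroup (Fin 2) F) : ψ A ∈ ⁅K, K⁆ := by
  obtain ⟨a, h0, h1⟩ := hF
  refine SL_transvection_induction (fun A => ψ A ∈ ⁅K, K⁆) (by simp) (fun i j hij c => ?_)
    (fun A B hA hB => by rw [map_mul]; exact mul_mem hA hB) A
  obtain ⟨T, hT, h2⟩ := h (GeneralLinearGroup.mkOfDetNeZero (diagonal (Pi.mulSingle i a)) (by
    rw [det_diagonal, Fintype.prod_pi_mulSingle' ]; exact h0))
  have h3 := h2 (SpecialLinearGroup.transvection hij (c / (a - 1)))
    (SpecialLinearGroup.transvection hij c * SpecialLinearGroup.transvection hij (c / (a - 1))) (by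
      have := sub_ne_zero.2 h1
      rw [coe_mul]
      ext k l
      fin_cases i <;> fin_cases j <;> (try exact absurd rfl hij) <;> fin_cases k <;> fin_cases l <;>
        simp [SpecialLinearGroup.transvection, Matrix.transvection, mul_apply, Fin.sum_univ_two, diagonal_apply,
          single_apply, one_apply] <;> field_simp <;> ring)
  have h4 : ψ (SpecialLinearGroup.transvection hij c) = ⁅T, ψ (SpecialLinearGroup.transvection hij (c / (a - 1)))⁆ := by
    rw [commutatorElement_def, ← h3, map_mul]; group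
  exact h4 ▸ Subgroup.commutator_mem_commutator hT (hK _)

/-- a homomorphism to the linear automorphisms -/
noncomputable def endHom {G V : Type*} [Group G] [AddCommGroup V] [Module F V] (ρ : G →* Module.End F V) :
    G →* (V ≃ₗ[F] V) :=
  (LinearMap.GeneralLinearGroup.generalLinearEquiv F V).toMonoidHom.comp ρ.toHomUnits

theorem endHom_apply {G V : Type*} [Group G] [AddCommGroup V] [Module F V] (ρ : G →* Module.End F V)
    (g : G) (v : V) : endHom ρ g v = ρ g v := rfl

/-- trace zero matrices -/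
def om3e : (Unit ⊕ (Fin 1 ⊕ Fin 1) → F) →ₗ[F] Matrix (Fin 2) (Fin 2) F where
  toFun v := !![v (.inl ()), v (.inr (.inl 0)); v (.inr (.inr 0)), -v (.inl ())]
  map_add' v w := by ext i j; fin_cases i <;> fin_cases j <;> simp [add_comm]
  map_smul' a v := by ext i j; fin_cases i <;> fin_cases j <;> simp

/-- coordinates of trace zero matrices -/
def om3p : Matrix (Fin 2) (Fin 2) F →ₗ[F] (Unit ⊕ (Fin 1 ⊕ Fin 1) → F) where
  toFun X := Sum.elim (fun _ => X 0 0) (Sum.elim (fun _ => X 0 1) fun _ => X 1 0)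
  map_add' v w := by ext (i | i | i) <;> simp
  map_smul' a v := by ext (i | i | i) <;> simp

theorem om3p_e (v : Unit ⊕ (Fin 1 ⊕ Fin 1) → F) : om3p (om3e v) = v := by
  ext (i | i | i) <;> simp [om3p, om3e, Subsingleton.elim i 0]

theorem om3e_p {X : Matrix (Fin 2) (Fin 2) F} (h : X.trace = 0) : om3e (om3p X) = X := by
  rw [trace_fin_two] at h
  ext i j; fin_cases i <;> fin_cases j <;> simp [om3p, om3e]
  linear_combination -h

theorem om3e_conj (g : GL (Fin 2) F) (v) : om3e (om3p (g.1 * om3e v * g⁻¹.1)) = g.1 * om3e v * g⁻¹.1 :=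
  om3e_p (by rw [trace_mul_cycle, Units.inv_mul, one_mul, trace_fin_two]; simp [om3e])

/-- the adjoint action of `GL₂` -/
noncomputable def om3 : GL (Fin 2) F →* ((Unit ⊕ (Fin 1 ⊕ Fin 1) → F) ≃ₗ[F] (Unit ⊕ (Fin 1 ⊕ Fin 1) → F)) :=
  endHom (F := F) {
    toFun g := om3p ∘ₗ LinearMap.mulRight F g⁻¹.1 ∘ₗ LinearMap.mulLeft F g.1 ∘ₗ om3e
    map_one' := LinearMap.ext fun v => by simp [om3p_e]
    map_mul' g h := LinearMap.ext fun v => by
      simp only [Module.End.mul_apply, LinearMap.comp_apply, LinearMap.mulRight_apply,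
        LinearMap.mulLeft_apply, om3e_conj, _root_.mul_inv_rev, Units.val_mul, mul_assoc]
      simp only [← mul_assoc, om3e_conj] }

theorem om3e_om3 (g : GL (Fin 2) F) (v) : om3e (om3 g v) = g.1 * om3e v * g⁻¹.1 := om3e_conj g v

theorem om3_mem (g : GL (Fin 2) F) : om3 g ∈ (oddF F 1).iso := by
  have h : ∀ v, (oddF F 1).Q v = -(om3e v).det := fun v => by
    simp [oddF_Q, quadFormOdd, om3e, det_fin_two]; ring
  refine CForm.orth_mem_iso.2 fun v => ?_
  rw [h, h, om3e_om3, det_units_conj]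

/-- `2 × 2` matrices as a quadratic space -/
def om4e : (Fin 2 ⊕ Fin 2 → F) ≃ₗ[F] Matrix (Fin 2) (Fin 2) F where
  toFun v := !![v (.inl 0), v (.inl 1); -v (.inr 1), v (.inr 0)]
  map_add' v w := by ext i j; fin_cases i <;> fin_cases j <;> simp [add_comm]
  map_smul' a v := by ext i j; fin_cases i <;> fin_cases j <;> simp
  invFun X := Sum.elim ![X 0 0, X 0 1] ![X 1 1, -X 1 0]
  left_inv v := by ext (i | i) <;> fin_cases i <;> simp
  right_inv X := by ext i j; fin_cases i <;> fin_cases j <;> simp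

/-- the action of `GL₂ × GL₂` -/
noncomputable def om4 : GL (Fin 2) F × GL (Fin 2) F →* ((Fin 2 ⊕ Fin 2 → F) ≃ₗ[F] (Fin 2 ⊕ Fin 2 → F)) :=
  endHom (F := F) {
    toFun g := om4e.symm.toLinearMap ∘ₗ LinearMap.mulRight F g.2.1ᵀ ∘ₗ LinearMap.mulLeft F g.1.1 ∘ₗ om4e.toLinearMap
    map_one' := LinearMap.ext fun v => by simp
    map_mul' g h := LinearMap.ext fun v => by simp [mul_assoc] }

theorem om4e_om4 (g : GL (Fin 2) F × GL (Fin 2) F) (v) : om4e (om4 g v) = g.1.1 * om4e v * g.2.1ᵀ :=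
  om4e.apply_symm_apply _

theorem om4_mem {g : GL (Fin 2) F × GL (Fin 2) F} (hg : g.1.1.det * g.2.1.det = 1) : om4 g ∈ (plusF F 2).iso := by
  have h : ∀ v, (plusF F 2).Q v = (om4e v).det := fun v => by
    simp [plusF_Q, quadFormPlus, om4e, det_fin_two]
  refine CForm.orth_mem_iso.2 fun v => ?_
  rw [h, h, om4e_om4, det_mul, det_mul, det_transpose, mul_right_comm, hg, one_mul]

end Cfsg.Agent.H4
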