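import Cfsg.Agent.H4.Om6

/-! Orthogonal groups of Witt index one; Hermitian `2 × 2` matrices. -/

set_option autoImplicit false

namespace Cfsg.Agent.H4

open Module Submodule
open scoped commutatorElement

variable {F : Type*} [Field F]

namespace CForm

variable {V : Type*} [AddCommGroup V] [Module F V] [FiniteDimensional F V] {f : CForm (FType.orth F) V}

theorem w1_E_le (hw : f.wi ≤ 1) {M : Subgroup (V ≃ₗ[F] V)}
    (hM : ∀ u v, f.Q u = 0 → f.B v u = 0 → f.Q v ≠ 0 → f.eich u v (f.Q v) ∈ M) : f.E ≤ M := by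
  refine E_le_of_X fun u hu0 hu => X_le_of_siegelSub hu fun v hv => ?_
  by_cases hQ : f.Q v = 0
  swap
  · exact ⟨hv, hM u v hu hv hQ⟩
  have h1 := ((TS_span_singleton hu).sup_singleton hQ (f.mem_perp_singleton.2 hv)).le_wi
  have h2 := Submodule.eq_of_le_of_finrank_le (le_sup_left : span F {u} ≤ span F {u} ⊔ span F {v})
    (by rw [finrank_span_singleton hu0]; omega)
  obtain ⟨a, rfl⟩ := mem_span_singleton.1 (h2.ge (mem_sup_right (mem_span_singleton_self v)))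
  exact smul_self_mem_siegelSub hu M a

theorem Nondeg.w1_iso_le (hf : f.Nondeg) (hw : f.wi ≤ 1)
    {S : Subgroup (V ≃ₗ[F] V)} (hS : ∀ v, f.Q v ≠ 0 → f.rfx v ∈ S) : f.iso ≤ S := by
  refine hf.iso_le (fun p c hok => ?_) (w1_E_le hw fun u v hu hv hQ => ?_)
  · rcases hok.orth_cases with h1 | ⟨h1, h2⟩
    · rw [h1]; exact S.one_mem
    · rw [h2]; exact hS p h1
  · rw [eich_eq_rfx_mul hu hv hQ]
    exact S.mul_mem (hS v hQ) (hS _ (by simpa [Q_sub, f.Q_smul_of_Q hu, hv] using hQ))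

theorem Nondeg.w1_commutator (hf : f.Nondeg) (h3 : 3 ≤ finrank F V) (han : ¬ f.Aniso) (hw : f.wi ≤ 1) :
    ⁅f.iso, f.iso⁆ = f.E := by
  refine le_antisymm (hf.orth_commutator_le_E h3 han) (w1_E_le hw fun u v hu hv hQ => ?_)
  have h1 : f.Q (v - f.Q v • u) = f.Q v := by simp [Q_sub, f.Q_smul_of_Q hu, hv]
  rw [eich_eq_rfx_mul hu hv hQ]
  exact hf.rfx_mul_mem_commutator (by rwa [h1]) one_ne_zero (by simp [h1])

theorem Nondeg.w1_dk_mul (hf : f.Nondeg) (hw : f.wi ≤ 1)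
    {g g' : V ≃ₗ[F] V} (hg : g ∈ f.iso) (hg' : g' ∈ f.iso) : dk (g * g') = dk g * dk g' := by
  let S : Subgroup (V ≃ₗ[F] V) :=
    { carrier := {g | g ∈ f.iso ∧ ∀ h ∈ f.iso, dk (g * h) = dk g * dk h}
      mul_mem' := fun {a b} ha hb => ⟨mul_mem ha.1 hb.1, fun h hh => by
        rw [mul_assoc, ha.2 _ (mul_mem hb.1 hh), hb.2 h hh, ha.2 b hb.1, mul_assoc]⟩
      one_mem' := ⟨one_mem _, by simp⟩
      inv_mem' := fun {a} ha => ⟨inv_mem ha.1, fun h hh => by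
        have h1 := ha.2 _ (mul_mem (inv_mem ha.1) hh)
        have h2 : dk a⁻¹ = dk a := by rw [dk, dk, fixS_inv]
        rw [mul_inv_cancel_left] at h1
        rw [h1, h2, ← mul_assoc, Int.units_mul_self, one_mul]⟩ }
  refine (hf.w1_iso_le hw (S := S) (fun v hv => ⟨rfx_mem_iso v, fun k hk => ?_⟩) hg).2 g' hg'
  rw [hf.dk_rfx_mul hk hv, hf.dk_rfx hv, neg_one_mul]

theorem Nondeg.w1_index [Finite F] (hf : f.Nondeg) (h2 : (2 : F) = 0) [Nontrivial V] (hw : f.wi ≤ 1) :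
    (commutator f.iso).index = 2 := by
  let δ : f.iso →* ℤˣ := ⟨⟨fun g => dk (g : V ≃ₗ[F] V), dk_one⟩, fun a b => hf.w1_dk_mul hw a.2 b.2⟩
  obtain ⟨v0, hv0⟩ := hf.exists_Q_ne ⟨1, by simp⟩
  rw [← index_ker_units δ (g := ⟨_, rfx_mem_iso v0⟩) (hf.dk_rfx hv0)]
  congr 1
  refine le_antisymm (Abelianization.commutator_subset_ker _) fun g h5 => (mem_commutator_iff _ g).2 ?_
  obtain ⟨a, ha, ha2⟩ : ∃ a : Abelianization f.iso,
      (∀ v, f.Q v ≠ 0 → ab f.iso (f.rfx v) = a) ∧ a ^ 2 = 1 := by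
    refine ⟨ab f.iso (f.rfx v0), fun v hv => ?_, by
      rw [← ab_pow (rfx_mem_iso v0), pow_two, rfx_mul_self, ab_one]⟩
    obtain ⟨s, hs⟩ := isSquare_of_two_eq_zero h2 (f.Q v / f.Q v0)
    have : s ≠ 0 := by rintro rfl; simp [hv, hv0] at hs
    exact hf.ab_rfx hv0 this (by rw [pow_two, ← hs]; field_simp)
  let S : Subgroup (V ≃ₗ[F] V) :=
    { carrier := {g | g ∈ f.iso ∧ ∃ i : ℕ, ab f.iso g = a ^ i ∧ dk g = (-1) ^ i}
      mul_mem' := by
        rintro x y ⟨hx, i, h1, h2'⟩ ⟨hy, i', h1', h2''⟩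
        refine ⟨mul_mem hx hy, i + i', ?_, ?_⟩
        · rw [ab_mul hx hy, h1, h1', pow_add]
        · rw [hf.w1_dk_mul hw hx hy, h2', h2'', ← pow_add]
      one_mem' := ⟨one_mem _, 0, by simp⟩
      inv_mem' := by
        rintro x ⟨hx, i, h1, h2'⟩
        refine ⟨inv_mem hx, i, ?_, by rw [← h2', dk, dk, fixS_inv]⟩
        rw [ab_inv hx, h1, inv_eq_iff_mul_eq_one, ← pow_two, ← pow_mul, mul_comm i, pow_mul, ha2]
        simp }
  obtain ⟨-, i, h1, h2'⟩ := hf.w1_iso_le hw (S := S) (fun v hv => ⟨rfx_mem_iso v,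
    1, by simp [ha v hv], by simp [hf.dk_rfx hv]⟩) g.2
  obtain ⟨i, rfl⟩ : Even i := (neg_one_pow_eq_one_iff_even (by decide)).1 (h2'.symm.trans h5)
  rw [← ab_eq_one_iff g.2, h1, ← two_mul, pow_mul, ha2]
  simp

theorem Nondeg.w1_card [Finite F] (hf : f.Nondeg) (h2 : (2 : F) = 0) (h3 : 3 ≤ finrank F V) (hw : f.wi ≤ 1) :
    2 * Nat.card (f.E ⧸ Subgroup.center f.E) = Nat.card f.iso := by
  classical
  have := Module.nontrivial_of_finrank_pos (R := F) (M := V) (by omega)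
  have h1 := (commutator f.iso).card_mul_index
  rw [Nat.card_congr (commutatorSubEquiv _).toEquiv, hf.w1_commutator h3 (Nondeg.orth_not_aniso h3) hw,
    card_eq_card_center_mul f.E, hf.orth_card_center_E h3 (Nondeg.orth_not_aniso h3), hf.w1_index h2 hw] at h1
  rw [← h1]
  simp [h2, mul_comm]

end CForm

open Matrix QuadraticAlgebra

variable (a b : F)

/-- Hermitian matrices -/
def omHe : ((Fin 1 ⊕ Fin 1) ⊕ Fin 2 → F) →ₗ[F] Matrix (Fin 2) (Fin 2) (QuadraticAlgebra F (-b) a) where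
  toFun v := !![⟨v (.inl (.inl 0)), 0⟩, ⟨v (.inr 0), v (.inr 1)⟩;
    ⟨v (.inr 0) + a * v (.inr 1), -v (.inr 1)⟩, ⟨-v (.inl (.inr 0)), 0⟩]
  map_add' v w := by ext i j <;> fin_cases i <;> fin_cases j <;> simp <;> ring
  map_smul' a v := by ext i j <;> fin_cases i <;> fin_cases j <;> simp <;> ring

/-- coordinates of Hermitian matrices -/
def omHp : Matrix (Fin 2) (Fin 2) (QuadraticAlgebra F (-b) a) →ₗ[F] ((Fin 1 ⊕ Fin 1) ⊕ Fin 2 → F) where
  toFun X := Sum.elim (Sum.elim (fun _ => (X 0 0).re) fun _ => -(X 1 1).re) ![(X 0 1).re, (X 0 1).im]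
  map_add' v w := by ext ((i | i) | i) <;> fin_cases i <;> simp [add_comm]
  map_smul' a v := by ext ((i | i) | i) <;> fin_cases i <;> simp

theorem omHp_e (v : (Fin 1 ⊕ Fin 1) ⊕ Fin 2 → F) : omHp a b (omHe a b v) = v := by
  ext ((i | i) | i) <;> fin_cases i <;> simp [omHp, omHe]

theorem omHe_herm (v : (Fin 1 ⊕ Fin 1) ⊕ Fin 2 → F) : (omHe a b v)ᴴ = omHe a b v := by
  ext i j <;> fin_cases i <;> fin_cases j <;> simp [omHe]

variable {a b}

theorem omHe_p (h0 : 4 * b - a ^ 2 ≠ 0) {X : Matrix (Fin 2) (Fin 2) (QuadraticAlgebra F (-b) a)} (h : Xᴴ = X) :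
    omHe a b (omHp a b X) = X := by
  simp only [← Matrix.ext_iff, Fin.forall_fin_two, conjTranspose_apply, QuadraticAlgebra.ext_iff,
    re_star, im_star] at h ⊢
  simp [omHe, omHp]
  grind

variable [Fact (∀ r : F, r ^ 2 ≠ -b + a * r)]

theorem omHe_conj (h0 : 4 * b - a ^ 2 ≠ 0) (g : Matrix (Fin 2) (Fin 2) (QuadraticAlgebra F (-b) a)) (v) :
    omHe a b (omHp a b (g * omHe a b v * gᴴ)) = g * omHe a b v * gᴴ :=
  omHe_p h0 (by simp [omHe_herm, mul_assoc])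

/-- the action of `SL₂(q²)` on Hermitian matrices -/
noncomputable def omH (h0 : 4 * b - a ^ 2 ≠ 0) : SpecialLinearGroup (Fin 2) (QuadraticAlgebra F (-b) a) →*
    (((Fin 1 ⊕ Fin 1) ⊕ Fin 2 → F) ≃ₗ[F] ((Fin 1 ⊕ Fin 1) ⊕ Fin 2 → F)) :=
  endHom (F := F) {
    toFun g := omHp a b ∘ₗ LinearMap.mulRight F g.1ᴴ ∘ₗ LinearMap.mulLeft F g.1 ∘ₗ omHe a b
    map_one' := LinearMap.ext fun v => by simp [omHp_e]
    map_mul' g h := LinearMap.ext fun v => by
      simp only [Module.End.mul_apply, LinearMap.comp_apply, LinearMap.mulRight_apply,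
        LinearMap.mulLeft_apply, omHe_conj h0]
      simp [mul_assoc] }

theorem omH_apply (h0 : 4 * b - a ^ 2 ≠ 0) (g) (v) : omH h0 g v = omHp a b (g.1 * omHe a b v * g.1ᴴ) := rfl

theorem omH_mem (h0 : 4 * b - a ^ 2 ≠ 0) (g) : omH h0 g ∈ (minusF 1 a b).iso := by
  have h : ∀ v, (minusF 1 a b).Q v = -(omHe a b v).det.re := fun v => by
    simp [minusF_Q, quadFormMinus, omHe, det_fin_two]; ring
  refine CForm.orth_mem_iso.2 fun v => ?_
  rw [h, h, omH_apply, omHe_conj h0, det_mul, det_mul, det_conjTranspose, g.det_coe, star_one, one_mul, mul_one]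

end Cfsg.Agent.H4
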