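import Cfsg.Agent.H4.Om4
import Cfsg.Agent.H4.Basis

/-! The exterior square of `SU₄`. -/

set_option autoImplicit false

namespace Cfsg.Agent.H4

open Matrix QuadraticAlgebra Module

section
variable {L : Type*} [Field L]

theorem om6_adj (g : SpecialLinearGroup (Fin 4) L) (u v) : om6 g.transpose v ⬝ᵥ u = v ⬝ᵥ om6 g u := by
  rw [om6_apply, om6_apply]
  simp [om6p, om6u, Matrix.SpecialLinearGroup.transpose, dotProduct, Fintype.sum_sum_type,
    Fin.sum_univ_succ, mul_apply, vecMul]
  ring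

theorem om6_swap (g : SpecialLinearGroup (Fin 4) L) (v) : om6 g.transpose (om6 g v ∘ Sum.swap) = v ∘ Sum.swap := by
  have h : ∀ x y : Fin 3 ⊕ Fin 3 → L, (x ∘ Sum.swap) ⬝ᵥ y = (plusF L 3).B x y := fun x y => by
    simp [plusF_B, polar_plus, dotProduct, Fintype.sum_sum_type, Finset.sum_add_distrib, add_comm]
  exact dotProduct_eq _ _ fun u => by rw [om6_adj, h, h, CForm.iso_B (om6_mem g)]

theorem om6_map (σ : L →+* L) (g : SpecialLinearGroup (Fin 4) L) (v) :
    σ ∘ om6 g v = om6 (Matrix.SpecialLinearGroup.map σ g) (σ ∘ v) := by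
  have h1 : ∀ X, σ ∘ om6p X = om6p (X.map σ) := fun X => by
    ext (i | i) <;> fin_cases i <;> simp [om6p]
  have h2 : (om6u v).map σ = om6u (σ ∘ v) := by
    ext i j; fin_cases i <;> fin_cases j <;> simp [om6u]
  rw [om6_apply, om6_apply, h1, Matrix.map_mul, Matrix.map_mul, h2]
  rfl

theorem om6_fix (σ : L →+* L) {g : SpecialLinearGroup (Fin 4) L} (hg : g.1.map σ * g.1ᵀ = 1) {v}
    (hv : σ ∘ v = v ∘ Sum.swap) : σ ∘ om6 g v = om6 g v ∘ Sum.swap := by
  have : Matrix.SpecialLinearGroup.map σ g * g.transpose = 1 := Subtype.ext hg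
  rw [om6_map, hv, ← om6_swap g, ← LinearEquiv.mul_apply, ← map_mul, this, map_one]
  rfl

end

variable {F : Type*} [Field F] (a b : F)

/-- the sum of three norm forms -/
def nrmF : CForm (FType.orth F) (Fin 3 → QuadraticAlgebra F (-b) a) :=
  CForm.mkQuad (fun x => ∑ i, QuadraticAlgebra.norm (x i))
    (fun c x => by simp [QuadraticAlgebra.norm_def, Fin.sum_univ_three]; ring)
    (fun x y z => by simp [QuadraticMap.polar, QuadraticAlgebra.norm_def, Fin.sum_univ_three]; ring)
    (fun c x y => by simp [QuadraticMap.polar, QuadraticAlgebra.norm_def, Fin.sum_univ_three]; ring)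

theorem nrmF_Q (x) : (nrmF a b).Q x = ∑ i, QuadraticAlgebra.norm (x i) := rfl

theorem nrmF_B (x y) : (nrmF a b).B x y = ∑ i, QuadraticAlgebra.trace (x i * star (y i)) := by
  show QuadraticMap.polar (fun x : Fin 3 → QuadraticAlgebra F (-b) a => ∑ i, QuadraticAlgebra.norm (x i)) x y = _
  simp [QuadraticMap.polar, QuadraticAlgebra.norm_def, QuadraticAlgebra.trace_def, Fin.sum_univ_three]; ring

/-- the fixed points of the conjugation -/
def omUi : (Fin 3 → QuadraticAlgebra F (-b) a) →ₗ[F] (Fin 3 ⊕ Fin 3 → QuadraticAlgebra F (-b) a) where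
  toFun x := Sum.elim x (star x)
  map_add' v w := by ext (i | i) <;> simp <;> ring
  map_smul' c v := by ext (i | i) <;> simp <;> ring

variable {a b}

theorem trace_nondeg (h0 : 4 * b - a ^ 2 ≠ 0) {z : QuadraticAlgebra F (-b) a} (h : ∀ s, QuadraticAlgebra.trace (z * s) = 0) : z = 0 := by
  have h1 := h 1
  have h2 := h ⟨0, 1⟩
  simp [QuadraticAlgebra.trace_def] at h1 h2
  ext <;> simp <;> grind

theorem nrmF_nondeg (h0 : 4 * b - a ^ 2 ≠ 0) : (nrmF a b).Nondeg := fun x hx => funext fun i =>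
  trace_nondeg h0 fun s => by
    have := hx (Pi.single i (star s))
    rwa [nrmF_B, Finset.sum_eq_single i (fun j _ h => by simp [h]) (by simp), Pi.single_eq_same, star_star] at this

variable [Fact (∀ r : F, r ^ 2 ≠ -b + a * r)]

theorem nrmF_wi (h0 : 4 * b - a ^ 2 ≠ 0) {c : QuadraticAlgebra F (-b) a} (hc : QuadraticAlgebra.norm c = -1) : (nrmF a b).wi ≠ 2 + 1 := by
  intro h
  let j : QuadraticAlgebra F (-b) a →ₗ[F] (Fin 3 → QuadraticAlgebra F (-b) a) :=
    LinearMap.pi ![LinearMap.id, LinearMap.mulLeft F c, 0]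
  have hc' : c * star c = -1 := by rw [← algebraMap_norm_eq_mul_star, hc]; simp
  have h1 : (nrmF a b).TS (LinearMap.range j) := ⟨by
    rintro _ ⟨x, rfl⟩; simp [nrmF_Q, j, Fin.sum_univ_three, hc], by
    rintro _ ⟨x, rfl⟩ _ ⟨y, rfl⟩
    simp only [nrmF_B, Fin.sum_univ_three, ← map_add]
    refine (congrArg _ ?_).trans (map_zero _)
    simp [j]
    linear_combination x * star y * hc'⟩
  have h2 : finrank F (LinearMap.range j) ≤ 2 := (LinearMap.finrank_range_le j).trans (QuadraticAlgebra.finrank_eq_two _ _).le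
  obtain ⟨W, hW, h3⟩ := CForm.exists_TS_wi (f := nrmF a b)
  obtain ⟨U, h4, h5, h6⟩ := (nrmF_nondeg h0).exists_TS_ge h1 hW (by omega)
  have h7 : U ≤ LinearMap.range j := fun u hu => by
    have h8 : u 0 + u 1 * star c = 0 := trace_nondeg h0 fun s => by
      have := h5.2 u hu _ (h4 ⟨star s, rfl⟩)
      simp only [nrmF_B, Fin.sum_univ_three, ← map_add] at this
      rw [← this]
      congr 1
      simp [j]; ring
    have h9 : u 1 = c * u 0 := by linear_combination -c * h8 + u 1 * hc'
    have h10 := h5.1 u hu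
    rw [nrmF_Q, Fin.sum_univ_three, h9, map_mul, hc] at h10
    have h11 : u 2 = 0 := norm_eq_zero_iff_eq_zero.1 (by linear_combination h10)
    exact ⟨u 0, funext fun i => by fin_cases i <;> simp [j, h9, h11]⟩
  have := Submodule.finrank_mono h7
  omega

variable {G : Type*} [Group G] (ψ : G →* SpecialLinearGroup (Fin 4) (QuadraticAlgebra F (-b) a))
  (hψ : ∀ g, (ψ g).1.map (starRingEnd _) * (ψ g).1ᵀ = 1)

include hψ in
theorem omUi_om6 (g : G) (x) : omUi a b (om6 (ψ g) (omUi a b x) ∘ Sum.inl) = om6 (ψ g) (omUi a b x) := by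
  have := om6_fix (starRingEnd _) (hψ g) (v := omUi a b x) (by ext (i | i) : 1 <;> simp [omUi, starRingEnd_apply])
  ext (i | i) : 1
  · rfl
  · exact congrFun this (.inl i)

/-- the action of `SU₄` -/
noncomputable def omU : G →* ((Fin 3 → QuadraticAlgebra F (-b) a) ≃ₗ[F] (Fin 3 → QuadraticAlgebra F (-b) a)) :=
  endHom (F := F) {
    toFun g := LinearMap.funLeft F _ Sum.inl ∘ₗ (om6 (ψ g)).toLinearMap.restrictScalars F ∘ₗ omUi a b
    map_one' := LinearMap.ext fun v => by rw [map_one, map_one]; rfl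
    map_mul' g h := LinearMap.ext fun v => by
      rw [map_mul, map_mul]
      exact congrArg (fun y => om6 (ψ g) y ∘ Sum.inl) (omUi_om6 ψ hψ h v).symm }

theorem omU_apply (g : G) (x) : omU ψ hψ g x = om6 (ψ g) (omUi a b x) ∘ Sum.inl := rfl

theorem omU_mem (g : G) : omU ψ hψ g ∈ (nrmF a b).iso := by
  have h : ∀ x, algebraMap F _ ((nrmF a b).Q x) = (plusF _ 3).Q (omUi a b x) := fun x => by
    simp [nrmF_Q, plusF_Q, quadFormPlus, omUi, algebraMap_norm_eq_mul_star]
  refine CForm.orth_mem_iso.2 fun v => (algebraMap F (QuadraticAlgebra F (-b) a)).injective ?_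
  rw [h, h, omU_apply, omUi_om6 ψ hψ, CForm.iso_Q (om6_mem _)]

theorem star_eq_pow [Fintype F] [Fintype (QuadraticAlgebra F (-b) a)]
    (hL : Fintype.card (QuadraticAlgebra F (-b) a) = Fintype.card F ^ 2) (z : QuadraticAlgebra F (-b) a) :
    star z = z ^ Fintype.card F := by
  have h1 : ∀ r : F, frobq hL (algebraMap F _ r) = algebraMap F _ r := fun r => by
    rw [frobq_apply, ← map_pow, FiniteField.pow_card]
  have h2 : ∀ z : QuadraticAlgebra F (-b) a, z = algebraMap F _ z.re + algebraMap F _ z.im * ω := fun z => by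
    ext <;> simp
  have h3 : (ω : QuadraticAlgebra F (-b) a) * ω = algebraMap F _ (-b) + algebraMap F _ a * ω := by ext <;> simp
  have h4 := congrArg (frobq hL) h3
  rw [map_mul, map_add, map_mul, h1, h1] at h4
  have h5 : star (ω : QuadraticAlgebra F (-b) a) = algebraMap F _ a - ω := by ext <;> simp
  have h6 : (frobq hL ω - ω) * (frobq hL ω - star ω) = 0 := by rw [h5]; linear_combination h4 - h3
  obtain h | h := mul_eq_zero.1 h6
  · refine absurd (RingHom.ext fun z => ?_) (frobq_ne hL)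
    rw [h2 z, map_add, map_mul, h1, h1, sub_eq_zero.1 h]; rfl
  · rw [← frobq_apply hL, h2 z, map_add, map_mul, h1, h1, sub_eq_zero.1 h]
    ext <;> simp [mul_comm]

end Cfsg.Agent.H4
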