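import Cfsg.Agent.H4.Om3

/-! The exterior square of `SL₄`. -/

set_option autoImplicit false

namespace Cfsg.Agent.H4

open Matrix
open scoped commutatorElement

theorem quot_equiv_of_qs {G H : Type*} [Group G] [Group H] (hG : IsQuasisimple G) (φ : G →* H)
    {K N : Subgroup H} (hN : ⁅K, K⁆ = N) [Finite (N ⧸ Subgroup.center N)] (h1 : ∀ g, φ g ∈ K)
    (h2 : ∀ z ∈ Subgroup.center G, ∀ n, n * φ z = φ z * n) (h3 : ∃ g, φ g ≠ 1)
    (hc : Nat.card (G ⧸ Subgroup.center G) = Nat.card (N ⧸ Subgroup.center N)) :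
    Nonempty ((N ⧸ Subgroup.center N) ≃* G ⧸ Subgroup.center G) := by
  obtain ⟨h4, h5⟩ := hG
  have h6 : φ.ker ≤ Subgroup.center G := by
    obtain h | h := h5.eq_bot_or_eq_top_of_normal (φ.ker.map (QuotientGroup.mk' (Subgroup.center G)))
      (φ.normal_ker.map _ (QuotientGroup.mk'_surjective _))
    · rwa [Subgroup.map_eq_bot_iff, QuotientGroup.ker_mk'] at h
    · obtain ⟨g, hg⟩ := h3
      refine absurd (?_ : g ∈ φ.ker) hg
      refine (?_ : commutator G ≤ φ.ker) Group.IsPerfect.mem_commutator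
      refine Subgroup.commutator_le.2 fun a _ b _ => ?_
      obtain ⟨c, h7, h8⟩ : (a : G ⧸ Subgroup.center G) ∈ φ.ker.map (QuotientGroup.mk' (Subgroup.center G)) :=
        h ▸ Subgroup.mem_top _
      have h9 := Subgroup.mem_center_iff.1 (QuotientGroup.eq.1 h8) b
      have : ⁅a, b⁆ = c * (b * c⁻¹ * b⁻¹) := by
        obtain ⟨z, rfl⟩ : ∃ z, a = c * z := ⟨c⁻¹ * a, by group⟩
        rw [inv_mul_cancel_left] at h9
        rw [commutatorElement_def, mul_assoc c z b, ← h9]; group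
      exact this ▸ mul_mem h7 (φ.normal_ker.conj_mem _ (inv_mem h7) b)
  refine quot_equiv_of_hom (QuotientGroup.mk' _) (QuotientGroup.mk'_surjective _) φ N (fun g => ?_)
    (fun z hz n _ => h2 z ((QuotientGroup.eq_one_iff z).1 hz) n) (fun g h => ?_) hc
  · have := Subgroup.mem_map_of_mem φ (Group.IsPerfect.mem_commutator (g := g))
    rw [commutator_def, Subgroup.map_commutator] at this
    have h7 : (⊤ : Subgroup G).map φ ≤ K := by rintro _ ⟨x, -, rfl⟩; exact h1 x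
    exact hN ▸ Subgroup.commutator_mono h7 h7 this
  · rw [← Subgroup.mem_bot, ← Group.IsPerfect.center_quotient_center_eq_bot, Subgroup.mem_center_iff]
    intro x
    obtain ⟨x, rfl⟩ := QuotientGroup.mk_surjective x
    exact QuotientGroup.eq.2 (h6 (h x))

variable {F : Type*} [Field F]

/-- upper triangular matrices -/
def om6u : (Fin 3 ⊕ Fin 3 → F) →ₗ[F] Matrix (Fin 4) (Fin 4) F where
  toFun v := !![0, v (.inl 0), v (.inl 1), v (.inl 2); 0, 0, v (.inr 2), -v (.inr 1); 0, 0, 0, v (.inr 0); 0, 0, 0, 0]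
  map_add' v w := by ext i j; fin_cases i <;> fin_cases j <;> simp [add_comm]
  map_smul' a v := by ext i j; fin_cases i <;> fin_cases j <;> simp

/-- coordinates of alternating matrices -/
def om6p : Matrix (Fin 4) (Fin 4) F →ₗ[F] (Fin 3 ⊕ Fin 3 → F) where
  toFun X := Sum.elim ![X 0 1 - X 1 0, X 0 2 - X 2 0, X 0 3 - X 3 0] ![X 2 3 - X 3 2, X 3 1 - X 1 3, X 1 2 - X 2 1]
  map_add' v w := by ext (i | i) <;> fin_cases i <;> simp <;> ring
  map_smul' a v := by ext (i | i) <;> fin_cases i <;> simp <;> ring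

theorem om6p_u (v : Fin 3 ⊕ Fin 3 → F) : om6p (om6u v) = v := by
  ext (i | i) <;> fin_cases i <;> simp [om6p, om6u]

theorem om6p_congr {X Y : Matrix (Fin 4) (Fin 4) F} (h : X - Xᵀ = Y - Yᵀ) : om6p X = om6p Y := by
  have h1 : ∀ i j, X i j - X j i = Y i j - Y j i := fun i j => congrFun (congrFun h i) j
  simp only [om6p, LinearMap.coe_mk, AddHom.coe_mk, h1]

theorem om6u_p (X : Matrix (Fin 4) (Fin 4) F) : om6u (om6p X) - (om6u (om6p X))ᵀ = X - Xᵀ := by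
  ext i j; fin_cases i <;> fin_cases j <;> simp [om6p, om6u]

/-- the action of `SL₄` on alternating matrices -/
noncomputable def om6 : SpecialLinearGroup (Fin 4) F →* ((Fin 3 ⊕ Fin 3 → F) ≃ₗ[F] (Fin 3 ⊕ Fin 3 → F)) :=
  endHom (F := F) {
    toFun g := om6p ∘ₗ LinearMap.mulRight F g.1ᵀ ∘ₗ LinearMap.mulLeft F g.1 ∘ₗ om6u
    map_one' := LinearMap.ext fun v => by simp [om6p_u]
    map_mul' g h := LinearMap.ext fun v => om6p_congr (by
      have : ∀ A X : Matrix (Fin 4) (Fin 4) F, A * X * Aᵀ - (A * X * Aᵀ)ᵀ = A * (X - Xᵀ) * Aᵀ := fun A X => by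
        simp [mul_sub, sub_mul, mul_assoc]
      simp only [LinearMap.comp_apply, LinearMap.mulRight_apply, LinearMap.mulLeft_apply, this, om6u_p]
      simp [mul_assoc]) }

theorem om6_apply (g : SpecialLinearGroup (Fin 4) F) (v) : om6 g v = om6p (g.1 * om6u v * g.1ᵀ) := rfl

theorem om6_det (A : Matrix (Fin 4) (Fin 4) F) : A.det =
    A 0 0 * (A 1 1 * A 2 2 * A 3 3 - A 1 1 * A 2 3 * A 3 2 - A 1 2 * A 2 1 * A 3 3 + A 1 2 * A 2 3 * A 3 1 +
      A 1 3 * A 2 1 * A 3 2 - A 1 3 * A 2 2 * A 3 1) -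
    A 0 1 * (A 1 0 * A 2 2 * A 3 3 - A 1 0 * A 2 3 * A 3 2 - A 1 2 * A 2 0 * A 3 3 + A 1 2 * A 2 3 * A 3 0 +
      A 1 3 * A 2 0 * A 3 2 - A 1 3 * A 2 2 * A 3 0) +
    A 0 2 * (A 1 0 * A 2 1 * A 3 3 - A 1 0 * A 2 3 * A 3 1 - A 1 1 * A 2 0 * A 3 3 + A 1 1 * A 2 3 * A 3 0 +
      A 1 3 * A 2 0 * A 3 1 - A 1 3 * A 2 1 * A 3 0) -
    A 0 3 * (A 1 0 * A 2 1 * A 3 2 - A 1 0 * A 2 2 * A 3 1 - A 1 1 * A 2 0 * A 3 2 + A 1 1 * A 2 2 * A 3 0 +
      A 1 2 * A 2 0 * A 3 1 - A 1 2 * A 2 1 * A 3 0) := by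
  rw [det_succ_row_zero, Fin.sum_univ_four]
  simp only [det_fin_three, submatrix_apply]
  show (-1) ^ 0 * A 0 0 * (A 1 1 * A 2 2 * A 3 3 - A 1 1 * A 2 3 * A 3 2 - A 1 2 * A 2 1 * A 3 3 + A 1 2 * A 2 3 * A 3 1 +
      A 1 3 * A 2 1 * A 3 2 - A 1 3 * A 2 2 * A 3 1) +
    (-1) ^ 1 * A 0 1 * (A 1 0 * A 2 2 * A 3 3 - A 1 0 * A 2 3 * A 3 2 - A 1 2 * A 2 0 * A 3 3 + A 1 2 * A 2 3 * A 3 0 +
      A 1 3 * A 2 0 * A 3 2 - A 1 3 * A 2 2 * A 3 0) +
    (-1) ^ 2 * A 0 2 * (A 1 0 * A 2 1 * A 3 3 - A 1 0 * A 2 3 * A 3 1 - A 1 1 * A 2 0 * A 3 3 + A 1 1 * A 2 3 * A 3 0 +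
      A 1 3 * A 2 0 * A 3 1 - A 1 3 * A 2 1 * A 3 0) +
    (-1) ^ 3 * A 0 3 * (A 1 0 * A 2 1 * A 3 2 - A 1 0 * A 2 2 * A 3 1 - A 1 1 * A 2 0 * A 3 2 + A 1 1 * A 2 2 * A 3 0 +
      A 1 2 * A 2 0 * A 3 1 - A 1 2 * A 2 1 * A 3 0) = _
  ring

theorem om6_mem (g : SpecialLinearGroup (Fin 4) F) : om6 g ∈ (plusF F 3).iso := by
  refine CForm.orth_mem_iso.2 fun v => ?_
  have h := g.det_coe
  rw [om6_det] at h
  simp [plusF_Q, quadFormPlus, om6_apply, om6p, om6u, Fin.sum_univ_succ, mul_apply, vecMul, dotProduct]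
  linear_combination (v (.inl 0) * v (.inr 0) + v (.inl 1) * v (.inr 1) + v (.inl 2) * v (.inr 2)) * h

end Cfsg.Agent.H4
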