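import Cfsg.Agent.H4.Linear
import Cfsg.Prelude.Def_LinearParabolics

/-! Orders of block triangular groups. -/

set_option autoImplicit false

namespace Cfsg.Agent.H4

open Matrix Finset

variable {F : Type*} [Field F] {ι α : Type*} [Fintype ι] [DecidableEq ι] [LinearOrder α] [Fintype α] {c : ι → α}

/-- the block triangular matrix with given blocks -/
def btBlk (A : Π k, Matrix {i // c i = k} {i // c i = k} F) (B : {p : ι × ι // c p.1 < c p.2} → F) : Matrix ι ι F :=
  of fun i j => if h : c j = c i then A (c i) ⟨i, rfl⟩ ⟨j, h⟩ else if h : c i < c j then B ⟨(i, j), h⟩ else 0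

omit [Fintype ι] [DecidableEq ι] [Fintype α] in
theorem btBlk_tri (A : Π k, Matrix {i // c i = k} {i // c i = k} F) (B) : (btBlk A B).BlockTriangular c :=
  fun i j h => by simp [btBlk, h.ne, h.not_gt]

omit [Fintype ι] [DecidableEq ι] [Fintype α] in
theorem btBlk_sq (A : Π k, Matrix {i // c i = k} {i // c i = k} F) (B) (k) : (btBlk A B).toSquareBlock c k = A k := by
  ext ⟨i, rfl⟩ ⟨j, hj⟩
  simp [btBlk, toSquareBlock_def, hj]

theorem card_btGL [Fintype F] : Nat.card {g : GL ι F // g.1.BlockTriangular c} =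
    (∏ k, Nat.card (GL {i // c i = k} F)) * Fintype.card F ^ Fintype.card {p : ι × ι // c p.1 < c p.2} := by
  classical
  rw [← Nat.card_pi, ← Fintype.card_fun, ← Nat.card_eq_fintype_card, ← Nat.card_prod]
  refine (Nat.card_congr (Equiv.ofBijective (fun x : (Π k, GL {i // c i = k} F) × ({p : ι × ι // c p.1 < c p.2} → F) =>
    (⟨GeneralLinearGroup.mkOfDetNeZero (btBlk (fun k => (x.1 k).1) x.2) (by
      rw [(btBlk_tri _ _).det_fintype]
      exact prod_ne_zero_iff.2 fun k _ => by rw [btBlk_sq]; exact (x.1 k).det_ne_zero), btBlk_tri (fun k => (x.1 k).1) x.2⟩ :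
      {g : GL ι F // g.1.BlockTriangular c})) ⟨fun x y h => ?_, fun g => ?_⟩)).symm
  · have h1 : btBlk (fun k => (x.1 k).1) x.2 = btBlk (fun k => (y.1 k).1) y.2 := congrArg (·.1.1) h
    refine Prod.ext (funext fun k => Units.ext ?_) (funext fun p => ?_)
    · simpa [btBlk_sq] using congrArg (toSquareBlock · c k) h1
    · simpa [btBlk, p.2, p.2.ne'] using congrFun (congrFun h1 p.1.1) p.1.2
  · have h1 := g.1.det_ne_zero
    rw [g.2.det_fintype, prod_ne_zero_iff] at h1
    refine ⟨(fun k => GeneralLinearGroup.mkOfDetNeZero _ (h1 k (mem_univ k)), fun p => g.1.1 p.1.1 p.1.2),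
      Subtype.ext (Units.ext (Matrix.ext fun i j => ?_))⟩
    show btBlk (fun k => g.1.1.toSquareBlock c k) (fun p => g.1.1 p.1.1 p.1.2) i j = _
    rcases lt_trichotomy (c i) (c j) with h | h | h
    · simp [btBlk, h, h.ne']
    · simp [btBlk, h.symm, toSquareBlock_def]
    · rw [btBlk_tri _ _ h, g.2 h]

theorem card_GL_geom [Fintype F] {k : ℕ} (hk : Fintype.card F = k + 1) : Nat.card (GL ι F) =
    (k + 1) ^ (∑ i ∈ range (Fintype.card ι), i) * k ^ Fintype.card ι *
      ∏ j ∈ range (Fintype.card ι), ∑ l ∈ range (j + 1), (k + 1) ^ l := by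
  rw [Nat.card_congr (Units.mapEquiv (reindexRingEquiv F (Fintype.equivFin ι)).toMulEquiv).toEquiv,
    card_GL_field, hk]
  generalize Fintype.card ι = m
  rw [Fin.prod_univ_eq_prod_range (fun i => (k + 1) ^ m - (k + 1) ^ i), ← prod_range_reflect (fun j => ∑ l ∈ range (j + 1), (k + 1) ^ l),
    ← prod_pow_eq_pow_sum, show k ^ m = ∏ _ ∈ range m, k by simp, ← prod_mul_distrib, ← prod_mul_distrib]
  refine prod_congr rfl fun i hi => ?_
  obtain ⟨d, rfl⟩ : ∃ d, m = i + (d + 1) := ⟨m - i - 1, by have := mem_range.1 hi; omega⟩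
  rw [show i + (d + 1) - 1 - i = d by omega, pow_add, ← geom_sum_mul_add k (d + 1)]
  exact Nat.sub_eq_of_eq_add (by ring)

omit [DecidableEq ι] in
theorem card_lt_pairs : 2 * Fintype.card {p : ι × ι // c p.1 < c p.2} + ∑ k, Fintype.card {i // c i = k} ^ 2 =
    Fintype.card ι ^ 2 := by
  classical
  have h1 : Fintype.card {p : ι × ι // c p.1 < c p.2} = Fintype.card {p : ι × ι // c p.2 < c p.1} :=
    Fintype.card_congr ((Equiv.prodComm ι ι).subtypeEquiv fun _ => Iff.rfl)
  have h2 : ∑ k, Fintype.card {i // c i = k} ^ 2 = Fintype.card {p : ι × ι // c p.1 = c p.2} := by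
    rw [Fintype.card_subtype, card_eq_sum_card_fiberwise (f := fun p => c p.1) (t := univ) (by simp)]
    refine sum_congr rfl fun k _ => ?_
    rw [Fintype.card_subtype, sq, ← card_product]
    congr 1
    ext p
    simp only [mem_product, mem_filter, mem_univ, true_and]
    exact ⟨fun h => ⟨h.1.trans h.2.symm, h.1⟩, fun h => ⟨h.2, h.1.symm.trans h.2⟩⟩
  rw [two_mul, h2, sq, ← Fintype.card_prod]
  nth_rewrite 2 [h1]
  simp only [Fintype.card_subtype, card_filter, ← sum_add_distrib]
  rw [← card_univ, card_eq_sum_ones]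
  refine sum_congr rfl fun p _ => ?_
  rcases lt_trichotomy (c p.1) (c p.2) with h | h | h
  · simp [h, h.ne, h.not_gt]
  · simp [h]
  · simp [h, h.ne', h.not_gt]

theorem compLabel_sigma {n : ℕ} {μ : Fin n → ℕ} (hμ : ∑ i, μ i = n) (x : (i : Fin n) × Fin (μ i)) :
    compLabel μ ((finSigmaFinEquiv.trans (finCongr hμ)) x) = x.1 := by
  have h1 : ∑ i : Fin x.1, μ (Fin.castLE x.1.2.le i) = ∑ k ∈ univ.filter (· < x.1), μ k := by
    refine sum_bij (fun i _ => Fin.castLE x.1.2.le i) (fun i _ => mem_filter.2 ⟨mem_univ _, i.2⟩)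
      (fun _ _ _ _ h => Fin.castLE_injective _ h) (fun b hb => ⟨⟨b, by simpa using hb⟩, mem_univ _, rfl⟩) fun _ _ => rfl
  refine (congrArg card (Finset.ext fun j => ?_)).trans (Fin.card_Iio x.1)
  simp only [mem_filter, mem_univ, true_and, mem_Iio, Equiv.trans_apply, finCongr_apply, Fin.val_cast,
    finSigmaFinEquiv_apply, h1]
  refine ⟨fun h => by_contra fun h2 => ?_, fun h => le_add_right (sum_le_sum_of_subset fun k => by simp; omega)⟩
  have h3 : insert x.1 (univ.filter (· < x.1)) ⊆ univ.filter (· ≤ j) := fun k => by simp; omega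
  have h4 := sum_le_sum_of_subset (f := μ) h3
  rw [sum_insert (by simp)] at h4
  have := x.2.2
  omega

end Cfsg.Agent.H4
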