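import Cfsg.Agent.H4.Lang3
import Cfsg.Agent.H4.Over2

/-! Subfield subgroups: a counting lemma in `SL₂`, rational structures. -/

set_option autoImplicit false

namespace Cfsg.Agent.H4.Sf

open Module Submodule
open scoped MatrixGroups commutatorElement

variable {F : Type*} [Field F] {V : Type*} [AddCommGroup V] [Module F V]

/-- upper unitriangular matrix -/
def up2 (b : F) : SL(2, F) := ⟨!![1, b; 0, 1], by simp [Matrix.det_fin_two]⟩

theorem det2 (A : SL(2, F)) : A 0 0 * A 1 1 - A 0 1 * A 1 0 = 1 := by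
  have := A.2
  rwa [Matrix.det_fin_two] at this

theorem mul2 (A B : SL(2, F)) (i j : Fin 2) : (A * B) i j = A i 0 * B 0 j + A i 1 * B 1 j := by
  simp [Matrix.mul_apply, Fin.sum_univ_two]

theorem inv2 (A : SL(2, F)) : (A⁻¹ 0 0 = A 1 1 ∧ A⁻¹ 0 1 = - A 0 1) ∧ A⁻¹ 1 0 = - A 1 0 ∧ A⁻¹ 1 1 = A 0 0 := by
  rw [Matrix.SpecialLinearGroup.SL2_inv_expl]
  simp

theorem eq_up2 {A : SL(2, F)} (h1 : A 1 0 = 0) (h2 : A 0 0 = 1) : A = up2 (A 0 1) := by
  have := det2 A
  rw [h1, h2] at this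
  ext i j
  fin_cases i <;> fin_cases j <;> simp [up2, h1, h2]
  simpa using this

theorem sl2_count [Finite F] (G : Subgroup SL(2, F)) (hB : ∀ A ∈ G, A 1 0 = 0 → A 0 0 = 1)
    (hx : ∃ A ∈ G, A 1 0 ≠ 0) {b₁ b₂ : F} (h1 : b₁ ≠ 0) (h2 : b₂ ≠ 0) (h12 : b₁ ≠ b₂)
    (m1 : up2 b₁ ∈ G) (m2 : up2 b₂ ∈ G) : False := by
  classical
  haveI := Fintype.ofFinite F
  haveI : Fintype SL(2, F) := Fintype.ofFinite _
  set U : Finset F := Finset.univ.filter fun b => up2 b ∈ G with hU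
  set C : Finset SL(2, F) := Finset.univ.filter fun A => A ∈ G ∧ A 1 0 ≠ 0 with hC
  set S : Finset SL(2, F) := C.filter fun A => A 0 0 + A 1 1 = 2 with hS
  have u00 : ∀ b : F, up2 b 0 0 = 1 := fun _ => rfl
  have u01 : ∀ b : F, up2 b 0 1 = b := fun _ => rfl
  have u10 : ∀ b : F, up2 b 1 0 = 0 := fun _ => rfl
  have u11 : ∀ b : F, up2 b 1 1 = 1 := fun _ => rfl
  have k1 : (S ×ˢ U).card ≤ C.card := by
    refine Finset.card_le_card_of_injOn (fun p => p.1 * up2 p.2) ?_ ?_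
    · rintro ⟨s, b⟩ h
      simp only [Finset.coe_product, Set.mem_prod, Finset.mem_coe, hS, hC, hU, Finset.mem_filter,
        Finset.mem_univ, true_and] at h ⊢
      exact ⟨G.mul_mem h.1.1.1 h.2, by rw [mul2, u00, u10]; simpa using h.1.1.2⟩
    · rintro ⟨s, b⟩ h ⟨s', b'⟩ h' e
      simp only [Finset.coe_product, Set.mem_prod, Finset.mem_coe, hS, hC, hU, Finset.mem_filter,
        Finset.mem_univ, true_and] at h h' e
      have e00 := congrArg (fun A : SL(2, F) => A 0 0) e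
      have e10 := congrArg (fun A : SL(2, F) => A 1 0) e
      have e11 := congrArg (fun A : SL(2, F) => A 1 1) e
      simp only [mul2, u00, u01, u10, u11, mul_one, mul_zero, add_zero] at e00 e10 e11
      have : b = b' := mul_left_cancel₀ h.1.1.2 (by
        linear_combination e11 + e00 - h.1.2 + h'.1.2 - b' * e10)
      subst this
      rw [mul_right_cancel e]
  have k2 : (C ×ˢ ({b₁, b₂} : Finset F)).card ≤ U.card * S.card := by
    refine Finset.card_le_mul_card_image_of_maps_to (f := fun p => p.1 * up2 p.2 * p.1⁻¹) ?_ _ ?_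
    · rintro ⟨g, b⟩ h
      simp only [Finset.mem_product, hS, hC, Finset.mem_filter, Finset.mem_univ, true_and,
        Finset.mem_insert, Finset.mem_singleton] at h ⊢
      have hb : b ≠ 0 ∧ up2 b ∈ G := by rcases h.2 with rfl | rfl <;> exact ⟨‹_›, ‹_›⟩
      obtain ⟨⟨i1, i2⟩, i3, i4⟩ := inv2 g
      have d := det2 g
      refine ⟨⟨G.mul_mem (G.mul_mem h.1.1 hb.2) (G.inv_mem h.1.1), ?_⟩, ?_⟩
      · simp only [mul2, u00, u01, u10, u11, i1, i3]
        intro e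
        exact mul_ne_zero hb.1 (pow_ne_zero 2 h.1.2) (by linear_combination -e)
      · simp only [mul2, u00, u01, u10, u11, i1, i2, i3, i4]
        linear_combination 2 * d
    · intro s _
      by_cases hne : ((C ×ˢ ({b₁, b₂} : Finset F)).filter fun p => p.1 * up2 p.2 * p.1⁻¹ = s).Nonempty
      swap
      · rw [Finset.not_nonempty_iff_eq_empty.1 hne]; simp
      obtain ⟨⟨g₀, c₀⟩, h0⟩ := hne
      simp only [Finset.mem_filter, Finset.mem_product, hC, Finset.mem_univ, true_and,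
        Finset.mem_insert, Finset.mem_singleton] at h0
      have key : ∀ g c, (g ∈ G ∧ g 1 0 ≠ 0) ∧ (c = b₁ ∨ c = b₂) → g * up2 c * g⁻¹ = s →
          g₀⁻¹ * g = up2 ((g₀⁻¹ * g) 0 1) ∧ c = c₀ := by
        intro g c h e
        have hc : c₀ ≠ 0 := by rcases h0.1.2 with rfl | rfl <;> assumption
        have e1 : (g₀⁻¹ * g) * up2 c = up2 c₀ * (g₀⁻¹ * g) := by
          have : g * up2 c * g⁻¹ = g₀ * up2 c₀ * g₀⁻¹ := e.trans h0.2.symm
          calc (g₀⁻¹ * g) * up2 c = g₀⁻¹ * (g * up2 c * g⁻¹) * g := by group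
            _ = _ := by rw [this]; group
        set h' := g₀⁻¹ * g
        have e00 := congrArg (fun A : SL(2, F) => A 0 0) e1
        have e01 := congrArg (fun A : SL(2, F) => A 0 1) e1
        simp only [mul2 h', mul2 (up2 c₀), u00, u01, u10, u11] at e00 e01
        have z : h' 1 0 = 0 := by
          have : c₀ * h' 1 0 = 0 := by linear_combination -e00
          exact (mul_eq_zero.1 this).resolve_left hc
        have o := hB h' (G.mul_mem (G.inv_mem h0.1.1.1) h.1.1) z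
        have d := det2 h'
        rw [z, o] at d
        refine ⟨eq_up2 z o, ?_⟩
        rw [o] at e01
        linear_combination e01 + c₀ * d
      refine Finset.card_le_card_of_injOn (fun p => (g₀⁻¹ * p.1) 0 1) ?_ ?_
      · rintro ⟨g, c⟩ h
        simp only [Finset.coe_filter, Finset.mem_product, hC, Finset.mem_filter, Finset.mem_univ,
          true_and, Finset.mem_insert, Finset.mem_singleton, Set.mem_setOf_eq, hU] at h ⊢
        rw [← (key g c h.1 h.2).1]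
        exact G.mul_mem (G.inv_mem h0.1.1.1) h.1.1.1
      · rintro ⟨g, c⟩ h ⟨g', c'⟩ h' e
        simp only [Finset.coe_filter, Finset.mem_product, hC, Finset.mem_filter, Finset.mem_univ,
          true_and, Finset.mem_insert, Finset.mem_singleton, Set.mem_setOf_eq] at h h' e
        obtain ⟨a1, a2⟩ := key g c h.1 h.2
        obtain ⟨a3, a4⟩ := key g' c' h'.1 h'.2
        rw [e, ← a3] at a1
        rw [mul_left_cancel a1, a2, a4]
  rw [Finset.card_product] at k1 k2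
  rw [Finset.card_pair h12] at k2
  obtain ⟨A, hA⟩ := hx
  have : 0 < C.card := Finset.card_pos.2 ⟨A, by simp [hC, hA.1, hA.2]⟩
  rw [mul_comm] at k1
  omega

/-- `g` acts on the pair `p, q` modulo `R` by the matrix `!![a, b; c, d]`. -/
def Act (R : Submodule F V) (g : V ≃ₗ[F] V) (p q : V) (a b c d : F) : Prop :=
  g p - a • p - c • q ∈ R ∧ g q - b • p - d • q ∈ R

theorem Act.mul {R : Submodule F V} {g g' : V ≃ₗ[F] V} (hg : ∀ r ∈ R, g r ∈ R) {p q : V}
    {a b c d a' b' c' d' : F} (h : Act R g p q a b c d) (h' : Act R g' p q a' b' c' d') :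
    Act R (g * g') p q (a * a' + b * c') (a * b' + b * d') (c * a' + d * c') (c * b' + d * d') := by
  constructor
  · have := add_mem (add_mem (hg _ h'.1) (smul_mem _ a' h.1)) (smul_mem _ c' h.2)
    convert this using 1
    simp only [LinearEquiv.mul_apply, map_sub, map_smul]
    module
  · have := add_mem (add_mem (hg _ h'.2) (smul_mem _ b' h.1)) (smul_mem _ d' h.2)
    convert this using 1
    simp only [LinearEquiv.mul_apply, map_sub, map_smul]
    module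

theorem noGen [Finite F] (M : Subgroup (V ≃ₗ[F] V)) {R : Submodule F V}
    (hR : ∀ g ∈ M, ∀ r ∈ R, g r ∈ R) (p q p' q' : V)
    (hB : ∀ g ∈ M, ∀ a b d : F, a * d = 1 → Act R g p q a b 0 d → Act R g p' q' a b 0 d → a = 1)
    {x : V ≃ₗ[F] V} (hx : x ∈ M) {c : F} (hc : c ≠ 0) (hx1 : Act R x p q 1 0 c 1)
    (hx2 : Act R x p' q' 1 0 c 1) {b₁ b₂ : F} (h1 : b₁ ≠ 0) (h2 : b₂ ≠ 0) (h12 : b₁ ≠ b₂)
    (m1 : ∃ g ∈ M, Act R g p q 1 b₁ 0 1 ∧ Act R g p' q' 1 b₁ 0 1)
    (m2 : ∃ g ∈ M, Act R g p q 1 b₂ 0 1 ∧ Act R g p' q' 1 b₂ 0 1) : False := by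
  let S : Submonoid SL(2, F) :=
    { carrier := {A | ∃ g ∈ M, Act R g p q (A 0 0) (A 0 1) (A 1 0) (A 1 1) ∧
        Act R g p' q' (A 0 0) (A 0 1) (A 1 0) (A 1 1)}
      one_mem' := ⟨1, M.one_mem, by simp [Act], by simp [Act]⟩
      mul_mem' := by
        rintro A B ⟨g, hg, a1, a2⟩ ⟨g', hg', a3, a4⟩
        refine ⟨g * g', M.mul_mem hg hg', ?_, ?_⟩ <;> simp only [mul2]
        exacts [a1.mul (hR g hg) a3, a2.mul (hR g hg) a4] }
  let G : Subgroup SL(2, F) :=
    { S with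
      inv_mem' := fun {A} hA => by
        have h0 : 0 < orderOf A := orderOf_pos A
        have : A⁻¹ = A ^ (orderOf A - 1) := by
          rw [eq_comm, ← mul_eq_one_iff_eq_inv, ← pow_succ, Nat.sub_add_cancel h0, pow_orderOf_eq_one]
        rw [this]
        exact S.pow_mem hA _ }
  refine sl2_count G ?_ ⟨⟨!![1, 0; c, 1], by simp [Matrix.det_fin_two]⟩, ⟨x, hx, hx1, hx2⟩, hc⟩
    h1 h2 h12 m1 m2
  rintro A ⟨g, hg, a1, a2⟩ h0
  have d := det2 A
  rw [h0] at a1 a2 d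
  exact hB g hg _ _ _ (by simpa using d) a1 a2

/-- no proper intermediate ring -/
def PD {F₀ : Type*} [Field F₀] (φ : F₀ →+* F) : Prop :=
  ∀ L : Subring F, (∀ a, φ a ∈ L) → (∀ x ∈ L, ∃ a, φ a = x) ∨ ∀ x, x ∈ L

theorem pd_of_prime [Fintype F] (F₀ : Subfield F) {r : ℕ} (hr : r.Prime)
    (h : Fintype.card F = Nat.card F₀ ^ r) : PD F₀.subtype := by
  intro L hL
  let A : Subalgebra F₀ F :=
    { L.toSubsemiring with algebraMap_mem' := hL }
  have hd : finrank F₀ F = r := by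
    haveI := Fintype.ofFinite F₀
    have := Module.card_eq_pow_finrank (K := F₀) (V := F)
    rw [h, Nat.card_eq_fintype_card] at this
    exact (Nat.pow_right_injective Fintype.one_lt_card this).symm
  haveI := Subalgebra.isSimpleOrder_of_finrank_prime F₀ F (hd ▸ hr)
  rcases eq_bot_or_eq_top A with e | e
  · left
    intro x hx
    have : x ∈ A := hx
    rw [e, Algebra.mem_bot] at this
    exact this
  · right
    intro x
    have : x ∈ A := e ▸ Algebra.mem_top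
    exact this

theorem not_surj_of_prime [Fintype F] (F₀ : Subfield F) {r : ℕ} (hr : r.Prime)
    (h : Fintype.card F = Nat.card F₀ ^ r) : ∃ x, ∀ a, F₀.subtype a ≠ x := by
  by_contra hn
  push Not at hn
  have e : Nat.card F₀ = Nat.card F :=
    Nat.card_congr (Equiv.ofBijective F₀.subtype ⟨F₀.subtype.injective, hn⟩)
  rw [e, Nat.card_eq_fintype_card] at h
  have := Nat.pow_right_injective (Fintype.one_lt_card (α := F)) ((pow_one _).trans h)
  exact hr.one_lt.ne this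

variable {ι : Type} [Fintype ι] [DecidableEq ι] {F₀ : Type*} [Field F₀] (φ : F₀ →+* F)
  (k : (ι → F) ≃ₗ[F] V)

/-- rational points -/
def Pt (v : V) : Prop := ∃ (μ : F) (y : ι → F₀), v = μ • jv φ k y

omit [Fintype ι] [DecidableEq ι] in
@[simp] theorem jv_neg (x : ι → F₀) : jv φ k (-x) = -jv φ k x := by
  rw [← zero_sub, jv_sub, jv_zero, zero_sub]

omit [Fintype ι] [DecidableEq ι] in
theorem jv_ne {x : ι → F₀} (h : x ≠ 0) : jv φ k x ≠ 0 := fun e =>
  h (jv_injective φ k (e.trans (jv_zero φ k).symm))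

theorem exists_bk_of {g : V ≃ₗ[F] V} (h : ∀ x, ∃ y, g (jv φ k x) = jv φ k y) :
    g ∈ (bk φ k).range := by
  choose y hy using h
  let L : (ι → F₀) →ₗ[F₀] (ι → F₀) :=
    { toFun := y
      map_add' := fun a b => jv_injective φ k (by rw [← hy, jv_add, jv_add, map_add, hy, hy])
      map_smul' := fun a b => jv_injective φ k (by
        rw [← hy, jv_smul, map_smul, hy, RingHom.id_apply, jv_smul]) }
  have hL : Function.Injective L := fun a b e => jv_injective φ k (g.injective (by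
    rw [hy, hy]; exact congrArg _ e))
  exact ⟨LinearEquiv.ofInjectiveEndo L hL, bk_eq φ k fun x => hy x⟩

theorem exists_bk_of' {g : V ≃ₗ[F] V} {μ : F} (h0 : μ ≠ 0)
    (h : ∀ x, ∃ y, g (jv φ k x) = μ • jv φ k y) :
    ∃ a, g = CForm.scal V (Units.mk0 μ h0) * bk φ k a := by
  obtain ⟨a, ha⟩ : CForm.scal V (Units.mk0 μ h0)⁻¹ * g ∈ (bk φ k).range := exists_bk_of φ k fun x => by
    obtain ⟨y, hy⟩ := h x
    refine ⟨y, ?_⟩
    rw [LinearEquiv.mul_apply, hy, CForm.scal_apply, smul_smul]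
    simp [h0]
  refine ⟨a, LinearEquiv.ext fun x => ?_⟩
  rw [ha]
  simp [smul_smul, h0]

/-- normaliser of the rational structure -/
def RN : Subgroup (V ≃ₗ[F] V) where
  carrier := {g | ∃ μ : F, μ ≠ 0 ∧ ∀ x, ∃ y, g (jv φ k x) = μ • jv φ k y}
  one_mem' := ⟨1, one_ne_zero, fun x => ⟨x, by simp⟩⟩
  mul_mem' := by
    rintro a b ⟨μ, h1, h2⟩ ⟨ν, h3, h4⟩
    refine ⟨ν * μ, mul_ne_zero h3 h1, fun x => ?_⟩
    obtain ⟨y, hy⟩ := h4 x
    obtain ⟨z, hz⟩ := h2 y
    exact ⟨z, by rw [LinearEquiv.mul_apply, hy, map_smul, hz, mul_smul]⟩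
  inv_mem' := by
    rintro g ⟨μ, h0, h⟩
    obtain ⟨a, ha⟩ := exists_bk_of' φ k h0 h
    refine ⟨μ⁻¹, inv_ne_zero h0, fun x => ⟨a⁻¹ x, g.injective ?_⟩⟩
    rw [show g (g⁻¹ (jv φ k x)) = jv φ k x by simp, map_smul, ha]
    simp [smul_smul, h0]

theorem mem_RN {g : V ≃ₗ[F] V} :
    g ∈ RN φ k ↔ ∃ μ : F, μ ≠ 0 ∧ ∀ x, ∃ y, g (jv φ k x) = μ • jv φ k y := Iff.rfl

theorem bk_mem_RN (g) : bk φ k g ∈ RN φ k := ⟨1, one_ne_zero, fun x => ⟨g x, by simp⟩⟩

theorem mem_subfieldSubgroup (F₀ : Subfield F) (P g : GL ι F) :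
    g ∈ Geo.subfieldSubgroup F₀ P ↔ glE g ∈ RN F₀.subtype (glE P) := by
  have e1 : ∀ a : GL ι F₀, glE (P * Matrix.GeneralLinearGroup.map F₀.subtype a * P⁻¹) =
      bk F₀.subtype (glE P) (glE a) := fun a => LinearEquiv.ext fun x => by
    rw [bk_apply, bc_glE, map_mul, map_mul, map_inv]; rfl
  have e2 : ∀ c : Fˣ, glE (Units.map (Matrix.scalar ι : F →+* Matrix ι ι F).toMonoidHom c) =
      CForm.scal (ι → F) c := fun c => LinearEquiv.ext fun x => by
    rw [glE_apply, CForm.scal_apply]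
    ext i
    simp [Matrix.mulVec_diagonal]
  constructor
  · intro h
    have : Geo.subfieldSubgroup F₀ P ≤ (RN F₀.subtype (glE P)).comap glE.toMonoidHom := by
      rw [Geo.subfieldSubgroup, Subgroup.map_le_iff_le_comap, sup_le_iff]
      constructor
      · rintro _ ⟨a, rfl⟩
        change glE (P * Matrix.GeneralLinearGroup.map F₀.subtype a * P⁻¹) ∈ RN F₀.subtype (glE P)
        rw [e1]; exact bk_mem_RN _ _ _
      · rintro _ ⟨c, rfl⟩
        change glE (P * Units.map (Matrix.scalar ι : F →+* Matrix ι ι F).toMonoidHom c * P⁻¹) ∈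
          RN F₀.subtype (glE P)
        rw [map_mul, map_mul, e2]
        refine ⟨c, c.ne_zero, fun x => ⟨x, ?_⟩⟩
        simp
    exact this h
  · rintro ⟨μ, h0, h⟩
    obtain ⟨a, ha⟩ := exists_bk_of' _ _ h0 h
    obtain ⟨a, rfl⟩ := glE.surjective a
    rw [← e1, ← e2, ← map_mul] at ha
    refine ⟨Matrix.GeneralLinearGroup.map F₀.subtype a *
      Units.map (Matrix.scalar ι : F →+* Matrix ι ι F).toMonoidHom (Units.mk0 μ h0),
      Subgroup.mul_mem _ (Subgroup.mem_sup_left ⟨a, rfl⟩) (Subgroup.mem_sup_right ⟨_, rfl⟩), ?_⟩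
    rw [glE.injective ha]
    apply glE.injective
    change glE (P * _ * P⁻¹) = _
    simp only [map_mul, e2]
    ext x
    simp

/-- extension of a rational functional -/
noncomputable def lf (ψ : (ι → F₀) →ₗ[F₀] F₀) : V →ₗ[F] F :=
  (jb k).constr F fun i => φ (ψ (Pi.basisFun F₀ ι i))

@[simp] theorem lf_jv (ψ : (ι → F₀) →ₗ[F₀] F₀) (x : ι → F₀) : lf φ k ψ (jv φ k x) = φ (ψ x) := by
  have e : x = ∑ i, x i • Pi.basisFun F₀ ι i := by
    conv_lhs => rw [← (Pi.basisFun F₀ ι).sum_repr x]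
    simp
  have e2 : jv φ k x = ∑ i, φ (x i) • jb k i := by
    conv_lhs => rw [e]
    induction (Finset.univ : Finset ι) using Finset.induction_on with
    | empty => simp
    | insert a s ha ih => rw [Finset.sum_insert ha, Finset.sum_insert ha, jv_add, ih, jv_smul, jb_apply φ]
  rw [e2]
  conv_rhs => rw [e]
  simp [lf, map_sum]

theorem lf_smul (t : F₀) (ψ : (ι → F₀) →ₗ[F₀] F₀) : lf φ k (t • ψ) = φ t • lf φ k ψ :=
  ext_jv φ k fun x => by simp

theorem lf_sub (ψ ρ : (ι → F₀) →ₗ[F₀] F₀) : lf φ k (ψ - ρ) = lf φ k ψ - lf φ k ρ :=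
  ext_jv φ k fun x => by simp

theorem lf_add (ψ ρ : (ι → F₀) →ₗ[F₀] F₀) : lf φ k (ψ + ρ) = lf φ k ψ + lf φ k ρ :=
  ext_jv φ k fun x => by simp

theorem exists_jv_of_lf {v : V} (h : ∀ ψ, ∃ a, φ a = lf φ k ψ v) : ∃ y, v = jv φ k y := by
  choose a ha using h
  refine ⟨fun i => a (LinearMap.proj i), (jb k).ext_elem fun i => ?_⟩
  have : ∀ w, (jb k).repr w i = lf φ k (LinearMap.proj i) w := fun w => by
    have : (jb k).coord i = lf φ k (LinearMap.proj i) := (jb k).ext fun j => by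
      rw [jb_apply φ k j, lf_jv, ← jb_apply φ k j]
      simp [Finsupp.single_apply, Pi.single_apply, eq_comm, apply_ite φ]
    exact LinearMap.congr_fun this w
  rw [this, this, lf_jv, ← ha]
  rfl

theorem exists_lf {χ : V →ₗ[F] F} (h : ∀ x, ∃ a, φ a = χ (jv φ k x)) : ∃ ψ, χ = lf φ k ψ := by
  choose a ha using h
  exact ⟨{ toFun := a
           map_add' := fun x y => φ.injective (by rw [ha, jv_add, map_add, map_add, ha, ha])
           map_smul' := fun c x => φ.injective (by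
             rw [ha, jv_smul, map_smul, RingHom.id_apply, smul_eq_mul, smul_eq_mul, map_mul, ha]) },
    ext_jv φ k fun x => by rw [lf_jv]; exact (ha x).symm⟩

theorem exists_jv_ne {χ : V →ₗ[F] F} (h : χ ≠ 0) : ∃ x, χ (jv φ k x) ≠ 0 := by
  by_contra hn
  push Not at hn
  exact h (ext_jv φ k hn)

theorem smul_eq_of_ker {χ : V →ₗ[F] F} {ψ : (ι → F₀) →ₗ[F₀] F₀} (h0 : ψ ≠ 0)
    (h : ∀ x, ψ x = 0 → χ (jv φ k x) = 0) : ∃ s : F, χ = s • lf φ k ψ := by
  obtain ⟨y, hy⟩ : ∃ y, ψ y = 1 := by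
    obtain ⟨y, hy⟩ := DFunLike.ne_iff.1 h0
    exact ⟨(ψ y)⁻¹ • y, by simpa using inv_mul_cancel₀ (by simpa using hy)⟩
  refine ⟨χ (jv φ k y), ext_jv φ k fun x => ?_⟩
  have := h (x - ψ x • y) (by simp [hy])
  simp only [jv_sub, jv_smul, map_sub, map_smul, smul_eq_mul] at this
  simp only [LinearMap.smul_apply, lf_jv, smul_eq_mul]
  linear_combination this

variable {φ k}

/-- a dependence between rational vectors has rational ratio -/
theorem ratio {y y' z : ι → F₀} (h : y' ∉ span F₀ {y}) {μ μ' ν : F}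
    (e : μ • jv φ k y + μ' • jv φ k y' = ν • jv φ k z) : ∃ t, μ' = ν * φ t := by
  obtain ⟨ψ, h1, h2⟩ := exists_dual_pair h 1
  have := congrArg (lf φ k ψ) e
  simp only [map_add, map_smul, lf_jv, h1, h2, map_zero, map_one, smul_eq_mul] at this
  exact ⟨ψ z, by linear_combination this⟩

theorem frame_two {g : V ≃ₗ[F] V} {u u' y y' : ι → F₀} (h0 : u ≠ 0) (h : u' ∉ span F₀ {u}) {μ μ' : F}
    (e : g (jv φ k u) = μ • jv φ k y) (e' : g (jv φ k u') = μ' • jv φ k y')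
    (hp : Pt φ k (g (jv φ k (u + u')))) : ∃ z, g (jv φ k u') = μ • jv φ k z := by
  obtain ⟨ν, z, hz⟩ := hp
  rw [jv_add, map_add, e, e'] at hz
  have li : ∀ s t : F, s • jv φ k u + t • jv φ k u' = 0 → s = 0 ∧ t = 0 := by
    intro s t hst
    obtain ⟨a, ha⟩ := ratio (φ := φ) (k := k) (ν := 0) (z := 0) h (hst.trans (by simp))
    rw [zero_mul] at ha
    rw [ha, zero_smul, add_zero] at hst
    exact ⟨(smul_eq_zero.1 hst).resolve_right (jv_ne φ k h0), ha⟩
  have li' : ∀ s t : F, (s * μ) • jv φ k y + (t * μ') • jv φ k y' = 0 → s = 0 ∧ t = 0 := by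
    intro s t hst
    apply li
    apply g.injective
    rw [map_add, map_smul, map_smul, e, e', smul_smul, smul_smul, hst, map_zero]
  have hμ : μ ≠ 0 := fun h0 => one_ne_zero (li' 1 0 (by simp [h0])).1
  have hμ' : μ' ≠ 0 := fun h0 => one_ne_zero (li' 0 1 (by simp [h0])).2
  have n1 : y ∉ span F₀ {y'} := fun hm => by
    obtain ⟨a, rfl⟩ := mem_span_singleton.1 hm
    refine hμ' (li' μ' (-(μ * φ a)) ?_).1
    rw [jv_smul]
    module
  have n2 : y' ∉ span F₀ {y} := fun hm => by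
    obtain ⟨a, rfl⟩ := mem_span_singleton.1 hm
    refine hμ (li' (-(μ' * φ a)) μ ?_).2
    rw [jv_smul]
    module
  obtain ⟨t, ht⟩ := ratio n1 ((add_comm _ _).trans hz)
  obtain ⟨t', ht'⟩ := ratio n2 hz
  have t0 : t ≠ 0 := fun h0 => hμ (by rw [ht, h0]; simp)
  refine ⟨(t' / t) • y', ?_⟩
  rw [e', jv_smul, smul_smul, ht, ht', map_div₀]
  have : φ t ≠ 0 := (map_ne_zero φ).2 t0
  congr 1
  field_simp

theorem frame_sub {g : V ≃ₗ[F] V} {W : Submodule F₀ (ι → F₀)}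
    (h : ∀ u ∈ W, Pt φ k (g (jv φ k u))) :
    ∃ μ : F, μ ≠ 0 ∧ ∀ u ∈ W, ∃ y, g (jv φ k u) = μ • jv φ k y := by
  by_cases h0 : W = ⊥
  · refine ⟨1, one_ne_zero, fun u hu => ⟨0, ?_⟩⟩
    rw [h0, mem_bot] at hu
    simp [hu]
  obtain ⟨u₀, hu₀, hne⟩ := exists_mem_ne_zero_of_ne_bot h0
  obtain ⟨μ, y, e⟩ := h u₀ hu₀
  refine ⟨μ, fun hμ => jv_ne φ k hne (g.injective (by rw [e, hμ]; simp)), fun u hu => ?_⟩
  by_cases hm : u ∈ span F₀ {u₀}
  · obtain ⟨a, rfl⟩ := mem_span_singleton.1 hm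
    exact ⟨a • y, by rw [jv_smul, map_smul, e, jv_smul, smul_comm]⟩
  · obtain ⟨μ', y', e'⟩ := h u hu
    exact frame_two hne hm e e' (h _ (add_mem hu₀ hu))

/-- two functionals rational up to a factor have a common rational zero -/
theorem exists_ker_two {K : Submodule F₀ (ι → F₀)} (hK : 3 ≤ finrank F₀ K) {γ₁ γ₂ : V →ₗ[F] F}
    {ρ₁ ρ₂ : F} (h1 : ∀ u ∈ K, ∃ t, γ₁ (jv φ k u) = ρ₁ * φ t)
    (h2 : ∀ u ∈ K, ∃ t, γ₂ (jv φ k u) = ρ₂ * φ t) :
    ∃ u ∈ K, u ≠ 0 ∧ γ₁ (jv φ k u) = 0 ∧ γ₂ (jv φ k u) = 0 := by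
  have aux : ∀ {γ : V →ₗ[F] F} {ρ : F}, (∀ u ∈ K, ∃ t, γ (jv φ k u) = ρ * φ t) →
      ∃ ψ : K →ₗ[F₀] F₀, ∀ u : K, γ (jv φ k u) = ρ * φ (ψ u) := by
    intro γ ρ h
    by_cases h0 : ρ = 0
    · refine ⟨0, fun u => ?_⟩
      obtain ⟨t, ht⟩ := h u u.2
      rw [ht, h0, zero_mul, zero_mul]
    choose t ht using h
    refine ⟨⟨⟨fun u => t u u.2, fun a b => φ.injective (mul_left_cancel₀ h0 ?_)⟩,
      fun c a => φ.injective (mul_left_cancel₀ h0 ?_)⟩, fun u => ht u u.2⟩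
    · rw [← ht, map_add, mul_add, ← ht, ← ht, coe_add, jv_add, map_add]
    · rw [← ht, RingHom.id_apply, smul_eq_mul, map_mul, mul_left_comm, ← ht, coe_smul, jv_smul,
        map_smul, smul_eq_mul]
  obtain ⟨ψ₁, e1⟩ := aux h1
  obtain ⟨ψ₂, e2⟩ := aux h2
  obtain ⟨x, -, h0, hx⟩ := exists_mem_ker_of_lt (W := ⊤) ![ψ₁, ψ₂] (by rw [finrank_top]; omega)
  refine ⟨x, x.2, fun e => h0 (Subtype.ext e), ?_, ?_⟩
  · rw [e1, show ψ₁ x = 0 from hx 0]; simp
  · rw [e2, show ψ₂ x = 0 from hx 1]; simp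

end Cfsg.Agent.H4.Sf
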