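import Cfsg.Agent.H4.Sf2

/-! Overgroups of subfield subgroups in groups preserving a form: the ring of parameters. -/

set_option autoImplicit false

namespace Cfsg.Agent.H4.Sf

open Module Submodule CForm

variable {F : Type*} [Field F] {V : Type*} [AddCommGroup V] [Module F V]
  {ι : Type} [Fintype ι] [DecidableEq ι] {F₀ : Type*} [Field F₀] {φ : F₀ →+* F}
  {k : (ι → F) ≃ₗ[F] V} {M : Subgroup (V ≃ₗ[F] V)} {T : FType F} {T₀ : FType F₀}
  {f₀ : CForm T₀ (ι → F₀)} {f : CForm T V} {l : F}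

omit [Fintype ι] [DecidableEq ι] in
theorem up_mem {K : Submodule F₀ (ι → F₀)} {x : ι → F₀} (h : x ∈ K) : jv φ k x ∈ up φ k K :=
  subset_span ⟨x, h, rfl⟩

variable (φ k f₀ f l) in
structure RS : Prop where
  ne : l ≠ 0
  σ : ∀ a, T.σ (φ a) = φ (T₀.σ a)
  ε : l * φ T₀.ε = T.ε * T.σ l
  B : ∀ x y, f.B (jv φ k x) (jv φ k y) = l * φ (f₀.B x y)
  τ : ∀ v c, T₀.τ c = f₀.Q v → T.τ (φ c / l) = f.Q ((T.σ l)⁻¹ • jv φ k v)
  nd : f.Nondeg
  loc : f₀.Loc 3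
  dim : 13 ≤ finrank F₀ (ι → F₀)

namespace RS
variable (h : RS φ k f₀ f l)
include h

theorem σl : T.σ l ≠ 0 := T.σ_ne_zero h.ne

theorem κ0 : (T.σ l)⁻¹ ≠ 0 := inv_ne_zero h.σl

theorem σκ : T.σ (T.σ l)⁻¹ = l⁻¹ := by rw [map_inv₀, T.σσ]

theorem Q {x : ι → F₀} (hx : f₀.Q x = 0) : f.Q (jv φ k x) = 0 := by
  have := h.τ x 0 (by rw [hx, map_zero])
  rw [map_zero, zero_div, map_zero, f.Q_smul] at this
  exact (mul_eq_zero.1 this.symm).resolve_left (mul_ne_zero h.κ0 (T.σ_ne_zero h.κ0))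

theorem eq_zero {a : V} (ha : ∀ x, f.B (jv φ k x) a = 0) : a = 0 :=
  h.nd.eq_of_B' fun z => by
    rw [map_zero]
    exact LinearMap.congr_fun (ext_jv φ k (g := f.fn a) (g' := 0) ha) z

theorem nd₀ : f₀.Nondeg := fun x hx => jv_injective φ k (by
  rw [jv_zero]
  exact h.eq_zero fun y => by rw [h.B, f₀.B_zero_symm (hx y)]; simp)

theorem B0 {x y : ι → F₀} (hxy : f₀.B x y = 0) : f.B (jv φ k x) (jv φ k y) = 0 := by
  rw [h.B, hxy]; simp

theorem ok {u v : ι → F₀} {c : F₀} (ho : f₀.EichOk u v c) :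
    f.EichOk (jv φ k u) ((T.σ l)⁻¹ • jv φ k v) (φ c / l) :=
  ⟨h.Q ho.hu, by rw [B_smul_left, h.B0 ho.hv, mul_zero], h.τ v c ho.hc⟩

theorem bk_eich {u v : ι → F₀} {c : F₀} (ho : f₀.EichOk u v c) :
    bk φ k (f₀.eich u v c) = f.eich (jv φ k u) ((T.σ l)⁻¹ • jv φ k v) (φ c / l) :=
  bk_eq φ k fun x => by
    rw [(h.ok ho).apply, ho.apply, B_smul_right, h.σκ, h.B, h.B]
    simp only [jv_add, jv_sub, jv_smul]
    have h0 := h.ne
    have h1 := h.σl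
    have e1 : l⁻¹ * (l * φ (f₀.B x v)) = φ (f₀.B x v) := by field_simp
    have e2 : l * T.ε * (T.σ l)⁻¹ = φ T₀.ε := by
      have a := h.ε
      have b : φ T₀.ε * φ T₀.ε = 1 := by rw [← map_mul, T₀.εε, map_one]
      have c := T.εε
      field_simp
      linear_combination (-(T.ε * l)) * b + (φ T₀.ε * T.ε) * a + (φ T₀.ε * T.σ l) * c
    have e3 : l * (φ c / l) = φ c := by field_simp
    rw [e1, ← e2]
    generalize φ c / l = c' at e3
    rw [← e3]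
    module

theorem bk_mem_E {g} (hg : g ∈ f₀.E) : bk φ k g ∈ f.E :=
  (E_le_iff (M := f.E.comap (bk φ k))).2 (fun _ _ _ ho => by
    rw [Subgroup.mem_comap, h.bk_eich ho]; exact (h.ok ho).mem_E) hg

theorem B_up {K : Submodule F₀ (ι → F₀)} {z : ι → F₀} (hz : z ∈ f₀.perp K) {v : V}
    (hv : v ∈ up φ k K) : f.B v (jv φ k z) = 0 :=
  (span_le (p := LinearMap.ker (f.fn (jv φ k z)))).2 (by
    rintro _ ⟨x, hx, rfl⟩
    exact h.B0 (f₀.mem_perp'.1 hz x hx)) hv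

theorem exists_one {e : ι → F₀} (he : e ≠ 0) : ∃ y, f₀.B y e = 1 := by
  obtain ⟨y, hy⟩ := h.nd₀.exists_B_ne he
  have := f₀.B_ne_symm hy
  exact ⟨(f₀.B y e)⁻¹ • y, by rw [B_smul_left, inv_mul_cancel₀ this]⟩

theorem mem_span_of_perp {e : ι → F₀} {a : V} (ha : ∀ y, f₀.B y e = 0 → f.B (jv φ k y) a = 0) :
    a ∈ span F {jv φ k e} := by
  by_cases he : e = 0
  · rw [h.eq_zero fun y => ha y (by simp [he])]; exact zero_mem _
  obtain ⟨y, hy⟩ := h.exists_one he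
  refine mem_span_singleton.2 ⟨T.σ (f.B (jv φ k y) a / l), (sub_eq_zero.1 (h.eq_zero fun x => ?_))⟩
  have := ha (x - f₀.B x e • y) (by simp [hy])
  rw [jv_sub, jv_smul, B_sub_left, B_smul_left] at this
  rw [B_sub_right, B_smul_right, T.σσ, h.B]
  have h0 := h.ne
  field_simp
  linear_combination -this

theorem exists_det {e : ι → F₀} {a b : V}
    (hi : ∀ s t : F, s • a + t • b ∈ span F {jv φ k e} → s = 0 ∧ t = 0) :
    ∃ y₁ y₂, f₀.B y₁ e = 0 ∧ f₀.B y₂ e = 0 ∧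
      f.B (jv φ k y₁) a * f.B (jv φ k y₂) b - f.B (jv φ k y₁) b * f.B (jv φ k y₂) a ≠ 0 := by
  obtain ⟨y₁, h1, h2⟩ : ∃ y, f₀.B y e = 0 ∧ f.B (jv φ k y) a ≠ 0 := by
    by_contra hn
    push Not at hn
    exact one_ne_zero (hi 1 0 (by simpa using h.mem_span_of_perp hn)).1
  by_contra hn
  push Not at hn
  refine T.σ_ne_zero h2 (hi (-T.σ (f.B (jv φ k y₁) b)) _ (h.mem_span_of_perp fun y hy => ?_)).2
  rw [B_add_right, B_smul_right, B_smul_right, map_neg, T.σσ, T.σσ]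
  linear_combination hn y₁ y h1 hy

theorem rat_of_B {w : V} (hw : ∀ x, ∃ t, φ t = f.B w (jv φ k x)) :
    ∃ y, w = (T.σ l)⁻¹ • jv φ k y := by
  obtain ⟨ψ, hψ⟩ := exists_lf φ k (χ := f.fn w) fun x => by
    obtain ⟨t, ht⟩ := hw x
    rw [fn_apply, f.symm, ← ht, h.σ]
    rcases T.ε_eq with e | e
    exacts [⟨T₀.σ t, by simp [e]⟩, ⟨-T₀.σ t, by simp [e]⟩]
  obtain ⟨y, hy⟩ := h.nd₀.exists_rep ψ
  refine ⟨y, sub_eq_zero.1 (h.eq_zero fun x => ?_)⟩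
  have := LinearMap.congr_fun hψ (jv φ k x)
  rw [fn_apply, lf_jv, hy] at this
  rw [B_sub_right, B_smul_right, h.σκ, h.B, this, inv_mul_cancel_left₀ h.ne, sub_self]

theorem big_top : f₀.Big ⊤ := h.nd₀.big_top h.loc (by have := h.dim; omega) (by have := h.dim; omega)

theorem big {e e' : ι → F₀} (hQ : f₀.Q e = 0) (hQ' : f₀.Q e' = 0) (hB : f₀.B e e' = 1) :
    f₀.Big (f₀.perp (span F₀ {e, e'})) := by
  have := h.nd₀.finrank_perp (span F₀ {e, e'})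
  have := finrank_span_pair_le (F := F₀) e e'
  have := h.dim
  exact h.loc.big (h.nd₀.perp_inf_perp_perp (pair_nondeg hQ hQ' (by simp [hB]))) (by omega) (by omega)

theorem pair_perp (K : Submodule F₀ (ι → F₀)) (hK : finrank F₀ K ≤ 5) :
    ∃ p w, p ∈ f₀.perp K ∧ w ∈ f₀.perp K ∧ f₀.Q p = 0 ∧ f₀.B p w = 1 ∧ p ∉ K := by
  obtain ⟨p, -, w, -, h1, h2, h3, -, h4⟩ := h.loc.exists_pair_perp h.nd₀ h.nd₀.top_inf_perp K (by
    have := h.dim
    rw [finrank_top]; omega)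
  exact ⟨p, w, h1, h2, h3, h4, fun hp => by simp [f₀.mem_perp'.1 h2 p hp] at h4⟩

theorem exists_TS_ge {W : Submodule F₀ (ι → F₀)} (hW : f₀.TS W) :
    ∃ W', W ≤ W' ∧ f₀.TS W' ∧ 5 ≤ finrank F₀ W' := by
  have : ∀ d, d ≤ 5 → ∃ W', W ≤ W' ∧ f₀.TS W' ∧ d ≤ finrank F₀ W' := by
    intro d
    induction d with
    | zero => exact fun _ => ⟨W, le_rfl, hW, Nat.zero_le _⟩
    | succ d ih =>
      intro hd
      obtain ⟨W', h1, h2, h3⟩ := ih (by omega)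
      by_cases h4 : d + 1 ≤ finrank F₀ W'
      · exact ⟨W', h1, h2, h4⟩
      obtain ⟨p, w, a1, -, a2, -, a3⟩ := h.pair_perp W' (by omega)
      exact ⟨_, h1.trans le_sup_left, h2.sup_singleton a2 a1, by rw [finrank_sup_singleton a3]; omega⟩
  exact this 5 le_rfl

theorem exists_zz {U : Submodule F₀ (ι → F₀)} (hU : f₀.Big U) {a : ι → F₀} (ha : a ∈ U) (h0 : a ≠ 0)
    (hQ : f₀.Q a = 0) : ∃ z ∈ U, ∃ z' ∈ U, f₀.B z a = 0 ∧ f₀.B z' a = 0 ∧ f₀.B z z' = 1 := by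
  obtain ⟨w, hw, h1, h2⟩ := exists_partner_of_nondeg hU.nd ha h0 hQ
  obtain ⟨z, hz, z', hz', h3, h4, h5⟩ := hU.exists_perp_pair h.nd₀ ha hw hQ h1 (by simp [h2])
  exact ⟨z, hz, z', hz', (f₀.mem_perp_pair.1 h3).1, (f₀.mem_perp_pair.1 h4).1, h5⟩

theorem frame {g : V ≃ₗ[F] V} (hg : ∀ u, f₀.Q u = 0 → Pt φ k (g (jv φ k u))) : g ∈ RN φ k := by
  obtain ⟨u₀, -, h0, hQ⟩ := h.big_top.sing
  obtain ⟨μ, y, e⟩ := hg u₀ hQ
  refine ⟨μ, fun hμ => jv_ne φ k h0 (g.injective (by rw [e, hμ]; simp)), fun x => ?_⟩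
  let A : AddSubgroup (ι → F₀) :=
    { carrier := {x | ∃ y, g (jv φ k x) = μ • jv φ k y}
      zero_mem' := ⟨0, by simp⟩
      add_mem' := by
        rintro a b ⟨y, hy⟩ ⟨z, hz⟩
        exact ⟨y + z, by simp [hy, hz]⟩
      neg_mem' := by
        rintro a ⟨y, hy⟩
        exact ⟨-y, by simp [hy]⟩ }
  refine h.big_top.mem_of_sing (A := A) (fun u _ hu => ?_) mem_top
  rcases eq_or_ne u 0 with rfl | hu0
  · exact A.zero_mem
  obtain ⟨p, w, a1, -, a2, -, a3⟩ := h.pair_perp (span F₀ {u₀, u})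
    ((finrank_span_pair_le _ _).trans (by norm_num))
  rw [f₀.mem_perp_pair] at a1
  obtain ⟨μ₁, y₁, e₁⟩ := hg p a2
  obtain ⟨z, hz⟩ := frame_two h0 (fun hm => a3 (span_mono (by simp) hm)) e e₁
    (hg _ (by rw [f₀.Q_add_of_perp (f₀.B_zero_symm a1.1), hQ, a2, add_zero]))
  obtain ⟨μ₂, y₂, e₂⟩ := hg u hu
  have p0 : p ≠ 0 := fun e => a3 (e ▸ zero_mem _)
  refine frame_two p0 (fun hm => a3 ?_) hz e₂ (hg _ (by rw [f₀.Q_add_of_perp a1.2, hu, a2, add_zero]))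
  obtain ⟨s, rfl⟩ := mem_span_singleton.1 hm
  have : s ≠ 0 := fun e => hu0 (by simp [e])
  have m : s • p ∈ span F₀ {u₀, s • p} := subset_span (by simp)
  simpa [smul_smul, this] using smul_mem _ s⁻¹ m

theorem exists_ker_g {g : V ≃ₗ[F] V} {W : Submodule F₀ (ι → F₀)} (hW : 5 ≤ finrank F₀ W)
    (hg : ∀ u ∈ W, Pt φ k (g (jv φ k u))) (z z' : ι → F₀) : ∃ u ∈ W, u ≠ 0 ∧
      f.B (g (jv φ k u) - jv φ k u) (jv φ k z) = 0 ∧ f.B (g (jv φ k u) - jv φ k u) (jv φ k z') = 0 := by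
  obtain ⟨μ, -, hμ⟩ := frame_sub hg
  have d1 := h.nd₀.finrank_inf_perp_ge W (span F₀ {z, z'})
  have d2 := finrank_span_pair_le (F := F₀) z z'
  have aux : ∀ x, ∀ u ∈ W, f₀.B u x = 0 → ∃ t,
      (f.fn (jv φ k x) ∘ₗ ((g : V →ₗ[F] V) - LinearMap.id)) (jv φ k u) = (μ * l) * φ t := by
    intro x u hu hx
    obtain ⟨y, hy⟩ := hμ u hu
    refine ⟨f₀.B y x, ?_⟩
    simp only [LinearMap.comp_apply, LinearMap.sub_apply, LinearEquiv.coe_coe, LinearMap.id_apply,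
      fn_apply, hy, B_sub_left, B_smul_left, h.B, hx, map_zero]
    ring
  obtain ⟨u, hu, h0, h1, h2⟩ := exists_ker_two (K := W ⊓ f₀.perp (span F₀ {z, z'})) (by omega)
    (fun u hu => aux z u hu.1 (f₀.mem_perp_pair.1 hu.2).1)
    (fun u hu => aux z' u hu.1 (f₀.mem_perp_pair.1 hu.2).2)
  exact ⟨u, hu.1, h0, h1, h2⟩

end RS

variable (φ k f₀ f l M) in
structure FS : Prop extends RS φ k f₀ f l where
  le : ∀ g ∈ f₀.E, bk φ k g ∈ M
  iso : M ≤ f.iso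

variable (φ k f₀ f l M) in
def FΛ (c : F) : Prop :=
  ∀ p z, f₀.Q p = 0 → f₀.B z p = 0 → (c * (T.σ l)⁻¹) • jv φ k z ∈ f.Sg M (jv φ k p)

namespace FS
variable (h : FS φ k M f₀ f l)
include h

theorem eich_mem {u v : ι → F₀} {c : F₀} (ho : f₀.EichOk u v c) :
    f.eich (jv φ k u) ((T.σ l)⁻¹ • jv φ k v) (φ c / l) ∈ M := h.bk_eich ho ▸ h.le _ ho.mem_E

theorem mem_Sg {p z : ι → F₀} (hp : f₀.Q p = 0) (hz : f₀.B z p = 0) :
    (T.σ l)⁻¹ • jv φ k z ∈ f.Sg M (jv φ k p) := by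
  obtain ⟨c, hc⟩ := exists_eichOk hp hz
  exact (h.ok hc).mem_Sg (h.eich_mem hc)

theorem one {c : F} {p z : ι → F₀} (h0 : p ≠ 0) (hp : f₀.Q p = 0) (hz : f₀.B z p = 0)
    (hn : z ∉ span F₀ {p}) (hm : (c * (T.σ l)⁻¹) • jv φ k z ∈ f.Sg M (jv φ k p)) :
    FΛ φ k M f₀ f l c := by
  obtain ⟨p', hp', hB⟩ := h.nd₀.exists_pair h0 hp
  have hU := h.big hp hp' hB
  let A : AddSubgroup (ι → F₀) :=
    { carrier := {y | (c * (T.σ l)⁻¹) • jv φ k y ∈ f.Sg M (jv φ k p)}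
      zero_mem' := by simp
      add_mem' := fun {a b} ha hb => by simpa [smul_add] using add_mem ha hb
      neg_mem' := fun {a} ha => by simpa using (f.Sg M (jv φ k p)).neg_mem ha }
  have s1 : ∀ y, f₀.B y p = 0 → y ∈ A := by
    intro y hy
    have m1 := hU.irr h.nd₀ (A := A) (fun g hg x hx => by
      have m := h.le g (EU_le_E _ hg)
      have := map_mem_Sg_of_fix (h.iso m) m (p := jv φ k p) (by
        rw [bk_jv, EU_fix hg (f₀.le_perp_perp _ (subset_span (by simp)))]) hx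
      rwa [map_smul, bk_jv] at this) (v := z) hm (fun e => hn (by
        rw [h.nd₀.perp_perp] at e
        obtain ⟨s, t, rfl⟩ := mem_span_pair.1 e
        rw [B_add_left, B_smul_left, B_smul_left, f₀.B_self_of_Q hp, B_partner_symm hB] at hz
        have : t = 0 := by simpa [T₀.ε_ne] using hz
        exact mem_span_singleton.2 ⟨s, by simp [this]⟩)) (sub_mem_perp_pair hp hp' hB y)
    rw [hy, mul_zero, zero_smul, sub_zero] at m1
    have m2 : f₀.B y p' • p ∈ A := by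
      change _ • jv φ k _ ∈ f.Sg M (jv φ k p)
      rw [jv_smul, smul_smul]
      exact smul_self_mem_Sg _ _
    simpa using add_mem m1 m2
  intro q y hq hy
  rcases eq_or_ne q 0 with rfl | q0
  · rw [jv_zero]; exact mem_Sg_zero _
  obtain ⟨g, hg, a, a0, ha⟩ := h.nd₀.exists_E_map (h.nd₀.thick_top (by have := h.dim; omega)) h0 q0 hp hq
  have m := h.le g hg
  have m1 := map_mem_Sg (h.iso m) m (s1 (g⁻¹ ((T₀.σ a)⁻¹ • y)) (by
    rw [← iso_B_right (E_le_iso hg), ha, B_smul_left, B_smul_right, hy]; simp))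
  rw [map_smul, bk_jv, bk_jv, ha, jv_smul] at m1
  have m2 := smul_mem_Sg ((map_ne_zero φ).2 a0) m1
  rw [show g (g⁻¹ ((T₀.σ a)⁻¹ • y)) = (T₀.σ a)⁻¹ • y by simp, jv_smul, smul_comm, smul_smul (T.σ _),
    h.σ, ← map_mul, mul_inv_cancel₀ (T₀.σ_ne_zero a0), map_one, one_smul] at m2
  exact m2

theorem sub_mem_Sg {x : V ≃ₗ[F] V} (hx : x ∈ M) {p w : V} (hp : x p = p) (hw : w ∈ f.Sg M p) :
    x w - w ∈ f.Sg M p := sub_mem (map_mem_Sg_of_fix (h.iso hx) hx hp hw) hw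

theorem notMem_of {e e' a : ι → F₀} (hB : f₀.B e e' = 1) (ha : f₀.B a e' = 0) (h0 : a ≠ 0) :
    a ∉ span F₀ {e} := fun hm => by
  obtain ⟨s, rfl⟩ := mem_span_singleton.1 hm
  rw [B_smul_left, hB, mul_one] at ha
  exact h0 (by simp [ha])

theorem of_Sg {e e' : ι → F₀} (hQ : f₀.Q e = 0) (hQ' : f₀.Q e' = 0) (hB : f₀.B e e' = 1) {w : V}
    (hw : w ∈ f.Sg M (jv φ k e)) {a : ι → F₀} (ha : a ∈ f₀.perp (span F₀ {e, e'})) (h0 : a ≠ 0)
    (hQa : f₀.Q a = 0) : FΛ φ k M f₀ f l (-T.ε * f.B w (jv φ k a)) := by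
  obtain ⟨z, hz, z', hz', h1, h2, h3⟩ := h.exists_zz (h.big hQ hQ' hB) ha h0 hQa
  rw [f₀.mem_perp_pair] at ha hz hz'
  obtain ⟨c, hc⟩ := exists_eichOk hQa h1
  obtain ⟨c', hc'⟩ := exists_eichOk hQa h2
  have fx : ∀ y c, f₀.B y e = 0 → f.eich (jv φ k a) ((T.σ l)⁻¹ • jv φ k y) c (jv φ k e) = jv φ k e :=
    fun y c hy => eich_fix _ (h.B0 (f₀.B_zero_symm ha.1)) (by
      rw [B_smul_right, h.B0 (f₀.B_zero_symm hy), mul_zero])
  have m := h.sub_mem_Sg (h.eich_mem hc') (fx _ _ hz'.1) (h.sub_mem_Sg (h.eich_mem hc) (fx _ _ hz.1) hw)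
  refine h.one (fun e0 => by simp [e0] at hB) hQ ha.1 (h.notMem_of hB ha.2 h0) ?_
  convert m using 1
  rw [(h.ok hc').apply, (h.ok hc).apply]
  simp only [add_sub_cancel_left, add_sub_assoc, B_sub_left, B_smul_left, B_add_left, B_smul_right,
    h.B0 (f₀.B_self_of_Q hQa), h.B0 h1, h.B0 (f₀.B_zero_symm h2), h.B z z', h3, map_one, h.σκ,
    mul_zero, add_zero, sub_zero, zero_smul, zero_sub]
  congr 1
  have := h.ne
  field_simp

theorem mul_σ {a b : F} (ha : FΛ φ k M f₀ f l a) (hb : FΛ φ k M f₀ f l b) :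
    FΛ φ k M f₀ f l (a * T.σ b) := by
  obtain ⟨e, -, e', -, hQ, hQ', hB⟩ := h.big_top.exists_pair
  have hU := h.big hQ hQ' hB
  obtain ⟨p, hp, h0, hQp⟩ := hU.sing
  obtain ⟨z, hz, z', hz', h1, h2, h3⟩ := h.exists_zz hU hp h0 hQp
  rw [f₀.mem_perp_pair] at hp hz hz'
  obtain ⟨c, hc, hm⟩ := (CForm.mem_Sg (h.Q hQp)).1 (hb p z' hQp h2)
  have m := h.sub_mem_Sg hm (eich_fix _ (h.B0 (f₀.B_zero_symm hp.1)) (by
      rw [B_smul_right, h.B0 (f₀.B_zero_symm hz'.1), mul_zero])) (ha e z hQ hz.1)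
  refine h.one (fun e0 => by simp [e0] at hB) hQ hp.1 (h.notMem_of hB hp.2 h0) ?_
  convert m using 1
  rw [hc.apply]
  simp only [add_sub_cancel_left, add_sub_assoc, B_smul_left, B_smul_right,
    h.B0 h1, h.B z z', h3, map_one, h.σκ, map_mul, mul_zero, sub_zero, zero_smul]
  congr 1
  have := h.ne
  field_simp

def ring : Subring F where
  carrier := {c | FΛ φ k M f₀ f l c}
  zero_mem' p z _ _ := by simp
  one_mem' p z hp hz := by simpa using h.mem_Sg hp hz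
  add_mem' {a b} ha hb p z hp hz := by
    rw [add_mul, add_smul]; exact add_mem (ha p z hp hz) (hb p z hp hz)
  neg_mem' {a} ha p z hp hz := by
    rw [neg_mul, neg_smul]; exact neg_mem (ha p z hp hz)
  mul_mem' {a b} ha hb := by
    have h1 : FΛ φ k M f₀ f l 1 := fun p z hp hz => by simpa using h.mem_Sg hp hz
    simpa [T.σσ] using h.mul_σ ha (h.mul_σ h1 hb)

theorem dich (hp : PD φ) : (∀ p, f₀.Q p = 0 → ∀ v, f.B v (jv φ k p) = 0 → v ∈ f.Sg M (jv φ k p)) ∨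
    ∀ c, FΛ φ k M f₀ f l c → ∃ a, φ a = c := by
  rcases hp h.ring (fun a p z hp hz => by
    rw [mul_comm, mul_smul, ← jv_smul]; exact h.mem_Sg hp (by simp [hz])) with e | e
  · exact Or.inr e
  left
  intro p hp v hv
  rcases eq_or_ne p 0 with rfl | p0
  · rw [jv_zero]; exact mem_Sg_zero _
  obtain ⟨y, hy⟩ := h.exists_one p0
  have : ∀ v, ∀ c : F, c • (v - (f.B v (jv φ k p) / l) • jv φ k y) ∈ f.Sg M (jv φ k p) := by
    refine jv_induction φ k (fun x c => ?_) (fun a b ha hb c => ?_) fun a x hx c => ?_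
    · have := e (c * T.σ l) p (x - f₀.B x p • y) hp (by simp [hy])
      rwa [mul_inv_cancel_right₀ h.σl, jv_sub, jv_smul, ← mul_div_cancel_left₀ (φ _) h.ne, ← h.B] at this
    · convert add_mem (ha c) (hb c) using 1
      rw [B_add_left, add_div]; module
    · convert hx (c * a) using 1
      rw [B_smul_left, mul_div_assoc]; module
  simpa [hv] using this v 1

theorem E_le_of (hS : ∀ p, f₀.Q p = 0 → ∀ v, f.B v (jv φ k p) = 0 → v ∈ f.Sg M (jv φ k p))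
    (h0 : ∀ p, p ≠ 0 → f₀.Q p = 0 → ∀ c, T.τ c = 0 → f.eich (jv φ k p) 0 c ∈ M) : f.E ≤ M := by
  obtain ⟨e, -, e', -, hQ, hQ', hB⟩ := h.big_top.exists_pair
  refine h.nd.E_le_of_opp (h.Q hQ') (X_le_of_Sg (h.Q hQ') (h0 _ (fun e0 => by simp [e0] at hB) hQ')
    (hS _ hQ')) (h.Q hQ) (X_le_of_Sg (h.Q hQ) (h0 _ (fun e0 => by simp [e0] at hB) hQ) (hS _ hQ)) ?_
  rw [h.B, hB, map_one, mul_one]
  exact h.ne

theorem E_le_odd (hT : T.Odd)
    (hS : ∀ p, f₀.Q p = 0 → ∀ v, f.B v (jv φ k p) = 0 → v ∈ f.Sg M (jv φ k p)) : f.E ≤ M := by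
  refine h.E_le_of hS fun p p0 hp c hc => ?_
  obtain ⟨z, -, z', -, h1, h2, h3⟩ := h.exists_zz h.big_top mem_top p0 hp
  refine eich_zero_mem_of_odd hT (h.Q hp) (z := jv φ k z) (z' := jv φ k z') ?_
    (fun a => hS p hp _ (by rw [B_smul_left, h.B0 h1, mul_zero])) (hS p hp _ (h.B0 h2)) hc
  rw [h.B, h3, map_one, mul_one]
  exact h.ne

variable (hR : ∀ c, FΛ φ k M f₀ f l c → ∃ a, φ a = c)
include hR

theorem rat {e : ι → F₀} (h0 : e ≠ 0) (hQ : f₀.Q e = 0) {w : V} (hw : w ∈ f.Sg M (jv φ k e)) :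
    ∃ y, ∃ s : F, w = (T.σ l)⁻¹ • jv φ k y + s • jv φ k e := by
  obtain ⟨e', hQ', hB⟩ := h.nd₀.exists_pair h0 hQ
  let A : AddSubgroup (ι → F₀) :=
    { carrier := {a | ∃ t, φ t = f.B w (jv φ k a)}
      zero_mem' := ⟨0, by simp⟩
      add_mem' := by
        rintro a b ⟨s, hs⟩ ⟨t, ht⟩
        exact ⟨s + t, by simp [hs, ht]⟩
      neg_mem' := by
        rintro a ⟨s, hs⟩
        exact ⟨-s, by simp [hs]⟩ }
  have s1 : ∀ a ∈ f₀.perp (span F₀ {e, e'}), a ∈ A := fun a ha =>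
    (h.big hQ hQ' hB).mem_of_sing (A := A) (fun u hu hQu => by
      rcases eq_or_ne u 0 with rfl | u0
      · exact A.zero_mem
      obtain ⟨t, ht⟩ := hR _ (h.of_Sg hQ hQ' hB hw hu u0 hQu)
      rcases T.ε_eq with e | e
      exacts [⟨-t, by simp [ht, e]⟩, ⟨t, by simp [ht, e]⟩]) ha
  obtain ⟨y, hy⟩ := h.rat_of_B (w := w - (f.B w (jv φ k e') / l) • jv φ k e) fun x => by
    have m := sub_mem_perp_pair hQ hQ' hB x
    obtain ⟨t, ht⟩ := s1 _ m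
    refine ⟨t, ?_⟩
    have b1 := B_of_mem_Sg (h.Q hQ) hw
    have b2 := h.B0 (f₀.B_zero_symm (f₀.mem_perp_pair.1 m).1)
    simp only [jv_sub, jv_smul, B_sub_right, B_smul_right, b1, h.B0 (f₀.B_self_of_Q hQ),
      h.B e e', hB, map_one] at ht b2
    rw [B_sub_left, B_smul_left, ht]
    have := h.ne
    field_simp
    linear_combination (f.B w (jv φ k e')) * b2
  exact ⟨y, _, by rw [← hy, sub_add_cancel]⟩

theorem D_mem {e : ι → F₀} (h0 : e ≠ 0) (hQ : f₀.Q e = 0) {x : V ≃ₗ[F] V} (hx : x ∈ M)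
    (hfix : x (jv φ k e) = jv φ k e) {y : ι → F₀} (hy : f₀.B y e = 0) :
    ∃ y', ∃ s : F, x (jv φ k y) - jv φ k y = jv φ k y' + s • jv φ k e := by
  obtain ⟨y', s, hs⟩ := h.rat hR h0 hQ (h.sub_mem_Sg hx hfix (h.mem_Sg hQ hy))
  refine ⟨y', T.σ l * s, ?_⟩
  have := congrArg (T.σ l • ·) hs
  simpa [smul_sub, smul_smul, h.σl] using this

theorem D_rat {K : Submodule F₀ (ι → F₀)} {e w : ι → F₀} (he : e ∈ f₀.perp K) (hw : w ∈ f₀.perp K)
    (hQ : f₀.Q e = 0) (hB : f₀.B e w = 1) {x : V ≃ₗ[F] V} (hx : x ∈ M)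
    (hK : ∀ v, x v - v ∈ up φ k K) {y : ι → F₀} (hy : f₀.B y e = 0) :
    ∃ y', x (jv φ k y) - jv φ k y = jv φ k y' := by
  have hfix : x (jv φ k e) = jv φ k e := h.nd.eq_of_B' fun v => by
    have := h.B_up he (hK (x⁻¹ v))
    rw [B_sub_left, sub_eq_zero] at this
    rw [iso_B_right (h.iso hx), ← this]; simp
  obtain ⟨y', s, hs⟩ := h.D_mem hR (fun e0 => by simp [e0] at hB) hQ hx hfix hy
  have := h.B_up hw (hK (jv φ k y))
  rw [hs, B_add_left, B_smul_left, h.B, h.B, hB, map_one] at this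
  have e1 : s = -φ (f₀.B y' w) := mul_left_cancel₀ h.ne (by linear_combination this)
  exact ⟨y' - f₀.B y' w • e, by rw [hs, e1, jv_sub, jv_smul]; module⟩

end FS

end Cfsg.Agent.H4.Sf
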