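import Cfsg.Agent.H4.Sf3

/-! Overgroups of subfield subgroups in groups preserving a form: rationality of root elements. -/

set_option autoImplicit false

namespace Cfsg.Agent.H4.Sf

open Module Submodule CForm

variable {F : Type*} [Field F] {V : Type*} [AddCommGroup V] [Module F V]
  {ι : Type} [Fintype ι] [DecidableEq ι] {F₀ : Type*} [Field F₀] {φ : F₀ →+* F}
  {k : (ι → F) ≃ₗ[F] V} {M : Subgroup (V ≃ₗ[F] V)} {T : FType F} {T₀ : FType F₀}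
  {f₀ : CForm T₀ (ι → F₀)} {f : CForm T V} {l : F}

theorem cramer {Y : Submodule F V} {a b : V} {α₁ β₁ α₂ β₂ : F} (h1 : α₁ • a + β₁ • b ∈ Y)
    (h2 : α₂ • a + β₂ • b ∈ Y) (hd : α₁ * β₂ - β₁ * α₂ ≠ 0) : a ∈ Y ∧ b ∈ Y := by
  constructor
  · have := smul_mem Y (α₁ * β₂ - β₁ * α₂)⁻¹ (sub_mem (smul_mem Y β₂ h1) (smul_mem Y β₁ h2))
    rwa [show β₂ • (α₁ • a + β₁ • b) - β₁ • (α₂ • a + β₂ • b) = (α₁ * β₂ - β₁ * α₂) • a by module,
      smul_smul, inv_mul_cancel₀ hd, one_smul] at this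
  · have := smul_mem Y (α₁ * β₂ - β₁ * α₂)⁻¹ (sub_mem (smul_mem Y α₁ h2) (smul_mem Y α₂ h1))
    rwa [show α₁ • (α₂ • a + β₂ • b) - α₂ • (α₁ • a + β₁ • b) = (α₁ * β₂ - β₁ * α₂) • b by module,
      smul_smul, inv_mul_cancel₀ hd, one_smul] at this

/-- three independent vectors -/
def I3 (K : Type*) [Field K] {W : Type*} [AddCommGroup W] [Module K W] (a b c : W) : Prop :=
  ∀ r s t : K, r • a + s • b + t • c = 0 → r = 0 ∧ s = 0 ∧ t = 0

theorem exists_I3 {W : Type*} [AddCommGroup W] [Module F₀ W] [FiniteDimensional F₀ W]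
    {U : Submodule F₀ W} (h : 3 ≤ finrank F₀ U) {u : W} (h0 : u ≠ 0) :
    ∃ u₂ ∈ U, ∃ u₃ ∈ U, I3 F₀ u u₂ u₃ := by
  obtain ⟨u₂, m2, h2⟩ := exists_notMem_of_finrank_lt (U := span F₀ {u}) (W := U) (by
    have := finrank_span_singleton_le (F := F₀) u; omega)
  obtain ⟨u₃, m3, h3⟩ := exists_notMem_of_finrank_lt (U := span F₀ {u, u₂}) (W := U) (by
    have := finrank_span_pair_le (F := F₀) u u₂; omega)
  refine ⟨u₂, m2, u₃, m3, fun r s t e => ?_⟩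
  have t0 : t = 0 := by
    by_contra t0
    refine h3 (mem_span_pair.2 ⟨-(t⁻¹ * r), -(t⁻¹ * s), ?_⟩)
    rw [← one_smul F₀ u₃, ← inv_mul_cancel₀ t0]
    linear_combination (norm := module) (-t⁻¹) • e
  rw [t0, zero_smul, add_zero] at e
  have s0 : s = 0 := by
    by_contra s0
    refine h2 (mem_span_singleton.2 ⟨-(s⁻¹ * r), ?_⟩)
    rw [← one_smul F₀ u₂, ← inv_mul_cancel₀ s0]
    linear_combination (norm := module) (-s⁻¹) • e
  rw [s0, zero_smul, add_zero] at e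
  exact ⟨(smul_eq_zero.1 e).resolve_right h0, s0, t0⟩

theorem I3.jv {a b c : ι → F₀} (h : I3 F₀ a b c) : I3 F (jv φ k a) (jv φ k b) (jv φ k c) := by
  have : LinearIndependent F₀ ![a, b, c] := Fintype.linearIndependent_iff.2 fun g hg i => by
    obtain ⟨h1, h2, h3⟩ := h (g 0) (g 1) (g 2) (by simpa [Fin.sum_univ_three] using hg)
    fin_cases i <;> assumption
  have := Fintype.linearIndependent_iff.1 (li_jv φ k this)
  intro r s t e
  have := this ![r, s, t] (by simpa [Fin.sum_univ_three] using e)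
  exact ⟨this 0, this 1, this 2⟩

theorem I3.map {a b c : V} (h : I3 F a b c) (g : V ≃ₗ[F] V) : I3 F (g a) (g b) (g c) :=
  fun r s t e => h r s t (g.injective (by simpa using e))

theorem I3.not_pair {a b c x y : V} (h : I3 F a b c) (ha : a ∈ span F {x, y}) (hb : b ∈ span F {x, y})
    (hc : c ∈ span F {x, y}) : False := by
  obtain ⟨a1, a2, rfl⟩ := mem_span_pair.1 ha
  obtain ⟨b1, b2, rfl⟩ := mem_span_pair.1 hb
  obtain ⟨c1, c2, rfl⟩ := mem_span_pair.1 hc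
  obtain ⟨h1, h2, h3⟩ := h (b1 * c2 - b2 * c1) (c1 * a2 - c2 * a1) (a1 * b2 - a2 * b1) (by module)
  obtain ⟨h4, h5, -⟩ := h b1 (-a1) 0 (by linear_combination (norm := module) (-h3) • y)
  obtain ⟨h6, h7, -⟩ := h b2 (-a2) 0 (by linear_combination (norm := module) h3 • x)
  exact one_ne_zero (h 0 1 0 (by simp [h4, h6])).2.1

variable (φ k) in
/-- `a, b` lie on a rational line -/
def RL (a b : V) : Prop :=
  ∃ y₁ y₂, a ∈ span F {jv φ k y₁, jv φ k y₂} ∧ b ∈ span F {jv φ k y₁, jv φ k y₂}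

omit [Fintype ι] [DecidableEq ι] in
theorem up_pair (x y : ι → F₀) : up φ k (span F₀ {x, y}) = span F {jv φ k x, jv φ k y} := by
  apply le_antisymm
  · rw [up, span_le]
    rintro _ ⟨z, hz, rfl⟩
    obtain ⟨a, b, rfl⟩ := mem_span_pair.1 hz
    exact mem_span_pair.2 ⟨φ a, φ b, by simp⟩
  · rw [span_le]
    rintro _ (rfl | rfl) <;> exact up_mem (subset_span (by simp))

namespace RS
variable (h : RS φ k f₀ f l)
include h

theorem TS_up {W : Submodule F₀ (ι → F₀)} (hW : f₀.TS W) {v : V} (hv : v ∈ up φ k W) {u : ι → F₀}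
    (hu : u ∈ W) : f.B v (jv φ k u) = 0 := h.B_up (hW.le_perp hu) hv

theorem pt_of_lines {a b c : V} (hi : I3 F a b c) (h1 : RL φ k a b) (h2 : RL φ k a c) : Pt φ k a := by
  obtain ⟨y₁, y₂, a1, a2⟩ := h1
  obtain ⟨y₃, y₄, a3, a4⟩ := h2
  have key : ∀ y₃ y₄, y₃ ∉ span F₀ {y₁, y₂} → a ∈ span F {jv φ k y₃, jv φ k y₄} → Pt φ k a := by
    intro y₃ y₄ hn ha
    obtain ⟨z, hz, hB⟩ := h.nd₀.exists_perp_B_eq hn 1
    obtain ⟨α, β, e⟩ := mem_span_pair.1 ha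
    have := h.B_up hz ((up_pair y₁ y₂).ge a1)
    rw [← e, B_add_left, B_smul_left, B_smul_left, h.B, h.B, hB, map_one] at this
    have e1 : α = -(β * φ (f₀.B y₄ z)) := mul_left_cancel₀ h.ne (by linear_combination this)
    exact ⟨β, y₄ - f₀.B y₄ z • y₃, by rw [← e, e1, jv_sub, jv_smul]; module⟩
  by_cases n3 : y₃ ∈ span F₀ {y₁, y₂}
  · by_cases n4 : y₄ ∈ span F₀ {y₁, y₂}
    · refine (hi.not_pair a1 a2 (span_le.2 ?_ a4)).elim
      rw [← up_pair]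
      rintro _ (rfl | rfl) <;> exact up_mem ‹_›
    · exact key y₄ y₃ n4 (by rwa [Set.pair_comm])
  · exact key y₃ y₄ n3 a3

theorem exists_perp_two (h2 : ∃ θ : F, ∀ x, ∃ s t, x = φ s + θ * φ t) (a : V) :
    ∃ z₁ z₂, ∀ y, f₀.B y z₁ = 0 → f₀.B y z₂ = 0 → f.B (jv φ k y) a = 0 := by
  obtain ⟨θ, hθ⟩ := h2
  choose s t hst using hθ
  obtain ⟨z₁, h1⟩ := h.nd₀.exists_rep ((Pi.basisFun F₀ ι).constr F₀ fun i => s (f.B (jb k i) a))
  obtain ⟨z₂, h2⟩ := h.nd₀.exists_rep ((Pi.basisFun F₀ ι).constr F₀ fun i => t (f.B (jb k i) a))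
  refine ⟨z₁, z₂, fun y e1 e2 => ?_⟩
  have : f.fn a = lf φ k ((Pi.basisFun F₀ ι).constr F₀ fun i => s (f.B (jb k i) a)) +
      θ • lf φ k ((Pi.basisFun F₀ ι).constr F₀ fun i => t (f.B (jb k i) a)) := (jb k).ext fun i => by
    rw [LinearMap.add_apply, LinearMap.smul_apply]
    conv_rhs => rw [jb_apply φ k i, lf_jv, lf_jv, Basis.constr_basis, Basis.constr_basis]
    exact hst _
  have := LinearMap.congr_fun this (jv φ k y)
  rwa [LinearMap.add_apply, LinearMap.smul_apply, lf_jv, lf_jv, h1, h2, e1, e2, map_zero, smul_zero,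
    add_zero] at this

end RS

namespace FS
variable (h : FS φ k M f₀ f l)
include h

theorem conj_mem {g : V ≃ₗ[F] V} (hg : g ∈ M) {u v : ι → F₀} {c : F₀} (ho : f₀.EichOk u v c) :
    f.eich (g (jv φ k u)) (g ((T.σ l)⁻¹ • jv φ k v)) (φ c / l) ∈ M := by
  rw [← eich_conj (h.iso hg)]
  exact M.mul_mem (M.mul_mem hg (h.eich_mem ho)) (M.inv_mem hg)

variable (hR : ∀ c, FΛ φ k M f₀ f l c → ∃ a, φ a = c)
include hR

theorem pt_tv {a : V} {c : F} (ho : f.EichOk a 0 c) (hc : c ≠ 0) (hm : f.eich a 0 c ∈ M) {e : ι → F₀}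
    (h0 : e ≠ 0) (hQ : f₀.Q e = 0) (hB : f.B (jv φ k e) a = 0) : Pt φ k a := by
  have ap : ∀ v, f.eich a 0 c v - v = (-(f.B v a * c)) • a := fun v => by
    rw [ho.apply]; simp [smul_smul]
  obtain ⟨y₁, h1⟩ : ∃ y₁, a ∈ up φ k (span F₀ {y₁, e}) := by
    by_cases hy : ∃ y, f₀.B y e = 0 ∧ f.B (jv φ k y) a ≠ 0
    · obtain ⟨y, h1, h2⟩ := hy
      obtain ⟨y', s, hs⟩ := h.D_mem hR h0 hQ hm (eich_fix _ hB (by simp)) h1
      rw [ap] at hs
      refine ⟨y', (smul_mem_iff _ (neg_ne_zero.2 (mul_ne_zero h2 hc))).1 ?_⟩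
      rw [hs, up_pair]
      exact mem_span_pair.2 ⟨1, s, by simp⟩
    · push Not at hy
      exact ⟨0, by rw [up_pair]; exact span_mono (by simp) (h.mem_span_of_perp hy)⟩
  obtain ⟨p, w, a1, a2, a3, a4, -⟩ := h.pair_perp (span F₀ {y₁, e})
    ((finrank_span_pair_le _ _).trans (by norm_num))
  by_cases hy : ∃ y, f₀.B y p = 0 ∧ f.B (jv φ k y) a ≠ 0
  · obtain ⟨y, h2, h3⟩ := hy
    obtain ⟨y', hs⟩ := h.D_rat hR a1 a2 a3 a4 hm (fun v => by rw [ap]; exact smul_mem _ _ h1) h2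
    rw [ap] at hs
    exact ⟨_, y', by rw [← hs, smul_smul, inv_mul_cancel₀ (neg_ne_zero.2 (mul_ne_zero h3 hc)), one_smul]⟩
  · push Not at hy
    obtain ⟨s, hs⟩ := mem_span_singleton.1 (h.mem_span_of_perp hy)
    exact ⟨s, p, hs.symm⟩

theorem line {a b : V} (ho : f.EichOk a b 0) (hm : f.eich a b 0 ∈ M) {e : ι → F₀}
    (h0 : e ≠ 0) (hQ : f₀.Q e = 0) (ha : f.B (jv φ k e) a = 0) (hb : f.B (jv φ k e) b = 0)
    (hi : ∀ s t : F, s • a + t • b ∈ span F {jv φ k e} → s = 0 ∧ t = 0) : RL φ k a b := by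
  have ap : ∀ v, f.eich a b 0 v - v = f.B v b • a + (-(f.B v a * T.ε)) • b := fun v => by
    rw [ho.apply]; module
  have dt : ∀ {y₁ y₂ : V}, f.B y₁ a * f.B y₂ b - f.B y₁ b * f.B y₂ a ≠ 0 →
      f.B y₁ b * -(f.B y₂ a * T.ε) - -(f.B y₁ a * T.ε) * f.B y₂ b ≠ 0 := fun hd e =>
    mul_ne_zero hd T.ε_ne (by linear_combination e)
  obtain ⟨y₁, y₂, h1, h2, hd⟩ := h.exists_det hi
  obtain ⟨z₁, s₁, e1⟩ := h.D_mem hR h0 hQ hm (eich_fix _ ha hb) h1
  obtain ⟨z₂, s₂, e2⟩ := h.D_mem hR h0 hQ hm (eich_fix _ ha hb) h2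
  rw [ap] at e1 e2
  set K := span F₀ {z₁, z₂} ⊔ span F₀ {e} with hK
  have m : ∀ z ∈ ({z₁, z₂} : Set _), ∀ s : F, jv φ k z + s • jv φ k e ∈ up φ k K := fun z hz s =>
    add_mem (up_mem (mem_sup_left (subset_span hz)))
      (smul_mem _ _ (up_mem (mem_sup_right (mem_span_singleton_self _))))
  obtain ⟨m1, m2⟩ := cramer (e1 ▸ m z₁ (by simp) s₁) (e2 ▸ m z₂ (by simp) s₂) (dt hd)
  obtain ⟨p, w, a1, a2, a3, a4, -⟩ := h.pair_perp K (by
    have := finrank_sup_span_le (span F₀ {z₁, z₂}) e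
    have := finrank_span_pair_le (F := F₀) z₁ z₂
    rw [hK]; omega)
  obtain ⟨x₁, x₂, h3, h4, hd'⟩ := h.exists_det (e := p) (a := a) (b := b) fun s t hst => by
    obtain ⟨r, hr⟩ := mem_span_singleton.1 hst
    have := h.B_up a2 (add_mem (smul_mem _ s m1) (smul_mem _ t m2))
    rw [← hr, B_smul_left, h.B, a4, map_one, mul_one, mul_eq_zero] at this
    exact hi s t (by rw [← hr, this.resolve_right h.ne, zero_smul]; exact zero_mem _)
  have hK : ∀ v, f.eich a b 0 v - v ∈ up φ k K := fun v => by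
    rw [ap]; exact add_mem (smul_mem _ _ m1) (smul_mem _ _ m2)
  obtain ⟨w₁, e3⟩ := h.D_rat hR a1 a2 a3 a4 hm hK h3
  obtain ⟨w₂, e4⟩ := h.D_rat hR a1 a2 a3 a4 hm hK h4
  rw [ap] at e3 e4
  exact ⟨w₁, w₂, cramer (e3 ▸ subset_span (by simp)) (e4 ▸ subset_span (by simp)) (dt hd')⟩

theorem tv_pt [Finite F] {c₀ : F₀} (hc₀ : c₀ ≠ 0) (hτ : T₀.τ c₀ = 0) {a : V} {c : F}
    (ho : f.EichOk a 0 c) (hc : c ≠ 0) (hm : f.eich a 0 c ∈ M) : Pt φ k a := by
  by_contra hn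
  have gp : ∀ e, f₀.Q e = 0 → f.B (jv φ k e) a = 0 → e = 0 := fun e h1 h2 => by
    by_contra h0
    exact hn (h.pt_tv hR ho hc hm h0 h1 h2)
  obtain ⟨W, -, hW, d5⟩ := h.exists_TS_ge TS_bot
  obtain ⟨u₁, hu₁, n1⟩ := exists_notMem_of_finrank_lt (U := ⊥) (W := W) (by rw [finrank_bot]; omega)
  rw [mem_bot] at n1
  have b1 : f.B (jv φ k u₁) a ≠ 0 := fun e => n1 (gp _ (hW.1 _ hu₁) e)
  set w₀ := (f.B (jv φ k u₁) a)⁻¹ • jv φ k u₁ with hw₀
  have w1 : w₀ ∈ up φ k W := smul_mem _ _ (up_mem hu₁)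
  have w2 : f.B w₀ a = 1 := by rw [hw₀, B_smul_left, inv_mul_cancel₀ b1]
  clear_value w₀
  set R := up φ k W ⊓ f.perp (span F {a}) with hRdef
  have r1 : ∀ u ∈ W, jv φ k u - f.B (jv φ k u) a • w₀ ∈ R := fun u hu =>
    ⟨sub_mem (up_mem hu) (smul_mem _ _ w1), f.mem_perp_singleton.2 (by simp [w2])⟩
  have ok : ∀ u ∈ W, f₀.EichOk u 0 c₀ := fun u hu => ⟨hW.1 u hu, by simp, by simp [hτ]⟩
  have c0 : φ c₀ / l ≠ 0 := div_ne_zero ((map_ne_zero φ).2 hc₀) h.ne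
  set N : (ι → F₀) → F := fun u => f.B a (jv φ k u) * f.B (jv φ k u) a with hN
  have upp : ∀ u ∈ W, ∃ g ∈ M ⊓ fixSub R, Act R g w₀ a 1 (-(N u * (φ c₀ / l))) 0 1 ∧
      Act R g w₀ a 1 (-(N u * (φ c₀ / l))) 0 1 := fun u hu => by
    have fx : ∀ v ∈ up φ k W, f.eich (jv φ k u) ((T.σ l)⁻¹ • jv φ k 0) (φ c₀ / l) v = v := fun v hv =>
      eich_fix _ (h.TS_up hW hv hu) (by simp)
    refine ⟨_, ⟨h.eich_mem (ok u hu), fun v hv => fx v hv.1⟩, (and_self_iff).2 ⟨by rw [fx _ w1]; simp, ?_⟩⟩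
    convert smul_mem R (-(f.B a (jv φ k u) * (φ c₀ / l))) (r1 u hu) using 1
    rw [(h.ok (ok u hu)).apply]
    simp only [hN, jv_zero, smul_zero, map_zero]
    module
  have hx : Act R (f.eich a 0 c) w₀ a 1 0 (-c) 1 := by
    constructor
    · rw [ho.apply, w2]; simp
    · rw [ho.apply_self]; simp
  have N0 : ∀ u ∈ W, u ≠ 0 → N u ≠ 0 := fun u hu h0 => by
    have : f.B (jv φ k u) a ≠ 0 := fun e => h0 (gp _ (hW.1 _ hu) e)
    exact mul_ne_zero (f.B_ne_symm this) this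
  obtain ⟨u₂, hu₂, n2, hne⟩ : ∃ u ∈ W, u ≠ 0 ∧ N u₁ ≠ N u := by
    by_contra hc
    push Not at hc
    obtain ⟨u₂, hu₂, u₃, hu₃, hi⟩ := exists_I3 (U := W) (by omega) n1
    have e2 := hc u₂ hu₂ fun e => one_ne_zero (hi 0 1 0 (by simp [e])).2.1
    have e3 := hc u₃ hu₃ fun e => one_ne_zero (hi 0 0 1 (by simp [e])).2.2
    have e12 := hc (u₁ + u₂) (add_mem hu₁ hu₂) fun e => one_ne_zero (hi 1 1 0 (by simpa using e)).1
    have e13 := hc (u₁ + u₃) (add_mem hu₁ hu₃) fun e => one_ne_zero (hi 1 0 1 (by simpa using e)).1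
    have e23 := hc (u₂ + u₃) (add_mem hu₂ hu₃) fun e => one_ne_zero (hi 0 1 1 (by simpa using e)).2.1
    have e123 := hc (u₁ + u₂ + u₃) (add_mem (add_mem hu₁ hu₂) hu₃) fun e =>
      one_ne_zero (hi 1 1 1 (by simpa using e)).1
    refine N0 u₁ hu₁ n1 ?_
    simp only [hN, jv_add, B_add_left, B_add_right] at e2 e3 e12 e13 e23 e123 ⊢
    linear_combination e2 + e3 - e12 - e13 - e23 + e123
  refine noGen (M ⊓ fixSub R) (R := R) (fun g hg r hr => by rw [hg.2 r hr]; exact hr) _ _ _ _ ?_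
    ⟨hm, fun r hr => eich_fix _ (f.mem_perp_singleton.1 hr.2) (by simp)⟩ (neg_ne_zero.2 hc) hx hx
    (neg_ne_zero.2 (mul_ne_zero (N0 _ hu₁ n1) c0)) (neg_ne_zero.2 (mul_ne_zero (N0 _ hu₂ n2) c0))
    (fun e => hne (mul_right_cancel₀ c0 (neg_injective e))) (upp _ hu₁) (upp _ hu₂)
  rintro g ⟨hg, hfix⟩ α β δ - ⟨a1, -⟩ -
  rw [zero_smul, sub_zero] at a1
  have g1 : g w₀ - w₀ ∈ up φ k W := by
    have := sub_mem (add_mem a1.1 (smul_mem _ α w1)) w1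
    rwa [sub_add_cancel] at this
  have g2 : ∀ u ∈ W, g (jv φ k u) - jv φ k u = f.B (jv φ k u) a • (g w₀ - w₀) := fun u hu => by
    have := hfix _ (r1 u hu)
    rw [map_sub, map_smul] at this
    linear_combination (norm := module) this
  have g3 : ∀ u ∈ W, Pt φ k (g (jv φ k u)) := fun u hu => by
    rcases eq_or_ne u 0 with rfl | u0
    · exact ⟨0, 0, by simp⟩
    have m := h.conj_mem hg (ok u hu)
    have o := (h.ok (ok u hu)).map (h.iso hg)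
    simp only [jv_zero, smul_zero, map_zero] at m o
    refine h.pt_tv hR o c0 m u0 (hW.1 u hu) (f.B_zero_symm (h.TS_up hW ?_ hu))
    rw [← sub_add_cancel (g _) (jv φ k u), g2 u hu]
    exact add_mem (smul_mem _ _ g1) (up_mem hu)
  have g4 : g w₀ - w₀ = 0 := h.eq_zero fun z => by
    obtain ⟨u, hu, u0, e, -⟩ := h.exists_ker_g d5 g3 z z
    rw [g2 u hu, B_smul_left, mul_eq_zero] at e
    exact f.B_zero_symm (e.resolve_left fun e => u0 (gp _ (hW.1 _ hu) e))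
  have := f.mem_perp_singleton.1 a1.2
  rw [sub_eq_zero.1 g4, B_sub_left, B_smul_left, w2] at this
  linear_combination -this

theorem le_RN_tv [Finite F] {c₀ : F₀} (hc₀ : c₀ ≠ 0) (hτ : T₀.τ c₀ = 0) : M ≤ RN φ k := fun g hg =>
  h.frame fun u hu => by
    have ok : f₀.EichOk u 0 c₀ := ⟨hu, by simp, by simp [hτ]⟩
    have m := h.conj_mem hg ok
    have o := (h.ok ok).map (h.iso hg)
    simp only [jv_zero, smul_zero, map_zero] at m o
    exact h.tv_pt hR hc₀ hτ o (div_ne_zero ((map_ne_zero φ).2 hc₀) h.ne) m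

omit hR in
theorem pt_of_RL {g : V ≃ₗ[F] V} (hg : g ∈ M) {W : Submodule F₀ (ι → F₀)} (hW : f₀.TS W)
    (d3 : 3 ≤ finrank F₀ W) {u : ι → F₀} (hu : u ∈ W)
    (hL : ∀ u' ∈ W, f.EichOk (g (jv φ k u)) ((T.σ l)⁻¹ • g (jv φ k u')) 0 →
      f.eich (g (jv φ k u)) ((T.σ l)⁻¹ • g (jv φ k u')) 0 ∈ M →
      (∀ s t : F, s • g (jv φ k u) + t • (T.σ l)⁻¹ • g (jv φ k u') = 0 → s = 0 ∧ t = 0) →
      RL φ k (g (jv φ k u)) ((T.σ l)⁻¹ • g (jv φ k u'))) : Pt φ k (g (jv φ k u)) := by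
  rcases eq_or_ne u 0 with rfl | u0
  · exact ⟨0, 0, by simp⟩
  obtain ⟨u₂, hu₂, u₃, hu₃, hi⟩ := exists_I3 d3 u0
  have hi' : I3 F (g (jv φ k u)) ((T.σ l)⁻¹ • g (jv φ k u₂)) ((T.σ l)⁻¹ • g (jv φ k u₃)) :=
    fun r s t e => by
      rw [smul_smul, smul_smul] at e
      simpa [h.σl] using (hi.jv (φ := φ) (k := k)).map g _ _ _ e
  have key : ∀ u' ∈ W, (∀ s t : F, s • g (jv φ k u) + t • (T.σ l)⁻¹ • g (jv φ k u') = 0 →
      s = 0 ∧ t = 0) → RL φ k (g (jv φ k u)) ((T.σ l)⁻¹ • g (jv φ k u')) := fun u' hu' => by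
    have ok : f₀.EichOk u u' 0 := ⟨hW.1 u hu, hW.2 _ hu' _ hu, by simp [hW.1 u' hu']⟩
    have m := h.conj_mem hg ok
    have o := (h.ok ok).map (h.iso hg)
    simp only [map_zero, zero_div, map_smul] at m o
    exact hL u' hu' o m
  refine h.pt_of_lines hi' (key _ hu₂ fun s t e => ?_) (key _ hu₃ fun s t e => ?_)
  · have := hi' s t 0 (by simpa using e)
    exact ⟨this.1, this.2.1⟩
  · have := hi' s 0 t (by simpa using e)
    exact ⟨this.1, this.2.2⟩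

omit hR in
theorem le_RN_of_RL (hL : ∀ a b, f.EichOk a b 0 → f.eich a b 0 ∈ M →
    (∀ s t : F, s • a + t • b = 0 → s = 0 ∧ t = 0) → RL φ k a b) : M ≤ RN φ k := fun g hg =>
  h.frame fun u hu => by
    obtain ⟨W, h1, hW, d5⟩ := h.exists_TS_ge (TS_span_singleton hu)
    exact h.pt_of_RL hg hW (by omega) (h1 (mem_span_singleton_self _)) fun u' _ => hL _ _

theorem le_RN_two (h2 : ∃ θ : F, ∀ x, ∃ s t, x = φ s + θ * φ t) : M ≤ RN φ k :=
  h.le_RN_of_RL fun a b ho hm hi => by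
    obtain ⟨z₁, z₂, h1⟩ := h.exists_perp_two h2 a
    obtain ⟨z₃, z₄, h3⟩ := h.exists_perp_two h2 b
    obtain ⟨y₁, y₂, -, -, hd⟩ := h.exists_det (e := 0) (a := a) (b := b) fun s t e => hi s t (by simpa using e)
    obtain ⟨e, -, he, h0, hQ⟩ := h.loc.exists_sing_perp h.nd₀ ⊤
      (span F₀ {z₁, z₂, z₃, z₄} ⊔ span F₀ {y₁, y₂}) (by
        have := finrank_sup_le' (span F₀ {z₁, z₂, z₃, z₄}) (span F₀ {y₁, y₂})
        have := finrank_span_pair_le (F := F₀) y₁ y₂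
        have := finrank_span_four_le (F := F₀) z₁ z₂ z₃ z₄
        have := h.dim
        rw [finrank_top]; omega)
    rw [f₀.perp_sup, mem_inf, f₀.mem_perp_span, f₀.mem_perp_pair] at he
    refine h.line hR ho hm h0 hQ (h1 e (he.1 _ (by simp)) (he.1 _ (by simp)))
      (h3 e (he.1 _ (by simp)) (he.1 _ (by simp))) fun s t hst => ?_
    obtain ⟨r, hr⟩ := mem_span_singleton.1 hst
    have e1 := congrArg (f.B (jv φ k y₁)) hr
    have e2 := congrArg (f.B (jv φ k y₂)) hr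
    simp only [B_add_right, B_smul_right, h.B0 (f₀.B_zero_symm he.2.1), h.B0 (f₀.B_zero_symm he.2.2),
      mul_zero] at e1 e2
    constructor <;> rw [← T.σ_eq_zero] <;> apply mul_left_cancel₀ hd
    · linear_combination f.B (jv φ k y₁) b * e2 - f.B (jv φ k y₂) b * e1
    · linear_combination f.B (jv φ k y₂) a * e1 - f.B (jv φ k y₁) a * e2

theorem pt_of_perp {g : V ≃ₗ[F] V} (hg : g ∈ M) {W : Submodule F₀ (ι → F₀)} (hW : f₀.TS W)
    (d3 : 3 ≤ finrank F₀ W) (hp : ∀ u ∈ W, ∀ u' ∈ W, f.B (jv φ k u') (g (jv φ k u)) = 0)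
    {u : ι → F₀} (hu : u ∈ W) : Pt φ k (g (jv φ k u)) :=
  h.pt_of_RL hg hW d3 hu fun u' hu' ho hm hi => by
    obtain ⟨e, he, hn⟩ : ∃ e ∈ W, jv φ k e ∉ span F {g (jv φ k u), (T.σ l)⁻¹ • g (jv φ k u')} := by
      by_contra hc
      push Not at hc
      obtain ⟨u₁, hu₁, n1⟩ := exists_notMem_of_finrank_lt (U := ⊥) (W := W) (by rw [finrank_bot]; omega)
      obtain ⟨u₂, hu₂, u₃, hu₃, hi⟩ := exists_I3 d3 (u := u₁) (fun e => n1 (e ▸ zero_mem _))
      exact hi.jv.not_pair (hc _ hu₁) (hc _ hu₂) (hc _ hu₃)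
    refine h.line hR ho hm (fun e0 => hn (by simp [e0])) (hW.1 e he) (hp _ hu _ he)
      (by rw [B_smul_right, hp _ hu' _ he, mul_zero]) fun s t hst => ?_
    obtain ⟨r, hr⟩ := mem_span_singleton.1 hst
    rcases eq_or_ne r 0 with rfl | r0
    · exact hi s t (by rw [← hr, zero_smul])
    · exact (hn ((smul_mem_iff _ r0).1 (hr ▸ mem_span_pair.2 ⟨s, t, rfl⟩))).elim

end FS

section orth
variable {f₀ : CForm (FType.orth F₀) (ι → F₀)} {f : CForm (FType.orth F) V}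

theorem FS.orth_line [Finite F] (h : FS φ k M f₀ f l) (hR : ∀ c, FΛ φ k M f₀ f l c → ∃ a, φ a = c)
    {a b : V} (ho : f.EichOk a b 0) (hm : f.eich a b 0 ∈ M)
    (hi : ∀ s t : F, s • a + t • b = 0 → s = 0 ∧ t = 0) : RL φ k a b := by
  by_contra hn
  have ap : ∀ v, f.eich a b 0 v = v + f.B v b • a - f.B v a • b := fun v => by
    rw [ho.apply]; simp
  have hQb : f.Q b = 0 := ho.hc.symm
  have gp : ∀ e, f₀.Q e = 0 → f.B (jv φ k e) a = 0 → f.B (jv φ k e) b = 0 → e = 0 := by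
    intro e hQ ha hb
    by_contra h0
    refine hn ?_
    by_cases hi' : ∀ s t : F, s • a + t • b ∈ span F {jv φ k e} → s = 0 ∧ t = 0
    · exact h.line hR ho hm h0 hQ ha hb hi'
    push Not at hi'
    obtain ⟨s, t, hst, hne⟩ := hi'
    obtain ⟨r, hr⟩ := mem_span_singleton.1 hst
    have r0 : r ≠ 0 := fun r0 => by
      have := hi s t (by rw [← hr, r0, zero_smul])
      exact hne this.1 this.2
    obtain ⟨s', t', hd⟩ : ∃ s' t' : F, s / r * t' - t / r * s' = 1 := by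
      by_cases s0 : s = 0
      · exact ⟨-(r / t), 0, by have := hne s0; field_simp; simp⟩
      · exact ⟨0, r / s, by field_simp; simp⟩
    have e1 : jv φ k e = (s / r) • a + (t / r) • b := by
      rw [← one_smul F (jv φ k e), ← inv_mul_cancel₀ r0, mul_smul, hr]; module
    have b1 := f.B_self_of_Q ho.hu
    have b2 := f.B_self_of_Q hQb
    have b3 := ho.hv
    have b4 := f.B_zero_symm b3
    have ok : f.EichOk (jv φ k e) (s' • a + t' • b) 0 :=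
      ⟨h.Q hQ, by simp [f.B_zero_symm ha, f.B_zero_symm hb], by
        rw [f.Q_add_of_perp (by simp [b4]), f.Q_smul_of_Q ho.hu, f.Q_smul_of_Q hQb]; simp⟩
    have e2 : f.eich (jv φ k e) (s' • a + t' • b) 0 = f.eich a b 0 := LinearEquiv.ext fun v => by
      rw [ok.apply, ap, e1]
      simp only [B_add_right, B_smul_right, FType.orth_σ, FType.orth_ε]
      linear_combination (norm := module) (f.B v b * hd) • a - (f.B v a * hd) • b
    obtain ⟨y, r', hy⟩ := h.rat hR h0 hQ (ok.mem_Sg (e2 ▸ hm))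
    refine ⟨e, y, cramer (by rw [← e1]; exact subset_span (by simp))
      (hy ▸ mem_span_pair.2 ⟨r', _, add_comm _ _⟩) ?_⟩
    rw [hd]; exact one_ne_zero
  obtain ⟨W, -, hW, d5⟩ := h.exists_TS_ge TS_bot
  set β₁ : (ι → F₀) → F := fun u => f.B (jv φ k u) a with hβ₁
  set β₂ : (ι → F₀) → F := fun u => f.B (jv φ k u) b with hβ₂
  by_cases hΔ : ∀ u ∈ W, ∀ u' ∈ W, β₁ u * β₂ u' - β₂ u * β₁ u' = 0
  · obtain ⟨u₀, hu₀, n0⟩ := exists_notMem_of_finrank_lt (U := ⊥) (W := W) (by rw [finrank_bot]; omega)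
    rw [mem_bot] at n0
    obtain ⟨z, hz⟩ : ∃ z, f.B (jv φ k z) (β₂ u₀ • a - β₁ u₀ • b) ≠ 0 := by
      by_contra hc
      push Not at hc
      have := hi (β₂ u₀) (-β₁ u₀) (by rw [← h.eq_zero hc]; module)
      exact n0 (gp _ (hW.1 _ hu₀) (neg_eq_zero.1 this.2) this.1)
    obtain ⟨u, hu, u0, e, -⟩ := h.exists_ker_g d5 (fun u hu => h.pt_of_perp hR hm hW (by omega)
      (fun u hu u' hu' => by
        rw [ap, B_sub_right, B_add_right, B_smul_right, B_smul_right, h.B0 (hW.2 _ hu' _ hu)]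
        simp only [FType.orth_σ]
        linear_combination hΔ u' hu' u hu) hu) z z
    rw [ap, f.orth_symm] at e
    simp only [B_add_right, B_sub_right, B_smul_right, FType.orth_σ] at e hz
    have d := hΔ u hu u₀ hu₀
    simp only [hβ₁, hβ₂] at d hz
    refine u0 (gp _ (hW.1 _ hu) (mul_right_cancel₀ hz ?_) (mul_right_cancel₀ hz ?_))
    · linear_combination f.B (jv φ k u₀) a * e + f.B (jv φ k z) a * d
    · linear_combination f.B (jv φ k u₀) b * e + f.B (jv φ k z) b * d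
  push Not at hΔ
  obtain ⟨u₁, hu₁, u₂, hu₂, hδ⟩ := hΔ
  set δ := β₁ u₁ * β₂ u₂ - β₂ u₁ * β₁ u₂ with hδdef
  set w₁ := (β₂ u₂ / δ) • jv φ k u₁ - (β₂ u₁ / δ) • jv φ k u₂ with hw₁
  set w₂ := (β₁ u₁ / δ) • jv φ k u₂ - (β₁ u₂ / δ) • jv φ k u₁ with hw₂
  have m1 : w₁ ∈ up φ k W := sub_mem (smul_mem _ _ (up_mem hu₁)) (smul_mem _ _ (up_mem hu₂))
  have m2 : w₂ ∈ up φ k W := sub_mem (smul_mem _ _ (up_mem hu₂)) (smul_mem _ _ (up_mem hu₁))
  have w1a : f.B w₁ a = 1 := by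
    rw [hw₁, B_sub_left, B_smul_left, B_smul_left]; change _ * β₁ u₁ - _ * β₁ u₂ = 1; field_simp; ring
  have w1b : f.B w₁ b = 0 := by
    rw [hw₁, B_sub_left, B_smul_left, B_smul_left]; change _ * β₂ u₁ - _ * β₂ u₂ = 0; ring
  have w2a : f.B w₂ a = 0 := by
    rw [hw₂, B_sub_left, B_smul_left, B_smul_left]; change _ * β₁ u₂ - _ * β₁ u₁ = 0; ring
  have w2b : f.B w₂ b = 1 := by
    rw [hw₂, B_sub_left, B_smul_left, B_smul_left]; change _ * β₂ u₂ - _ * β₂ u₁ = 1; field_simp; ring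
  clear_value w₁ w₂
  set R := up φ k W ⊓ f.perp (span F {a, b}) with hRdef
  have r1 : ∀ u ∈ W, jv φ k u - β₁ u • w₁ - β₂ u • w₂ ∈ R := fun u hu =>
    ⟨sub_mem (sub_mem (up_mem hu) (smul_mem _ _ m1)) (smul_mem _ _ m2),
      f.mem_perp_pair.2 ⟨by simp [w1a, w2a, hβ₁], by simp [w1b, w2b, hβ₂]⟩⟩
  have upp : ∀ u ∈ W, ∀ u' ∈ W, ∃ g ∈ M ⊓ fixSub R,
      Act R g w₁ (-b) 1 (-(l⁻¹ * (β₁ u * β₂ u' - β₂ u * β₁ u'))) 0 1 ∧
      Act R g w₂ a 1 (-(l⁻¹ * (β₁ u * β₂ u' - β₂ u * β₁ u'))) 0 1 := fun u hu u' hu' => by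
    have ok : f₀.EichOk u u' 0 := ⟨hW.1 u hu, hW.2 _ hu' _ hu, by simp [hW.1 u' hu']⟩
    have fx : ∀ v ∈ up φ k W, f.eich (jv φ k u) (((FType.orth F).σ l)⁻¹ • jv φ k u') (φ 0 / l) v = v :=
      fun v hv => eich_fix _ (h.TS_up hW hv hu) (by rw [B_smul_right, h.TS_up hW hv hu', mul_zero])
    refine ⟨_, ⟨h.eich_mem ok, fun v hv => fx v hv.1⟩, ⟨by rw [fx _ m1]; simp, ?_⟩,
      ⟨by rw [fx _ m2]; simp, ?_⟩⟩
    · convert sub_mem (smul_mem R (l⁻¹ * β₂ u) (r1 u' hu')) (smul_mem R (l⁻¹ * β₂ u') (r1 u hu)) using 1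
      rw [(h.ok ok).apply]
      simp only [B_smul_left, map_neg, LinearMap.neg_apply, f.orth_symm _ b, FType.orth_σ,
        FType.orth_ε, map_zero, hβ₂]
      module
    · convert sub_mem (smul_mem R (l⁻¹ * β₁ u') (r1 u hu)) (smul_mem R (l⁻¹ * β₁ u) (r1 u' hu')) using 1
      rw [(h.ok ok).apply]
      simp only [B_smul_left, f.orth_symm _ a, FType.orth_σ, FType.orth_ε, map_zero, hβ₁]
      module
  obtain ⟨u₃, hu₃, u₄, hu₄, n1, n2⟩ : ∃ u ∈ W, ∃ u' ∈ W, β₁ u * β₂ u' - β₂ u * β₁ u' ≠ 0 ∧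
      δ ≠ β₁ u * β₂ u' - β₂ u * β₁ u' := by
    by_contra hc
    push Not at hc
    have hc' : ∀ u ∈ W, ∀ u' ∈ W, ∃ t, φ t * δ = β₁ u * β₂ u' - β₂ u * β₁ u' := fun u hu u' hu' => by
      by_cases e : β₁ u * β₂ u' - β₂ u * β₁ u' = 0
      · exact ⟨0, by simp [e]⟩
      · exact ⟨1, by simp [hc u hu u' hu' e]⟩
    obtain ⟨u, hu, hn⟩ := exists_notMem_of_finrank_lt (U := span F₀ {u₁, u₂}) (W := W) (by
      have := finrank_span_pair_le (F := F₀) u₁ u₂; omega)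
    obtain ⟨t₁, e1⟩ := hc' u hu u₂ hu₂
    obtain ⟨t₂, e2⟩ := hc' u₁ hu₁ u hu
    have m : u - t₁ • u₁ - t₂ • u₂ ∈ W := sub_mem (sub_mem hu (smul_mem _ _ hu₁)) (smul_mem _ _ hu₂)
    have := gp _ (hW.1 _ m) (mul_right_cancel₀ hδ (by
      simp only [jv_sub, jv_smul, B_sub_left, B_smul_left]
      change (β₁ u - _ * β₁ u₁ - _ * β₁ u₂) * _ = _
      linear_combination (-β₁ u₁) * e1 - β₁ u₂ * e2)) (mul_right_cancel₀ hδ (by
      simp only [jv_sub, jv_smul, B_sub_left, B_smul_left]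
      change (β₂ u - _ * β₂ u₁ - _ * β₂ u₂) * _ = _
      linear_combination (-β₂ u₁) * e1 - β₂ u₂ * e2))
    exact hn (mem_span_pair.2 ⟨t₁, t₂, by linear_combination (norm := module) -this⟩)
  have l0 := inv_ne_zero h.ne
  refine noGen (M ⊓ fixSub R) (R := R) (fun g hg r hr => by rw [hg.2 r hr]; exact hr) _ _ _ _ ?_
    ⟨hm, fun r hr => eich_fix _ (f.mem_perp_pair.1 hr.2).1 (f.mem_perp_pair.1 hr.2).2⟩ one_ne_zero
    ⟨by simp [ap, w1a, w1b], by simp [ap, ho.hv, f.B_self_of_Q hQb]⟩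
    ⟨by simp [ap, w2a, w2b], by simp [ho.apply_self]⟩
    (neg_ne_zero.2 (mul_ne_zero l0 hδ)) (neg_ne_zero.2 (mul_ne_zero l0 n1))
    (fun e => n2 (mul_left_cancel₀ l0 (neg_injective e))) (upp _ hu₁ _ hu₂) (upp _ hu₃ _ hu₄)
  rintro g ⟨hg, hfix⟩ α β δ' - ⟨a1, -⟩ ⟨a2, -⟩
  rw [zero_smul, sub_zero] at a1 a2
  by_contra hα
  have g1 : g w₁ - w₁ ∈ up φ k W := by
    have := sub_mem (add_mem a1.1 (smul_mem _ α m1)) m1
    rwa [sub_add_cancel] at this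
  have g1' : g w₂ - w₂ ∈ up φ k W := by
    have := sub_mem (add_mem a2.1 (smul_mem _ α m2)) m2
    rwa [sub_add_cancel] at this
  have g2 : ∀ u ∈ W, g (jv φ k u) - jv φ k u = β₁ u • (g w₁ - w₁) + β₂ u • (g w₂ - w₂) := fun u hu => by
    have := hfix _ (r1 u hu)
    rw [map_sub, map_sub, map_smul, map_smul] at this
    linear_combination (norm := module) this
  obtain ⟨z, z', -, -, hd⟩ := h.exists_det (e := 0) (a := g w₁ - w₁) (b := g w₂ - w₂) fun s t e => by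
    rw [jv_zero, span_zero_singleton, mem_bot] at e
    obtain ⟨c1, c2⟩ := f.mem_perp_pair.1 a1.2
    obtain ⟨c3, c4⟩ := f.mem_perp_pair.1 a2.2
    have e1 := congrArg (f.B · a) e
    have e2 := congrArg (f.B · b) e
    simp only [B_add_left, B_sub_left, B_smul_left, w1a, w1b, w2a, w2b, map_zero,
      LinearMap.zero_apply] at c1 c2 c3 c4 e1 e2
    constructor <;> apply mul_left_cancel₀ (sub_ne_zero.2 hα)
    · linear_combination e1 - s * c1 - t * c3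
    · linear_combination e2 - s * c2 - t * c4
  obtain ⟨u, hu, u0, e1, e2⟩ := h.exists_ker_g d5 (fun u hu => h.pt_of_perp hR hg hW (by omega)
    (fun u hu u' hu' => f.B_zero_symm (h.TS_up hW (by
      rw [← sub_add_cancel (g _) (jv φ k u), g2 u hu]
      exact add_mem (add_mem (smul_mem _ _ g1) (smul_mem _ _ g1')) (up_mem hu)) hu')) hu) z z'
  rw [g2 u hu, f.orth_symm, B_add_right, B_smul_right, B_smul_right, FType.orth_σ, FType.orth_σ] at e1 e2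
  refine u0 (gp _ (hW.1 _ hu) (mul_left_cancel₀ hd ?_) (mul_left_cancel₀ hd ?_))
  · linear_combination f.B (jv φ k z') (g w₂ - w₂) * e1 - f.B (jv φ k z) (g w₂ - w₂) * e2
  · linear_combination f.B (jv φ k z) (g w₁ - w₁) * e2 - f.B (jv φ k z') (g w₁ - w₁) * e1

end orth

theorem FS.E_le_symp [Finite F] {f₀ : CForm (FType.symp F₀) (ι → F₀)} {f : CForm (FType.symp F) V}
    (h : FS φ k M f₀ f l)
    (hS : ∀ p, f₀.Q p = 0 → ∀ v, f.B v (jv φ k p) = 0 → v ∈ f.Sg M (jv φ k p)) : f.E ≤ M := by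
  by_cases h2 : (2 : F) = 0
  swap
  · exact h.E_le_odd (FType.symp_odd h2) hS
  refine h.E_le_of hS fun u u0 hu c _ => ?_
  haveI : CharP F 2 := CharTwo.of_one_ne_zero_of_two_eq_zero one_ne_zero h2
  obtain ⟨a, ha⟩ := FiniteField.isSquare_of_char_two (ringChar.eq F 2) (c * l)
  rcases eq_or_ne a 0 with rfl | a0
  · rw [mul_zero, mul_eq_zero] at ha
    rw [ha.resolve_right h.ne, eich_zero_zero]; exact M.one_mem
  obtain ⟨p, w, a1, a2, a3, a4, a5⟩ := h.pair_perp (span F₀ {u})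
    ((finrank_span_singleton_le _).trans (by norm_num))
  rw [f₀.mem_perp_singleton] at a1 a2
  obtain ⟨w', b1, b2⟩ := h.nd₀.exists_perp_B_eq (U := span F₀ {p}) (v := u) (fun hm => by
    obtain ⟨s, rfl⟩ := mem_span_singleton.1 hm
    have : s ≠ 0 := fun e => u0 (by simp [e])
    exact a5 (mem_span_singleton.2 ⟨s⁻¹, by simp [smul_smul, this]⟩)) 1
  rw [f₀.mem_perp_singleton] at b1
  have l0 := h.ne
  obtain ⟨c₁, o1, m1⟩ := (CForm.mem_Sg (h.Q hu)).1 (hS u hu ((a / l) • jv φ k w) (by simp [h.B0 a2]))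
  obtain ⟨c₂, o2, m2⟩ := (CForm.mem_Sg (h.Q a3)).1 (hS p a3 ((a⁻¹ / l) • jv φ k w') (by simp [h.B0 b1]))
  have e1 : f.eich (jv φ k u) ((a / l) • jv φ k w) c₁ (jv φ k p) = jv φ k p + a • jv φ k u := by
    rw [o1.apply, h.B0 a1, B_smul_right, h.B, a4]; simp [l0]
  have e2 : f.eich (jv φ k p) ((a⁻¹ / l) • jv φ k w') c₂ (jv φ k u) = jv φ k u + a⁻¹ • jv φ k p := by
    rw [o2.apply, h.B0 (f₀.B_zero_symm a1), B_smul_right, h.B, b2]; simp [l0]
  have m3 := h.conj_mem m1 (u := p) (v := 0) (c := 1) ⟨a3, by simp, by simp⟩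
  have e3 : jv φ k p + a • jv φ k u = a • (jv φ k u + a⁻¹ • jv φ k p) := by
    rw [smul_add, smul_smul, mul_inv_cancel₀ a0, one_smul, add_comm]
  simp only [jv_zero, smul_zero, map_zero, map_one] at m3
  rw [e1, e3, eich_smul (f.symp_B_self _) (by simp), smul_zero, ← e2,
    ← map_zero (f.eich (jv φ k p) ((a⁻¹ / l) • jv φ k w') c₂), ← eich_conj o2.mem_iso] at m3
  have m4 := M.mul_mem (M.mul_mem (M.inv_mem m2) m3) m2
  simp only [mul_assoc, inv_mul_cancel, mul_one, inv_mul_cancel_left] at m4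
  convert m4 using 2
  simp only [FType.symp_σ]
  field_simp
  linear_combination ha

theorem RS.isMaximalIn [FiniteDimensional F V] (h : RS φ k f₀ f l) (hp : PD φ) (hs : ∃ x, ∀ a, φ a ≠ x)
    (h1 : ∀ M, FS φ k M f₀ f l →
      (∀ p, f₀.Q p = 0 → ∀ v, f.B v (jv φ k p) = 0 → v ∈ f.Sg M (jv φ k p)) → f.E ≤ M)
    (h2 : ∀ M, FS φ k M f₀ f l → (∀ c, FΛ φ k M f₀ f l c → ∃ a, φ a = c) → M ≤ RN φ k) :
    Geo.IsMaximalIn f.E (RN φ k ⊓ f.E) := by
  refine isMaximalIn_of inf_le_right ?_ fun M m1 m2 g hg hn => ?_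
  · obtain ⟨x, hx⟩ := hs
    obtain ⟨p, -, p0, hp⟩ := h.big_top.sing
    obtain ⟨z, -, z', -, b1, b2, b3⟩ := h.exists_zz h.big_top mem_top p0 hp
    obtain ⟨c, ok⟩ := exists_eichOk (f := f) (h.Q hp) (v := (T.σ (x / l)) • jv φ k z') (by simp [h.B0 b2])
    refine ⟨_, ok.mem_E, fun ⟨⟨μ, h0, hμ⟩, _⟩ => ?_⟩
    obtain ⟨y, hy⟩ := hμ z
    rw [ok.apply, h.B0 b1, zero_smul, sub_zero, B_smul_right, T.σσ, h.B, b3, map_one, mul_one,
      div_mul_cancel₀ _ h.ne, ← one_smul F (jv φ k z)] at hy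
    have n1 : z ∉ span F₀ {p} := fun hm => by
      obtain ⟨s, rfl⟩ := mem_span_singleton.1 hm
      simp [f₀.B_zero_symm b2] at b3
    have n2 : p ∉ span F₀ {z} := fun hm => by
      obtain ⟨s, rfl⟩ := mem_span_singleton.1 hm
      have := f₀.B_zero_symm b2
      rw [B_smul_left, b3, mul_one] at this
      simp [this] at p0
    obtain ⟨t, ht⟩ := ratio n2 hy
    obtain ⟨t', ht'⟩ := ratio n1 ((add_comm _ _).trans hy)
    refine hx (t / t') ?_
    rw [map_div₀, ht, div_eq_iff (right_ne_zero_of_mul_eq_one ht'.symm)]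
    linear_combination φ t * ht'
  · have fs : FS φ k M f₀ f l :=
      { h with le := fun g hg => m1 ⟨bk_mem_RN φ k g, h.bk_mem_E hg⟩, iso := m2.trans E_le_iso }
    rcases fs.dich hp with e | e
    · exact h1 M fs e
    · exact (hn ⟨h2 M fs e hg, m2 hg⟩).elim

end Cfsg.Agent.H4.Sf
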