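import Cfsg.Agent.H4.Sf4

/-! Maximality of subfield subgroups of classical groups. -/

set_option autoImplicit false

namespace Cfsg.Agent.H4.Sf

open Module Submodule CForm

variable {F : Type*} [Field F] {V : Type*} [AddCommGroup V] [Module F V]
  {ι : Type} [Fintype ι] [DecidableEq ι] {F₀ : Type*} [Field F₀] {φ : F₀ →+* F}
  {k : (ι → F) ≃ₗ[F] V} {T : FType F} {l : F}

omit [Fintype ι] [DecidableEq ι] in
theorem exists_b {f : CForm T V} (h0 : l ≠ 0) (h : ∀ x y, ∃ t, φ t = l⁻¹ * f.B (jv φ k x) (jv φ k y)) :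
    ∃ b : (ι → F₀) → (ι → F₀) → F₀, (∀ x y, f.B (jv φ k x) (jv φ k y) = l * φ (b x y)) ∧
      (∀ x y z, b (x + y) z = b x z + b y z) ∧ ∀ (a : F₀) x y, b (a • x) y = a * b x y := by
  choose b hb using h
  refine ⟨b, fun x y => by rw [hb, mul_inv_cancel_left₀ h0], fun x y z => φ.injective ?_,
    fun a x y => φ.injective ?_⟩
  · rw [map_add, hb, hb, hb, jv_add, B_add_left, mul_add]
  · rw [map_mul, hb, hb, jv_smul, B_smul_left, mul_left_comm]

variable [Finite F] [FiniteDimensional F V] (hp : PD φ) (hs : ∃ x, ∀ a, φ a ≠ x)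
  (hd : 13 ≤ Fintype.card ι)
include hp hs hd

theorem symp_max {f : CForm (FType.symp F) V} (hf : f.Nondeg) (h0 : l ≠ 0)
    (h : ∀ x y, ∃ t, φ t = l⁻¹ * f.B (jv φ k x) (jv φ k y)) : Geo.IsMaximalIn f.E (RN φ k ⊓ f.E) := by
  obtain ⟨b, hb, h1, h2⟩ := exists_b h0 h
  let f₀ := mkAlt b h1 h2 (fun x y => φ.injective (mul_left_cancel₀ h0 (by
    rw [map_neg, mul_neg, ← hb, ← hb, f.symp_skew])))
    fun x => φ.injective (mul_left_cancel₀ h0 (by rw [← hb, f.symp_B_self]; simp))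
  have rs : RS φ k f₀ f l := ⟨h0, fun _ => rfl, by simp, hb, fun v c _ => by simp [f.symp_Q], hf,
    f₀.symp_loc.mono (by norm_num), by simpa using hd⟩
  exact rs.isMaximalIn hp hs (fun M fs => fs.E_le_symp) fun M fs hR => fs.le_RN_tv hR one_ne_zero rfl

theorem orth_max {f : CForm (FType.orth F) V} (hf : f.Nondeg) (h0 : l ≠ 0)
    (h : ∀ x, ∃ t, φ t = l⁻¹ * f.Q (jv φ k x)) : Geo.IsMaximalIn f.E (RN φ k ⊓ f.E) := by
  haveI : Finite F₀ := Finite.of_injective φ φ.injective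
  choose Q hQ using h
  have hb : ∀ x y, φ (QuadraticMap.polar Q x y) = l⁻¹ * f.B (jv φ k x) (jv φ k y) := fun x y => by
    rw [QuadraticMap.polar, map_sub, map_sub, hQ, hQ, hQ, f.orth_B_eq, jv_add]; ring
  let f₀ := mkQuad Q (fun a x => φ.injective (by
      rw [map_mul, hQ, hQ, jv_smul, f.orth_Q_smul, map_pow]; ring))
    (fun x y z => φ.injective (by rw [map_add, hb, hb, hb, jv_add, B_add_left, mul_add]))
    (fun a x y => φ.injective (by rw [map_mul, hb, hb, jv_smul, B_smul_left, mul_left_comm]))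
  have rs : RS φ k f₀ f l := ⟨h0, fun _ => rfl, by simp,
    fun x y => by rw [mkQuad_B, hb, mul_inv_cancel_left₀ h0], fun v c hc => by
      rw [FType.orth_τ, mkQuad_Q] at hc
      rw [FType.orth_τ, FType.orth_σ, f.orth_Q_smul, hc, hQ]
      field_simp, hf, f₀.orth_loc, by simpa using hd⟩
  exact rs.isMaximalIn hp hs (fun M fs => fs.E_le_odd (FType.orth_odd F)) fun M fs hR =>
    fs.le_RN_of_RL fun a b ho hm hi => fs.orth_line hR ho hm hi

variable {σ : F →+* F} {hσσ : ∀ a, σ (σ a) = a} (hσ : σ ≠ RingHom.id F)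
  {f : CForm (FType.unit σ hσσ) V} (hf : f.Nondeg)
include hσ hf

theorem unit_max {σ₀ : F₀ →+* F₀} (hσ₀ : σ₀ ≠ RingHom.id F₀) (hc : ∀ a, σ (φ a) = φ (σ₀ a))
    (h : ∀ x y, ∃ t, φ t = f.B (jv φ k x) (jv φ k y)) : Geo.IsMaximalIn f.E (RN φ k ⊓ f.E) := by
  haveI : Finite F₀ := Finite.of_injective φ φ.injective
  obtain ⟨b, hb, h1, h2⟩ := exists_b (f := f) (l := 1) one_ne_zero (by simpa using h)
  simp only [one_mul] at hb
  have hh : ∀ a, σ₀ (σ₀ a) = a := fun a => φ.injective (by rw [← hc, ← hc, hσσ])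
  let f₀ := mkHerm σ₀ hh hσ₀ b h1 h2 fun x y => φ.injective (by rw [← hc, ← hb, ← hb, f.unit_symm])
  have rs : RS φ k f₀ f 1 := ⟨one_ne_zero, hc, by simp, fun x y => by rw [one_mul]; exact hb x y,
    fun v c e => by
      rw [FType.unit_τ, mkHerm_Q] at e
      rw [div_one, FType.unit_τ, map_one, inv_one, one_smul, f.unit_Q, hb, ← e, hc, map_add], hf,
    (f₀.unit_loc hσ₀).mono (by norm_num), by simpa using hd⟩
  obtain ⟨c, c0, hc⟩ := exists_trace_zero hσ₀ hh
  exact rs.isMaximalIn hp hs (fun M fs => fs.E_le_odd (FType.unit_odd _ hσ)) fun M fs hR =>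
    fs.le_RN_tv hR c0 hc

theorem unit_orth_max (h2 : (2 : F₀) ≠ 0) (hc : ∀ a, σ (φ a) = φ a)
    (hθ : ∃ θ : F, ∀ x, ∃ s t, x = φ s + θ * φ t)
    (h : ∀ x y, ∃ t, φ t = f.B (jv φ k x) (jv φ k y)) : Geo.IsMaximalIn f.E (RN φ k ⊓ f.E) := by
  haveI : Finite F₀ := Finite.of_injective φ φ.injective
  obtain ⟨b, hb, h1, h3⟩ := exists_b (f := f) (l := 1) one_ne_zero (by simpa using h)
  simp only [one_mul] at hb
  let f₀ := mkSymm h2 b h1 h3 fun x y => φ.injective (by rw [← hc (b x y), ← hb, ← hb, f.unit_symm])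
  have rs : RS φ k f₀ f 1 := ⟨one_ne_zero, hc, by simp, fun x y => by rw [one_mul]; exact hb x y,
    fun v c e => by
      rw [FType.orth_τ, mkSymm_Q] at e
      rw [div_one, FType.unit_τ, map_one, inv_one, one_smul, f.unit_Q, hb, hc, ← map_add, e]
      congr 1
      field_simp
      ring, hf, f₀.orth_loc, by simpa using hd⟩
  exact rs.isMaximalIn hp hs (fun M fs => fs.E_le_odd (FType.unit_odd _ hσ)) fun M fs hR =>
    fs.le_RN_two hR hθ

theorem unit_symp_max (h0 : l ≠ 0) (hl : σ l = -l) (hc : ∀ a, σ (φ a) = φ a)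
    (h : ∀ x y, ∃ t, φ t = l⁻¹ * f.B (jv φ k x) (jv φ k y))
    (ha : ∀ x, f.B (jv φ k x) (jv φ k x) = 0) : Geo.IsMaximalIn f.E (RN φ k ⊓ f.E) := by
  obtain ⟨b, hb, h1, h2⟩ := exists_b h0 h
  let f₀ := mkAlt b h1 h2 (fun x y => φ.injective (mul_left_cancel₀ h0 (by
    rw [← hb, f.unit_symm, hb, map_mul, hl, hc, map_neg]; ring)))
    fun x => φ.injective (mul_left_cancel₀ h0 (by rw [← hb, ha]; simp))
  have rs : RS φ k f₀ f l := ⟨h0, hc, by simp [hl], hb, fun v c _ => by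
      rw [FType.unit_τ, f.Q_smul, f.unit_Q, ha, map_div₀, hc, hl]; ring, hf,
    f₀.symp_loc.mono (by norm_num), by simpa using hd⟩
  exact rs.isMaximalIn hp hs (fun M fs => fs.E_le_odd (FType.unit_odd _ hσ)) fun M fs hR =>
    fs.le_RN_tv hR one_ne_zero rfl

omit hp hs hd hσ hf

omit [Finite F] in
theorem exists_theta [Fintype F] (F₀ : Subfield F) (h : Fintype.card F = Nat.card F₀ ^ 2) :
    ∃ θ : F, ∀ x, ∃ s t, x = F₀.subtype s + θ * F₀.subtype t := by
  have hd : finrank F₀ F = 2 := by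
    haveI := Fintype.ofFinite F₀
    have := Module.card_eq_pow_finrank (K := F₀) (V := F)
    rw [h, Nat.card_eq_fintype_card] at this
    exact (Nat.pow_right_injective Fintype.one_lt_card this).symm
  let b := Module.finBasisOfFinrankEq F₀ F hd
  refine ⟨b 1 / b 0, fun x => ⟨b.repr (x * b 0) 0, b.repr (x * b 0) 1, ?_⟩⟩
  have := b.sum_repr (x * b 0)
  rw [Fin.sum_univ_two] at this
  have h0 := b.ne_zero 0
  simp only [Subfield.smul_def, smul_eq_mul] at this
  simp only [Subfield.coe_subtype]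
  field_simp
  linear_combination -this

omit [Finite F] in
theorem pow_eq_of_sq [Fintype F] {q : ℕ} (hF : Fintype.card F = q ^ 2) (F₀ : Subfield F)
    (h : Fintype.card F = Nat.card F₀ ^ 2) (a : F₀) : (a : F) ^ q = a := by
  haveI := Fintype.ofFinite F₀
  have : Fintype.card F₀ = q := by
    rw [hF, Nat.card_eq_fintype_card] at h
    exact (Nat.pow_left_injective two_ne_zero h).symm
  rw [← this, ← SubmonoidClass.coe_pow, FiniteField.pow_card]

omit [Finite F] in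
theorem isMaximalIn_geo {K : Subgroup (GL ι F)} {K' : Subgroup ((ι → F) ≃ₗ[F] (ι → F))}
    (hK : ∀ g, g ∈ K ↔ glE g ∈ K') {F₀ : Subfield F} {P : GL ι F}
    (h : Geo.IsMaximalIn K' (RN F₀.subtype (glE P) ⊓ K')) :
    Geo.IsMaximalIn K (Geo.subfieldSubgroup F₀ P ⊓ K) :=
  isMaximalIn_of_glE (H' := RN F₀.subtype (glE P) ⊓ K') hK (fun g => and_congr (mem_subfieldSubgroup F₀ P g) (hK g)) h

end Cfsg.Agent.H4.Sf
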