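import Cfsg.Agent.H4.GeoL

/-! Similarity groups of forms are maximal in `SL` in dimension at least five. -/

namespace Cfsg.Agent.H4.CForm
open Module Submodule

variable {F : Type*} [Field F] {V : Type*} [AddCommGroup V] [Module F V] [FiniteDimensional F V]
  {M : Subgroup (V ≃ₗ[F] V)}

section gen
variable {T : FType F} {f : CForm T V} {l : ℕ}

theorem Nondeg.big_pair (hf : f.Nondeg) (hL : f.Loc l) (h5 : 5 ≤ finrank F V) (hl : l + 2 ≤ finrank F V)
    {p w : V} (hQ : f.Q p = 0) (hQ' : f.Q w = 0) (hB : f.B p w = 1) : f.Big (f.perp (span F {p, w})) := by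
  have := hf.finrank_perp_pair hQ (w := w) (by simp [hB])
  exact hL.big (hf.perp_inf_perp_perp (pair_nondeg hQ hQ' (by simp [hB]))) (by omega) (by omega)

theorem Nondeg.SL_of_dt (hf : f.Nondeg) (hL : f.Loc l) (h5 : 5 ≤ finrank F V) (hl : l + 2 ≤ finrank F V)
    (hT : ∀ v, f.B v v = 0 → f.Q v = 0) (hE : f.E ≤ M) {a y : V} (h0 : y ≠ 0) (ha : a ∉ span F {y})
    (hB : f.B a y = 0) (h : dt (f.fn y) a ∈ M) : SLg F V ≤ M := by
  have sp : ∀ {p w y : V}, f.Q p = 0 → f.B p w = 1 → f.B y p = 0 → y ∈ f.perp (f.perp (span F {p, w})) →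
      y ∈ span F {p} := fun {p w y} hp hw hy h => by
    rw [hf.perp_perp] at h
    obtain ⟨a, b, rfl⟩ := mem_span_pair.1 h
    have : b = 0 := by simpa [f.B_self_of_Q hp, B_partner_symm hw, T.ε_ne] using hy
    simp [this, smul_mem, mem_span_singleton_self]
  obtain ⟨U, hU, h1, h2⟩ : ∃ U, f.Big U ∧ y ∈ f.perp U ∧ a ∉ f.perp U := by
    by_cases e : f.B y y = 0
    · obtain ⟨w, hw, hw'⟩ := hf.exists_pair h0 (hT y e)
      exact ⟨_, hf.big_pair hL h5 hl (hT y e) hw hw', f.le_perp_perp _ (subset_span (by simp)),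
        fun h => ha (sp (hT y e) hw' hB h)⟩
    · have := hf.finrank_perp (span F {y})
      have := finrank_span_singleton_le (F := F) y
      exact ⟨_, hL.big (hf.perp_inf_perp_perp (singleton_nondeg e)) (by omega) (by omega),
        f.le_perp_perp _ (mem_span_singleton_self y), by rwa [hf.perp_perp]⟩
  obtain ⟨p, hp, p0, hQ⟩ := hU.sing
  have h3 : p ∈ cns M (f.fn y) := hU.irr hf (fun g hg x hx => by
    have e := EU_fix hg h1
    have := dt_mem_of_conj (hE (EU_le_E _ hg)) hx.2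
    rw [fn_comp_inv (EU_le_iso _ hg), e] at this
    exact ⟨by rw [fn_apply, ← e, iso_B (EU_le_iso _ hg)]; exact hx.1, this⟩) (mem_cns.2 ⟨hB, h⟩) h2 hp
  obtain ⟨w, hw, hw'⟩ := hf.exists_pair p0 hQ
  have := hf.mem_cen_of_Ax' hE hQ hw hw' (hf.big_pair hL h5 hl hQ hw hw') (y := y) h3 fun e => by
    obtain ⟨c, rfl⟩ := mem_span_singleton.1 (sp hQ hw' (h1 p hp) e)
    exact h0 ((mem_bot F).1 (hU.nd.le ⟨smul_mem _ _ hp, h1⟩))
  exact SLg_le_of_cen ((hf.big_top hL (by omega) (by omega)).eq_top_of_E hf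
    (fun g hg _ hx => map_mem_cen (hE hg) hx) fun e => p0 ((mem_bot F).1 (e.le this)))

theorem Nondeg.isMaximalIn_simB_tau (hf : f.Nondeg) (hL : f.Loc l) (h5 : 5 ≤ finrank F V)
    (hl : l + 2 ≤ finrank F V) (hT : ∀ v, f.B v v = 0 → f.Q v = 0) (hτ : ∃ c : F, c ≠ 0 ∧ T.τ c = 0) :
    Geo.IsMaximalIn (SLg F V) (f.simB ⊓ SLg F V) := by
  have hb := hf.big_top hL (by omega) (by omega)
  obtain ⟨c, c0, hc⟩ := hτ
  refine isMaximalIn_of inf_le_right ?_ fun M hM hM' g hg hg' => by_contra fun hS => hg' ⟨?_, hM' hg⟩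
  · obtain ⟨g, h1, h2⟩ := hb.exists_SLg_not_simB hf
    exact ⟨g, h1, fun h => h2 h.1⟩
  have hE := (le_inf (E_le_iso.trans iso_le_simB) E_le_ker_det).trans hM
  have key : ∀ p, p ≠ 0 → f.Q p = 0 → ∃ a, ∀ x, f.B (g x) (g p) = a * f.B x p := fun p p0 hp => by
    have h1 := dt_mem_of_conj hg (f.tv_eq_dt p c ▸ hE (tv_mem_E hp hc))
    obtain ⟨y, hy⟩ := hf.exists_rep ((c • f.fn p) ∘ₗ ((g⁻¹ : V ≃ₗ[F] V) : V →ₗ[F] V))
    rw [show _ ∘ₗ _ = f.fn y from LinearMap.ext hy] at h1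
    replace hy : ∀ x, f.B (g x) y = c * f.B x p := fun x => by rw [← hy]; simp
    obtain ⟨a, ha⟩ := mem_span_singleton.1 (by_contra fun e => hS (hf.SL_of_dt hL h5 hl hT hE (by
      rintro rfl
      obtain ⟨x, hx⟩ := hf.exists_B_ne p0
      exact f.B_ne_symm hx (by simpa [c0] using hy x)) e (by simp [hy, f.B_self_of_Q hp]) h1))
    exact ⟨T.σ a * c, fun x => by simp [← ha, hy, mul_assoc]⟩
  obtain ⟨u, -, u0, hu⟩ := hb.sing
  obtain ⟨a, ha⟩ := key u u0 hu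
  let C : AddSubgroup V :=
    { carrier := {y | ∀ x, f.B (g x) (g y) = a * f.B x y}
      zero_mem' := by simp
      add_mem' := fun {y y'} h1 h2 x => by simp [h1 x, h2 x, mul_add]
      neg_mem' := fun {y} h1 x => by simp [h1 x] }
  refine ⟨a, fun e => u0 ?_, fun x y => hb.mem_of_sing (A := C) (fun p _ hp x => ?_) trivial x⟩
  · simpa using hf.eq_of_B' (x := g u) (y := 0) fun x => by simpa [e] using ha (g⁻¹ x)
  by_cases e : p ∈ span F {u}
  · obtain ⟨d, rfl⟩ := mem_span_singleton.1 e; simp [ha, mul_left_comm]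
  obtain ⟨d, d0, hd⟩ : ∃ d : F, d ≠ 0 ∧ f.Q (u + d • p) = 0 := by
    by_cases e : f.B u p = 0
    · exact ⟨1, one_ne_zero, by rw [f.Q_add_smul hp]; simp [hu, e]⟩
    · exact ⟨T.σ (c / f.B u p), T.σ_ne_zero (div_ne_zero c0 e), by
        rw [f.Q_add_smul hp, hu, T.σσ, div_mul_cancel₀ _ e, hc, zero_add]⟩
  have p0 : p ≠ 0 := by rintro rfl; simp at e
  have e' : u ∉ span F {p} := by simpa using notMem_sup_span_swap (F := F) (U := ⊥) (by simpa) (by simpa using e)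
  obtain ⟨a', ha'⟩ := key p p0 hp
  obtain ⟨b, hb⟩ := key _ (fun h => e' (by
    rw [eq_neg_of_add_eq_zero_left h]; exact neg_mem (smul_mem _ _ (mem_span_singleton_self p)))) hd
  simp only [map_add, LinearMap.map_smulₛₗ, map_smul, ha, ha', smul_eq_mul] at hb
  obtain ⟨z, hz, z1⟩ := hf.exists_perp_B_eq e 1
  obtain ⟨z', hz', z2⟩ := hf.exists_perp_B_eq e' 1
  have h1 := hb z
  have h2 := hb z'
  rw [f.mem_perp_singleton.1 hz, B_partner_symm z1] at h1
  rw [f.mem_perp_singleton.1 hz', B_partner_symm z2] at h2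
  have := T.σ_ne_zero d0
  have := T.ε_ne
  rw [ha', show a' = a by grind]

end gen

variable [Finite F] {f : CForm (FType.orth F) V}

theorem Nondeg.orth_SL_of_dt (hf : f.Nondeg) (h2 : (2 : F) ≠ 0) (h5 : 5 ≤ finrank F V) (hE : f.E ≤ M) {a y : V}
    (h0 : y ≠ 0) (ha : a ∉ span F {y}) (hB : f.B a y = 0) (h : dt (f.fn y) a ∈ M) : SLg F V ≤ M :=
  hf.SL_of_dt (orth_loc f) h5 h5 (fun v hv => by simpa [orth_B_self, h2] using hv) hE h0 ha hB h

theorem Nondeg.orth_SL_of_tv (hf : f.Nondeg) (h2 : (2 : F) ≠ 0) (h5 : 5 ≤ finrank F V) (hE : f.E ≤ M) {p : V}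
    (h0 : p ≠ 0) (hp : f.Q p = 0) {c : F} (hc : c ≠ 0) (h : f.tv p c ∈ M) : SLg F V ≤ M := by
  obtain ⟨w, hw, hB⟩ := hf.exists_pair h0 hp
  obtain ⟨g, hg, a, a0, ha⟩ := (hf.big_top (orth_loc f) (by omega) (by omega)).exists_EU_map trivial trivial h0
    (show w ≠ 0 by rintro rfl; simp at hB) hp hw
  have h1 := mul_mem (mul_mem (hE (EU_le_E _ hg)) h) (inv_mem (hE (EU_le_E _ hg)))
  rw [tv_conj (EU_le_iso _ hg), ha, tv_smul] at h1
  have d0 : a * (FType.orth F).σ a * c ≠ 0 := by simp [a0, hc]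
  generalize a * (FType.orth F).σ a * c = d at *
  have e1 := f.B_self_of_Q hp
  have e2 := f.B_self_of_Q hw
  have e3 : f.B w p = 1 := by rw [orth_symm, hB]
  have := dt_mem_of_conj h1 (f.tv_eq_dt p c ▸ h)
  rw [tv_inv e2, tv_apply' (by simp [e2]), show _ ∘ₗ _ = f.fn (c • (p - d • w)) from LinearMap.ext fun x => by
    simp [tv_apply' (c := -d) (show 1 + -d * f.B w w ≠ 0 by simp [e2]), e3, sub_eq_add_neg, mul_add]] at this
  refine hf.orth_SL_of_dt h2 h5 hE (fun e => ?_) (fun e => ?_) (by simp [e1, e2, e3, hB]) this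
  · simpa [hB, e2, hc] using congrArg (f.B · w) e
  · obtain ⟨b, hb⟩ := mem_span_singleton.1 e
    have a1 := congrArg (f.B · w) hb
    have a2 := congrArg (f.B · p) hb
    simp only [map_smul, map_sub, map_add, LinearMap.smul_apply, LinearMap.sub_apply, LinearMap.add_apply,
      e1, e2, e3, hB, smul_eq_mul] at a1 a2
    grind

theorem Nondeg.orth_heis (hf : f.Nondeg) (h2 : (2 : F) ≠ 0) (h5 : 5 ≤ finrank F V)
    (hM : f.iso ⊓ SLg F V ≤ M) (hS : ¬ SLg F V ≤ M) {s : V ≃ₗ[F] V} (hs : s ∈ M) (hs' : s ∈ SLg F V) {p : V}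
    (h0 : p ≠ 0) (hQ : f.Q p = 0) (hp : s p = p) (h1 : ∀ x, f.B (s x) p = f.B x p) : s ∈ f.iso := by
  have hE := (le_inf E_le_iso E_le_ker_det).trans hM
  have e1 := f.B_self_of_Q hQ
  have hp' : s⁻¹ p = p := s.injective (by simp [hp])
  have h1' : ∀ x, f.B (s⁻¹ x) p = f.B x p := fun x => by rw [← h1]; simp
  have key : ∀ z, f.B z p = 0 → ∀ x, f.B (s x) (s z) = f.B x z := fun z hz1 => by
    have hz2 : f.B (s z) p = 0 := by rwa [h1]
    have hc := orth_eichOk hQ hz1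
    have hc' := orth_eichOk hQ hz2
    obtain ⟨ψ, hψ⟩ : ∃ ψ : V →ₗ[F] F, ∀ x, ψ x = f.B (s⁻¹ x) z - f.B x (s z) +
        (f.Q z - f.Q (s z)) * f.B x p :=
      ⟨f.fn z ∘ₗ ((s⁻¹ : V ≃ₗ[F] V) : V →ₗ[F] V) - f.fn (s z) + (f.Q z - f.Q (s z)) • f.fn p, fun _ => rfl⟩
    have hψp : ψ p = 0 := by simp [hψ, hp', f.B_zero_symm hz1, f.B_zero_symm hz2, e1]
    have hψz : ψ (s z) = 2 * f.Q z - 2 * f.Q (s z) := by simp [hψ, hz2, orth_B_self]
    have key : dt ψ p = s * f.eich p z (f.Q z) * s⁻¹ * (f.eich p (s z) (f.Q (s z)))⁻¹ := by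
      rw [eq_mul_inv_iff_mul_eq]
      ext v
      simp only [LinearEquiv.mul_apply, dt_apply hψp, hc.apply, hc'.apply, map_add, map_sub, map_smul,
        hψp, hψz, hp, h1', smul_eq_mul, FType.orth_ε]
      rw [hψ, show s (s⁻¹ v) = v by simp]
      module
    have hm : dt ψ p ∈ M := key ▸ mul_mem (mul_mem (mul_mem hs (hE hc.mem_E)) (inv_mem hs)) (inv_mem (hE hc'.mem_E))
    obtain ⟨y, hy⟩ := hf.exists_rep ψ
    obtain rfl : ψ = f.fn y := LinearMap.ext hy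
    obtain rfl : y = 0 := by_contra fun y0 => by
      obtain ⟨a, rfl⟩ := mem_span_singleton.1 (by_contra fun e => hS (hf.orth_SL_of_dt h2 h5 hE y0 e hψp hm))
      have a0 := left_ne_zero_of_smul h0
      exact hS (hf.orth_SL_of_tv h2 h5 hE h0 hQ (inv_ne_zero a0) (by
        convert hm using 1; rw [tv_eq_dt]; congr 1; ext; simp [a0]))
    have : f.Q z = f.Q (s z) := mul_left_cancel₀ h2 (by simpa [sub_eq_zero] using hψz.symm)
    intro x
    have := hψ (s x)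
    simp [← ‹f.Q z = _›] at this
    linear_combination this
  obtain ⟨w, hw, hB⟩ := hf.exists_pair h0 hQ
  have e3 : f.B w p = 1 := by rw [orth_symm, hB]
  have hq : ∀ x, f.Q (s x) = f.Q x + f.B x p ^ 2 * f.Q (s w) := fun x => by
    have a1 : f.B (x - f.B x p • w) p = 0 := by simp [e3]
    obtain ⟨z, hz⟩ : ∃ z, z = x - f.B x p • w := ⟨_, rfl⟩
    rw [← hz] at a1
    have a2 : f.Q (s z) = f.Q z := mul_left_cancel₀ h2 (by rw [← orth_B_self, ← orth_B_self, key z a1])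
    have a3 : f.B (s z) (s w) = f.B z w := by rw [orth_symm, key z a1, orth_symm]
    generalize f.B x p = β at *
    obtain rfl : x = z + β • w := by simp [hz]
    simp [orth_Q_add, f.Q_smul, a2, a3, hw]; ring
  by_cases d0 : f.Q (s w) = 0
  · exact orth_mem_iso.2 fun x => by rw [hq, d0]; simp
  refine (hS (hf.orth_SL_of_tv h2 h5 hE h0 hQ (neg_ne_zero.2 d0) ((mul_mem_cancel_left hs).1 (hM ⟨orth_mem_iso.2
    fun x => ?_, mul_mem hs' (f.tv_eq_dt _ _ ▸ dt_mem_SLg (by simp [e1]))⟩)))).elim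
  rw [LinearEquiv.mul_apply, tv_apply' (by simp [e1]), map_add, map_smul, hp, f.Q_add_smul hQ, hq x, h1]
  simp; ring

theorem Nondeg.orth_isMaximalIn_simB (hf : f.Nondeg) (h2 : (2 : F) ≠ 0) (h5 : 5 ≤ finrank F V) :
    Geo.IsMaximalIn (SLg F V) (f.simB ⊓ SLg F V) := by
  have hb := hf.big_top (orth_loc f) (by omega) (by omega)
  refine isMaximalIn_of inf_le_right ?_ fun M hM hM' g hg hg' => by_contra fun hS => hg' ⟨?_, hM' hg⟩
  · obtain ⟨g, h1, h2⟩ := hb.exists_SLg_not_simB hf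
    exact ⟨g, h1, fun h => h2 h.1⟩
  replace hM := (inf_le_inf_right _ iso_le_simB).trans hM
  have hE := (le_inf E_le_iso E_le_ker_det).trans hM
  refine hb.mem_simB hf ?_
  let S : Subgroup (V ≃ₗ[F] V) :=
    { carrier := {t | ∀ x y, f.B (g (t x)) (g (t y)) = f.B (g x) (g y)}
      one_mem' := fun _ _ => rfl
      mul_mem' := fun {a b} ha hb x y => (ha _ _).trans (hb x y)
      inv_mem' := fun {a} ha x y => by rw [← ha]; simp }
  refine (E_le_of_X fun u u0 hu => X_le_of_siegelSub hu fun v hv => ?_ : f.E ≤ S)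
  obtain ⟨w, hw, hB⟩ := hf.exists_pair u0 hu
  obtain ⟨e, he, e', he', a1, a2, a3⟩ := (hf.big_pair (orth_loc f) h5 h5 hu hw hB).exists_pair
  refine mem_of_sing (U := f.perp (span F {u})) (f.mem_perp_singleton.2 (f.mem_perp_pair.1 he).1)
    (f.mem_perp_singleton.2 (f.mem_perp_pair.1 he').1) a1 a2 (by simp [a3]) (fun v hv hQ => ?_)
    (f.mem_perp_singleton.2 hv)
  rw [mem_perp_singleton] at hv
  have hok := orth_eichOk hu hv
  refine ⟨hv, ?_⟩
  suffices h : g * f.eich u v (f.Q v) * g⁻¹ ∈ f.iso from fun x y => by simpa using iso_B h (g x) (g y)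
  have sM := mul_mem (mul_mem hg (hE hok.mem_E)) (inv_mem hg)
  obtain ⟨a, ha⟩ := hf.exists_rep (f.fn u ∘ₗ ((g⁻¹ : V ≃ₗ[F] V) : V →ₗ[F] V))
  obtain ⟨b, hb⟩ := hf.exists_rep (f.fn v ∘ₗ ((g⁻¹ : V ≃ₗ[F] V) : V →ₗ[F] V))
  simp only [LinearMap.comp_apply, fn_apply, LinearEquiv.coe_coe] at ha hb
  have b1 : f.B (g u) a = 0 := by simp [← ha, f.B_self_of_Q hu]
  have b2 : f.B (g u) b = 0 := by simp [← hb, f.B_zero_symm hv]
  have b3 : f.B (g v) a = 0 := by simp [← ha, hv]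
  have b4 : f.B (g v) b = 0 := by simp [← hb, f.B_self_of_Q hQ]
  have hs : ∀ x, (g * f.eich u v (f.Q v) * g⁻¹) x = x + (f.B x b • g u - f.B x a • g v) := fun x => by
    simp only [LinearEquiv.mul_apply, hok.apply, ha, hb, map_add, map_sub, map_smul,
      show g (g⁻¹ x) = x by simp]
    simp [add_sub_assoc, hQ]
  generalize g * f.eich u v (f.Q v) * g⁻¹ = s at *
  generalize g u = x₁ at *
  generalize g v = x₂ at *
  by_cases h : ∃ p, p ≠ 0 ∧ f.Q p = 0 ∧ f.B p x₁ = 0 ∧ f.B p x₂ = 0 ∧ f.B p a = 0 ∧ f.B p b = 0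
  · obtain ⟨p, p0, hp, c1, c2, c3, c4⟩ := h
    exact hf.orth_heis h2 h5 hM hS sM (hM' sM) p0 hp (by simp [hs, c3, c4])
      fun x => by simp [hs, f.B_zero_symm c1, f.B_zero_symm c2]
  by_cases s1 : s = 1
  · exact s1 ▸ one_mem _
  exfalso
  obtain ⟨x, hx⟩ : ∃ x, f.B x b • x₁ - f.B x a • x₂ ≠ 0 := by
    by_contra! e; exact s1 (LinearEquiv.ext fun x => by simp [hs, e])
  obtain ⟨c, hc, c0⟩ := exists_notMem_of_finrank_lt (U := ⊥) (W := f.perp (span F {x₁, x₂, a, b})) (by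
    have := finrank_span_four_le (F := F) x₁ x₂ a b
    have := hf.finrank_perp (span F {x₁, x₂, a, b})
    rw [finrank_bot]; omega)
  simp only [mem_perp_span, Set.mem_insert_iff, Set.mem_singleton_iff, forall_eq_or_imp, forall_eq] at hc
  have cQ : f.Q c ≠ 0 := fun e => h ⟨c, by simpa using c0, e, hc⟩
  obtain ⟨z, zQ, z1, z2, z3⟩ : ∃ z, f.Q z ≠ 0 ∧ f.B z a = 0 ∧ f.B z b = 0 ∧
      f.B (f.B x b • x₁ - f.B x a • x₂) z ≠ 0 := by
    have r1 : f.B (f.B x b • x₁ - f.B x a • x₂) a = 0 := by simp [b1, b3]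
    have r2 : f.B (f.B x b • x₁ - f.B x a • x₂) b = 0 := by simp [b2, b4]
    generalize f.B x b • x₁ - f.B x a • x₂ = r at *
    by_cases rQ : f.Q r = 0
    swap
    · exact ⟨r, rQ, r1, r2, by simp [orth_B_self, h2, rQ]⟩
    have : ∀ z, f.B z a = 0 → f.B z b = 0 → f.B r z ≠ 0 → ∃ z, f.Q z ≠ 0 ∧ f.B z a = 0 ∧ f.B z b = 0 ∧
        f.B r z ≠ 0 := fun z z1 z2 z3 => ⟨z + ((1 - f.Q z) / f.B r z) • r, by
          rw [f.Q_add_smul rQ, orth_symm f r z]; simp [z3], by simp [z1, r1], by simp [z2, r2],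
          by simpa [f.B_self_of_Q rQ]⟩
    by_cases e1 : f.B r x₁ = 0
    · exact this x₂ b3 b4 fun e2 => h ⟨r, hx, rQ, e1, e2, r1, r2⟩
    · exact this x₁ b1 b2 e1
  obtain ⟨y, hy⟩ : ∃ y, ∀ x, f.B x y = -((f.Q z)⁻¹ * f.B (f.B x b • x₁ - f.B x a • x₂) z) :=
    ⟨(f.Q z)⁻¹ • (f.B x₂ z • a - f.B x₁ z • b), fun x => by simp; ring⟩
  have zy : f.B z y = 0 := by simp [hy, z1, z2]
  have hh : f.rfx z * f.rfx c ∈ M := hM ⟨mul_mem (rfx_mem_iso _) (rfx_mem_iso _),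
    mem_SLg.2 (by rw [map_mul, det_rfx zQ, det_rfx cQ]; simp)⟩
  refine hS (hf.orth_SL_of_dt h2 h5 hE (y := y) (a := z) (fun e => ?_) (fun e => ?_) zy ?_)
  · simpa [e, zQ, -map_sub, z3] using hy x
  · obtain ⟨d, hd⟩ := mem_span_singleton.1 e
    have := f.orth_B_self z
    nth_rw 2 [← hd] at this
    simp [zy, h2, zQ] at this
  · convert mul_mem (mul_mem (mul_mem hh sM) (inv_mem hh)) (inv_mem sM) using 1
    rw [eq_mul_inv_iff_mul_eq, eq_mul_inv_iff_mul_eq]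
    ext v
    have zy' : f.fn y z = 0 := zy
    simp only [LinearEquiv.mul_apply, dt_apply zy', hs, rfx_apply, fn_apply, hy, map_add, map_sub, map_smul,
      LinearMap.sub_apply, LinearMap.add_apply, LinearMap.smul_apply, smul_eq_mul, hc, z1, z2, b1, b2, b3, b4,
      f.B_zero_symm hc.1, f.B_zero_symm hc.2.1]
    module

end Cfsg.Agent.H4.CForm

namespace Cfsg.Agent.H4.GeoL
open Geo CForm
variable {F : Type*} [Field F] [Fintype F] {n : ℕ}

theorem symp' (h : 5 ≤ n) (f : (Fin n → F) → (Fin n → F) → F) (hf : IsSymplecticForm f) :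
    IsMaximalIn (specialLinear (Fin n) F) (similarityGroup f ⊓ specialLinear (Fin n) F) :=
  symp (fun B hB => hB.isMaximalIn_simB_tau (symp_loc _) (by simpa) (by simp; omega) (fun v _ => symp_Q _ v)
    ⟨1, one_ne_zero, rfl⟩) f hf

theorem unit' (h : 5 ≤ n) (σ : F ≃+* F) (f : (Fin n → F) → (Fin n → F) → F) (hf : IsUnitaryForm σ f) :
    IsMaximalIn (specialLinear (Fin n) F) (similarityGroup f ⊓ specialLinear (Fin n) F) :=
  unit (fun _ hh hσ B hB => hB.isMaximalIn_simB_tau (unit_loc hσ _) (by simpa) (by simp; omega)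
    (fun v hv => (unit_Q _ v).trans hv) (exists_trace_zero hσ hh)) σ f hf

theorem orth' (h : 5 ≤ n) (hodd : Odd (Fintype.card F)) (Q : (Fin n → F) → F)
    (hQ : IsNondegenerateQuadraticForm Q) :
    IsMaximalIn (specialLinear (Fin n) F) (quadSimilarityGroup Q ⊓ specialLinear (Fin n) F) :=
  orth (fun h2 B hB => hB.orth_isMaximalIn_simB h2 (by simpa)) hodd Q hQ

end Cfsg.Agent.H4.GeoL
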