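import Cfsg.Agent.H4.Ex3
import Cfsg.Agent.H4.Mn1

/-! Tensor decompositions: basic tools. -/

namespace Cfsg.Agent.H4.Tn
open Module Submodule TensorProduct Ex
open scoped commutatorElement

section gen
variable {G G' : Type*} [Group G] [Group G']

theorem isMaximalIn_of_equiv (e : G ≃* G') {K H : Subgroup G} {K' H' : Subgroup G'}
    (hK : ∀ g, g ∈ K ↔ e g ∈ K') (hH : ∀ g, g ∈ H ↔ e g ∈ H') (h : Geo.IsMaximalIn K' H') :
    Geo.IsMaximalIn K H := by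
  have eK : K = K'.comap e.toMonoidHom := Subgroup.ext hK
  have eH : H = H'.comap e.toMonoidHom := Subgroup.ext hH
  have hs : Function.Surjective e.toMonoidHom := e.surjective
  have hi : Function.Injective e.toMonoidHom := e.injective
  subst eK eH
  refine ⟨(Subgroup.comap_lt_comap_of_surjective hs).2 h.1, fun M h1 h2 => ?_⟩
  rw [← Subgroup.comap_map_eq_self_of_injective hi M] at h1 h2 ⊢
  rw [Subgroup.comap_le_comap_of_surjective hs] at h1 h2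
  rcases h.2 _ h1 h2 with h3 | h3
  · left; rw [h3]
  · right; rw [h3]

variable {F : Type*} [Field F] {V : Type*} [AddCommGroup V] [Module F V]

theorem exists_scalar {N : V →ₗ[F] V} (h : ∀ x, N x ∈ span F {x}) : ∃ c : F, ∀ x, N x = c • x := by
  obtain ⟨a, e⟩ := LinearMap.exists_eq_smul_id_of_forall_notLinearIndependent (f := N) fun v hv => by
    obtain ⟨c, hc⟩ := mem_span_singleton.1 (h v)
    simpa using (LinearIndependent.pair_iff.1 hv c (-1) (by simp [hc])).2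
  exact ⟨a, fun x => by simp [e]⟩

theorem exists_ne_both {θ θ' : V →ₗ[F] F} (h : θ ≠ 0) (h' : θ' ≠ 0) : ∃ u, θ u ≠ 0 ∧ θ' u = 1 := by
  obtain ⟨a, ha⟩ := exists_eq_of_ne h 1
  obtain ⟨b, hb⟩ := exists_eq_of_ne h' 1
  by_cases e : θ b = 0
  · exact ⟨a + (1 - θ' a) • b, by simp [e, ha], by simp [hb]⟩
  · exact ⟨b, e, hb⟩

theorem exists_dual_both {x x' : V} (h : x ≠ 0) (h' : x' ≠ 0) : ∃ η : V →ₗ[F] F, η x = 1 ∧ η x' ≠ 0 := by
  by_cases e : x' ∈ span F {x}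
  · obtain ⟨c, rfl⟩ := mem_span_singleton.1 e
    obtain ⟨η, hη⟩ := exists_dual_of_ne (F := F) h 1
    exact ⟨η, hη, by simpa [hη] using left_ne_zero_of_smul h'⟩
  · obtain ⟨η, -, a, b⟩ := exists_dual_two (F := F) (U := ⊥) (u := x) (v := x') (by simpa) (by simpa) 1 1
    exact ⟨η, a, by simp [b]⟩

theorem exists_pair_map {θ θ' : V →ₗ[F] F} {x x' : V} (h : θ ≠ 0) (h' : θ' ≠ 0) (hx : x ≠ 0) (hx' : x' ≠ 0)
    (e : θ x = 0) (e' : θ' x' = 0) : ∃ g : V ≃ₗ[F] V, g x = x' ∧ ∀ y, θ' (g y) = θ y := by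
  obtain ⟨u, u1, u2⟩ := exists_ne_both h h'
  have a1 : 1 + (θ - θ') u ≠ 0 := by simpa [u2]
  have a2 : ∀ y, θ' (dt (θ - θ') u y) = θ y := fun y => by simp [dt_apply' a1, u2]
  obtain ⟨η, η1, η2⟩ := exists_dual_both (F := F) (x := dt (θ - θ') u x) (by simpa) hx'
  have a3 : 1 + η (x' - dt (θ - θ') u x) ≠ 0 := by simpa [η1]
  exact ⟨dt η (x' - dt (θ - θ') u x) * dt (θ - θ') u, by simp [dt_apply' a3, η1],
    fun y => by simp [dt_apply' a3, a2, e, e']⟩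

variable [FiniteDimensional F V]

theorem exists_SL_pair {θ θ' : V →ₗ[F] F} {x x' z : V} (h : θ ≠ 0) (h' : θ' ≠ 0) (hx : x ≠ 0) (hx' : x' ≠ 0)
    (e : θ x = 0) (e' : θ' x' = 0) {η : V →ₗ[F] F} (hz : θ z = 0) (hη : η z = 1) : ∃ g ∈ SLg F V, ∃ c : F,
      1 + c ≠ 0 ∧ g (x + η x • c • z) = x' ∧ ∀ y, θ' (g y) = θ y := by
  obtain ⟨g, g1, g2⟩ := exists_pair_map h h' hx hx' e e'
  have a : 1 + η ((((LinearEquiv.det g : Fˣ) : F) - 1) • z) = (LinearEquiv.det g : Fˣ) := by simp [hη]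
  have a' := a.trans_ne (LinearEquiv.det g).ne_zero
  refine ⟨g * (dt η ((((LinearEquiv.det g : Fˣ) : F) - 1) • z))⁻¹, ?_, ((LinearEquiv.det g : Fˣ) : F) - 1,
    by rw [add_sub_cancel]; exact Units.ne_zero _, ?_, fun y => ?_⟩
  · rw [mem_SLg, map_mul, map_inv, mul_inv_eq_one]; exact Units.ext ((det_dt a').trans a).symm
  · rw [← dt_apply' a', ← g1]; exact congrArg g (LinearEquiv.symm_apply_apply _ _)
  · obtain ⟨y, rfl⟩ := (dt η ((((LinearEquiv.det g : Fˣ) : F) - 1) • z)).surjective y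
    rw [LinearEquiv.mul_apply, g2]
    exact (congrArg θ (LinearEquiv.symm_apply_apply _ _)).trans (by rw [dt_apply' a']; simp [hz])

theorem exists_SL_pair' {θ θ' : V →ₗ[F] F} {x x' : V} (h : θ ≠ 0) (h' : θ' ≠ 0) (hx : x ≠ 0) (hx' : x' ≠ 0)
    (e : θ x = 0) (e' : θ' x' = 0) : ∃ g ∈ SLg F V, ∃ c : F, c ≠ 0 ∧ g x = c • x' ∧ ∀ y, θ' (g y) = θ y := by
  obtain ⟨η, hη⟩ := exists_dual_of_ne (F := F) hx 1
  obtain ⟨g, g1, c, c0, g2, g3⟩ := exists_SL_pair h h' hx hx' e e' e hη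
  refine ⟨g, g1, (1 + c)⁻¹, inv_ne_zero c0, ?_, g3⟩
  rw [← g2, hη, ← map_smul]; congr 1; match_scalars; field_simp

theorem exists_ker_two (h3 : 3 ≤ finrank F V) (x y : V) : ∃ ψ : V →ₗ[F] F, ψ ≠ 0 ∧ ψ x = 0 ∧ ψ y = 0 := by
  obtain ⟨u, -, hu⟩ := exists_notMem_of_finrank_lt (U := span F {x, y}) (W := ⊤) (by
    have := finrank_span_pair_le (F := F) x y; rw [finrank_top]; omega)
  obtain ⟨ψ, h1, h2⟩ := exists_dual_of_notMem hu 1
  exact ⟨ψ, by rintro rfl; simp at h2, h1 _ (subset_span (by simp)), h1 _ (subset_span (by simp))⟩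

theorem exists_SL_pair3 (h3 : 3 ≤ finrank F V) {θ θ' : V →ₗ[F] F} {x x' : V} (h : θ ≠ 0) (h' : θ' ≠ 0)
    (hx : x ≠ 0) (hx' : x' ≠ 0) (e : θ x = 0) (e' : θ' x' = 0) :
    ∃ g ∈ SLg F V, g x = x' ∧ ∀ y, θ' (g y) = θ y := by
  obtain ⟨z, z1, z2⟩ := exists_notMem_of_finrank_lt (U := span F {x}) (W := LinearMap.ker θ) (by
    have := finrank_ker_dual_ge θ; have := finrank_span_singleton_le (F := F) x; omega)
  obtain ⟨η, η1, η2⟩ := exists_dual_pair z2 1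
  obtain ⟨g, g1, c, -, g2, g3⟩ := exists_SL_pair h h' hx hx' e e' z1 η2
  exact ⟨g, g1, by simpa [η1] using g2, g3⟩

theorem mem_SLg_of_sq {g : V ≃ₗ[F] V} (h : ∀ y, g (g y - y) = g y - y) : g ∈ SLg F V := by
  have : IsNilpotent (1 - (g : V →ₗ[F] V) : End F V) := ⟨2, by
    ext y; have := h y; simp only [map_sub] at this; simp [pow_two]; linear_combination (norm := module) this⟩
  have e := (1 - (g : V →ₗ[F] V) : End F V).eval_charpoly 1
  rw [this.charpoly_eq_X_pow_finrank] at e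
  exact Units.ext (by simpa using e.symm)

omit [FiniteDimensional F V] in
theorem el_trans {M : Subgroup (V ≃ₗ[F] V)} {ι : Type} (b : Basis ι F V) {i j m : ι} (h1 : j ≠ m) (h2 : m ≠ i)
    (h3 : j ≠ i) (a1 : ∀ c : F, dt (b.coord j) (c • b m) ∈ M) (a2 : ∀ c : F, dt (b.coord m) (c • b i) ∈ M)
    (c : F) : dt (b.coord j) (c • b i) ∈ M := by
  have := commutator_dt (φ := b.coord j) (ψ := b.coord m) (a := (1 : F) • b m) (b := -c • b i)
    (by simp [-Basis.coord_apply, Mn.cb_ne h1]) (by simp [-Basis.coord_apply, Mn.cb_ne h2])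
    (by simp [-Basis.coord_apply, Mn.cb_ne h3])
  rw [show dt (b.coord j) (c • b i) = _ by simpa using this.symm, commutatorElement_def]
  simpa using mul_mem (mul_mem (mul_mem (a1 1) (a2 (-c))) (inv_mem (a1 1))) (inv_mem (a2 (-c)))

end gen

variable {F : Type*} [Field F] {U Y : Type*} [AddCommGroup U] [Module F U] [AddCommGroup Y] [Module F Y]

variable (F U Y) in
/-- Kronecker products -/
def kr : (U ≃ₗ[F] U) × (Y ≃ₗ[F] Y) →* (U ⊗[F] Y ≃ₗ[F] U ⊗[F] Y) where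
  toFun x := congr x.1 x.2
  map_one' := congr_refl_refl
  map_mul' _ _ := congr_mul _ _ _ _

@[simp] theorem kr_tmul (A : U ≃ₗ[F] U) (B : Y ≃ₗ[F] Y) (x y) : kr F U Y (A, B) (x ⊗ₜ y) = A x ⊗ₜ B y := rfl

/-- contraction with a functional on the second factor -/
def cc : (Y →ₗ[F] F) →ₗ[F] U ⊗[F] Y →ₗ[F] U where
  toFun ψ := lift (ψ.smulRight LinearMap.id).flip
  map_add' _ _ := ext' fun _ _ => by simp [add_smul]
  map_smul' _ _ := ext' fun _ _ => by simp [mul_smul]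

@[simp] theorem cc_tmul (ψ : Y →ₗ[F] F) (x : U) (y : Y) : cc ψ (x ⊗ₜ y) = ψ y • x := rfl

/-- contraction with a functional on the first factor -/
def dd (θ : U →ₗ[F] F) : U ⊗[F] Y →ₗ[F] Y := lift (θ.smulRight LinearMap.id)

@[simp] theorem dd_tmul (θ : U →ₗ[F] F) (x : U) (y : Y) : dd θ (x ⊗ₜ y) = θ x • y := rfl

theorem dd_cc (θ : U →ₗ[F] F) (ψ : Y →ₗ[F] F) (v : U ⊗[F] Y) : ψ (dd θ v) = θ (cc ψ v) := by
  induction v with
  | zero => simp
  | tmul x y => simp [mul_comm]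
  | add a b ha hb => simp [ha, hb]

theorem cc_kr (ψ : Y →ₗ[F] F) (A : U ≃ₗ[F] U) (B : Y ≃ₗ[F] Y) (v : U ⊗[F] Y) :
    cc ψ (kr F U Y (A, B) v) = A (cc (ψ ∘ₗ B) v) := by
  induction v with
  | zero => simp
  | tmul x y => simp
  | add a b ha hb => simp only [map_add, ha, hb]

variable (U) in
/-- the "point" `U ⊗ e` -/
def P (e : Y) : Submodule F (U ⊗[F] Y) := LinearMap.range ((mk F U Y).flip e)

theorem mem_P {e : Y} {v : U ⊗[F] Y} : v ∈ P U e ↔ ∃ x, x ⊗ₜ e = v := Iff.rfl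

theorem tmul_mem_P (x : U) (e : Y) : x ⊗ₜ[F] e ∈ P U e := ⟨x, rfl⟩

theorem tmul_inj {e : Y} (h : e ≠ 0) {x x' : U} (hx : x ⊗ₜ[F] e = x' ⊗ₜ e) : x = x' := by
  obtain ⟨ε, hε⟩ := exists_dual_of_ne (F := F) h 1
  simpa [hε] using congrArg (cc ε) hx

theorem tmul_ne {e : Y} (h : e ≠ 0) {x : U} (hx : x ≠ 0) : x ⊗ₜ[F] e ≠ 0 := fun e' =>
  hx (tmul_inj h (e'.trans (zero_tmul _ _).symm))

theorem finrank_P {e : Y} (h : e ≠ 0) : finrank F (P (F := F) U e) = finrank F U :=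
  LinearMap.finrank_range_of_inj fun _ _ => tmul_inj h

theorem map_P (A : U ≃ₗ[F] U) (B : Y ≃ₗ[F] Y) (e : Y) :
    (P U e).map (kr F U Y (A, B) : U ⊗[F] Y →ₗ[F] U ⊗[F] Y) = P U (B e) := by
  ext v
  simp only [mem_map, mem_P]
  exact ⟨by rintro ⟨_, ⟨x, rfl⟩, rfl⟩; exact ⟨A x, rfl⟩, by
    rintro ⟨x, rfl⟩; exact ⟨_, ⟨A.symm x, rfl⟩, by simp⟩⟩

theorem cc_P {ψ : Y →ₗ[F] F} {e : Y} (h : ψ e = 0) {v : U ⊗[F] Y} (hv : v ∈ P U e) : cc ψ v = 0 := by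
  obtain ⟨x, rfl⟩ := hv; simp [h]

theorem kr_dt {ψ : Y →ₗ[F] F} {u : Y} (h : ψ u = 0) (v : U ⊗[F] Y) :
    kr F U Y (1, dt ψ u) v = v + cc ψ v ⊗ₜ u := by
  induction v with
  | zero => simp
  | tmul x y => simp [dt_apply h, tmul_add, smul_tmul]
  | add a b ha hb => simp only [map_add, ha, hb, add_tmul]; abel

/-- `N ⊗ e ψ` -/
def el (e : Y) (ψ : Y →ₗ[F] F) : (U →ₗ[F] U) →ₗ[F] U ⊗[F] Y →ₗ[F] U ⊗[F] Y where
  toFun N := (mk F U Y).flip e ∘ₗ N ∘ₗ cc ψ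
  map_add' _ _ := LinearMap.ext fun _ => by simp
  map_smul' _ _ := LinearMap.ext fun _ => by simp

@[simp] theorem el_apply (e : Y) (ψ : Y →ₗ[F] F) (N : U →ₗ[F] U) (v) : el e ψ N v = N (cc ψ v) ⊗ₜ e := rfl

variable [FiniteDimensional F U] [FiniteDimensional F Y]

omit [FiniteDimensional F U] in
theorem mem_P_of {e : Y} (h : e ≠ 0) {v : U ⊗[F] Y} (hv : ∀ ψ : Y →ₗ[F] F, ψ e = 0 → cc ψ v = 0) :
    v ∈ P U e := by
  obtain ⟨ε, hε⟩ := exists_dual_of_ne (F := F) h 1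
  let b := finBasis F Y
  have : ∀ v : U ⊗[F] Y, v = cc ε v ⊗ₜ e + ∑ i, cc (b.coord i - b.coord i e • ε) v ⊗ₜ b i := fun v => by
    induction v with
    | zero => simp
    | tmul x y =>
      simp only [cc_tmul, smul_tmul, ← tmul_sum, ← tmul_add]
      simp only [LinearMap.sub_apply, LinearMap.smul_apply, sub_smul, Finset.sum_sub_distrib, Basis.coord_apply, smul_eq_mul, mul_comm _ (ε y), mul_smul,
        ← Finset.smul_sum, b.sum_repr]
      simp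
    | add a a' ha hb =>
      simp only [map_add, add_tmul, Finset.sum_add_distrib]
      rw [add_add_add_comm, ← ha, ← hb]
  rw [this v, Finset.sum_eq_zero fun i _ => by rw [hv _ (by simp [hε]), zero_tmul], add_zero]
  exact tmul_mem_P _ _

theorem det_kr (A : U ≃ₗ[F] U) (B : Y ≃ₗ[F] Y) : LinearEquiv.det (kr F U Y (A, B)) =
    LinearEquiv.det A ^ finrank F Y * LinearEquiv.det B ^ finrank F U := by
  classical
  apply Units.ext
  simp only [Units.val_mul, Units.val_pow_eq_pow_val, LinearEquiv.coe_det]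
  rw [← LinearMap.det_toMatrix ((finBasis F U).tensorProduct (finBasis F Y)),
    ← LinearMap.det_toMatrix (finBasis F U), ← LinearMap.det_toMatrix (finBasis F Y)]
  exact (congrArg Matrix.det (toMatrix_map ..)).trans (by rw [Matrix.det_kronecker]; simp)

theorem kr_mem {M : Subgroup (U ⊗[F] Y ≃ₗ[F] U ⊗[F] Y)} (hM : (kr F U Y).range ⊓ SLg F _ ≤ M) {A : U ≃ₗ[F] U}
    {B : Y ≃ₗ[F] Y} (hA : A ∈ SLg F U) (hB : B ∈ SLg F Y) : kr F U Y (A, B) ∈ M :=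
  hM ⟨⟨_, rfl⟩, mem_SLg.2 <| by rw [det_kr, mem_SLg.1 hA, mem_SLg.1 hB]; simp⟩

end Cfsg.Agent.H4.Tn
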