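import Cfsg.Agent.H4.Tn1

/-! Tensor decomposition stabilisers are maximal in `SL`. -/

namespace Cfsg.Agent.H4.Tn
open Module Submodule TensorProduct Ex

variable {F : Type*} [Field F] {U Y : Type*} [AddCommGroup U] [Module F U] [AddCommGroup Y] [Module F Y]
  [FiniteDimensional F U] [FiniteDimensional F Y] {M : Subgroup (U ⊗[F] Y ≃ₗ[F] U ⊗[F] Y)}

theorem SL_of_tr (h2 : 2 ≤ finrank F U) (h3 : 3 ≤ finrank F Y) (hM : (kr F U Y).range ⊓ SLg F _ ≤ M)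
    {θ : U →ₗ[F] F} {x : U} {ψ : Y →ₗ[F] F} {e : Y} (h1 : θ ≠ 0) (hx : x ≠ 0) (h1' : ψ ≠ 0) (he : e ≠ 0)
    (e1 : θ x = 0) (e2 : ψ e = 0) (h : dt (θ ∘ₗ cc ψ) (x ⊗ₜ e) ∈ M) : SLg F _ ≤ M := by
  classical
  have all : ∀ (θ' : U →ₗ[F] F) x' (ψ' : Y →ₗ[F] F) e', θ' ≠ 0 → x' ≠ 0 → ψ' ≠ 0 → e' ≠ 0 → θ' x' = 0 →
      ψ' e' = 0 → dt (θ' ∘ₗ cc ψ') (x' ⊗ₜ e') ∈ M := fun θ' x' ψ' e' a1 a2 a3 a4 a5 a6 => by
    obtain ⟨A, A1, c, c0, A2, A3⟩ := exists_SL_pair' h1 a1 hx a2 e1 a5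
    obtain ⟨B, B1, B2, B3⟩ := exists_SL_pair3 h3 h1' a3 he (smul_ne_zero (inv_ne_zero c0) a4) e2 (by simp [a6])
    have := dt_mem_of_conj' (kr_mem hM A1 B1) (φ := θ' ∘ₗ cc ψ') (a := x ⊗ₜ e) (by
      convert h using 2
      exact ext' fun x y => by simp [A3, B3])
    rwa [kr_tmul, A2, B2, smul_tmul, smul_inv_smul₀ c0] at this
  let a := finBasis F U
  let b := finBasis F Y
  have co : ∀ i j, (a.tensorProduct b).coord (i, j) = a.coord i ∘ₗ cc (b.coord j) := fun i j =>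
    ext' fun x y => by simp [mul_comm]
  have T0 : ∀ i i' j j', i ≠ i' → j ≠ j' → ∀ c : F,
      dt ((a.tensorProduct b).coord (i, j)) (c • (a.tensorProduct b) (i', j')) ∈ M := fun i i' j j' hi hj c => by
    by_cases c0 : c = 0
    · simp [c0]
    rw [co, Basis.tensorProduct_apply, smul_tmul']
    exact all _ _ _ _ (fun e => by simpa using congr($e (a i))) (smul_ne_zero c0 (a.ne_zero _))
      (fun e => by simpa using congr($e (b j))) (b.ne_zero _) (by rw [map_smul, Mn.cb_ne hi, smul_zero])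
      (Mn.cb_ne hj)
  haveI : Nontrivial (Fin (finrank F U)) := Fin.nontrivial_iff_two_le.2 h2
  have T1 : ∀ i j j', j ≠ j' → ∀ c : F,
      dt ((a.tensorProduct b).coord (i, j)) (c • (a.tensorProduct b) (i, j')) ∈ M := fun i j j' hj => by
    obtain ⟨i', hi⟩ := exists_ne i
    obtain ⟨m, m1, m2⟩ : ∃ m, m ≠ j ∧ m ≠ j' := by
      by_contra! hc
      have := Finset.card_le_card (show Finset.univ ⊆ {j, j'} from fun m _ => by
        by_cases e : m = j <;> simp [e, ← hc m])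
      have := Finset.card_le_two (a := j) (b := j')
      simp at *; omega
    exact el_trans _ (m := (i', m)) (by simp [hi.symm]) (by simp [hi]) (by simp [hj])
      (T0 _ _ _ _ hi.symm m1.symm) (T0 _ _ _ _ hi m2)
  haveI : Nontrivial (Fin (finrank F Y)) := Fin.nontrivial_iff_two_le.2 (by omega)
  refine SLg_le_of_basis (a.tensorProduct b) ?_
  rintro ⟨i', j'⟩ ⟨i, j⟩ h
  by_cases hi : i = i'
  · subst hi; exact T1 _ _ _ fun e => h (by rw [e])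
  by_cases hj : j = j'
  · subst hj
    obtain ⟨m, hm⟩ := exists_ne j
    exact el_trans _ (m := (i', m)) (by simp [hi]) (by simp [hm]) (by simp [hi])
      (T0 _ _ _ _ hi hm.symm) (T1 _ _ _ hm)
  · exact T0 _ _ _ _ hi hj

theorem lam_conj (hM : (kr F U Y).range ⊓ SLg F _ ≤ M) {e : Y} {ψ : Y →ₗ[F] F} {N : U →ₗ[F] U}
    (h : el e ψ N ∈ Lam M (P U e)) {θ : U →ₗ[F] F} {x : U} (hx : θ x = 0) :
    el e ψ ((θ ∘ₗ N).smulRight x - θ.smulRight (N x) - θ (N x) • θ.smulRight x) ∈ Lam M (P U e) := by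
  have := Lam.conj' h (kr_mem hM (dt_mem_SLg hx) (one_mem _)) (W' := P U e) (map_P _ _ _)
    (ρ' := el e ψ (N + ((θ ∘ₗ N).smulRight x - θ.smulRight (N x) - θ (N x) • θ.smulRight x))) fun y => by
      simp only [el_apply, cc_kr, kr_tmul]
      congr 1
      have : ψ ∘ₗ ((1 : Y ≃ₗ[F] Y) : Y →ₗ[F] Y) = ψ := rfl
      simp [this, dt_apply hx, hx]
      module
  simpa only [map_add, add_sub_cancel_left] using sub_mem this h

theorem lam_dich (h2 : 2 ≤ finrank F U) (h3 : 3 ≤ finrank F Y) (hq : 3 ≤ finrank F U ∨ ∃ c : F, c ≠ 0 ∧ c ≠ 1)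
    (hM : (kr F U Y).range ⊓ SLg F _ ≤ M) (hS : ¬ SLg F _ ≤ M) {e : Y} (he : e ≠ 0) {ρ}
    (h : ρ ∈ Lam M (P U e)) : ∃ φ : Y →ₗ[F] F, φ e = 0 ∧ ∀ v, ρ v = cc φ v ⊗ₜ e := by
  obtain ⟨ε, hε⟩ := exists_dual_of_ne (F := F) he 1
  let β : Y →ₗ[F] U →ₗ[F] U := ((mk F U Y).flip.compr₂ ρ).compr₂ (cc ε)
  have hβ : ∀ x y, ρ (x ⊗ₜ y) = β y x ⊗ₜ e := fun x y => by
    obtain ⟨z, hz⟩ := mem_P.1 (h.1 (x ⊗ₜ y))
    simp [β, ← hz, hε]
  by_cases hs : ∀ y x, β y x ∈ span F {x}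
  · haveI : Nontrivial U := nontrivial_of_finrank_pos (R := F) (by omega)
    obtain ⟨x, hx⟩ := exists_ne (0 : U)
    obtain ⟨θ, hθ⟩ := exists_dual_of_ne (F := F) hx 1
    refine ⟨θ ∘ₗ β.flip x, by simp [β, h.2.1 _ (tmul_mem_P x e)], fun v => ?_⟩
    induction v with
    | zero => simp
    | tmul z y => obtain ⟨c, hc⟩ := exists_scalar (hs y); simp [hβ, hc, hθ]
    | add a b ha hb => simp only [map_add, ha, hb, add_tmul]
  push Not at hs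
  obtain ⟨y, x, hx⟩ := hs
  have x0 : x ≠ 0 := by rintro rfl; simp at hx
  obtain ⟨ψ, ψ0, ψ1, ψ2⟩ := exists_ker_two h3 e y
  have h1 : ∀ c : F, el e ψ (c • β y) ∈ Lam M (P U e) := fun c => by
    have e1 : ψ (c • y) = 0 := by simp [ψ2]
    have := Lam.conj' h (kr_mem hM (one_mem _) (dt_mem_SLg e1)) (W' := P U e)
      (by rw [map_P, dt_apply e1, ψ1, zero_smul, add_zero]) (ρ' := ρ - el e ψ (c • β y)) fun v => by
        simp [kr_dt e1, hβ, ψ2, cc_P ψ1 (h.1 v)]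
    simpa only [sub_sub_cancel] using sub_mem h this
  have fin : ∀ (θ : U →ₗ[F] F) (c : F), θ ≠ 0 → c ≠ 0 → θ x = 0 →
      el e ψ (c • θ.smulRight x) ∈ Lam M (P U e) → False := fun θ c θ0 c0 e1 h => by
    refine hS (SL_of_tr h2 h3 hM θ0 (smul_ne_zero c0 x0) ψ0 he (by simp [e1]) ψ1
      (Lam.dt ?_ (tmul_ne he (smul_ne_zero c0 x0)) (tmul_mem_P _ _)).2)
    convert h using 1
    exact LinearMap.ext fun v => by simp [smul_tmul', smul_comm c]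
  obtain ⟨θ, θ1, θ2⟩ := exists_dual_pair hx 1
  have n1 := h1 1
  rw [one_smul] at n1
  exfalso
  rcases hq with hq | ⟨c, c0, c1⟩
  · obtain ⟨θ', a0, a1, a2⟩ := exists_ker_two hq x (β y x)
    refine fin θ' (-1) a0 (by simp) a1 ?_
    convert sub_mem (sub_mem (lam_conj hM n1 (θ := θ + θ') (x := x) (by simp [θ1, a1])) (lam_conj hM n1 θ1))
      (lam_conj hM n1 a1) using 1
    rw [← map_sub, ← map_sub]; congr 1; ext z; simp [θ2, a2]; module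
  · refine fin θ (c * c - c) (by rintro rfl; simp at θ2) (by rw [← mul_sub_one]; simp [c0, sub_eq_zero, c1]) θ1 ?_
    convert sub_mem (lam_conj hM (h1 c) θ1) (lam_conj hM n1 (θ := θ) (x := c • x) (by simp [θ1])) using 1
    rw [← map_sub]; congr 1; ext z; simp [θ2]; module

theorem stab_le (h2 : 2 ≤ finrank F U) (hM : (kr F U Y).range ⊓ SLg F _ ≤ M) (hM' : M ≤ SLg F _) {e : Y}
    (he : e ≠ 0) (hL : ∀ ρ ∈ Lam M (P U e), ∃ φ : Y →ₗ[F] F, φ e = 0 ∧ ∀ v, ρ v = cc φ v ⊗ₜ e) {g}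
    (hg : g ∈ M) (hP : (P U e).map (g : U ⊗[F] Y →ₗ[F] U ⊗[F] Y) = P U e) : g ∈ (kr F U Y).range := by
  obtain ⟨ε, hε⟩ := exists_dual_of_ne (F := F) he 1
  let A₀ : U →ₗ[F] U := cc ε ∘ₗ (g : U ⊗[F] Y →ₗ[F] U ⊗[F] Y) ∘ₗ (mk F U Y).flip e
  have hA₀ : ∀ x, g (x ⊗ₜ e) = A₀ x ⊗ₜ e := fun x => by
    obtain ⟨z, hz⟩ := mem_P.1 (hP.le (mem_map_of_mem (tmul_mem_P x e)))
    simp only [LinearEquiv.coe_coe] at hz
    simp [A₀, ← hz, hε]
  let A := LinearEquiv.ofInjectiveEndo A₀ fun x x' h => tmul_inj he (g.injective (by rw [hA₀, hA₀, h]))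
  have hA : ∀ x, g (x ⊗ₜ e) = A x ⊗ₜ e := hA₀
  have key : ∀ ψ' : Y →ₗ[F] F, ψ' e = 0 → ∃ ψ : Y →ₗ[F] F, ∀ v, cc ψ' (g v) = A (cc ψ v) := fun ψ' h => by
    have : el e ψ' 1 ∈ Lam M (P U e) := ⟨fun v => tmul_mem_P _ _, fun v hv => by simp [cc_P h hv], _,
      kr_mem hM (one_mem _) (dt_mem_SLg h), kr_dt h⟩
    obtain ⟨ψ, -, hψ⟩ := hL _ (Lam.conj this (inv_mem hg) (W' := P U e) (by
      conv_lhs => rw [← hP]
      exact mapi _ _))
    exact ⟨ψ, fun v => tmul_inj he (by rw [← hA, ← hψ]; simp)⟩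
  haveI : Nontrivial U := nontrivial_of_finrank_pos (R := F) (by omega)
  obtain ⟨x, hx⟩ := exists_ne (0 : U)
  obtain ⟨θ, hθ⟩ := exists_dual_of_ne (F := F) (show A x ≠ 0 by simpa) 1
  let B₀ : Y →ₗ[F] Y := dd θ ∘ₗ (g : U ⊗[F] Y →ₗ[F] U ⊗[F] Y) ∘ₗ mk F U Y x
  have B1 : B₀ e = e := by simp [B₀, hA, hθ]
  have B2 : ∀ ψ' : Y →ₗ[F] F, ψ' e = 0 → ∀ v, cc ψ' (g v) = A (cc (ψ' ∘ₗ B₀) v) := fun ψ' h v => by
    obtain ⟨ψ, hψ⟩ := key ψ' h
    rw [hψ, show ψ' ∘ₗ B₀ = ψ from LinearMap.ext fun y => by simp [B₀, dd_cc, hψ, hθ]]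
  let B := LinearEquiv.ofInjectiveEndo B₀ ((injective_iff_map_eq_zero _).2 fun y hy => by
    obtain ⟨z, hz⟩ := mem_P.1 (mem_map_equiv'.1 (hP.ge (mem_P_of he (v := g (x ⊗ₜ y)) fun ψ h => by
      simp [B2 _ h, hy])))
    obtain ⟨η, hη⟩ := exists_dual_of_ne (F := F) hx 1
    have : η z • e = y := by simpa [hη] using congrArg (dd η) hz
    rw [← this, map_smul, B1] at hy
    rw [← this, hy])
  have B3 : B e = e := B1
  have a1 : ∀ v, ((kr F U Y (A, B))⁻¹ * g) v - v ∈ P U e := fun v => by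
    have : g v - kr F U Y (A, B) v ∈ (P U e).map (kr F U Y (A, B) : U ⊗[F] Y →ₗ[F] U ⊗[F] Y) := by
      rw [map_P, B3]
      exact mem_P_of he fun ψ h => by rw [map_sub, B2 _ h, cc_kr]; exact sub_self _
    simpa using mem_map_equiv'.1 this
  have a2 : ∀ v ∈ P U e, ((kr F U Y (A, B))⁻¹ * g) v = v := by
    rintro _ ⟨z, rfl⟩
    exact (kr F U Y (A, B)).symm_apply_eq.2 ((hA z).trans (by simp [B3]))
  have a3 := mem_SLg_of_sq fun v => a2 _ (a1 v)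
  have a4 : kr F U Y (A, B) ∈ M := hM ⟨⟨_, rfl⟩, by simpa using mul_mem (hM' hg) (inv_mem a3)⟩
  obtain ⟨φ, φ1, φ2⟩ := hL (((kr F U Y (A, B))⁻¹ * g :) - (1 : End F (U ⊗[F] Y)))
    ⟨a1, fun v hv => sub_eq_zero.2 (a2 v hv), _, mul_mem (inv_mem a4) hg, fun v => by simp⟩
  refine ⟨(A, B) * (1, dt φ e), ?_⟩
  rw [map_mul, ← eq_inv_mul_iff_mul_eq]
  exact LinearEquiv.ext fun v => by rw [kr_dt φ1, ← φ2]; simp

theorem exists_P_le {A : U ≃ₗ[F] U} {B : Y ≃ₗ[F] Y} {W : Submodule F (U ⊗[F] Y)}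
    (hW : finrank F W < finrank F Y) (h : ∀ v, kr F U Y (A, B) v - v ∈ W) (h1 : kr F U Y (A, B) ≠ 1) :
    ∃ f, f ≠ 0 ∧ P U f ≤ W := by
  by_cases hs : ∀ x, A x ∈ span F {x}
  · obtain ⟨c, hc⟩ := exists_scalar (N := (A : U →ₗ[F] U)) hs
    simp only [LinearEquiv.coe_coe] at hc
    obtain ⟨y, hy⟩ : ∃ y, c • B y - y ≠ 0 := by
      by_contra! e
      exact h1 (LinearEquiv.toLinearMap_injective (ext' fun x y => by
        simp [hc, smul_tmul, sub_eq_zero.1 (e y), -tmul_smul]))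
    exact ⟨_, hy, by rintro _ ⟨x, rfl⟩; simpa [hc, smul_tmul, tmul_sub] using h (x ⊗ₜ y)⟩
  push Not at hs
  obtain ⟨x, hx⟩ := hs
  obtain ⟨θ, -, a, b⟩ := exists_dual_two (F := F) (U := ⊥) (u := x) (v := A x) (by rintro rfl; simp at hx)
    (by simpa) 1 0
  refine absurd (LinearMap.finrank_le_finrank_of_injective (f := LinearMap.codRestrict W
    (((kr F U Y (A, B) : U ⊗[F] Y →ₗ[F] U ⊗[F] Y) - 1) ∘ₗ mk F U Y x) fun y => h (x ⊗ₜ y))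
    ((injective_iff_map_eq_zero _).2 fun y hy => ?_)) hW.not_ge
  have : kr F U Y (A, B) (x ⊗ₜ y) - x ⊗ₜ y = 0 := congr(($hy).1)
  simpa [a, b] using congrArg (dd θ) this

theorem P_eq {u e : Y} (hu : u ≠ 0) {x : U} (hx : x ≠ 0) (h : x ⊗ₜ[F] u ∈ P U e) : P (F := F) U u = P U e := by
  obtain ⟨z, hz⟩ := mem_P.1 h
  obtain ⟨η, hη⟩ := exists_dual_of_ne (F := F) hx 1
  have : η z • e = u := by simpa [hη] using congrArg (dd η) hz
  refine eq_of_le_of_finrank_eq ?_ (by rw [finrank_P hu, finrank_P (right_ne_zero_of_smul (this ▸ hu))])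
  rintro _ ⟨y, rfl⟩
  exact ⟨η z • y, by simp [← this, smul_tmul]⟩

theorem isMaximalIn_kr (h2 : 2 ≤ finrank F U) (hlt : finrank F U < finrank F Y)
    (hq : 3 ≤ finrank F U ∨ ∃ c : F, c ≠ 0 ∧ c ≠ 1) :
    Geo.IsMaximalIn (SLg F _) ((kr F U Y).range ⊓ SLg F (U ⊗[F] Y)) := by
  have h3 : 3 ≤ finrank F Y := by omega
  haveI : Nontrivial U := nontrivial_of_finrank_pos (R := F) (by omega)
  haveI : Nontrivial Y := nontrivial_of_finrank_pos (R := F) (by omega)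
  obtain ⟨x, hx⟩ := exists_ne (0 : U)
  obtain ⟨e, he⟩ := exists_ne (0 : Y)
  refine isMaximalIn_of inf_le_right ?_ fun M h1 hM g hg hH => by_contra fun hS => hH ⟨?_, hM hg⟩
  · obtain ⟨ψ, ψ0, ψ1, -⟩ := exists_ker_two h3 e e
    obtain ⟨y, hy⟩ := exists_eq_of_ne ψ0 1
    obtain ⟨θ, hθ⟩ := exists_dual_of_ne (F := F) hx 1
    have e1 : (θ ∘ₗ cc ψ) (x ⊗ₜ e) = 0 := by simp [ψ1]
    refine ⟨_, dt_mem_SLg e1, fun ⟨⟨⟨A, B⟩, h⟩, _⟩ => ?_⟩
    have := finrank_span_singleton_le (F := F) (x ⊗ₜ[F] e)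
    obtain ⟨f, f0, hf⟩ := exists_P_le (A := A) (B := B) (W := span F {x ⊗ₜ e}) (by omega)
      (fun v => h ▸ dt_sub_mem _ _ _) fun e' => tmul_ne he hx (by
        simpa [dt_apply e1, hy, hθ] using congr($(h.symm.trans e') (x ⊗ₜ y)))
    have := finrank_mono hf
    rw [finrank_P f0] at this; omega
  have st : ∀ {e : Y}, e ≠ 0 → ∀ g ∈ M, (P U e).map (g : U ⊗[F] Y →ₗ[F] U ⊗[F] Y) = P U e →
      g ∈ (kr F U Y).range := fun he g hg h =>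
    stab_le h2 h1 hM he (fun ρ => lam_dich h2 h3 hq h1 hS he) hg h
  have root : ∀ {ψ : Y →ₗ[F] F} {u}, ψ u = 0 → kr F U Y (1, dt ψ u) ∈ M := fun h =>
    kr_mem h1 (one_mem _) (dt_mem_SLg h)
  have C : ∀ g ∈ M, ∀ e, e ≠ 0 → ∀ (ψ : Y →ₗ[F] F) u, ψ ≠ 0 → u ≠ 0 → ψ u = 0 →
      (P U e).map (g : U ⊗[F] Y →ₗ[F] U ⊗[F] Y) = ((P U e).map (g : U ⊗[F] Y →ₗ[F] U ⊗[F] Y)).map
        (kr F U Y (1, dt ψ u) : U ⊗[F] Y →ₗ[F] U ⊗[F] Y) → g ∈ (kr F U Y).range := by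
    intro g hg e he ψ u ψ0 u0 ψu h
    obtain ⟨⟨A, B⟩, hAB⟩ := st he _ (mul_mem (mul_mem (inv_mem hg) (root ψu)) hg) (map_eq_of_le
      (fun v hv => mem_map_equiv'.1 (h.ge (mem_map_of_mem (mem_map_of_mem hv)))) le_rfl)
    obtain ⟨y, hy⟩ := exists_eq_of_ne ψ0 1
    obtain ⟨f, f0, hf⟩ := exists_P_le (A := A) (B := B) (W := (P U u).map ((g⁻¹ :) : U ⊗[F] Y →ₗ[F] U ⊗[F] Y))
      (by rwa [LinearEquiv.finrank_map_eq, finrank_P u0])
      (fun v => ⟨_, tmul_mem_P (cc ψ (g v)) u, by simp [hAB, kr_dt ψu]⟩) fun e' => tmul_ne u0 hx (by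
        simpa [kr_dt ψu, hy] using congr($(hAB.symm.trans e') (g⁻¹ (x ⊗ₜ y))))
    obtain ⟨φ, φ0, φ1, -⟩ := exists_ker_two h3 f f
    obtain ⟨D, D1, D2, -⟩ := exists_SL_pair3 h3 ψ0 φ0 u0 f0 ψu φ1
    have := st u0 _ (mul_mem hg (kr_mem h1 (one_mem _) D1)) (map_eq_of_le (by
      rintro _ ⟨z, rfl⟩
      simpa [D2] using mem_map_equiv'.1 (hf (tmul_mem_P z f))) le_rfl)
    simpa using mul_mem this (inv_mem (show kr F U Y (1, D) ∈ (kr F U Y).range from ⟨_, rfl⟩))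
  by_contra hr
  let Q : Submodule F (U ⊗[F] Y) → Prop := fun W =>
    ∃ g ∈ M, ∃ v, v ≠ 0 ∧ (P U v).map (g : U ⊗[F] Y →ₗ[F] U ⊗[F] Y) = W
  have Qm : ∀ a ∈ M, ∀ W, Q W → Q (W.map (a : U ⊗[F] Y →ₗ[F] U ⊗[F] Y)) := by
    rintro a ha _ ⟨g, hg, v, hv, rfl⟩
    exact ⟨a * g, mul_mem ha hg, v, hv, map_comp _ _ _⟩
  have Qg : Q _ := ⟨g, hg, e, he, rfl⟩
  obtain ⟨_, B, ⟨a, ha, u, hu, rfl⟩, hB, h4, -, h5⟩ := exists_max (P := Q) Qg ⟨1, one_mem _, e, he, map_id _⟩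
    fun e => hr (st he g hg e)
  have dY : finrank F (Y →ₗ[F] F) = finrank F Y := Subspace.dual_finrank_eq (K := F) (V := Y)
  rcases (finrank F ((P U u).map (a : U ⊗[F] Y →ₗ[F] U ⊗[F] Y) ⊓ B :)).eq_zero_or_pos with h0 | h0
  · obtain ⟨ψ, ψ1, ψ0⟩ := (Submodule.ne_bot_iff _).1 (LinearMap.ker_ne_bot_of_finrank_lt
      (f := (cc (F := F) (U := U) (Y := Y)).flip (g (x ⊗ₜ e))) (by omega))
    obtain ⟨u, u0, ψu⟩ := exists_ker_ne (K := F) (by omega) ψ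
    replace ψ1 : cc ψ ((g : U ⊗[F] Y →ₗ[F] U ⊗[F] Y) (x ⊗ₜ e)) = 0 := ψ1
    refine hr (C g hg e he ψ u ψ0 u0 ψu (h5 _ _ Qg (Qm _ (root ψu) _ Qg) ?_))
    rw [h0, ← finrank_bot F (U ⊗[F] Y)]
    exact lt_finrank_inf_map bot_le (mem_map_of_mem (tmul_mem_P x e)) (by simpa using tmul_ne he hx)
      (by simp) (by rw [kr_dt ψu, ψ1, zero_tmul, add_zero]; exact mem_map_of_mem (tmul_mem_P x e))
  have QW := Qm _ (inv_mem ha) _ hB
  have e1 : finrank F (P U u ⊓ B.map ((a⁻¹ :) : U ⊗[F] Y →ₗ[F] U ⊗[F] Y) :) =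
      finrank F ((P U u).map (a : U ⊗[F] Y →ₗ[F] U ⊗[F] Y) ⊓ B :) := by
    rw [← a⁻¹.finrank_map_eq ((P U u).map _ ⊓ B), map_inf _ a⁻¹.injective, mapi]
  have hne : P U u ≠ B.map ((a⁻¹ :) : U ⊗[F] Y →ₗ[F] U ⊗[F] Y) := fun e => h4 (by rw [e]; exact mapi a⁻¹ B)
  rw [← e1] at h0 h5
  generalize B.map ((a⁻¹ :) : U ⊗[F] Y →ₗ[F] U ⊗[F] Y) = W at *
  obtain ⟨_, ⟨⟨z, rfl⟩, hz⟩, z0⟩ := exists_notMem_of_finrank_lt (U := ⊥) (W := P U u ⊓ W) (by rwa [finrank_bot])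
  replace z0 : z ≠ 0 := by rintro rfl; simp at z0
  obtain ⟨b, hb, p, hp, hW⟩ := id QW
  obtain ⟨w, hw, hw'⟩ : ∃ w ∈ W, w ∉ P U u := by
    by_contra! h
    exact hne (eq_of_le_of_finrank_eq h (by
      rw [← hW, LinearEquiv.finrank_map_eq, finrank_P hp, finrank_P hu])).symm
  let J := W.comap ((mk F U Y).flip u)
  obtain ⟨ψ, ψ1, ψ0⟩ := (Submodule.ne_bot_iff _).1 (LinearMap.ker_ne_bot_of_finrank_lt
    (f := (LinearMap.applyₗ u).prod (J.mkQ ∘ₗ (cc (F := F) (U := U) (Y := Y)).flip w)) (by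
      have := J.finrank_quotient_add_finrank
      have : finrank F J ≠ 0 := fun e => z0 ((finrank_eq_zero.1 e).le hz)
      rw [finrank_prod, finrank_self]; omega))
  have ψu : ψ u = 0 := congr(($ψ1).1)
  have ψw : cc ψ w ⊗ₜ u ∈ W := (Quotient.mk_eq_zero J).1 congr(($ψ1).2)
  obtain ⟨⟨A, B⟩, rfl⟩ := C b hb p hp ψ u ψ0 hu ψu (hW ▸ h5 _ _ QW (Qm _ (root ψu) _ QW)
    (lt_finrank_inf_map inf_le_right hw (fun h => hw' h.1) (fun y hy => by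
      simpa [kr_dt ψu, cc_P ψu hy.1] using hy.2) (by simpa [kr_dt ψu] using add_mem hw ψw)))
  rw [map_P] at hW
  exact hne ((P_eq hu z0 (hW.ge hz)).trans hW)

theorem exists_ne_zero_one [Fintype F] (h : 3 ≤ Fintype.card F) : ∃ c : F, c ≠ 0 ∧ c ≠ 1 := by
  classical
  by_contra! hc
  have := Finset.card_le_card (show (Finset.univ : Finset F) ⊆ {0, 1} from fun m _ => by
    by_cases e : m = 0 <;> simp [e, ← hc m])
  have := Finset.card_le_two (a := (0 : F)) (b := 1)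
  simp at *; omega

theorem geo_tensor {ι : Type} [Fintype ι] [DecidableEq ι] {k l : ℕ} (h2 : 2 ≤ k) (hlt : k < l)
    (hq : 3 ≤ k ∨ ∃ c : F, c ≠ 0 ∧ c ≠ 1) (e : ι ≃ Fin k × Fin l) (T : GL ι F) :
    Geo.IsMaximalIn (Geo.specialLinear ι F) (Geo.tensorProductSubgroup k l e T ⊓ Geo.specialLinear ι F) := by
  let b := (Pi.basisFun F (Fin k)).tensorProduct (Pi.basisFun F (Fin l))
  let E := (As.trG (As.tr e T)).symm.trans (glE.trans (conjE b.equivFun.symm))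
  have hS : ∀ g, g ∈ Geo.specialLinear ι F ↔ E g ∈ SLg F _ := fun g => by
    obtain ⟨g, rfl⟩ := (As.trG (As.tr e T)).surjective g
    have : LinearEquiv.det (E (As.trG (As.tr e T) g)) = LinearEquiv.det (glE (As.trG (As.tr e T) g)) := by
      simp only [E, MulEquiv.trans_apply, MulEquiv.symm_apply_apply, det_conjE, det_glE]
      ext
      have := T.det_ne_zero
      simp [As.tr_apply, As.cj_apply]; field_simp
    rw [mem_specialLinear, mem_SLg, mem_SLg, this]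
  have hE : ∀ g : GL (Fin k × Fin l) F, (conjE b.equivFun.symm (glE g) : _ →ₗ[F] _) =
      Matrix.toLin b b (g : Matrix _ _ F) := fun g =>
    LinearMap.ext fun v => by simp [Matrix.toLin_apply]
  have hK : ∀ (a : GL (Fin k) F) (a' : GL (Fin l) F), (kr F _ _ (glE a, glE a') : _ →ₗ[F] _) =
      Matrix.toLin b b (Matrix.kronecker (a : Matrix _ _ F) (a' : Matrix _ _ F)) := fun a a' => by
    rw [Matrix.kronecker, Matrix.toLin_kronecker, Matrix.toLin_eq_toLin', Matrix.toLin_eq_toLin']; rfl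
  refine isMaximalIn_of_equiv E (H' := (kr F _ _).range ⊓ SLg F _) hS (fun g => and_congr (As.mem_map_tr.trans
    ⟨fun ⟨a, a', h⟩ => ⟨(glE a, glE a'), LinearEquiv.toLinearMap_injective ?_⟩, fun ⟨⟨A, B⟩, h⟩ => ?_⟩) (hS g))
    (isMaximalIn_kr (U := Fin k → F) (Y := Fin l → F) (by simpa) (by simpa) (by simpa))
  · exact (hK _ _).trans ((congrArg _ h.symm).trans (hE _).symm)
  · obtain ⟨a, rfl⟩ := glE.surjective A
    obtain ⟨a', rfl⟩ := glE.surjective B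
    exact ⟨a, a', (Matrix.toLin b b).injective ((hE _).symm.trans ((congrArg _ h.symm).trans (hK _ _)))⟩

end Cfsg.Agent.H4.Tn
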